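/-
Brauer's characterization of `PSL₃(q)` and `M₁₁`: the setting.
-/
import Cfsg.Agent.Lib.Blk.ZStar
import Cfsg.Agent.Lib.Char.Orth
import Cfsg.Agent.Lib.Classical.SL2
import Cfsg.Agent.Lib.G.GenCent

set_option autoImplicit false
set_option linter.unusedSectionVars false

namespace CA.Br

open Cfsg Subgroup CA CA.Ch Matrix

variable {F : Type*} [Field F]

abbrev L2 (F : Type*) [Field F] := GL (Fin 2) F

/-- the invertible matrix `[[a,b],[c,d]]` -/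
noncomputable def m2 (a b c d : F) (h : a * d - b * c ≠ 0) : L2 F :=
  GeneralLinearGroup.mkOfDetNeZero !![a, b; c, d] (by rwa [det_fin_two_of])

@[simp] theorem m2_00 (a b c d : F) (h) : m2 a b c d h 0 0 = a := rfl
@[simp] theorem m2_01 (a b c d : F) (h) : m2 a b c d h 0 1 = b := rfl
@[simp] theorem m2_10 (a b c d : F) (h) : m2 a b c d h 1 0 = c := rfl
@[simp] theorem m2_11 (a b c d : F) (h) : m2 a b c d h 1 1 = d := rfl

theorem ext2 {g h : L2 F} (h0 : g 0 0 = h 0 0) (h1 : g 0 1 = h 0 1) (h2 : g 1 0 = h 1 0) (h3 : g 1 1 = h 1 1) :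
    g = h := by
  ext i j; fin_cases i <;> fin_cases j <;> assumption

theorem mul_ent (g h : L2 F) (i j : Fin 2) : (g * h) i j = g i 0 * h 0 j + g i 1 * h 1 j := by
  simp [Matrix.mul_apply, Fin.sum_univ_two]

theorem one_00 : (1 : L2 F) 0 0 = 1 := by simp
theorem one_01 : (1 : L2 F) 0 1 = 0 := by simp
theorem one_10 : (1 : L2 F) 1 0 = 0 := by simp
theorem one_11 : (1 : L2 F) 1 1 = 1 := by simp

theorem det_ne (g : L2 F) : g 0 0 * g 1 1 - g 0 1 * g 1 0 ≠ 0 := by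
  have := (GeneralLinearGroup.det g).ne_zero
  rwa [GeneralLinearGroup.val_det_apply, det_fin_two] at this

/-- diagonal matrices -/
noncomputable def dg : Fˣ × Fˣ →* L2 F := MonoidHom.mk' (fun a => m2 (a.1 : F) 0 0 a.2 (by simp))
  fun a b => ext2 (by simp [mul_ent]) (by simp [mul_ent]) (by simp [mul_ent]) (by simp [mul_ent])
/-- upper unitriangular matrices -/
noncomputable def xp : Multiplicative F →* L2 F := MonoidHom.mk' (fun a => m2 1 a.toAdd 0 1 (by simp))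
  fun a b => ext2 (by simp [mul_ent]) (by simp [mul_ent, add_comm]) (by simp [mul_ent]) (by simp [mul_ent])
/-- lower unitriangular matrices -/
noncomputable def xm : Multiplicative F →* L2 F := MonoidHom.mk' (fun a => m2 1 0 a.toAdd 1 (by simp))
  fun a b => ext2 (by simp [mul_ent]) (by simp [mul_ent]) (by simp [mul_ent]) (by simp [mul_ent])
/-- the permutation matrix -/
noncomputable def ww : L2 F := m2 0 1 1 0 (by simp)

@[simp] theorem dg_00 (a : Fˣ × Fˣ) : dg a 0 0 = (a.1 : F) := rfl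
@[simp] theorem dg_01 (a : Fˣ × Fˣ) : dg a 0 1 = (0 : F) := rfl
@[simp] theorem dg_10 (a : Fˣ × Fˣ) : dg a 1 0 = (0 : F) := rfl
@[simp] theorem dg_11 (a : Fˣ × Fˣ) : dg a 1 1 = (a.2 : F) := rfl
@[simp] theorem xp_00 (a : Multiplicative F) : xp a 0 0 = 1 := rfl
@[simp] theorem xp_01 (a : Multiplicative F) : xp a 0 1 = a.toAdd := rfl
@[simp] theorem xp_10 (a : Multiplicative F) : xp a 1 0 = 0 := rfl
@[simp] theorem xp_11 (a : Multiplicative F) : xp a 1 1 = 1 := rfl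
@[simp] theorem xm_00 (a : Multiplicative F) : xm a 0 0 = 1 := rfl
@[simp] theorem xm_01 (a : Multiplicative F) : xm a 0 1 = 0 := rfl
@[simp] theorem xm_10 (a : Multiplicative F) : xm a 1 0 = a.toAdd := rfl
@[simp] theorem xm_11 (a : Multiplicative F) : xm a 1 1 = 1 := rfl
@[simp] theorem ww_00 : (ww : L2 F) 0 0 = 0 := rfl
@[simp] theorem ww_01 : (ww : L2 F) 0 1 = 1 := rfl
@[simp] theorem ww_10 : (ww : L2 F) 1 0 = 1 := rfl
@[simp] theorem ww_11 : (ww : L2 F) 1 1 = 0 := rfl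

theorem dg_injective : Function.Injective (dg : Fˣ × Fˣ → L2 F) := fun a b h =>
  Prod.ext (Units.ext (by simpa using congrArg (fun g : L2 F => g 0 0) h))
    (Units.ext (by simpa using congrArg (fun g : L2 F => g 1 1) h))

theorem exists_dg {g : L2 F} (h1 : g 0 1 = 0) (h2 : g 1 0 = 0) : ∃ a, g = dg a := by
  have h := det_ne g
  rw [h1, zero_mul, sub_zero] at h
  exact ⟨(Units.mk0 _ (left_ne_zero_of_mul h), Units.mk0 _ (right_ne_zero_of_mul h)), ext2 rfl h1 h2 rfl⟩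

theorem sc_comm (c : Fˣ) (g : L2 F) : dg (c, c) * g = g * dg (c, c) :=
  ext2 (by simp [mul_ent, mul_comm]) (by simp [mul_ent, mul_comm]) (by simp [mul_ent, mul_comm])
    (by simp [mul_ent, mul_comm])

theorem ww_dg (a b : Fˣ) : (ww : L2 F) * dg (a, b) = dg (b, a) * ww :=
  ext2 (by simp [mul_ent]) (by simp [mul_ent]) (by simp [mul_ent]) (by simp [mul_ent])

theorem ww_ww : (ww : L2 F) * ww = 1 :=
  ext2 (by simp [mul_ent]) (by simp [mul_ent]) (by simp [mul_ent]) (by simp [mul_ent])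

/-- the non-split torus -/
def WW (ε : F) : Subgroup (L2 F) := centralizer {g | g 0 0 = g 1 1 ∧ g 0 1 = ε * g 1 0}

/-- `π : GL₂(F) → G` maps onto the centralizer of `t = π (-1)` with central kernel of odd order, and `ρ` permutes
the three involutions of the diagonal group. -/
structure Hyp (G : Type*) [Group G] (F : Type*) [Field F] [Fintype F] where
  π : L2 F →* G
  odd : Odd (Fintype.card F)
  ker : ∀ g, π g = 1 → ∃ c : Fˣ, Odd (orderOf c) ∧ g = dg (c, c)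
  cent : π.range = 𝐂[π (dg (-1, -1))]
  ε : F
  nsq : ¬ IsSquare ε
  ρ : G
  ρt : ρ * π (dg (-1, -1)) * ρ⁻¹ = π (dg (1, -1))
  ρu : ρ * π (dg (1, -1)) * ρ⁻¹ = π (dg (-1, 1))

namespace Hyp

variable {G : Type*} [Group G] [Fintype F] (S : Hyp G F)

noncomputable def t : G := S.π (dg (-1, -1))
noncomputable def u : G := S.π (dg (1, -1))
noncomputable def w : G := S.π ww
noncomputable def H : Subgroup G := S.π.range
noncomputable def T : Subgroup G := (S.π.comp dg).range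
noncomputable def Z : Subgroup G := (S.π.comp (dg.comp ((MonoidHom.id Fˣ).prod (MonoidHom.id Fˣ)))).range
noncomputable def Tm : Subgroup G := (S.π.comp (dg.comp ((MonoidHom.id Fˣ).prod invMonoidHom))).range
noncomputable def U : Subgroup G := (S.π.comp xp).range
noncomputable def U' : Subgroup G := (S.π.comp xm).range
noncomputable def W : Subgroup G := (WW S.ε).map S.π
noncomputable def Wm : Subgroup G := (WW S.ε ⊓ GeneralLinearGroup.det.ker).map S.π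
noncomputable def V : Subgroup G := zpowers S.t ⊔ zpowers S.u
/-- the order of the centre of `H` -/
noncomputable def d : ℕ := Nat.card S.Z

theorem mem_H' {x : G} : x ∈ S.H ↔ ∃ g, S.π g = x := Iff.rfl
theorem mem_T' {x : G} : x ∈ S.T ↔ ∃ a, S.π (dg a) = x := Iff.rfl
theorem mem_Z' {x : G} : x ∈ S.Z ↔ ∃ c, S.π (dg (c, c)) = x := Iff.rfl
theorem mem_Tm' {x : G} : x ∈ S.Tm ↔ ∃ c, S.π (dg (c, c⁻¹)) = x := Iff.rfl
theorem mem_U' {x : G} : x ∈ S.U ↔ ∃ a, S.π (xp a) = x := Iff.rfl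
theorem mem_U'' {x : G} : x ∈ S.U' ↔ ∃ a, S.π (xm a) = x := Iff.rfl
theorem H_eq : S.H = 𝐂[S.t] := S.cent
theorem mem_H {x : G} : x ∈ S.H ↔ x * S.t = S.t * x := by rw [H_eq, mem_centralizer_singleton_iff]

include S in
theorem two_ne : (2 : F) ≠ 0 := SL2.two_ne_zero_of_odd S.odd
include S in
theorem neg_one_ne : (-1 : Fˣ) ≠ 1 := fun h => S.two_ne (by
  have := congrArg Units.val h; simp only [Units.val_neg, Units.val_one] at this; linear_combination -this)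

theorem eq_one_of_sq {c : Fˣ} (h : Odd (orderOf c)) (h2 : c * c = 1) : c = 1 := by
  have : orderOf c ∣ 2 := orderOf_dvd_of_pow_eq_one (by rw [sq, h2])
  exact orderOf_eq_one_iff.1 ((Nat.coprime_two_right.2 h).eq_one_of_dvd this)

theorem eq_iff {g h : L2 F} (e : S.π g = S.π h) : ∃ c : Fˣ, Odd (orderOf c) ∧ g = dg (c, c) * h := by
  obtain ⟨c, hc, e⟩ := S.ker (g * h⁻¹) (by rw [map_mul, map_inv, e, mul_inv_cancel])
  exact ⟨c, hc, by rw [← e, inv_mul_cancel_right]⟩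

/-- commutation is exact modulo the kernel -/
theorem comm_of_comm {g h : L2 F} (e : S.π g * S.π h = S.π h * S.π g) : g * h = h * g := by
  obtain ⟨c, hc, e⟩ := S.eq_iff (g := g * h) (h := h * g) (by rw [map_mul, map_mul, e])
  have := congrArg GeneralLinearGroup.det e
  simp only [map_mul, mul_comm (GeneralLinearGroup.det h)] at this
  have h1 : GeneralLinearGroup.det (dg (c, c)) = c * c := Units.ext (by
    rw [GeneralLinearGroup.val_det_apply, det_fin_two]; simp)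
  rw [eq_one_of_sq hc (by rw [← h1]; exact (mul_eq_right.1 this.symm)), show ((1 : Fˣ), (1 : Fˣ)) = 1 from rfl,
    map_one, one_mul] at e
  exact e

theorem tt : S.t * S.t = 1 := by rw [t, ← map_mul, ← map_mul]; simp [Prod.mk_one_one]
theorem uu : S.u * S.u = 1 := by rw [u, ← map_mul, ← map_mul]; simp [Prod.mk_one_one]
theorem ww' : S.w * S.w = 1 := by rw [w, ← map_mul, ww_ww, map_one]
theorem tu_eq : S.t * S.u = S.π (dg (-1, 1)) := by rw [t, u, ← map_mul, ← map_mul]; simp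
theorem ut : S.u * S.t = S.t * S.u := S.mem_H.1 ⟨_, rfl⟩
theorem wt : S.w * S.t = S.t * S.w := S.mem_H.1 ⟨_, rfl⟩
theorem wu : S.w * S.u * S.w⁻¹ = S.t * S.u := by
  rw [tu_eq, w, u, ← map_mul, ww_dg, map_mul, mul_inv_cancel_right]
theorem ρ_t : S.ρ * S.t * S.ρ⁻¹ = S.u := S.ρt
theorem ρ_u : S.ρ * S.u * S.ρ⁻¹ = S.t * S.u := by rw [tu_eq]; exact S.ρu
theorem ρ_tu : S.ρ * (S.t * S.u) * S.ρ⁻¹ = S.t := by
  have : S.ρ * (S.t * S.u) * S.ρ⁻¹ = (S.ρ * S.t * S.ρ⁻¹) * (S.ρ * S.u * S.ρ⁻¹) := by group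
  rw [this, ρ_t, ρ_u, ← mul_assoc, ut, mul_assoc, uu, mul_one]

theorem dg_ne {a b : Fˣ} (ha : a * a = 1) (hb : b * b = 1) (h : S.π (dg (a, b)) = 1) : a = 1 ∧ b = 1 := by
  obtain ⟨c, hc, e⟩ := S.ker _ h
  obtain ⟨e1, e2⟩ : a = c ∧ b = c := Prod.ext_iff.1 (dg_injective e)
  exact ⟨eq_one_of_sq (e1 ▸ hc) ha, eq_one_of_sq (e2 ▸ hc) hb⟩
theorem t_ne : S.t ≠ 1 := fun h => S.neg_one_ne (S.dg_ne (by simp) (by simp) h).1
theorem u_ne : S.u ≠ 1 := fun h => S.neg_one_ne (S.dg_ne (by simp) (by simp) h).2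
theorem tu_ne : S.t * S.u ≠ 1 := fun h => S.neg_one_ne (S.dg_ne (by simp) (by simp) (S.tu_eq ▸ h)).1
theorem t_ne_u : S.t ≠ S.u := fun h => S.tu_ne (by rw [h, uu])

theorem t_T : S.t ∈ S.T := ⟨_, rfl⟩
theorem u_T : S.u ∈ S.T := ⟨_, rfl⟩
theorem T_le_H : S.T ≤ S.H := by rintro _ ⟨a, rfl⟩; exact ⟨_, rfl⟩
theorem Z_le_T : S.Z ≤ S.T := by rintro _ ⟨a, rfl⟩; exact ⟨_, rfl⟩
theorem Tm_le_T : S.Tm ≤ S.T := by rintro _ ⟨a, rfl⟩; exact ⟨_, rfl⟩
theorem U_le_H : S.U ≤ S.H := by rintro _ ⟨a, rfl⟩; exact ⟨_, rfl⟩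
theorem U'_le_H : S.U' ≤ S.H := by rintro _ ⟨a, rfl⟩; exact ⟨_, rfl⟩
theorem W_le_H : S.W ≤ S.H := by rintro _ ⟨a, -, rfl⟩; exact ⟨_, rfl⟩
theorem Wm_le_W : S.Wm ≤ S.W := map_mono inf_le_left
theorem w_H : S.w ∈ S.H := ⟨_, rfl⟩
theorem t_Z : S.t ∈ S.Z := ⟨_, rfl⟩
theorem Z_comm {z h : G} (hz : z ∈ S.Z) (hh : h ∈ S.H) : z * h = h * z := by
  obtain ⟨c, rfl⟩ := S.mem_Z'.1 hz
  obtain ⟨g, rfl⟩ := hh
  rw [← map_mul, sc_comm, map_mul]

theorem mem_WW {ε : F} {g : L2 F} (hε : ε ≠ 0) : g ∈ WW ε ↔ g 0 0 = g 1 1 ∧ g 0 1 = ε * g 1 0 := by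
  refine ⟨fun h => ?_, fun h k hk => ?_⟩
  · have := h (m2 0 ε 1 0 (by simpa using hε)) ⟨rfl, by simp⟩
    have h0 := congrArg (fun g : L2 F => g 0 0) this
    have h1 := congrArg (fun g : L2 F => g 1 0) this
    simp only [mul_ent, m2_00, m2_01, m2_10, m2_11] at h0 h1
    exact ⟨by linear_combination h1, by linear_combination -h0⟩
  · obtain ⟨h1, h2⟩ := h
    obtain ⟨k1, k2⟩ := hk
    refine ext2 ?_ ?_ ?_ ?_ <;> simp only [mul_ent, h1, h2, k1, k2] <;> ring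
theorem ε_ne : S.ε ≠ 0 := fun h => S.nsq (h ▸ IsSquare.zero)
theorem mem_W' {x : G} : x ∈ S.W ↔ ∃ g : L2 F, (g 0 0 = g 1 1 ∧ g 0 1 = S.ε * g 1 0) ∧ S.π g = x := by
  simp only [W, mem_map, mem_WW S.ε_ne]
theorem Z_le_W : S.Z ≤ S.W := by
  rintro _ ⟨a, rfl⟩; exact S.mem_W'.2 ⟨dg (a, a), by simp, rfl⟩
theorem t_W : S.t ∈ S.W := S.Z_le_W S.t_Z

theorem mem_T {x : G} : x ∈ S.T ↔ x * S.t = S.t * x ∧ x * S.u = S.u * x := by
  refine ⟨fun h => ⟨S.mem_H.1 (S.T_le_H h), ?_⟩, fun ⟨h1, h2⟩ => ?_⟩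
  · obtain ⟨a, rfl⟩ := S.mem_T'.1 h
    rw [u, ← map_mul, ← map_mul, ← map_mul, ← map_mul, mul_comm]
  · obtain ⟨g, rfl⟩ := S.mem_H.2 h1
    have e := S.comm_of_comm h2
    have h0 := congrArg (fun g : L2 F => g 0 1) e
    have h1 := congrArg (fun g : L2 F => g 1 0) e
    simp only [mul_ent, dg_00, dg_01, dg_10, dg_11, Units.val_neg, Units.val_one] at h0 h1
    obtain ⟨a, rfl⟩ := exists_dg (g := g) (mul_left_cancel₀ S.two_ne (by linear_combination -h0))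
      (mul_left_cancel₀ S.two_ne (by linear_combination h1))
    exact ⟨a, rfl⟩

instance instCommT : IsMulCommutative S.T := ⟨⟨by
  rintro ⟨_, a, rfl⟩ ⟨_, b, rfl⟩
  exact Subtype.ext ((map_mul _ a b).symm.trans ((congrArg _ (mul_comm a b)).trans (map_mul _ b a)))⟩⟩

instance instCommW : IsMulCommutative S.W := ⟨⟨by
  rintro ⟨_, a, ha, rfl⟩ ⟨_, b, hb, rfl⟩
  exact Subtype.ext ((map_mul _ a b).symm.trans
    ((congrArg _ (hb a ((mem_WW S.ε_ne).1 ha))).trans (map_mul _ b a)))⟩⟩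

theorem conj_T {n x : G} (h1 : n * S.t * n⁻¹ ∈ ({S.t, S.u, S.t * S.u} : Set G))
    (h2 : n * S.u * n⁻¹ ∈ ({S.t, S.u, S.t * S.u} : Set G)) (hx : x ∈ S.T) : n⁻¹ * x * n ∈ S.T := by
  obtain ⟨a, b⟩ := S.mem_T.1 hx
  have k : ∀ v : G, n * v * n⁻¹ ∈ ({S.t, S.u, S.t * S.u} : Set G) → n⁻¹ * x * n * v = v * (n⁻¹ * x * n) :=
    fun v hv => by
      have : x * (n * v * n⁻¹) = (n * v * n⁻¹) * x := by
        rcases hv with h | h | h <;> rw [h]
        exacts [a, b, by rw [← mul_assoc, a, mul_assoc, b, mul_assoc]]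
      calc n⁻¹ * x * n * v = n⁻¹ * (x * (n * v * n⁻¹)) * n := by group
        _ = _ := by rw [this]; group
  exact S.mem_T.2 ⟨k _ h1, k _ h2⟩

theorem ρ_T {x : G} (hx : x ∈ S.T) : S.ρ * x * S.ρ⁻¹ ∈ S.T := by
  have := S.conj_T (n := S.ρ⁻¹) (Or.inr (Or.inr (by
    rw [Set.mem_singleton_iff, inv_inv]
    exact (MulAut.conj S.ρ).injective (by simp only [MulAut.conj_apply]; rw [S.ρ_tu]; group))))
    (Or.inl (by rw [← S.ρ_t]; group)) hx
  rwa [inv_inv] at this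
theorem w_T {x : G} (hx : x ∈ S.T) : S.w * x * S.w⁻¹ ∈ S.T := by
  obtain ⟨⟨a, b⟩, rfl⟩ := S.mem_T'.1 hx
  exact ⟨(b, a), by rw [w, ← map_mul, ww_dg, map_mul, mul_inv_cancel_right]; rfl⟩
theorem u_W {x : G} (hx : x ∈ S.W) : S.u * x * S.u⁻¹ ∈ S.W := by
  obtain ⟨g, ⟨h1, h2⟩, rfl⟩ := S.mem_W'.1 hx
  rw [inv_eq_of_mul_eq_one_right S.uu, u, ← map_mul, ← map_mul]
  exact S.mem_W'.2 ⟨_, by simp [mul_ent, h1, h2], rfl⟩

/-- conjugation, restricted to an invariant subgroup -/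
def cjr (A : Subgroup G) (n : G) (h : ∀ x ∈ A, n * x * n⁻¹ ∈ A) : A →* A :=
  MonoidHom.mk' (fun x => ⟨n * x * n⁻¹, h x x.2⟩) fun a b => Subtype.ext (by simp [mul_assoc])
@[simp] theorem cjr_coe (A : Subgroup G) (n : G) (h) (x : A) : (cjr A n h x : G) = n * x * n⁻¹ := rfl

/-- the action of `ρ` on `T` -/
noncomputable def r : S.T →* S.T := cjr S.T S.ρ fun _ => S.ρ_T
/-- the action of `w` on `T` -/
noncomputable def s : S.T →* S.T := cjr S.T S.w fun _ => S.w_T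
/-- the action of `u` on `W` -/
noncomputable def σ : S.W →* S.W := cjr S.W S.u fun _ => S.u_W
@[simp] theorem r_coe (x : S.T) : (S.r x : G) = S.ρ * x * S.ρ⁻¹ := rfl
@[simp] theorem s_coe (x : S.T) : (S.s x : G) = S.w * x * S.w⁻¹ := rfl
@[simp] theorem σ_coe (x : S.W) : (S.σ x : G) = S.u * x * S.u⁻¹ := rfl
noncomputable def tT : S.T := ⟨S.t, S.t_T⟩
noncomputable def uT : S.T := ⟨S.u, S.u_T⟩
noncomputable def tW : S.W := ⟨S.t, S.t_W⟩
/-- the sum over the three `ρ`-conjugates -/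
noncomputable def av (α : S.T → ℂ) : S.T → ℂ := fun x => α x + α (S.r x) + α (S.r (S.r x))

end Hyp

/-- functions vanishing on the elements of odd order -/
def Van {A : Type*} [Group A] (α : A → ℂ) : Prop := ∀ x, Odd (orderOf x) → α x = 0
/-- functions invariant under multiplication by elements of odd order -/
def Two {A : Type*} [Group A] (α : A → ℂ) : Prop := ∀ x y, Odd (orderOf y) → α (x * y) = α x

open Classical in
/-- The class functions `Ω(α, γ) = OT α + OW γ` of `G` and the involution-count functional `A`. -/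
structure Om {G : Type*} [Group G] [Finite G] [Fintype F] (S : Hyp G F) where
  OT : (S.T → ℂ) →ₗ[ℂ] (G → ℂ)
  OW : (S.W → ℂ) →ₗ[ℂ] (G → ℂ)
  A : (G → ℂ) →ₗ[ℂ] ℂ
  vcT : ∀ α, IsVC α → IsVC (OT α)
  vcW : ∀ γ, IsVC γ → IsVC (OW γ)
  eta : ∀ β : Du S.H, (∀ y, Odd (orderOf y) → β.ch y = 1) →
    IsVC ((2 : ℂ)⁻¹ • (OT ((Du.comp (inclusion S.T_le_H) β).ch - 1) + OW ((Du.comp (inclusion S.W_le_H) β).ch - 1)))
  oneT : ∀ α, ⟪OT α, 1⟫ = ⟪α, 1⟫
  oneW : ∀ γ, ⟪OW γ, 1⟫ = ⟪γ, 1⟫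
  gTT : ∀ α α', Van α → Van α' → ⟪OT α, OT α'⟫ = ⟪α, S.av α'⟫ + ⟪α, S.av α' ∘ S.s⟫
  gTW : ∀ α γ, Van α → Van γ → ⟪OT α, OW γ⟫ = 0
  gWW : ∀ γ γ', Van γ → Van γ' → ⟪OW γ, OW γ'⟫ = ⟪γ, γ'⟫ + ⟪γ, γ' ∘ S.σ⟫
  degT : ∀ α, Van α → OT α 1 = 0
  degW : ∀ γ, Van γ → OW γ 1 = 0
  atT : ∀ α, Van α → OT α S.t = (Fintype.card F + 1) * S.av α S.tT
  atW : ∀ γ, Van γ → OW γ S.t = (1 - Fintype.card F) * γ S.tW
  A_irr : ∀ χ, IsIrr χ → A χ = (S.H.index : ℂ) / Nat.card S.H * (χ S.t ^ 2 / χ 1)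
  A_T : ∀ α, Van α → S.d * A (OT α) = 2 * Fintype.card F / (Fintype.card F - 1) * S.av α S.tT +
    ∑ᶠ x : S.Tm, S.av α (inclusion S.Tm_le_T x)
  A_W : ∀ γ, Van γ → S.d * A (OW γ) = ∑ᶠ x : S.Wm, γ (inclusion S.Wm_le_W x)
  b0T : ∀ α, Van α → Two α → Blk.pi0 2 (OT α) = OT α
  b0W : ∀ γ, Van γ → Two γ → Blk.pi0 2 (OW γ) = OW γ
  valt : ∀ χ ∈ Blk.B0 G 2, χ S.t =
    (Fintype.card F + 1) / 2 * ∑ l : Du S.T with Two l.ch, l.ch S.tT * ⟪χ, OT (l.ch - 1)⟫ +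
    (Fintype.card F - 1) / 2 * ∑ f : Du S.W with Two f.ch, f.ch S.tW * ⟪χ, OW (1 - f.ch)⟫

end CA.Br
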