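/-
Brauer's characterization of `PSL₃(q)` and `M₁₁`: the structure of the centralizer `H = π(GL₂(q))`.
-/
import Cfsg.Agent.Lib.Br.Defs

set_option autoImplicit false
set_option linter.unusedSectionVars false

namespace CA.Br
open Cfsg Subgroup CA CA.Ch Matrix

variable {F : Type*} [Field F]

/-! ### matrices -/

/-- determinant as a field element -/
def aDet (g : L2 F) : F := g 0 0 * g 1 1 - g 0 1 * g 1 0
/-- trace -/
def aTr (g : L2 F) : F := g 0 0 + g 1 1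
/-- discriminant of the characteristic polynomial -/
def aDisc (g : L2 F) : F := aTr g ^ 2 - 4 * aDet g
/-- scalar matrices -/
def aSc (g : L2 F) : Prop := g 0 1 = 0 ∧ g 1 0 = 0 ∧ g 0 0 = g 1 1

theorem a_det_val (g : L2 F) : (GeneralLinearGroup.det g : F) = aDet g := by
  rw [GeneralLinearGroup.val_det_apply, det_fin_two]; rfl
theorem a_det_ne (g : L2 F) : aDet g ≠ 0 := det_ne g
theorem a_det_mul (g h : L2 F) : aDet (g * h) = aDet g * aDet h := by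
  rw [← a_det_val, map_mul, Units.val_mul, a_det_val, a_det_val]
theorem a_det_one {g : L2 F} : GeneralLinearGroup.det g = 1 ↔ aDet g = 1 := by
  rw [← a_det_val, Units.val_eq_one]
theorem a_det_dg (a b : Fˣ) : GeneralLinearGroup.det (dg (a, b)) = a * b :=
  Units.ext (by rw [a_det_val]; simp [aDet])

theorem a_ent {g h : L2 F} (e : g = h) :
    g 0 0 = h 0 0 ∧ g 0 1 = h 0 1 ∧ g 1 0 = h 1 0 ∧ g 1 1 = h 1 1 := by subst e; simp

theorem a_tr_of {g h x : L2 F} (e : g * h = h * x) : aTr g = aTr x := by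
  obtain ⟨e0, e1, e2, e3⟩ := a_ent e
  simp only [mul_ent] at e0 e1 e2 e3
  refine mul_right_cancel₀ (det_ne h) ?_
  simp only [aTr]
  linear_combination h 1 1 * e0 - h 1 0 * e1 - h 0 1 * e2 + h 0 0 * e3
theorem a_det_of {g h x : L2 F} (e : g * h = h * x) : aDet g = aDet x := by
  have := congrArg aDet e
  rw [a_det_mul, a_det_mul, mul_comm (aDet h)] at this
  exact mul_right_cancel₀ (a_det_ne h) this
theorem a_disc_of {g h x : L2 F} (e : g * h = h * x) : aDisc g = aDisc x := by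
  rw [aDisc, aDisc, a_tr_of e, a_det_of e]
theorem a_cj (h x : L2 F) : h * x * h⁻¹ * h = h * x := by group

theorem a_sc_dg {g : L2 F} (h : aSc g) : ∃ c, g = dg (c, c) := by
  obtain ⟨⟨a, b⟩, rfl⟩ := exists_dg h.1 h.2.1
  obtain rfl : a = b := Units.ext h.2.2
  exact ⟨a, rfl⟩
theorem a_sc_of {g h x : L2 F} (e : g * h = h * x) (hg : aSc g) : aSc x := by
  obtain ⟨c, rfl⟩ := a_sc_dg hg
  rw [sc_comm] at e
  rw [← mul_left_cancel e]
  exact hg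

theorem a_comp {g : L2 F} (hg : ¬ aSc g) :
    ∃ P : L2 F, g * P = P * m2 0 (-aDet g) 1 (aTr g) (by simpa using a_det_ne g) := by
  by_cases h1 : g 1 0 = 0
  · by_cases h2 : g 0 1 = 0
    · have h3 : g 0 0 ≠ g 1 1 := fun e => hg ⟨h2, h1, e⟩
      refine ⟨m2 1 (g 0 0) 1 (g 1 1) (by simpa [sub_eq_zero] using h3.symm), ?_⟩
      refine ext2 ?_ ?_ ?_ ?_ <;> simp only [mul_ent, m2_00, m2_01, m2_10, m2_11, aDet, aTr, h1, h2] <;> ring
    · refine ⟨m2 0 (g 0 1) 1 (g 1 1) (by simpa using h2), ?_⟩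
      refine ext2 ?_ ?_ ?_ ?_ <;> simp only [mul_ent, m2_00, m2_01, m2_10, m2_11, aDet, aTr] <;> ring
  · refine ⟨m2 1 (g 0 0) 0 (g 1 0) (by simpa using h1), ?_⟩
    refine ext2 ?_ ?_ ?_ ?_ <;> simp only [mul_ent, m2_00, m2_01, m2_10, m2_11, aDet, aTr] <;> ring

/-- non-scalar matrices with the same trace and determinant are conjugate -/
theorem a_conj {g g' : L2 F} (hg : ¬ aSc g) (hg' : ¬ aSc g') (h1 : aTr g = aTr g') (h2 : aDet g = aDet g') :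
    ∃ k : L2 F, k * g * k⁻¹ = g' := by
  obtain ⟨P, hP⟩ := a_comp hg
  obtain ⟨Q, hQ⟩ := a_comp hg'
  have e : m2 0 (-aDet g) 1 (aTr g) (by simpa using a_det_ne g) =
      m2 0 (-aDet g') 1 (aTr g') (by simpa using a_det_ne g') := ext2 rfl (by simp [h2]) rfl (by simp [h1])
  rw [e] at hP
  refine ⟨Q * P⁻¹, ?_⟩
  calc Q * P⁻¹ * g * (Q * P⁻¹)⁻¹ = Q * P⁻¹ * (g * P) * Q⁻¹ := by group
    _ = g' := by rw [hP, ← mul_assoc, inv_mul_cancel_right, ← hQ, mul_inv_cancel_right]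

theorem a_dg_xp (a b : Fˣ) (c : Multiplicative F) :
    dg (a, b) * xp c * (dg (a, b))⁻¹ = xp (Multiplicative.ofAdd (a * c.toAdd * (b⁻¹ : Fˣ))) := by
  rw [mul_inv_eq_iff_eq_mul]
  refine ext2 ?_ ?_ ?_ ?_ <;> simp [mul_ent]

theorem a_upper {g : L2 F} (h : g 1 0 = 0) : ∃ a c, g = dg a * xp c := by
  have hd := det_ne g
  rw [h, mul_zero, sub_zero] at hd
  have h0 := left_ne_zero_of_mul hd
  refine ⟨(Units.mk0 _ h0, Units.mk0 _ (right_ne_zero_of_mul hd)), Multiplicative.ofAdd (g 0 1 / g 0 0), ?_⟩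
  refine ext2 ?_ ?_ ?_ ?_ <;> simp [mul_ent, h]
  field_simp

theorem a_ww_inv : (ww : L2 F)⁻¹ = ww := inv_eq_of_mul_eq_one_right ww_ww

theorem a_u_inv : (dg (1, -1) : L2 F)⁻¹ = dg (1, -1) := by
  rw [← map_inv]; simp

theorem a_sqrt {A : Type*} [Group A] {G : Type*} [Group G] (f : A →* G) {c : A} (h : Odd (orderOf c))
    (hc : f c = 1) : ∃ e, f e = 1 ∧ e * e = c := by
  obtain ⟨n, hn⟩ := h
  refine ⟨c ^ (n + 1), by rw [map_pow, hc, one_pow], ?_⟩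
  rw [← pow_add, show n + 1 + (n + 1) = orderOf c + 1 by omega, pow_succ, pow_orderOf_eq_one, one_mul]

/-- the scalar matrices -/
noncomputable def aS : Fˣ →* L2 F := dg.comp ((MonoidHom.id Fˣ).prod (MonoidHom.id Fˣ))
theorem aS_apply (c : Fˣ) : (aS c : L2 F) = dg (c, c) := rfl

section
variable {G : Type*} [Group G] (π : L2 F →* G) (ker : ∀ g, π g = 1 → ∃ c : Fˣ, Odd (orderOf c) ∧ g = dg (c, c))
include ker

theorem a_sqrt' {c : Fˣ} (h : π (dg (c, c)) = 1) : ∃ e : Fˣ, π (dg (e, e)) = 1 ∧ e * e = c := by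
  obtain ⟨c', h1, h2⟩ := ker _ h
  obtain rfl : c = c' := (Prod.ext_iff.1 (dg_injective h2)).1
  exact a_sqrt (π.comp aS) h1 h

theorem a_lift_sq {g : L2 F} (h : π g * π g = 1) :
    ∃ e : Fˣ, π (dg (e, e) * g) = π g ∧ (dg (e, e) * g) * (dg (e, e) * g) = 1 := by
  rw [← map_mul] at h
  obtain ⟨c, -, hc⟩ := ker _ h
  obtain ⟨e, h1, h2⟩ := a_sqrt' π ker (hc ▸ h)
  have h3 : π (dg (e⁻¹, e⁻¹)) = 1 := by rw [show (e⁻¹, e⁻¹) = (e, e)⁻¹ from rfl, map_inv, map_inv, h1, inv_one]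
  refine ⟨e⁻¹, by rw [map_mul, h3, one_mul], ?_⟩
  rw [mul_assoc, ← mul_assoc g, ← sc_comm, mul_assoc, hc, ← map_mul, ← map_mul, ← h2]
  simp [Prod.mk_one_one]

theorem a_inv_H (h2 : (2 : F) ≠ 0) {g : L2 F} (h : π g * π g = 1) (h1 : π g ≠ 1) :
    π g = π (dg (-1, -1)) ∨ ∃ k, π g = π k * π (dg (1, -1)) * (π k)⁻¹ := by
  obtain ⟨e, e1, e2⟩ := a_lift_sq π ker h
  rw [← e1] at h1 ⊢
  generalize dg (e, e) * g = g at e2 h1
  obtain ⟨f0, f1, f2, f3⟩ := a_ent e2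
  simp only [mul_ent, one_00, one_01, one_10, one_11] at f0 f1 f2 f3
  by_cases hs : aSc g
  · obtain ⟨c, rfl⟩ := a_sc_dg hs
    simp only [dg_00, dg_01, dg_10, mul_zero, add_zero] at f0
    rcases mul_self_eq_one_iff.1 f0 with r | r
    · obtain rfl : c = 1 := Units.ext r
      exact absurd (by rw [Prod.mk_one_one, map_one, map_one]) h1
    · obtain rfl : c = -1 := Units.ext r
      exact Or.inl rfl
  · have ht : g 0 0 + g 1 1 = 0 := by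
      by_contra ht
      exact hs ⟨mul_left_cancel₀ ht (by linear_combination f1), mul_left_cancel₀ ht (by linear_combination f2),
        mul_left_cancel₀ ht (by linear_combination f0 - f3)⟩
    obtain ⟨k, hk⟩ := a_conj (g := dg (1, -1)) (g' := g) (fun h => h2 (by
      have := h.2.2; simp only [dg_00, dg_11, Units.val_one, Units.val_neg] at this; linear_combination this)) hs
      (by simp [aTr, ht]) (by simp only [aDet]; simp; linear_combination f0 - g 0 0 * ht)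
    exact Or.inr ⟨k, by rw [← hk, map_mul, map_mul, map_inv]⟩
end

theorem a_card_map {A G : Type*} [Group A] [Group G] (f : A →* G) {X : Subgroup A} (h : f.ker ≤ X) :
    Nat.card (X.map f) * Nat.card f.ker = Nat.card X := by
  rw [← relIndex_ker, mul_comm, card_mul_relIndex h]

theorem a_card_range {A G : Type*} [Group A] [Group G] {f : A →* G} (h : Function.Injective f) :
    Nat.card f.range = Nat.card A := Nat.card_congr (MonoidHom.ofInjective h).toEquiv.symm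

variable [Fintype F]
local notation "𝔮" => Fintype.card F

theorem a_card_units : Nat.card Fˣ = 𝔮 - 1 := by rw [Nat.card_units, Nat.card_eq_fintype_card]

theorem a_W_ne {ε : F} (hε : ¬ IsSquare ε) {a b : F} (h : a ≠ 0 ∨ b ≠ 0) : a * a - ε * b * b ≠ 0 := by
  intro e
  by_cases hb : b = 0
  · rw [hb, mul_zero, sub_zero, mul_self_eq_zero] at e
    rcases h with h | h
    exacts [h e, h hb]
  · exact hε ⟨a / b, by field_simp; linear_combination -e⟩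

theorem a_card_WW {ε : F} (hε : ¬ IsSquare ε) : Nat.card (WW ε) = (𝔮 + 1) * (𝔮 - 1) := by
  classical
  have h0 : ε ≠ 0 := fun h => hε (h ▸ IsSquare.zero)
  let f : WW ε → {v : F × F // v ≠ 0} := fun g => ⟨(g.1 0 0, g.1 1 0), fun e => by
    have := det_ne g.1
    obtain ⟨e1, e2⟩ := Prod.ext_iff.1 e
    simp only [Prod.fst_zero, Prod.snd_zero] at e1 e2
    rw [e1, e2] at this; simp at this⟩
  have hf : Function.Bijective f := by
    constructor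
    · rintro ⟨g, hg⟩ ⟨h, hh⟩ e
      obtain ⟨e1, e2⟩ := Prod.ext_iff.1 (Subtype.ext_iff.1 e)
      obtain ⟨g1, g2⟩ := (Hyp.mem_WW h0).1 hg
      obtain ⟨k1, k2⟩ := (Hyp.mem_WW h0).1 hh
      simp only [f] at e1 e2
      exact Subtype.ext (ext2 e1 (by rw [g2, k2, e2]) e2 (by rw [← g1, ← k1, e1]))
    · rintro ⟨⟨a, b⟩, h⟩
      have : a ≠ 0 ∨ b ≠ 0 := by
        by_contra hh; push Not at hh; exact h (Prod.ext hh.1 hh.2)
      exact ⟨⟨m2 a (ε * b) b a (a_W_ne hε this), (Hyp.mem_WW h0).2 ⟨rfl, rfl⟩⟩, rfl⟩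
  rw [Nat.card_eq_of_bijective f hf, Nat.card_eq_fintype_card, Fintype.card_subtype_compl, Fintype.card_prod,
    Fintype.card_subtype_eq, ← Nat.sq_sub_sq, sq, one_pow]

theorem a_norm_surj (hF : Odd 𝔮) {ε : F} (hε : ¬ IsSquare ε) (c : Fˣ) :
    ∃ g ∈ WW ε, GeneralLinearGroup.det g = c := by
  have h0 : ε ≠ 0 := fun h => hε (h ▸ IsSquare.zero)
  obtain ⟨a, b, h⟩ := FiniteField.exists_root_sum_quadratic (R := F) (f := Polynomial.X ^ 2)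
    (g := Polynomial.C (-ε) * Polynomial.X ^ 2 + Polynomial.C 0 * Polynomial.X + Polynomial.C (-(c : F)))
    (by simp) (Polynomial.degree_quadratic (by simpa using h0)) (Nat.odd_iff.1 hF)
  simp only [Polynomial.eval_pow, Polynomial.eval_X, Polynomial.eval_add, Polynomial.eval_mul,
    Polynomial.eval_C] at h
  have e : a * a - ε * b * b = c := by linear_combination h
  exact ⟨m2 a (ε * b) b a (by rw [e]; exact c.ne_zero), (Hyp.mem_WW h0).2 ⟨rfl, rfl⟩,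
    Units.ext (by rw [a_det_val]; exact e)⟩

theorem a_char (hF : Odd 𝔮) : ringChar F ≠ 2 := fun h => by
  have := FiniteField.even_card_of_char_two h
  rw [Nat.odd_iff] at hF
  omega

/-- the non-split torus inside the quadratic extension -/
noncomputable def aQ {ε : F} (h0 : ε ≠ 0) : WW ε →* QuadraticAlgebra F ε 0 where
  toFun g := ⟨g.1 0 0, g.1 1 0⟩
  map_one' := QuadraticAlgebra.ext one_00 one_10
  map_mul' g h := by
    obtain ⟨g1, g2⟩ := (Hyp.mem_WW h0).1 g.2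
    ext
    · simp only [coe_mul, mul_ent, QuadraticAlgebra.re_mul, g2]
    · simp only [coe_mul, mul_ent, QuadraticAlgebra.im_mul, ← g1]; ring

theorem aQ_inj {ε : F} (h0 : ε ≠ 0) : Function.Injective (aQ h0) := by
  rintro ⟨g, hg⟩ ⟨h, hh⟩ e
  have e1 : g 0 0 = h 0 0 := congrArg QuadraticAlgebra.re e
  have e2 : g 1 0 = h 1 0 := congrArg QuadraticAlgebra.im e
  obtain ⟨g1, g2⟩ := (Hyp.mem_WW h0).1 hg
  obtain ⟨k1, k2⟩ := (Hyp.mem_WW h0).1 hh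
  exact Subtype.ext (ext2 e1 (by rw [g2, k2, e2]) e2 (by rw [← g1, ← k1, e1]))

theorem a_fact {ε : F} (hε : ¬ IsSquare ε) : Fact (∀ r : F, r ^ 2 ≠ ε + 0 * r) :=
  ⟨fun r e => hε ⟨r, by linear_combination -e⟩⟩

theorem a_cyc_WW {ε : F} (hε : ¬ IsSquare ε) : IsCyclic (WW ε) := by
  have := a_fact hε
  have h0 : ε ≠ 0 := fun h => hε (h ▸ IsSquare.zero)
  exact isCyclic_of_injective_ringHom (aQ h0) (aQ_inj h0)

theorem a_frob (hF : Odd 𝔮) {ε : F} (hε : ¬ IsSquare ε) (a b : F) :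
    (⟨a, b⟩ : QuadraticAlgebra F ε 0) ^ 𝔮 = ⟨a, -b⟩ := by
  have := a_fact hε
  have h0 : ε ≠ 0 := fun h => hε (h ▸ IsSquare.zero)
  obtain ⟨p, hp, n, hp', hn⟩ := FiniteField.card' F
  have : Fact p.Prime := ⟨hp'⟩
  have : CharP (QuadraticAlgebra F ε 0) p := charP_of_injective_algebraMap QuadraticAlgebra.algebraMap_injective p
  have e1 : ∀ x y : F, (⟨x, y⟩ : QuadraticAlgebra F ε 0) =
      algebraMap F _ x + algebraMap F _ y * QuadraticAlgebra.omega := fun x y => by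
    ext <;> simp [QuadraticAlgebra.algebraMap_eq]
  have e2 : (QuadraticAlgebra.omega : QuadraticAlgebra F ε 0) ^ 2 = algebraMap F _ ε := by
    rw [sq, QuadraticAlgebra.omega_mul_omega_eq_mk]; rfl
  have e3 : ε ^ (𝔮 / 2) = -1 :=
    (FiniteField.pow_dichotomy (a_char hF) h0).resolve_left fun h =>
      hε ((FiniteField.isSquare_iff (a_char hF) h0).2 h)
  have e4 : (QuadraticAlgebra.omega : QuadraticAlgebra F ε 0) ^ 𝔮 = -QuadraticAlgebra.omega := by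
    conv_lhs => rw [← Nat.div_add_mod 𝔮 2, Nat.odd_iff.1 hF, pow_succ, pow_mul, e2, ← map_pow, e3]
    simp
  rw [e1 a b, e1 a (-b)]
  conv_lhs => rw [hn, add_pow_char_pow, ← hn]
  rw [mul_pow, ← map_pow, ← map_pow, FiniteField.pow_card, FiniteField.pow_card, e4]
  simp

variable {G : Type*} [Group G] [Finite G]

namespace Hyp
variable (S : Hyp G F)

theorem a_eq {g h : L2 F} (e : S.π g = S.π h) : ∃ c : Fˣ, S.π (dg (c, c)) = 1 ∧ g = dg (c, c) * h := by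
  obtain ⟨c, -, hc⟩ := S.eq_iff e
  refine ⟨c, ?_, hc⟩
  rw [hc, map_mul] at e
  exact mul_eq_right.1 e

theorem a_T {g : L2 F} : S.π g ∈ S.T ↔ g 0 1 = 0 ∧ g 1 0 = 0 := by
  refine ⟨fun ⟨a, h⟩ => ?_, fun h => ?_⟩
  · obtain ⟨c, -, rfl⟩ := S.a_eq h.symm
    simp [mul_ent]
  · obtain ⟨a, rfl⟩ := exists_dg h.1 h.2
    exact ⟨a, rfl⟩
theorem a_Z {g : L2 F} : S.π g ∈ S.Z ↔ aSc g := by
  refine ⟨fun h => ?_, fun h => ?_⟩
  · obtain ⟨a, h⟩ := S.mem_Z'.1 h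
    obtain ⟨c, -, rfl⟩ := S.a_eq h.symm
    simp [mul_ent, aSc]
  · obtain ⟨a, rfl⟩ := a_sc_dg h
    exact ⟨a, rfl⟩
theorem a_W {g : L2 F} : S.π g ∈ S.W ↔ g 0 0 = g 1 1 ∧ g 0 1 = S.ε * g 1 0 := by
  refine ⟨fun h => ?_, fun h => S.mem_W'.2 ⟨g, h, rfl⟩⟩
  obtain ⟨a, ⟨h1, h2⟩, h⟩ := S.mem_W'.1 h
  obtain ⟨c, -, rfl⟩ := S.a_eq h.symm
  simp only [mul_ent, dg_00, dg_01, dg_10, dg_11, h1, h2]
  exact ⟨by ring, by ring⟩

theorem sl_inj {g : L2 F} (hd : GeneralLinearGroup.det g = 1) (h : S.π g = 1) : g = 1 := by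
  obtain ⟨c, hc, rfl⟩ := S.ker g h
  rw [a_det_dg] at hd
  rw [eq_one_of_sq hc hd, Prod.mk_one_one, map_one]
theorem xp_inj : Function.Injective fun a => S.π (xp a) :=
  (injective_iff_map_eq_one (S.π.comp xp)).2 fun a h => by
    have := S.sl_inj (g := xp a) (a_det_one.2 (by simp [aDet])) h
    simpa using (a_ent this).2.1
theorem xm_inj : Function.Injective fun a => S.π (xm a) :=
  (injective_iff_map_eq_one (S.π.comp xm)).2 fun a h => by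
    have := S.sl_inj (g := xm a) (a_det_one.2 (by simp [aDet])) h
    simpa using (a_ent this).2.2.1
theorem card_U : Nat.card S.U = 𝔮 := by
  rw [U, a_card_range S.xp_inj]; simp
theorem card_U' : Nat.card S.U' = 𝔮 := by
  rw [U', a_card_range S.xm_inj]; simp
theorem card_Tm : Nat.card S.Tm = 𝔮 - 1 := by
  rw [Tm, a_card_range, a_card_units]
  refine (injective_iff_map_eq_one _).2 fun a h => ?_
  have := S.sl_inj (g := dg (a, a⁻¹)) (by rw [a_det_dg, mul_inv_cancel]) h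
  exact Units.ext (by simpa using (a_ent this).1)

theorem a_d : S.d * Nat.card S.π.ker = 𝔮 - 1 := by
  have h : S.π.ker ≤ (aS : Fˣ →* L2 F).range := fun g hg => by
    obtain ⟨c, -, rfl⟩ := S.ker g hg
    exact ⟨c, rfl⟩
  have := a_card_map S.π h
  rw [MonoidHom.map_range, a_card_range (f := aS) fun a b e => (Prod.ext_iff.1 (dg_injective e)).1,
    a_card_units] at this
  exact this
theorem a_ker_pos : 0 < Nat.card S.π.ker := Nat.card_pos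
theorem d_dvd : ∃ k, Odd k ∧ 𝔮 - 1 = S.d * k := by
  refine ⟨_, ?_, S.a_d.symm⟩
  rw [← Nat.not_even_iff_odd, even_iff_two_dvd]
  intro h
  obtain ⟨x, hx, h2⟩ := exists_orderOf_eq_prime Nat.prime_two h
  obtain ⟨c, hc, rfl⟩ := S.ker x hx
  have : orderOf (aS c : L2 F) = orderOf c :=
    orderOf_injective aS (fun a b e => (Prod.ext_iff.1 (dg_injective e)).1) c
  rw [← this, aS_apply, h2] at hc
  exact absurd hc (by decide)
theorem card_T : Nat.card S.T = (𝔮 - 1) * S.d := by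
  have h : S.π.ker ≤ (dg : Fˣ × Fˣ →* L2 F).range := fun g hg => by
    obtain ⟨c, -, rfl⟩ := S.ker g hg
    exact ⟨_, rfl⟩
  have := a_card_map S.π h
  rw [MonoidHom.map_range, a_card_range dg_injective, Nat.card_prod, a_card_units] at this
  refine Nat.eq_of_mul_eq_mul_right S.a_ker_pos ?_
  rw [mul_assoc, S.a_d]; exact this
theorem card_W : Nat.card S.W = (𝔮 + 1) * S.d := by
  have h : S.π.ker ≤ WW S.ε := fun g hg => by
    obtain ⟨c, -, rfl⟩ := S.ker g hg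
    exact (mem_WW S.ε_ne).2 (by simp)
  have := a_card_map S.π h
  rw [a_card_WW S.nsq] at this
  refine Nat.eq_of_mul_eq_mul_right S.a_ker_pos ?_
  rw [mul_assoc, S.a_d]; exact this
theorem card_H : Nat.card S.H = 𝔮 * ((𝔮 - 1) * (𝔮 + 1)) * S.d := by
  have := a_card_map S.π (X := ⊤) le_top
  rw [← MonoidHom.range_eq_map, card_top, Lin.card_GL_two] at this
  refine Nat.eq_of_mul_eq_mul_right S.a_ker_pos ?_
  rw [mul_assoc, S.a_d, H, this]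
  obtain ⟨n, hn⟩ : ∃ n, 𝔮 = n + 1 := Nat.exists_eq_succ_of_ne_zero Fintype.card_ne_zero
  rw [hn, show (n + 1) ^ 2 - 1 = n * (n + 2) by rw [Nat.sub_eq_iff_eq_add (by nlinarith)]; ring,
    show (n + 1) ^ 2 - (n + 1) = n * (n + 1) by rw [Nat.sub_eq_iff_eq_add (by nlinarith)]; ring]
  simp only [Nat.add_sub_cancel]; ring
theorem card_Wm : Nat.card S.Wm = 𝔮 + 1 := by
  have h1 : Nat.card S.Wm = Nat.card (WW S.ε ⊓ GeneralLinearGroup.det.ker : Subgroup (L2 F)) := by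
    have h : S.π.ker ⊓ (WW S.ε ⊓ GeneralLinearGroup.det.ker) = ⊥ := eq_bot_iff.2 fun g hg => S.sl_inj hg.2.2 hg.1
    rw [Wm, ← relIndex_ker, ← card_inf_mul_relIndex S.π.ker (WW S.ε ⊓ GeneralLinearGroup.det.ker), h,
      card_bot, one_mul]
  have h2 := card_inf_mul_relIndex (GeneralLinearGroup.det : L2 F →* Fˣ).ker (WW S.ε)
  have h3 : (WW S.ε).map GeneralLinearGroup.det = ⊤ := eq_top_iff.2 fun c _ => a_norm_surj S.odd S.nsq c
  rw [relIndex_ker, h3, card_top, a_card_units, a_card_WW S.nsq,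
    inf_comm] at h2
  rw [h1]
  exact Nat.eq_of_mul_eq_mul_right (by have := Fintype.one_lt_card (α := F); omega) h2

theorem T_norm_U : S.T ≤ 𝐍(S.U) := by
  rintro _ ⟨⟨a, b⟩, rfl⟩
  refine mem_normalizer_of_cj_le (cj_le_iff'.2 ?_)
  rintro _ ⟨c, rfl⟩
  simp only [MonoidHom.comp_apply]
  rw [← map_inv, ← map_mul, ← map_mul, a_dg_xp]
  exact ⟨_, rfl⟩
theorem mem_ZU {x : G} : x ∈ S.Z ⊔ S.U ↔ ∃ z ∈ S.Z, ∃ y ∈ S.U, x = z * y := by
  simp only [mem_sup_of_norm_left (S.Z_le_T.trans S.T_norm_U), eq_comm]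
theorem mem_B {x : G} : x ∈ S.T ⊔ S.U ↔ ∃ z ∈ S.T, ∃ y ∈ S.U, x = z * y := by
  simp only [mem_sup_of_norm_left S.T_norm_U, eq_comm]
theorem a_B {g : L2 F} : S.π g ∈ S.T ⊔ S.U ↔ g 1 0 = 0 := by
  refine ⟨fun h => ?_, fun h => ?_⟩
  · obtain ⟨_, ⟨a, rfl⟩, _, ⟨b, rfl⟩, h⟩ := S.mem_B.1 h
    obtain ⟨c, -, rfl⟩ := S.a_eq (h.trans (map_mul S.π (dg a) (xp b)).symm)
    simp [mul_ent]
  · obtain ⟨a, c, rfl⟩ := a_upper h
    exact S.mem_B.2 ⟨_, ⟨a, rfl⟩, _, ⟨c, rfl⟩, map_mul _ _ _⟩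
theorem a_ZU {g : L2 F} : S.π g ∈ S.Z ⊔ S.U ↔ g 1 0 = 0 ∧ g 0 0 = g 1 1 := by
  refine ⟨fun h => ?_, fun h => ?_⟩
  · obtain ⟨_, ⟨a, rfl⟩, _, ⟨b, rfl⟩, h⟩ := S.mem_ZU.1 h
    obtain ⟨c, -, rfl⟩ := S.a_eq (h.trans (map_mul S.π (dg (a, a)) (xp b)).symm)
    simp [mul_ent]
  · obtain ⟨⟨a, b⟩, c, rfl⟩ := a_upper h.1
    obtain rfl : a = b := Units.ext (by simpa [mul_ent] using h.2)
    exact S.mem_ZU.2 ⟨_, ⟨a, rfl⟩, _, ⟨c, rfl⟩, map_mul _ _ _⟩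
theorem T_inf_U : S.T ⊓ S.U = ⊥ := eq_bot_iff.2 <| by
  rintro _ ⟨h, a, rfl⟩
  obtain rfl : a = 1 := (S.a_T.1 h).1
  exact map_one _
theorem T_inf_U' : S.T ⊓ S.U' = ⊥ := eq_bot_iff.2 <| by
  rintro _ ⟨h, a, rfl⟩
  obtain rfl : a = 1 := (S.a_T.1 h).2
  exact map_one _
theorem U_inf_U' : S.U ⊓ S.U' = ⊥ := eq_bot_iff.2 <| by
  rintro _ ⟨h, a, rfl⟩
  obtain rfl : a = 1 := S.a_B.1 (mem_sup_right h)
  exact map_one _
theorem card_ZU : Nat.card ↥(S.Z ⊔ S.U) = 𝔮 * S.d := by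
  rw [card_sup_of_disjoint (Or.inr (S.Z_le_T.trans S.T_norm_U))
    (eq_bot_iff.2 ((inf_le_inf_right _ S.Z_le_T).trans S.T_inf_U.le)), card_U, mul_comm, d]
theorem card_B : Nat.card ↥(S.T ⊔ S.U) = 𝔮 * ((𝔮 - 1) * S.d) := by
  rw [card_sup_of_disjoint (Or.inr S.T_norm_U) S.T_inf_U, card_U, card_T, mul_comm]

/-! ### centralizers -/
theorem cent_T {x h : G} (hx : x ∈ S.T) (hz : x ∉ S.Z) (hh : h ∈ S.H) (e : h * x = x * h) : h ∈ S.T := by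
  obtain ⟨x, rfl⟩ := S.T_le_H hx
  obtain ⟨h, rfl⟩ := hh
  obtain ⟨x1, x2⟩ := S.a_T.1 hx
  have n : x 0 0 - x 1 1 ≠ 0 := fun e => hz (S.a_Z.2 ⟨x1, x2, sub_eq_zero.1 e⟩)
  obtain ⟨-, e1, e2, -⟩ := a_ent (S.comm_of_comm e)
  simp only [mul_ent, x1, x2] at e1 e2
  exact S.a_T.2 ⟨mul_left_cancel₀ n (by linear_combination -e1), mul_left_cancel₀ n (by linear_combination e2)⟩
theorem a_W10 {x : L2 F} (hx : S.π x ∈ S.W) (hz : S.π x ∉ S.Z) : x 1 0 ≠ 0 := fun e => by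
  obtain ⟨x1, x2⟩ := S.a_W.1 hx
  exact hz (S.a_Z.2 ⟨by rw [x2, e, mul_zero], e, x1⟩)
theorem cent_W {x h : G} (hx : x ∈ S.W) (hz : x ∉ S.Z) (hh : h ∈ S.H) (e : h * x = x * h) : h ∈ S.W := by
  obtain ⟨x, rfl⟩ := S.W_le_H hx
  obtain ⟨h, rfl⟩ := hh
  have n := S.a_W10 hx hz
  obtain ⟨x1, x2⟩ := S.a_W.1 hx
  obtain ⟨e0, -, e2, -⟩ := a_ent (S.comm_of_comm e)
  simp only [mul_ent, x1, x2] at e0 e2
  exact S.a_W.2 ⟨mul_left_cancel₀ n (by linear_combination -e2), mul_left_cancel₀ n (by linear_combination e0)⟩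
theorem a_xp_ne {a : Multiplicative F} (h : S.π (xp a) ≠ 1) : a.toAdd ≠ 0 := fun e => by
  obtain rfl : a = 1 := e
  exact h (by rw [map_one, map_one])
theorem cent_U {x h : G} (hx : x ∈ S.U) (h1 : x ≠ 1) (hh : h ∈ S.H) (e : h * x = x * h) : h ∈ S.Z ⊔ S.U := by
  obtain ⟨a, rfl⟩ := S.mem_U'.1 hx
  obtain ⟨h, rfl⟩ := hh
  have n := S.a_xp_ne h1
  obtain ⟨e0, e1, -, -⟩ := a_ent (S.comm_of_comm e)
  simp only [mul_ent, xp_00, xp_01, xp_10, xp_11] at e0 e1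
  exact S.a_ZU.2 ⟨mul_left_cancel₀ n (by linear_combination -e0), mul_left_cancel₀ n (by linear_combination e1)⟩
theorem T_inf_W : S.T ⊓ S.W = S.Z := by
  refine le_antisymm (fun x hx => ?_) (le_inf S.Z_le_T S.Z_le_W)
  obtain ⟨x, rfl⟩ := S.T_le_H hx.1
  exact S.a_Z.2 ⟨(S.a_T.1 hx.1).1, (S.a_T.1 hx.1).2, (S.a_W.1 hx.2).1⟩
theorem T_inf_ZU : S.T ⊓ (S.Z ⊔ S.U) = S.Z := by
  refine le_antisymm (fun x hx => ?_) (le_inf S.Z_le_T le_sup_left)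
  obtain ⟨x, rfl⟩ := S.T_le_H hx.1
  exact S.a_Z.2 ⟨(S.a_T.1 hx.1).1, (S.a_T.1 hx.1).2, (S.a_ZU.1 hx.2).2⟩
theorem u_not_W : S.u ∉ S.W := fun h => S.two_ne (by
  have := (S.a_W.1 h).1; simp only [dg_00, dg_11, Units.val_one, Units.val_neg] at this; linear_combination this)
theorem u_not_Z : S.u ∉ S.Z := fun h => S.u_not_W (S.Z_le_W h)
theorem w_not_B : S.w ∉ S.T ⊔ S.U := fun h => one_ne_zero (S.a_B.1 h)
theorem w_not_T : S.w ∉ S.T := fun h => S.w_not_B (mem_sup_left h)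

/-! ### fusion in `H` -/
theorem a_pc (h x : L2 F) : S.π h * S.π x * (S.π h)⁻¹ = S.π (h * x * h⁻¹) := by rw [map_mul, map_mul, map_inv]

theorem fus_T {x h : G} (hx : x ∈ S.T) (hz : x ∉ S.Z) (hh : h ∈ S.H) (e : h * x * h⁻¹ ∈ S.T) :
    h ∈ S.T ∨ S.w * h ∈ S.T := by
  obtain ⟨x, rfl⟩ := S.T_le_H hx
  obtain ⟨h, rfl⟩ := hh
  obtain ⟨x1, x2⟩ := S.a_T.1 hx
  have n : x 0 0 - x 1 1 ≠ 0 := fun e => hz (S.a_Z.2 ⟨x1, x2, sub_eq_zero.1 e⟩)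
  rw [a_pc] at e
  obtain ⟨g1, g2⟩ := S.a_T.1 e
  obtain ⟨e0, e1, e2, e3⟩ := a_ent (a_cj h x)
  simp only [mul_ent (h * x * h⁻¹), mul_ent h x, x1, x2, g1, g2] at e0 e1 e2 e3
  have hd := det_ne h
  rw [w, ← map_mul, a_T, a_T]
  simp only [mul_ent, ww_00, ww_01, ww_10, ww_11, zero_mul, one_mul, zero_add, add_zero]
  have k1 : h 0 0 * h 0 1 = 0 := mul_left_cancel₀ n (by linear_combination h 0 0 * e1 - h 0 1 * e0)
  have k2 : h 1 0 * h 1 1 = 0 := mul_left_cancel₀ n (by linear_combination h 1 0 * e3 - h 1 1 * e2)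
  by_cases c : h 0 0 = 0
  · right
    refine ⟨(mul_eq_zero.1 k2).resolve_left fun c' => hd (by rw [c, c']; ring), c⟩
  · left
    have c1 := (mul_eq_zero.1 k1).resolve_left c
    exact ⟨c1, (mul_eq_zero.1 k2).resolve_right fun c' => hd (by rw [c1, c']; ring)⟩
theorem fus_W {x h : G} (hx : x ∈ S.W) (hz : x ∉ S.Z) (hh : h ∈ S.H) (e : h * x * h⁻¹ ∈ S.W) :
    h ∈ S.W ∨ S.u * h ∈ S.W := by
  obtain ⟨x, rfl⟩ := S.W_le_H hx
  obtain ⟨h, rfl⟩ := hh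
  have n := S.a_W10 hx hz
  obtain ⟨x1, x2⟩ := S.a_W.1 hx
  rw [a_pc] at e
  obtain ⟨g1, g2⟩ := S.a_W.1 e
  have ee := a_cj h x
  generalize h * x * h⁻¹ = g at *
  have t1 := a_tr_of ee
  have t2 := a_det_of ee
  obtain ⟨e0, -, e2, -⟩ := a_ent ee
  simp only [mul_ent, aTr, aDet, x1, x2, g1, g2] at e0 e2 t1 t2
  have k1 : g 1 1 = x 1 1 := mul_left_cancel₀ S.two_ne (by linear_combination t1)
  have k2 : g 1 0 * g 1 0 = x 1 0 * x 1 0 :=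
    mul_left_cancel₀ S.ε_ne (by rw [k1] at t2; linear_combination -t2)
  rw [u, ← map_mul, a_W, a_W]
  simp only [mul_ent, dg_00, dg_01, dg_10, dg_11, Units.val_one, Units.val_neg]
  rw [k1] at e0 e2
  rcases mul_self_eq_mul_self_iff.1 k2 with k | k <;> rw [k] at e0 e2
  · exact Or.inl ⟨mul_left_cancel₀ n (by linear_combination e2), mul_left_cancel₀ n (by linear_combination -e0)⟩
  · exact Or.inr ⟨mul_left_cancel₀ n (by linear_combination -e2), mul_left_cancel₀ n (by linear_combination -e0)⟩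
theorem fus_TW {x h : G} (hx : x ∈ S.T) (hz : x ∉ S.Z) (hh : h ∈ S.H) : h * x * h⁻¹ ∉ S.W := by
  obtain ⟨x, rfl⟩ := S.T_le_H hx
  obtain ⟨h, rfl⟩ := hh
  intro e
  rw [a_pc] at e
  obtain ⟨x1, x2⟩ := S.a_T.1 hx
  have n := S.a_W10 e fun k => hz (S.a_Z.2 (a_sc_of (a_cj h x) (S.a_Z.1 k)))
  obtain ⟨g1, g2⟩ := S.a_W.1 e
  have t := a_disc_of (a_cj h x)
  generalize h * x * h⁻¹ = g at *
  simp only [aDisc, aTr, aDet, x1, x2, g1, g2] at t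
  have := S.two_ne
  exact S.nsq ⟨(x 0 0 - x 1 1) / (2 * g 1 0), by field_simp; linear_combination t⟩
theorem a_zy {z y : G} (hz : z ∈ S.Z) (hy : y ∈ S.U) (h1 : y ≠ 1) :
    ∃ x : L2 F, z * y = S.π x ∧ ¬ aSc x ∧ aDisc x = 0 := by
  obtain ⟨c, rfl⟩ := S.mem_Z'.1 hz
  obtain ⟨a, rfl⟩ := S.mem_U'.1 hy
  refine ⟨dg (c, c) * xp a, (map_mul _ _ _).symm, fun h => S.a_xp_ne h1 (by simpa [mul_ent] using h.1), ?_⟩
  simp [aDisc, aTr, aDet, mul_ent]; ring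
theorem fus_UT {z y h : G} (hz : z ∈ S.Z) (hy : y ∈ S.U) (h1 : y ≠ 1) (hh : h ∈ S.H) : h * (z * y) * h⁻¹ ∉ S.T := by
  obtain ⟨x, ex, hs, hd⟩ := S.a_zy hz hy h1
  obtain ⟨h, rfl⟩ := hh
  intro e
  rw [ex, a_pc] at e
  obtain ⟨g1, g2⟩ := S.a_T.1 e
  rw [← a_disc_of (a_cj h x)] at hd
  simp only [aDisc, aTr, aDet, g1, g2] at hd
  exact hs (a_sc_of (a_cj h x) ⟨g1, g2, sub_eq_zero.1 (pow_eq_zero_iff two_ne_zero |>.1 (by linear_combination hd))⟩)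
theorem fus_UW {z y h : G} (hz : z ∈ S.Z) (hy : y ∈ S.U) (h1 : y ≠ 1) (hh : h ∈ S.H) : h * (z * y) * h⁻¹ ∉ S.W := by
  obtain ⟨x, ex, hs, hd⟩ := S.a_zy hz hy h1
  obtain ⟨h, rfl⟩ := hh
  intro e
  rw [ex, a_pc] at e
  have n := S.a_W10 e fun k => hs (a_sc_of (a_cj h x) (S.a_Z.1 k))
  obtain ⟨g1, g2⟩ := S.a_W.1 e
  rw [← a_disc_of (a_cj h x)] at hd
  simp only [aDisc, aTr, aDet, g1, g2] at hd
  exact mul_ne_zero (mul_ne_zero (mul_ne_zero S.two_ne S.two_ne) S.ε_ne) (mul_ne_zero n n) (by linear_combination hd)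
theorem fus_U {z y z' y' h : G} (hz : z ∈ S.Z) (hy : y ∈ S.U) (h1 : y ≠ 1) (hz' : z' ∈ S.Z) (hy' : y' ∈ S.U)
    (hh : h ∈ S.H) (e : h * (z * y) * h⁻¹ = z' * y') : z = z' ∧ h ∈ S.T ⊔ S.U := by
  obtain ⟨c, rfl⟩ := S.mem_Z'.1 hz
  obtain ⟨a, rfl⟩ := S.mem_U'.1 hy
  obtain ⟨c', rfl⟩ := S.mem_Z'.1 hz'
  obtain ⟨a', rfl⟩ := S.mem_U'.1 hy'
  obtain ⟨h, rfl⟩ := hh
  rw [← map_mul, ← map_mul S.π (dg _), a_pc] at e
  obtain ⟨k, hk, e⟩ := S.a_eq e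
  have ee := a_cj h (dg (c, c) * xp a)
  rw [e] at ee
  have t := a_tr_of ee
  obtain ⟨-, -, -, e3⟩ := a_ent ee
  simp only [aTr, mul_ent, dg_00, dg_01, dg_10, dg_11, xp_00, xp_01, xp_10, xp_11] at t e3
  have k1 : (k : F) * c' = c := mul_left_cancel₀ S.two_ne (by linear_combination t)
  obtain rfl : c = k * c' := Units.ext k1.symm
  refine ⟨by rw [show (k * c', k * c') = (k, k) * (c', c') from rfl, map_mul, map_mul, hk, one_mul], S.a_B.2 ?_⟩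
  exact mul_left_cancel₀ (mul_ne_zero (k * c').ne_zero (S.a_xp_ne h1))
    (by simp only [Units.val_mul] at e3 ⊢; linear_combination -e3)
theorem U_trans {y y' : G} (hy : y ∈ S.U) (h1 : y ≠ 1) (hy' : y' ∈ S.U) (h1' : y' ≠ 1) :
    ∃ x ∈ S.T, x * y * x⁻¹ = y' := by
  obtain ⟨a, rfl⟩ := S.mem_U'.1 hy
  obtain ⟨a', rfl⟩ := S.mem_U'.1 hy'
  have n := S.a_xp_ne h1
  refine ⟨_, ⟨(Units.mk0 _ (div_ne_zero (S.a_xp_ne h1') n), 1), rfl⟩, ?_⟩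
  simp only [MonoidHom.comp_apply]
  rw [a_pc, a_dg_xp]
  simp [n]
theorem cj_w_U : cj S.w S.U = S.U' := by
  refine eq_of_le_of_card_eq (cj_le_iff'.2 ?_) (by rw [card_cj, card_U, card_U'])
  rintro _ ⟨a, rfl⟩
  refine ⟨a, ?_⟩
  simp only [MonoidHom.comp_apply]
  rw [w, a_pc, a_ww_inv]
  exact congrArg _ (ext2 (by simp [mul_ent]) (by simp [mul_ent]) (by simp [mul_ent]) (by simp [mul_ent]))
theorem u_inv_U {y : G} (hy : y ∈ S.U) : S.u * y * S.u⁻¹ = y⁻¹ := by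
  obtain ⟨a, rfl⟩ := S.mem_U'.1 hy
  rw [u, a_pc, a_dg_xp, ← map_inv, ← map_inv]
  simp
theorem a_unip {g : L2 F} (hs : ¬ aSc g) (hd : aDisc g = 0) :
    ∃ k : L2 F, ∃ z ∈ S.Z, ∃ y ∈ S.U, y ≠ 1 ∧ S.π k * S.π g * (S.π k)⁻¹ = z * y := by
  have h2 := S.two_ne
  simp only [aDisc] at hd
  have hc : aTr g / 2 ≠ 0 := fun e => a_det_ne g (by
    have : aTr g = 0 := by simpa [h2] using e
    rw [this] at hd
    exact mul_left_cancel₀ (mul_ne_zero h2 h2) (by linear_combination -hd))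
  obtain ⟨k, hk⟩ := a_conj (g' := dg (Units.mk0 _ hc, Units.mk0 _ hc) * xp (Multiplicative.ofAdd 1)) hs
    (fun h => hc (by simpa [mul_ent] using h.1)) (by simp [aTr, mul_ent]; field_simp; ring)
    (by simp only [aDet, mul_ent] at hd ⊢; simp; field_simp; linear_combination -hd)
  refine ⟨k, _, ⟨Units.mk0 _ hc, rfl⟩, _, ⟨Multiplicative.ofAdd 1, rfl⟩, fun e => ?_, by rw [a_pc, hk, map_mul]; rfl⟩
  have := S.xp_inj (a₁ := Multiplicative.ofAdd 1) (a₂ := 1) (by simpa using e)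
  simp at this
theorem classes {h : G} (hh : h ∈ S.H) : ∃ k ∈ S.H, k * h * k⁻¹ ∈ S.T ∨ k * h * k⁻¹ ∈ S.W ∨
    ∃ z ∈ S.Z, ∃ y ∈ S.U, y ≠ 1 ∧ k * h * k⁻¹ = z * y := by
  obtain ⟨g, rfl⟩ := hh
  have h2 := S.two_ne
  by_cases hs : aSc g
  · exact ⟨1, one_mem _, Or.inl (by simpa using S.Z_le_T (S.a_Z.2 hs))⟩
  by_cases hd : aDisc g = 0
  · obtain ⟨k, h⟩ := S.a_unip hs hd
    exact ⟨_, ⟨k, rfl⟩, Or.inr (Or.inr h)⟩
  by_cases hq : IsSquare (aDisc g)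
  · obtain ⟨s, hs'⟩ := hq
    have s0 : s ≠ 0 := fun e => hd (by rw [hs', e, mul_zero])
    have e : (aTr g + s) / 2 * ((aTr g - s) / 2) - 0 * 0 = aDet g := by
      simp only [aDisc] at hs'; field_simp; linear_combination hs'
    obtain ⟨k, hk⟩ := a_conj (g' := m2 ((aTr g + s) / 2) 0 0 ((aTr g - s) / 2) (e ▸ a_det_ne g)) hs
      (fun h => s0 (by have := h.2.2; simp only [m2_00, m2_11] at this; field_simp at this; exact mul_left_cancel₀ h2 (by linear_combination this)))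
      (by simp only [aTr, m2_00, m2_11]; field_simp; ring) e.symm
    exact ⟨_, ⟨k, rfl⟩, Or.inl (by rw [a_pc, hk]; exact S.a_T.2 ⟨rfl, rfl⟩)⟩
  · have hc := a_char S.odd
    have : IsSquare (aDisc g * S.ε) := by
      rw [FiniteField.isSquare_iff hc (mul_ne_zero hd S.ε_ne), mul_pow,
        (FiniteField.pow_dichotomy hc hd).resolve_left fun h => hq ((FiniteField.isSquare_iff hc hd).2 h),
        (FiniteField.pow_dichotomy hc S.ε_ne).resolve_left fun h => S.nsq ((FiniteField.isSquare_iff hc S.ε_ne).2 h)]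
      simp
    obtain ⟨s, hs'⟩ := this
    have s0 : s ≠ 0 := fun e => mul_ne_zero hd S.ε_ne (by rw [hs', e, mul_zero])
    have e0 := S.ε_ne
    have e : aTr g / 2 * (aTr g / 2) - S.ε * (s / (2 * S.ε)) * (s / (2 * S.ε)) = aDet g := by
      simp only [aDisc] at hs'; field_simp; linear_combination hs'
    obtain ⟨k, hk⟩ := a_conj (g' := m2 (aTr g / 2) (S.ε * (s / (2 * S.ε))) (s / (2 * S.ε)) (aTr g / 2)
      (e ▸ a_det_ne g)) hs (fun h => s0 (by simpa [h2, e0] using h.2.1))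
      (by simp only [aTr, m2_00, m2_11]; field_simp; ring) e.symm
    exact ⟨_, ⟨k, rfl⟩, Or.inr (Or.inl (by rw [a_pc, hk]; exact S.a_W.2 ⟨rfl, rfl⟩))⟩
theorem inv_H {h : G} (hh : h ∈ S.H) (h2 : h * h = 1) (h1 : h ≠ 1) : h = S.t ∨ ∃ k ∈ S.H, h = k * S.u * k⁻¹ := by
  obtain ⟨g, rfl⟩ := hh
  rcases a_inv_H S.π S.ker S.two_ne h2 h1 with h | ⟨k, h⟩
  exacts [Or.inl h, Or.inr ⟨_, ⟨k, rfl⟩, h⟩]
theorem a_lift {h : G} (hh : h ∈ S.H) (h2 : h * h = 1) : ∃ g, S.π g = h ∧ g * g = 1 := by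
  obtain ⟨g, rfl⟩ := hh
  obtain ⟨e, h⟩ := a_lift_sq S.π S.ker h2
  exact ⟨_, h⟩
theorem inv_T {h : G} (hh : h ∈ S.T) (h2 : h * h = 1) : h = 1 ∨ h = S.t ∨ h = S.u ∨ h = S.t * S.u := by
  obtain ⟨g, rfl, e⟩ := S.a_lift (S.T_le_H hh) h2
  obtain ⟨⟨a, b⟩, rfl⟩ := exists_dg (S.a_T.1 hh).1 (S.a_T.1 hh).2
  obtain ⟨e0, -, -, e3⟩ := a_ent e
  simp only [mul_ent, dg_00, dg_01, dg_10, dg_11, one_00, one_11, mul_zero, add_zero, zero_add] at e0 e3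
  have ha : a = 1 ∨ a = -1 := (mul_self_eq_one_iff.1 e0).imp Units.ext Units.ext
  have hb : b = 1 ∨ b = -1 := (mul_self_eq_one_iff.1 e3).imp Units.ext Units.ext
  rcases ha with rfl | rfl <;> rcases hb with rfl | rfl
  · left; rw [Prod.mk_one_one, map_one, map_one]
  · exact Or.inr (Or.inr (Or.inl rfl))
  · exact Or.inr (Or.inr (Or.inr S.tu_eq.symm))
  · exact Or.inr (Or.inl rfl)
theorem a_inv_Z {h : G} (hh : h ∈ S.Z) (h2 : h * h = 1) : h = 1 ∨ h = S.t := by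
  rcases S.inv_T (S.Z_le_T hh) h2 with h | h | rfl | rfl
  exacts [Or.inl h, Or.inr h, absurd hh S.u_not_Z, absurd ((mul_mem_cancel_left S.t_Z).1 hh) S.u_not_Z]
theorem inv_W {h : G} (hh : h ∈ S.W) (h2 : h * h = 1) : h = 1 ∨ h = S.t := by
  refine S.a_inv_Z ?_ h2
  obtain ⟨g, rfl, e⟩ := S.a_lift (S.W_le_H hh) h2
  by_contra hz
  have n := S.a_W10 hh hz
  obtain ⟨g1, g2⟩ := S.a_W.1 hh
  obtain ⟨e0, -, e2, -⟩ := a_ent e
  simp only [mul_ent, one_00, one_10, g1, g2] at e0 e2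
  have k : g 1 1 = 0 := mul_left_cancel₀ (mul_ne_zero S.two_ne n) (by linear_combination e2)
  exact S.nsq ⟨1 / g 1 0, by field_simp; rw [k] at e0; linear_combination e0⟩
theorem inv_ZU {h : G} (hh : h ∈ S.Z ⊔ S.U) (h2 : h * h = 1) : h = 1 ∨ h = S.t := by
  refine S.a_inv_Z ?_ h2
  obtain ⟨g, rfl, e⟩ := S.a_lift ((sup_le (S.Z_le_T.trans S.T_le_H) S.U_le_H) hh) h2
  obtain ⟨g1, g2⟩ := S.a_ZU.1 hh
  obtain ⟨e0, e1, -, -⟩ := a_ent e
  simp only [mul_ent, one_00, one_01, g1, g2] at e0 e1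
  have k : g 1 1 ≠ 0 := fun k => by rw [k] at e0; simp at e0
  exact S.a_Z.2 ⟨mul_left_cancel₀ (mul_ne_zero S.two_ne k) (by linear_combination e1), g1, g2⟩

/-! ### the tori -/
theorem cyc_W : IsCyclic S.W := PG.isCyclic_map _ (a_cyc_WW S.nsq)
theorem cyc_Z : IsCyclic S.Z := isCyclic_of_surjective _ (MonoidHom.rangeRestrict_surjective _)
theorem cyc_Tm : IsCyclic S.Tm := isCyclic_of_surjective _ (MonoidHom.rangeRestrict_surjective _)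
theorem a_u_ent (g : L2 F) : (dg (1, -1) * g * (dg (1, -1))⁻¹ : L2 F) 0 0 = g 0 0 ∧
    (dg (1, -1) * g * (dg (1, -1))⁻¹ : L2 F) 0 1 = -g 0 1 ∧ (dg (1, -1) * g * (dg (1, -1))⁻¹ : L2 F) 1 0 = -g 1 0 ∧
    (dg (1, -1) * g * (dg (1, -1))⁻¹ : L2 F) 1 1 = g 1 1 := by
  rw [a_u_inv]; simp [mul_ent]
theorem u_W_pow {x : G} (hx : x ∈ S.W) : S.u * x * S.u⁻¹ = x ^ 𝔮 := by
  obtain ⟨g, hg, rfl⟩ := hx
  obtain ⟨g1, g2⟩ := (mem_WW S.ε_ne).1 hg
  obtain ⟨k0, k1, k2, k3⟩ := a_u_ent g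
  have hm : dg (1, -1) * g * (dg (1, -1))⁻¹ ∈ WW S.ε := (mem_WW S.ε_ne).2 ⟨by rw [k0, k3, g1], by rw [k1, k2, g2]; ring⟩
  have := aQ_inj S.ε_ne (a₁ := ⟨_, hm⟩) (a₂ := ⟨g, hg⟩ ^ 𝔮) (by
    rw [map_pow]
    exact (QuadraticAlgebra.ext k0 k2).trans (a_frob S.odd S.nsq (g 0 0) (g 1 0)).symm)
  rw [u, a_pc, ← map_pow]
  exact congrArg _ (congrArg Subtype.val this)
theorem a_w_dg (a b : Fˣ) : S.w * S.π (dg (a, b)) * S.w⁻¹ = S.π (dg (b, a)) := by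
  rw [w, ← map_mul, ww_dg, map_mul, mul_inv_cancel_right]
theorem mem_Tm {x : G} : x ∈ S.Tm ↔ x ∈ S.T ∧ S.w * x * S.w⁻¹ = x⁻¹ := by
  refine ⟨fun h => ⟨S.Tm_le_T h, ?_⟩, fun ⟨h, e⟩ => ?_⟩
  · obtain ⟨c, rfl⟩ := S.mem_Tm'.1 h
    rw [a_w_dg, ← map_inv, ← map_inv]; simp
  · obtain ⟨⟨a, b⟩, rfl⟩ := S.mem_T'.1 h
    rw [a_w_dg, eq_inv_iff_mul_eq_one, ← map_mul, ← map_mul, Prod.mk_mul_mk, mul_comm b] at e
    obtain ⟨c, h1, h2⟩ := a_sqrt' S.π S.ker e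
    refine S.mem_Tm'.2 ⟨a * c⁻¹, ?_⟩
    have : (a, b) = (a * c⁻¹, (a * c⁻¹)⁻¹) * (c, c) :=
      Prod.ext (by simp) (by simp only [Prod.mk_mul_mk]; rw [eq_comm, inv_mul_eq_iff_eq_mul, mul_right_comm, ← h2]; simp)
    rw [this, map_mul, map_mul, h1, mul_one]
theorem a_u_mul {g : L2 F} (g1 : g 0 0 = g 1 1) : dg (1, -1) * g * (dg (1, -1))⁻¹ * g =
    dg (GeneralLinearGroup.det g, GeneralLinearGroup.det g) := by
  obtain ⟨k0, k1, k2, k3⟩ := a_u_ent g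
  refine ext2 ?_ ?_ ?_ ?_ <;> simp only [mul_ent _ g, k0, k1, k2, k3, dg_00, dg_01, dg_10, dg_11, a_det_val, aDet, g1] <;>
    ring
theorem mem_Wm {x : G} : x ∈ S.Wm ↔ x ∈ S.W ∧ S.u * x * S.u⁻¹ = x⁻¹ := by
  refine ⟨fun h => ⟨S.Wm_le_W h, ?_⟩, fun ⟨h, e⟩ => ?_⟩
  · obtain ⟨g, ⟨h1, h2⟩, rfl⟩ := h
    rw [u, a_pc, eq_inv_iff_mul_eq_one, ← map_mul, a_u_mul ((mem_WW S.ε_ne).1 h1).1, MonoidHom.mem_ker.1 h2,
      Prod.mk_one_one, map_one, map_one]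
  · obtain ⟨g, hg, rfl⟩ := h
    rw [u, a_pc, eq_inv_iff_mul_eq_one, ← map_mul, a_u_mul ((mem_WW S.ε_ne).1 hg).1] at e
    obtain ⟨c, h1, h2⟩ := a_sqrt' S.π S.ker e
    refine ⟨(dg (c, c))⁻¹ * g, Subgroup.mem_inf.2 ⟨mul_mem (inv_mem ((mem_WW S.ε_ne).2 (by simp))) hg,
      MonoidHom.mem_ker.2 ?_⟩, by rw [map_mul, map_inv, h1, inv_one, one_mul]⟩
    rw [map_mul, map_inv, a_det_dg, h2, inv_mul_cancel]
theorem mem_Z_T {x : G} : x ∈ S.Z ↔ x ∈ S.T ∧ S.w * x * S.w⁻¹ = x := by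
  refine ⟨fun h => ⟨S.Z_le_T h, by rw [← S.Z_comm h S.w_H, mul_inv_cancel_right]⟩, fun ⟨h, e⟩ => ?_⟩
  by_contra hz
  exact S.w_not_T (S.cent_T h hz S.w_H (mul_inv_eq_iff_eq_mul.1 e))
theorem mem_Z_W {x : G} : x ∈ S.Z ↔ x ∈ S.W ∧ S.u * x * S.u⁻¹ = x := by
  refine ⟨fun h => ⟨S.Z_le_W h, by rw [← S.Z_comm h (S.T_le_H S.u_T), mul_inv_cancel_right]⟩, fun ⟨h, e⟩ => ?_⟩
  by_contra hz
  exact S.u_not_W (S.cent_W h hz (S.T_le_H S.u_T) (mul_inv_eq_iff_eq_mul.1 e))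
theorem Tm_h90 {x : G} (hx : x ∈ S.Tm) : ∃ y ∈ S.T, x = S.w * y * S.w⁻¹ * y⁻¹ := by
  obtain ⟨c, rfl⟩ := S.mem_Tm'.1 hx
  refine ⟨S.π (dg (1, c)), ⟨_, rfl⟩, ?_⟩
  rw [a_w_dg, ← map_inv, ← map_inv, ← map_mul, ← map_mul]; simp
theorem Wm_h90 {x : G} (hx : x ∈ S.Wm) : ∃ y ∈ S.W, x = S.u * y * S.u⁻¹ * y⁻¹ := by
  obtain ⟨g, ⟨h1, h2⟩, rfl⟩ := hx
  obtain ⟨g1, g2⟩ := (mem_WW S.ε_ne).1 h1
  have hd : aDet g = 1 := a_det_one.1 h2
  simp only [aDet, g1, g2] at hd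
  have : ∃ y : L2 F, (y 0 0 = y 1 1 ∧ y 0 1 = S.ε * y 1 0) ∧ g * y = dg (1, -1) * y * (dg (1, -1))⁻¹ := by
    by_cases h : 1 + g 1 1 ≠ 0 ∨ -g 1 0 ≠ 0
    · refine ⟨m2 _ _ _ _ (a_W_ne S.nsq h), ⟨rfl, rfl⟩, ?_⟩
      rw [a_u_inv]
      refine ext2 ?_ ?_ ?_ ?_ <;> simp [mul_ent, g1, g2]
      all_goals first | linear_combination hd | ring
    · push Not at h
      refine ⟨m2 0 S.ε 1 0 (by simpa using S.ε_ne), ⟨rfl, by simp⟩, ?_⟩
      have k1 : g 1 1 = -1 := by linear_combination h.1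
      have k2 : g 1 0 = 0 := by linear_combination -h.2
      rw [a_u_inv]
      refine ext2 ?_ ?_ ?_ ?_ <;> simp [mul_ent, g1, g2, k1, k2]
  obtain ⟨y, hy, e⟩ := this
  exact ⟨S.π y, S.a_W.2 hy, by rw [u, a_pc, ← e, map_mul, mul_inv_cancel_right]⟩
theorem t_Tm : S.t ∈ S.Tm := S.mem_Tm'.2 ⟨-1, by simp [t]⟩
theorem t_Wm : S.t ∈ S.Wm :=
  ⟨dg (-1, -1), Subgroup.mem_inf.2 ⟨(mem_WW S.ε_ne).2 (by simp), MonoidHom.mem_ker.2 (by rw [a_det_dg]; simp)⟩, rfl⟩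

end Hyp
end CA.Br
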