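/-
The common abstraction of `C(t) = GL₂(q)/Z` (`e = 1`) and `C(t) = GU₂(q)/Z` (`e = -1`); `Q = e * q`.
-/
import Cfsg.Agent.Lib.Br.Defs

set_option autoImplicit false
set_option linter.unusedSectionVars false

namespace CA.Br

open Cfsg Subgroup CA CA.Ch

/-- The facts about `H = C(t)` (blocks A1-A5). -/
structure Abs0 (G : Type*) [Group G] where
  q : ℕ
  e : ℤ
  he : e = 1 ∨ e = -1
  p : ℕ
  f : ℕ
  hp : p.Prime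
  hf : 0 < f
  hq : q = p ^ f
  odd : Odd q
  t : G
  u : G
  w : G
  ρ : G
  H : Subgroup G
  T : Subgroup G
  W : Subgroup G
  Z : Subgroup G
  U : Subgroup G
  Tm : Subgroup G
  Wm : Subgroup G
  H_eq : H = 𝐂[t]
  tt : t * t = 1
  uu : u * u = 1
  ww' : w * w = 1
  ut : u * t = t * u
  wt : w * t = t * w
  wu : w * u * w⁻¹ = t * u
  ρ_t : ρ * t * ρ⁻¹ = u
  ρ_u : ρ * u * ρ⁻¹ = t * u
  t_ne : t ≠ 1
  mem_T : ∀ {x : G}, x ∈ T ↔ x * t = t * x ∧ x * u = u * x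
  W_le_H : W ≤ H
  U_le_H : U ≤ H
  t_Z : t ∈ Z
  Z_comm : ∀ {z h : G}, z ∈ Z → h ∈ H → z * h = h * z
  commT : IsMulCommutative T
  commU : IsMulCommutative U
  cyc_W : IsCyclic W
  cyc_Tm : IsCyclic Tm
  card_T : (Nat.card T : ℤ) = (q - e) * Nat.card Z
  card_W : (Nat.card W : ℤ) = (q + e) * Nat.card Z
  card_U : Nat.card U = q
  card_H : (Nat.card H : ℤ) = q * (q ^ 2 - 1) * Nat.card Z
  d_dvd : ∃ k : ℕ, Odd k ∧ (q : ℤ) - e = Nat.card Z * k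
  card_Tm : (Nat.card Tm : ℤ) = q - e
  card_Wm : (Nat.card Wm : ℤ) = q + e
  cent_T : ∀ {x h : G}, x ∈ T → x ∉ Z → h ∈ H → h * x = x * h → h ∈ T
  cent_W : ∀ {x h : G}, x ∈ W → x ∉ Z → h ∈ H → h * x = x * h → h ∈ W
  cent_U : ∀ {x h : G}, x ∈ U → x ≠ 1 → h ∈ H → h * x = x * h → h ∈ Z ⊔ U
  T_inf_W : T ⊓ W = Z
  Z_inf_U : Z ⊓ U = ⊥
  u_not_W : u ∉ W
  fus_T : ∀ {x h : G}, x ∈ T → x ∉ Z → h ∈ H → h * x * h⁻¹ ∈ T → h ∈ T ∨ w * h ∈ T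
  fus_W : ∀ {x h : G}, x ∈ W → x ∉ Z → h ∈ H → h * x * h⁻¹ ∈ W → h ∈ W ∨ u * h ∈ W
  fus_TW : ∀ {x h : G}, x ∈ T → x ∉ Z → h ∈ H → h * x * h⁻¹ ∉ W
  fus_UT : ∀ {z y h : G}, z ∈ Z → y ∈ U → y ≠ 1 → h ∈ H → h * (z * y) * h⁻¹ ∉ T
  fus_UW : ∀ {z y h : G}, z ∈ Z → y ∈ U → y ≠ 1 → h ∈ H → h * (z * y) * h⁻¹ ∉ W
  fus_U : ∀ {z y z' y' h : G}, z ∈ Z → y ∈ U → y ≠ 1 → z' ∈ Z → y' ∈ U → h ∈ H →
    h * (z * y) * h⁻¹ = z' * y' → z = z' ∧ h ∈ 𝐍(U)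
  U_trans : ∀ {y y' : G}, y ∈ U → y ≠ 1 → y' ∈ U → y' ≠ 1 → ∃ x ∈ H, x * y * x⁻¹ = y'
  borel : (e = 1 ∧ H ⊓ 𝐍(U) = T ⊔ U ∧ ∀ y ∈ U, u * y * u⁻¹ = y⁻¹) ∨ (e = -1 ∧ H ⊓ 𝐍(U) = W ⊔ U)
  card_B : (Nat.card ↥(H ⊓ 𝐍(U)) : ℤ) = q * (q - 1) * Nat.card Z
  classes : ∀ {h : G}, h ∈ H → ∃ k ∈ H, k * h * k⁻¹ ∈ T ∨ k * h * k⁻¹ ∈ W ∨
    ∃ z ∈ Z, ∃ y ∈ U, y ≠ 1 ∧ k * h * k⁻¹ = z * y
  inv_T : ∀ {h : G}, h ∈ T → h * h = 1 → h = 1 ∨ h = t ∨ h = u ∨ h = t * u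
  u_W_pow : ∀ {x : G}, x ∈ W → u * x * u⁻¹ = x ^ (e * q)
  mem_Tm : ∀ {x : G}, x ∈ Tm ↔ x ∈ T ∧ w * x * w⁻¹ = x⁻¹
  mem_Wm : ∀ {x : G}, x ∈ Wm ↔ x ∈ W ∧ u * x * u⁻¹ = x⁻¹
  mem_Z_T : ∀ {x : G}, x ∈ Z ↔ x ∈ T ∧ w * x * w⁻¹ = x
  mem_Z_W : ∀ {x : G}, x ∈ Z ↔ x ∈ W ∧ u * x * u⁻¹ = x
  Tm_h90 : ∀ {x : G}, x ∈ Tm → ∃ y ∈ T, x = w * y * w⁻¹ * y⁻¹
  Wm_h90 : ∀ {x : G}, x ∈ Wm → ∃ y ∈ W, x = u * y * u⁻¹ * y⁻¹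
  ext_T : ∀ (hT : T ≤ H) (l : Du T), (∀ x : T, (x : G) ∈ Tm → l.ch x = 1) →
    ∃ β : Du H, Du.comp (inclusion hT) β = l
  ext_W : ∀ (l : Du W), (∀ x : W, (x : G) ∈ Wm → l.ch x = 1) → ∃ β : Du H, Du.comp (inclusion W_le_H) β = l
  inj_T : ∀ (hT : T ≤ H), Function.Injective (Du.comp (inclusion hT))
  inj_W : Function.Injective (Du.comp (inclusion W_le_H))

namespace Abs0

variable {G : Type*} [Group G] (S : Abs0 G)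

/-- `Q = ± q` -/
def Q : ℤ := S.e * S.q
/-- the order of the centre of `H` -/
noncomputable def d : ℕ := Nat.card S.Z
noncomputable def V : Subgroup G := zpowers S.t ⊔ zpowers S.u

theorem e_sq : S.e * S.e = 1 := by rcases S.he with h | h <;> rw [h] <;> rfl
theorem Q_cases : (S.e = 1 ∧ S.Q = S.q) ∨ (S.e = -1 ∧ S.Q = -S.q) := by
  rcases S.he with h | h
  · exact Or.inl ⟨h, by rw [Q, h, one_mul]⟩
  · exact Or.inr ⟨h, by rw [Q, h, neg_one_mul]⟩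
theorem Q_sq : S.Q ^ 2 = (S.q : ℤ) ^ 2 := by rcases S.Q_cases with ⟨-, h⟩ | ⟨-, h⟩ <;> rw [h] <;> ring
theorem q_eq : (S.q : ℤ) = S.e * S.Q := by rw [Q, ← mul_assoc, e_sq, one_mul]
theorem three_le : 3 ≤ S.q := by
  have h1 : S.p ∣ S.q := S.hq ▸ dvd_pow_self _ S.hf.ne'
  have h2 := Nat.le_of_dvd S.odd.pos h1
  have h3 := S.hp.two_le
  obtain ⟨k, hk⟩ := S.odd
  omega
theorem p_ne_two : S.p ≠ 2 := fun h => by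
  have h1 : S.p ∣ S.q := S.hq ▸ dvd_pow_self _ S.hf.ne'
  rw [h] at h1
  exact (Nat.not_even_iff_odd.2 S.odd) (even_iff_two_dvd.2 h1)
theorem card_T' : (Nat.card S.T : ℤ) = S.e * (S.Q - 1) * S.d := by
  rw [S.card_T, mul_sub, ← q_eq, mul_one]; rfl
theorem card_W' : (Nat.card S.W : ℤ) = S.e * (S.Q + 1) * S.d := by
  rw [S.card_W, mul_add, ← q_eq, mul_one]; rfl
theorem card_H' : (Nat.card S.H : ℤ) = S.e * S.Q * (S.Q ^ 2 - 1) * S.d := by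
  rw [S.card_H, ← q_eq, Q_sq]; rfl
theorem card_Tm' : (Nat.card S.Tm : ℤ) = S.e * (S.Q - 1) := by rw [S.card_Tm, mul_sub, ← q_eq, mul_one]
theorem card_Wm' : (Nat.card S.Wm : ℤ) = S.e * (S.Q + 1) := by rw [S.card_Wm, mul_add, ← q_eq, mul_one]

theorem mem_H {x : G} : x ∈ S.H ↔ x * S.t = S.t * x := by rw [S.H_eq, mem_centralizer_singleton_iff]
theorem ρ_tu : S.ρ * (S.t * S.u) * S.ρ⁻¹ = S.t := by
  have : S.ρ * (S.t * S.u) * S.ρ⁻¹ = (S.ρ * S.t * S.ρ⁻¹) * (S.ρ * S.u * S.ρ⁻¹) := by group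
  rw [this, S.ρ_t, S.ρ_u, ← mul_assoc, S.ut, mul_assoc, S.uu, mul_one]
theorem u_ne : S.u ≠ 1 := fun h => S.t_ne (by
  have := S.ρ_t; rw [h, mul_inv_eq_one, mul_eq_left] at this; exact this)
theorem tu_ne : S.t * S.u ≠ 1 := fun h => S.u_ne (by
  have := S.ρ_u; rw [h, mul_inv_eq_one, mul_eq_left] at this; exact this)
theorem t_ne_u : S.t ≠ S.u := fun h => S.tu_ne (by rw [h, S.uu])
theorem t_T : S.t ∈ S.T := S.mem_T.2 ⟨rfl, S.ut.symm⟩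
theorem u_T : S.u ∈ S.T := S.mem_T.2 ⟨S.ut, rfl⟩
theorem T_le_H : S.T ≤ S.H := fun _ h => S.mem_H.2 (S.mem_T.1 h).1
theorem Z_le_T : S.Z ≤ S.T := fun _ h => (S.mem_Z_T.1 h).1
theorem Z_le_W : S.Z ≤ S.W := fun _ h => (S.mem_Z_W.1 h).1
theorem Tm_le_T : S.Tm ≤ S.T := fun _ h => (S.mem_Tm.1 h).1
theorem Wm_le_W : S.Wm ≤ S.W := fun _ h => (S.mem_Wm.1 h).1
theorem w_H : S.w ∈ S.H := S.mem_H.2 S.wt
theorem t_W : S.t ∈ S.W := S.Z_le_W S.t_Z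
theorem t_inv : S.t⁻¹ = S.t := inv_eq_of_mul_eq_one_right S.tt
theorem u_inv : S.u⁻¹ = S.u := inv_eq_of_mul_eq_one_right S.uu
theorem w_inv : S.w⁻¹ = S.w := inv_eq_of_mul_eq_one_right S.ww'
theorem t_Tm : S.t ∈ S.Tm := S.mem_Tm.2 ⟨S.t_T, by rw [S.wt, mul_inv_cancel_right, t_inv]⟩
theorem t_Wm : S.t ∈ S.Wm := S.mem_Wm.2 ⟨S.t_W, by rw [S.ut, mul_inv_cancel_right, t_inv]⟩
theorem u_not_Z : S.u ∉ S.Z := fun h => S.u_not_W (S.Z_le_W h)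
theorem w_not_T : S.w ∉ S.T := fun h => S.t_ne (by
  have := S.wu; rw [(S.mem_T.1 h).2, mul_inv_cancel_right] at this; exact mul_eq_right.1 this.symm)
theorem cyc_Z : IsCyclic S.Z := haveI := S.cyc_W; Subgroup.isCyclic_of_le S.Z_le_W

instance instCommT : IsMulCommutative S.T := S.commT
instance instCommU : IsMulCommutative S.U := S.commU
instance instCommW : IsMulCommutative S.W := haveI := S.cyc_W; IsCyclic.isMulCommutative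

theorem mem_ZU {x : G} : x ∈ S.Z ⊔ S.U ↔ ∃ z ∈ S.Z, ∃ y ∈ S.U, x = z * y := by
  refine ⟨fun h => ?_, fun ⟨z, hz, y, hy, e⟩ => e ▸ mul_mem (mem_sup_left hz) (mem_sup_right hy)⟩
  rw [sup_eq_closure] at h
  induction h using closure_induction with
  | mem x hx =>
    rcases hx with h | h
    exacts [⟨x, h, 1, one_mem _, (mul_one x).symm⟩, ⟨1, one_mem _, x, h, (one_mul x).symm⟩]
  | one => exact ⟨1, one_mem _, 1, one_mem _, (mul_one 1).symm⟩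
  | mul x y _ _ hx hy =>
    obtain ⟨a, ha, b, hb, rfl⟩ := hx
    obtain ⟨c, hc, d, hd, rfl⟩ := hy
    refine ⟨a * c, mul_mem ha hc, b * d, mul_mem hb hd, ?_⟩
    rw [mul_assoc, ← mul_assoc b, ← S.Z_comm hc (S.U_le_H hb)]; group
  | inv x _ hx =>
    obtain ⟨a, ha, b, hb, rfl⟩ := hx
    exact ⟨a⁻¹, inv_mem ha, b⁻¹, inv_mem hb, by rw [S.Z_comm ha (S.U_le_H hb), mul_inv_rev]⟩

theorem conj_T {n x : G} (h1 : n * S.t * n⁻¹ ∈ ({S.t, S.u, S.t * S.u} : Set G))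
    (h2 : n * S.u * n⁻¹ ∈ ({S.t, S.u, S.t * S.u} : Set G)) (hx : x ∈ S.T) : n⁻¹ * x * n ∈ S.T := by
  obtain ⟨a, b⟩ := S.mem_T.1 hx
  have k : ∀ v : G, n * v * n⁻¹ ∈ ({S.t, S.u, S.t * S.u} : Set G) → n⁻¹ * x * n * v = v * (n⁻¹ * x * n) :=
    fun v hv => by
      have : x * (n * v * n⁻¹) = (n * v * n⁻¹) * x := by
        rcases hv with h | h | h <;> rw [h]
        exacts [a, b, by rw [← mul_assoc, a, mul_assoc, b, mul_assoc]]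
      calc n⁻¹ * x * n * v = n⁻¹ * (x * (n * v * n⁻¹)) * n := by group
        _ = _ := by rw [this]; group
  exact S.mem_T.2 ⟨k _ h1, k _ h2⟩

theorem ρ_T {x : G} (hx : x ∈ S.T) : S.ρ * x * S.ρ⁻¹ ∈ S.T := by
  have := S.conj_T (n := S.ρ⁻¹) (Or.inr (Or.inr (by
    rw [Set.mem_singleton_iff, inv_inv]
    exact (MulAut.conj S.ρ).injective (by simp only [MulAut.conj_apply]; rw [S.ρ_tu]; group))))
    (Or.inl (by rw [← S.ρ_t]; group)) hx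
  rwa [inv_inv] at this
theorem w_T {x : G} (hx : x ∈ S.T) : S.w * x * S.w⁻¹ ∈ S.T := by
  have := S.conj_T (n := S.w) (Or.inl (by rw [S.wt, mul_inv_cancel_right])) (Or.inr (Or.inr S.wu)) hx
  rw [S.w_inv] at this ⊢; exact this
theorem u_W {x : G} (hx : x ∈ S.W) : S.u * x * S.u⁻¹ ∈ S.W := S.u_W_pow hx ▸ zpow_mem hx _

/-- the action of `ρ` on `T` -/
noncomputable def r : S.T →* S.T := Hyp.cjr S.T S.ρ fun _ => S.ρ_T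
/-- the action of `w` on `T` -/
noncomputable def s : S.T →* S.T := Hyp.cjr S.T S.w fun _ => S.w_T
/-- the action of `u` on `W` -/
noncomputable def σ : S.W →* S.W := Hyp.cjr S.W S.u fun _ => S.u_W
@[simp] theorem r_coe (x : S.T) : (S.r x : G) = S.ρ * x * S.ρ⁻¹ := rfl
@[simp] theorem s_coe (x : S.T) : (S.s x : G) = S.w * x * S.w⁻¹ := rfl
@[simp] theorem σ_coe (x : S.W) : (S.σ x : G) = S.u * x * S.u⁻¹ := rfl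
noncomputable def tT : S.T := ⟨S.t, S.t_T⟩
noncomputable def uT : S.T := ⟨S.u, S.u_T⟩
noncomputable def tW : S.W := ⟨S.t, S.t_W⟩
/-- the sum over the three `ρ`-conjugates -/
noncomputable def av (α : S.T → ℂ) : S.T → ℂ := fun x => α x + α (S.r x) + α (S.r (S.r x))
/-- `ρ` centralizes the odd part of `T` -/
def Triv : Prop := ∀ y ∈ S.T, Odd (orderOf y) → S.ρ * y = y * S.ρ

end Abs0

/-- `Abs0` and the consequences for `G` (block A6; `Abs0.toAbs` in `Lib/Br/Abs1.lean`). -/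
structure Abs (G : Type*) [Group G] extends Abs0 G where
  card_ZU : Nat.card ↥(Z ⊔ U) = q * Nat.card Z
  T_inf_ZU : T ⊓ (Z ⊔ U) = Z
  inv_H : ∀ {h : G}, h ∈ H → h * h = 1 → h ≠ 1 → h = t ∨ ∃ k ∈ H, h = k * u * k⁻¹
  inv_W : ∀ {h : G}, h ∈ W → h * h = 1 → h = 1 ∨ h = t
  inv_ZU : ∀ {h : G}, h ∈ Z ⊔ U → h * h = 1 → h = 1 ∨ h = t
  /-- the reflections inverting a transvection -/
  refl_U : ∀ {y : G}, y ∈ U → y ≠ 1 →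
    (Nat.card {i : G // i ∈ H ∧ i * i = 1 ∧ i ≠ 1 ∧ i ≠ t ∧ i * y * i⁻¹ = y⁻¹} : ℤ) = q + e * q
  lin_Tm : ∀ (β : Du H) (x : H), (x : G) ∈ Tm → β.ch x = 1
  lin_Wm : ∀ (β : Du H) (x : H), (x : G) ∈ Wm → β.ch x = 1
  lin_U : ∀ (β : Du H) (x : H), (x : G) ∈ U → β.ch x = 1
  inv_conj : ∀ {i : G}, i * i = 1 → i ≠ 1 → IsConj t i
  index_odd : Odd H.index
  lin_eq_one : ∀ (l : G →* ℂˣ), (∀ x ∈ T, l x = 1) → l = 1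
  cent_V : 𝐂(toAbs0.V) = T
  mem_V : ∀ {x : G}, x ∈ toAbs0.V ↔ x = 1 ∨ x = t ∨ x = u ∨ x = t * u
  card_V : Nat.card toAbs0.V = 4
  norm_V : 𝐍(toAbs0.V) = 𝐍(T)
  ρ_norm : ρ ∈ 𝐍(T)
  w_norm : w ∈ 𝐍(T)
  ρ3 : ρ ^ 3 ∈ T
  wρ : w * ρ * w⁻¹ * ρ ∈ T
  norm_T : ∀ {n : G}, n ∈ 𝐍(T) → ∃ x ∈ T, ∃ i < 3, n = x * ρ ^ i ∨ n = x * ρ ^ i * w
  card_norm_T : Nat.card 𝐍(T) = 6 * Nat.card T

open Classical in
/-- The class functions `Ω(α, γ) = OT α + OW γ` of `G` and the involution-count functional `A`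
(normalized by `A χ = |G:H| χ(t)² / χ(1)`). -/
structure AOm {G : Type*} [Group G] [Finite G] (S : Abs G) where
  OT : (S.T → ℂ) →ₗ[ℂ] (G → ℂ)
  OW : (S.W → ℂ) →ₗ[ℂ] (G → ℂ)
  A : (G → ℂ) →ₗ[ℂ] ℂ
  vcT : ∀ α, IsVC α → IsVC (OT α)
  vcW : ∀ γ, IsVC γ → IsVC (OW γ)
  eta : ∀ β : Du S.H, (∀ y, Odd (orderOf y) → β.ch y = 1) →
    IsVC ((2 : ℂ)⁻¹ • (OT ((Du.comp (inclusion S.T_le_H) β).ch - 1) + OW ((Du.comp (inclusion S.W_le_H) β).ch - 1)))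
  oneT : ∀ α, ⟪OT α, 1⟫ = ⟪α, 1⟫
  oneW : ∀ γ, ⟪OW γ, 1⟫ = ⟪γ, 1⟫
  gTT : ∀ α α', Van α → Van α' → ⟪OT α, OT α'⟫ = ⟪α, S.av α'⟫ + ⟪α, S.av α' ∘ S.s⟫
  gTW : ∀ α γ, Van α → Van γ → ⟪OT α, OW γ⟫ = 0
  gWW : ∀ γ γ', Van γ → Van γ' → ⟪OW γ, OW γ'⟫ = ⟪γ, γ'⟫ + ⟪γ, γ' ∘ S.σ⟫
  degT : ∀ α, Van α → OT α 1 = 0
  degW : ∀ γ, Van γ → OW γ 1 = 0
  atT : ∀ α, Van α → OT α S.t = (S.Q + 1) * S.av α S.tT
  atW : ∀ γ, Van γ → OW γ S.t = (1 - S.Q) * γ S.tW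
  A_irr : ∀ χ, IsIrr χ → A χ = (S.H.index : ℂ) * (χ S.t ^ 2 / χ 1)
  A_T : ∀ α, Van α → A (OT α) = S.Q * (S.Q + 1) * (2 * S.Q * S.av α S.tT +
    (S.Q - 1) ^ 2 * ⟪S.av α ∘ inclusion S.Tm_le_T, 1⟫)
  A_W : ∀ γ, Van γ → A (OW γ) = S.Q * (S.Q - 1) * (S.Q + 1) ^ 2 * ⟪γ ∘ inclusion S.Wm_le_W, 1⟫
  b0T : ∀ α, Van α → Two α → Blk.pi0 2 (OT α) = OT α
  b0W : ∀ γ, Van γ → Two γ → Blk.pi0 2 (OW γ) = OW γ
  valt : ∀ χ ∈ Blk.B0 G 2, χ S.t =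
    (S.Q + 1) / 2 * ∑ l : Du S.T with Two l.ch, l.ch S.tT * ⟪χ, OT (l.ch - 1)⟫ +
    (S.Q - 1) / 2 * ∑ f : Du S.W with Two f.ch, f.ch S.tW * ⟪χ, OW (1 - f.ch)⟫

end CA.Br
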