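/-
`Abs0.toAbs`: involutions, the four-group and its normalizer.
-/
import Cfsg.Agent.Lib.Br.Abs
import Cfsg.Agent.Lib.FStar.Invol
import Cfsg.Agent.Lib.G.Sylow

set_option autoImplicit false
set_option linter.unusedSectionVars false

namespace CA.Br

open Cfsg Subgroup CA CA.Ch

theorem relIndex_cent1_ncard {G : Type*} [Group G] (H : Subgroup G) (x : G) :
    (𝐂[x]).relIndex H = Set.ncard {y | ∃ h ∈ H, y = h * x * h⁻¹} := by
  letI : MulAction H G := MulAction.compHom G (MulAut.conj.comp H.subtype)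
  have h1 : MulAction.stabilizer H x = (𝐂[x]).subgroupOf H := by
    ext h; rw [MulAction.mem_stabilizer_iff, mem_subgroupOf, mem_cent1_iff]
    exact mul_inv_eq_iff_eq_mul
  rw [relIndex, ← h1, MulAction.index_stabilizer]
  congr 1; ext y
  exact ⟨fun ⟨h, e⟩ => ⟨h, h.2, e.symm⟩, fun ⟨h, hh, e⟩ => ⟨⟨h, hh⟩, e.symm⟩⟩

theorem inv_cyclic {G : Type*} [Group G] [Finite G] {A : Subgroup G} (hA : IsCyclic A) {t h : G} (ht : t ∈ A)
    (tt : t * t = 1) (t1 : t ≠ 1) (hh : h ∈ A) (h2 : h * h = 1) : h = 1 ∨ h = t := by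
  classical
  haveI := Fintype.ofFinite A
  by_contra hc
  push Not at hc
  have := IsCyclic.card_pow_eq_one_le (α := A) (n := 2) two_pos
  have h3 : ({1, ⟨t, ht⟩, ⟨h, hh⟩} : Finset A) ⊆ Finset.univ.filter fun a : A => a ^ 2 = 1 := by
    intro x hx
    simp only [Finset.mem_insert, Finset.mem_singleton] at hx
    rcases hx with rfl | rfl | rfl <;> simp [sq, Subtype.ext_iff, tt, h2]
  have h4 := Finset.card_le_card h3
  rw [Finset.card_eq_three.2 ⟨_, _, _, fun e => t1 (congrArg Subtype.val e).symm,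
    fun e => hc.1 (congrArg Subtype.val e).symm, fun e => hc.2 (congrArg Subtype.val e).symm, rfl⟩] at h4
  omega

namespace Abs0

variable {G : Type*} [Group G] [Finite G] (S : Abs0 G)

theorem Z_cent_U : S.Z ≤ 𝐂(S.U) := cents_iff.2 fun _ hz _ hy => S.Z_comm hz (S.U_le_H hy)
theorem card_ZU : Nat.card ↥(S.Z ⊔ S.U) = S.q * Nat.card S.Z := by
  rw [card_sup_of_disjoint (Or.inr (norms_of_cents S.Z_cent_U)) S.Z_inf_U, S.card_U, mul_comm]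
theorem T_inf_ZU : S.T ⊓ (S.Z ⊔ S.U) = S.Z := le_antisymm (fun x ⟨h1, h2⟩ => by
  obtain ⟨z, hz, y, hy, rfl⟩ := S.mem_ZU.1 h2
  by_cases h : y = 1
  · rwa [h, mul_one]
  · exact absurd (by simpa using h1) (S.fus_UT hz hy h (one_mem _))) (le_inf S.Z_le_T le_sup_left)
theorem W_inf_ZU : S.W ⊓ (S.Z ⊔ S.U) = S.Z := le_antisymm (fun x ⟨h1, h2⟩ => by
  obtain ⟨z, hz, y, hy, rfl⟩ := S.mem_ZU.1 h2
  by_cases h : y = 1
  · rwa [h, mul_one]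
  · exact absurd (by simpa using h1) (S.fus_UW hz hy h (one_mem _))) (le_inf S.Z_le_W le_sup_left)
theorem T_inf_U : S.T ⊓ S.U = ⊥ := eq_bot_iff.2 fun _ ⟨h1, h2⟩ =>
  S.Z_inf_U.le ⟨S.T_inf_ZU.le ⟨h1, mem_sup_right h2⟩, h2⟩
theorem W_inf_U : S.W ⊓ S.U = ⊥ := eq_bot_iff.2 fun _ ⟨h1, h2⟩ =>
  S.Z_inf_U.le ⟨S.W_inf_ZU.le ⟨h1, mem_sup_right h2⟩, h2⟩
theorem U_odd {y : G} (hy : y ∈ S.U) : Odd (orderOf y) :=
  S.odd.of_dvd_nat (S.card_U ▸ orderOf_dvd_card_of_mem hy)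
theorem U_sq {y : G} (hy : y ∈ S.U) (h : y * y = 1) : y = 1 :=
  Inv.eq_one_of_pow_coprime (m := 2) (by rw [sq, h]) (pow_orderOf_eq_one y) (Nat.coprime_two_left.2 (S.U_odd hy))
theorem U_ne_bot : S.U ≠ ⊥ := one_lt_card_iff_ne_bot'.1 (by have := S.three_le; rw [S.card_U]; omega)
theorem inv_W {h : G} (hh : h ∈ S.W) (h2 : h * h = 1) : h = 1 ∨ h = S.t :=
  inv_cyclic S.cyc_W S.t_W S.tt S.t_ne hh h2
theorem inv_ZU {h : G} (hh : h ∈ S.Z ⊔ S.U) (h2 : h * h = 1) : h = 1 ∨ h = S.t := by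
  obtain ⟨z, hz, y, hy, rfl⟩ := S.mem_ZU.1 hh
  have e : y * y = (z * z)⁻¹ := by
    rw [eq_inv_iff_mul_eq_one, ← h2, ← S.Z_comm (mul_mem hz hz) (S.U_le_H (mul_mem hy hy)), mul_assoc z y,
      ← mul_assoc y, ← S.Z_comm hz (S.U_le_H hy)]; group
  have : y = 1 := S.U_sq hy (mem_bot.1 (S.Z_inf_U.le (mem_inf.2 ⟨e ▸ inv_mem (mul_mem hz hz), mul_mem hy hy⟩)))
  rw [this, mul_one] at h2 ⊢
  exact S.inv_W (S.Z_le_W hz) h2
theorem eq_t_of_conj {h k : G} (hk : k ∈ S.H) (e : k * h * k⁻¹ = S.t) : h = S.t := by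
  have := S.mem_H.1 hk
  calc h = k⁻¹ * (k * h * k⁻¹) * k := by group
    _ = _ := by rw [e, mul_assoc, ← this]; group
theorem inv_H {h : G} (hh : h ∈ S.H) (h2 : h * h = 1) (h1 : h ≠ 1) : h = S.t ∨ ∃ k ∈ S.H, h = k * S.u * k⁻¹ := by
  obtain ⟨k, hk, e⟩ := S.classes hh
  have k2 := Inv.conj_mul_self h2 k
  have k1 : k * h * k⁻¹ ≠ 1 := fun e => h1 (by simpa using e)
  rcases e with e | e | ⟨z, hz, y, hy, -, e⟩
  · rcases S.inv_T e k2 with e | e | e | e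
    · exact absurd e k1
    · exact Or.inl (S.eq_t_of_conj hk e)
    · exact Or.inr ⟨k⁻¹, inv_mem hk, by rw [← e]; group⟩
    · exact Or.inr ⟨k⁻¹ * S.w, mul_mem (inv_mem hk) S.w_H, by
        rw [← S.wu] at e; calc h = k⁻¹ * (k * h * k⁻¹) * k := by group
          _ = _ := by rw [e]; group⟩
  · exact Or.inl (S.eq_t_of_conj hk ((S.inv_W e k2).resolve_left k1))
  · exact Or.inl (S.eq_t_of_conj hk ((S.inv_ZU (S.mem_ZU.2 ⟨z, hz, y, hy, e⟩) k2).resolve_left k1))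

/-- an involution of `A U` has the form `x y` with `x² = 1` -/
theorem inv_sd {A : Subgroup G} (hA : A ≤ 𝐍(S.U)) (hd : A ⊓ S.U = ⊥) {i : G} (hi : i ∈ A ⊔ S.U) (h2 : i * i = 1) :
    ∃ x ∈ A, ∃ y ∈ S.U, x * x = 1 ∧ i = x * y := by
  obtain ⟨x, hx, y, hy, rfl⟩ := (mem_sup_of_norm_left hA).1 hi
  refine ⟨x, hx, y, hy, mem_bot.1 (hd.le (mem_inf.2 ⟨mul_mem hx hx, ?_⟩)), rfl⟩
  have : x * x = (x⁻¹ * y * x * y)⁻¹ := by
    rw [eq_inv_iff_mul_eq_one, ← h2]; group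
  exact this ▸ inv_mem (mul_mem (conj_inv_mem_of_mem_normalizer (hA hx) hy) hy)

theorem conj_sd {x y y' : G} (hy : y ∈ S.U) (hy' : y' ∈ S.U) : x * y' * y * (x * y')⁻¹ = x * y * x⁻¹ := by
  rw [mul_assoc x, abelian_iff'.1 S.commU _ hy' _ hy]; group

theorem norm_of_inv {i y : G} (hy : y ∈ S.U) (h1 : y ≠ 1) (hi : i ∈ S.H) (e : i * y * i⁻¹ = y⁻¹) : i ∈ 𝐍(S.U) :=
  (S.fus_U (one_mem _) hy h1 (one_mem _) (inv_mem hy) hi (by simpa using e)).2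

theorem refl_U {y : G} (hy : y ∈ S.U) (h1 : y ≠ 1) :
    (Nat.card {i : G // i ∈ S.H ∧ i * i = 1 ∧ i ≠ 1 ∧ i ≠ S.t ∧ i * y * i⁻¹ = y⁻¹} : ℤ) = S.q + S.e * S.q := by
  have yy : y ≠ y⁻¹ := fun e => h1 (S.U_sq hy (by nth_rw 1 [e]; exact inv_mul_cancel y))
  have ty : ∀ {y}, y ∈ S.U → S.t * y * S.t⁻¹ = y := fun hy => by
    rw [← S.mem_H.1 (S.U_le_H hy), mul_inv_cancel_right]
  rcases S.borel with ⟨he, hB, hu⟩ | ⟨he, hB⟩
  · have hT : S.T ≤ 𝐍(S.U) := le_sup_left.trans (hB.ge.trans inf_le_right)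
    have tu : ∀ y ∈ S.U, S.t * S.u * y * (S.t * S.u)⁻¹ = y⁻¹ := fun y hy => by
      calc _ = S.t * (S.u * y * S.u⁻¹) * S.t⁻¹ := by group
        _ = _ := by rw [hu y hy, ty (inv_mem hy)]
    have key : ∀ x ∈ S.T, x * x = 1 → (∀ y ∈ S.U, x * y * x⁻¹ = y⁻¹) → ∀ y' ∈ S.U,
        x * y' ∈ S.H ∧ x * y' * (x * y') = 1 ∧ x * y' ≠ 1 ∧ x * y' ≠ S.t ∧ x * y' * y * (x * y')⁻¹ = y⁻¹ := by
      intro x hx x2 hi y' hy'
      have e := (S.conj_sd (x := x) hy hy').trans (hi y hy)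
      refine ⟨mul_mem (S.T_le_H hx) (S.U_le_H hy'), ?_, fun h => yy ?_, fun h => yy ?_, e⟩
      · have := hi y' hy'
        rw [Inv.inv_eq_self x2] at this
        rw [← mul_assoc, this, inv_mul_cancel]
      · rw [← e, h]; group
      · rw [← e, h, ty hy]
    have : Nat.card {i : G // i ∈ S.H ∧ i * i = 1 ∧ i ≠ 1 ∧ i ≠ S.t ∧ i * y * i⁻¹ = y⁻¹} =
        Nat.card (S.U ⊕ S.U) := by
      refine (Nat.card_eq_of_bijective (Sum.elim
        (fun a : S.U => ⟨S.u * a, key _ S.u_T S.uu hu _ a.2⟩)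
        (fun a : S.U => ⟨S.t * S.u * a, key _ (mul_mem S.t_T S.u_T)
          (by rw [mul_assoc, ← mul_assoc S.u, S.ut, mul_assoc, S.uu, mul_one, S.tt]) tu _ a.2⟩)) ⟨?_, ?_⟩).symm
      · have ne : ∀ a b : S.U, S.u * a ≠ S.t * S.u * b := fun a b e => S.t_ne (mem_bot.1 (S.T_inf_U.le (mem_inf.2 ⟨S.t_T, by
          rw [← S.ut, mul_assoc, mul_right_inj] at e
          rw [eq_mul_inv_of_mul_eq e.symm]; exact mul_mem a.2 (inv_mem b.2)⟩)))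
        rintro (a | a) (b | b) e <;> simp only [Sum.elim_inl, Sum.elim_inr, Subtype.mk.injEq] at e
        · rw [Subtype.ext (mul_left_cancel e)]
        · exact absurd e (ne a b)
        · exact absurd e.symm (ne b a)
        · rw [Subtype.ext (mul_left_cancel e)]
      · rintro ⟨i, hi, i2, -, -, e⟩
        obtain ⟨x, hx, y', hy', x2, rfl⟩ := S.inv_sd hT S.T_inf_U (hB.le ⟨hi, S.norm_of_inv hy h1 hi e⟩) i2
        rw [S.conj_sd hy hy'] at e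
        rcases S.inv_T hx x2 with rfl | rfl | rfl | rfl
        · exact absurd (by simpa using e) yy
        · exact absurd ((ty hy).symm.trans e) yy
        · exact ⟨Sum.inl ⟨y', hy'⟩, rfl⟩
        · exact ⟨Sum.inr ⟨y', hy'⟩, rfl⟩
    rw [this, Nat.card_sum, S.card_U, he]; push_cast; ring
  · have hW : S.W ≤ 𝐍(S.U) := le_sup_left.trans (hB.ge.trans inf_le_right)
    have : IsEmpty {i : G // i ∈ S.H ∧ i * i = 1 ∧ i ≠ 1 ∧ i ≠ S.t ∧ i * y * i⁻¹ = y⁻¹} := ⟨by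
      rintro ⟨i, hi, i2, -, -, e⟩
      obtain ⟨x, hx, y', hy', x2, rfl⟩ := S.inv_sd hW S.W_inf_U (hB.le ⟨hi, S.norm_of_inv hy h1 hi e⟩) i2
      rw [S.conj_sd hy hy'] at e
      rcases S.inv_W hx x2 with rfl | rfl
      · exact absurd (by simpa using e) yy
      · exact absurd ((ty hy).symm.trans e) yy⟩
    rw [Nat.card_of_isEmpty, he]; simp

theorem lin_comm (β : Du S.H) {x : S.H} {a b : G} (ha : a ∈ S.H) (hb : b ∈ S.H) (e : (x : G) = a * b * a⁻¹ * b⁻¹) :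
    β.ch x = 1 := by
  have : x = ⟨a, ha⟩ * ⟨b, hb⟩ * (⟨a, ha⟩ : S.H)⁻¹ * (⟨b, hb⟩ : S.H)⁻¹ := Subtype.ext e
  rw [this, Du.ch_apply, map_mul, map_mul, map_mul, map_inv, map_inv, mul_inv_cancel_comm, mul_inv_cancel, Units.val_one]
theorem lin_Tm (β : Du S.H) (x : S.H) (h : (x : G) ∈ S.Tm) : β.ch x = 1 :=
  let ⟨_, hy, e⟩ := S.Tm_h90 h; S.lin_comm β S.w_H (S.T_le_H hy) e
theorem lin_Wm (β : Du S.H) (x : S.H) (h : (x : G) ∈ S.Wm) : β.ch x = 1 :=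
  let ⟨_, hy, e⟩ := S.Wm_h90 h; S.lin_comm β (S.T_le_H S.u_T) (S.W_le_H hy) e
theorem lin_U (β : Du S.H) (x : S.H) (h : (x : G) ∈ S.U) : β.ch x = 1 := by
  by_cases h1 : (x : G) = 1
  · rw [show x = 1 from Subtype.ext h1, Du.ch_apply_one]
  obtain ⟨m, hm⟩ := S.U_odd h
  have hy := pow_mem h m
  have e : (x : G) = ((x : G) ^ m)⁻¹ * ((x : G) ^ m)⁻¹ := by
    rw [← mul_inv_rev, eq_inv_iff_mul_eq_one, ← pow_add, ← pow_succ', ← two_mul, ← hm, pow_orderOf_eq_one]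
  have y1 : (x : G) ^ m ≠ 1 := fun e' => h1 (by rw [e, e']; simp)
  obtain ⟨k, hk, e'⟩ := S.U_trans hy y1 (inv_mem hy) (inv_ne_one.2 y1)
  exact S.lin_comm β hk (S.U_le_H hy) (by rw [e', ← e])

/-- the involutions of `H` are conjugate to `t` in every overgroup of `H` and `ρ` -/
theorem inv_conj_H {K : Subgroup G} (hK : S.H ≤ K) (hρ : S.ρ ∈ K) {i : G} (hi : i ∈ S.H) (h2 : i * i = 1)
    (h1 : i ≠ 1) : ∃ k ∈ K, i = k * S.t * k⁻¹ := by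
  rcases S.inv_H hi h2 h1 with e | ⟨k, hk, e⟩
  · exact ⟨1, one_mem _, by simpa using e⟩
  · exact ⟨k * S.ρ, mul_mem (hK hk) hρ, by rw [e, ← S.ρ_t]; group⟩
theorem inv_conj_in {K : Subgroup G} (hK : S.H ≤ K) (hρ : S.ρ ∈ K) {i : G} (hi : i ∈ K) (h2 : i * i = 1)
    (h1 : i ≠ 1) : ∃ k ∈ K, i = k * S.t * k⁻¹ := by
  by_cases h : Odd (orderOf (S.t * i))
  · obtain ⟨k, e⟩ := Inv.conj_of_odd S.tt h2 h
    exact ⟨_, zpow_mem (mul_mem (hK (S.T_le_H S.t_T)) hi) k, e.symm⟩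
  · obtain ⟨z, -, z2, z1, c1, c2, -⟩ := Inv.exists_central_of_even S.tt h2 h
    obtain ⟨k, hk, rfl⟩ := S.inv_conj_H hK hρ (S.mem_H.2 c1.symm) z2 z1
    obtain ⟨k', hk', e⟩ := S.inv_conj_H hK hρ (i := k⁻¹ * i * k⁻¹⁻¹) (S.mem_H.2 (by
      calc k⁻¹ * i * k⁻¹⁻¹ * S.t = k⁻¹ * (i * (k * S.t * k⁻¹)) * k := by group
        _ = _ := by rw [c2.eq]; group)) (Inv.conj_mul_self h2 _) (fun e => h1 (conj_eq_one_iff.1 e))
    exact ⟨k * k', mul_mem hk hk', by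
      calc i = k * (k⁻¹ * i * k⁻¹⁻¹) * k⁻¹ := by group
        _ = _ := by rw [e]; group⟩
theorem inv_conj {i : G} (h2 : i * i = 1) (h1 : i ≠ 1) : IsConj S.t i :=
  let ⟨k, _, e⟩ := S.inv_conj_in le_top (mem_top _) (mem_top i) h2 h1; isConj_iff.2 ⟨k, e.symm⟩

theorem index_odd : Odd S.H.index := by
  haveI : Fact (Nat.Prime 2) := ⟨Nat.prime_two⟩
  obtain ⟨P⟩ : Nonempty (Sylow 2 G) := inferInstance
  have hP : Nontrivial P := (P : Subgroup G).nontrivial_iff_ne_bot.2 (P.ne_bot_of_dvd_card (by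
    rw [← Inv.orderOf_eq_two S.tt S.t_ne]; exact orderOf_dvd_natCard _))
  have hc := P.isPGroup'.center_nontrivial
  obtain ⟨z, hz⟩ := exists_prime_orderOf_dvd_card' (G := center P) 2 (by
    obtain ⟨n, hn, e⟩ := (P.isPGroup'.to_subgroup (center P)).nontrivial_iff_card.1 hc
    rw [e]; exact dvd_pow_self _ hn.ne')
  have h2 : orderOf ((z : P) : G) = 2 := by rw [orderOf_coe, orderOf_coe, hz]
  obtain ⟨k, e⟩ := isConj_iff.1 (S.inv_conj (Inv.mul_self_of_orderOf h2) (Inv.ne_one_of_orderOf h2))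
  have hle : (P : Subgroup G) ≤ cj k S.H := fun x hx => by
    rw [S.H_eq, cj_centralizer_singleton, e, mem_cent1_iff]
    exact congrArg Subtype.val (mem_center_iff.1 z.2 ⟨x, hx⟩)
  rw [← index_cj k, ← Nat.not_even_iff_odd, even_iff_two_dvd]
  exact fun h => P.not_dvd_index (h.trans (index_dvd_of_le hle))

theorem mem_T_of {x : G} (h1 : x * S.t * x⁻¹ = S.t) (h2 : x * S.u * x⁻¹ = S.u) : x ∈ S.T :=
  S.mem_T.2 ⟨mul_inv_eq_iff_eq_mul.1 h1, mul_inv_eq_iff_eq_mul.1 h2⟩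
theorem w_t : S.w * S.t * S.w⁻¹ = S.t := by rw [S.wt, mul_inv_cancel_right]
theorem w_tu : S.w * (S.t * S.u) * S.w⁻¹ = S.u := by
  calc _ = S.w * S.t * S.w⁻¹ * (S.w * S.u * S.w⁻¹) := by group
    _ = _ := by rw [S.w_t, S.wu, ← mul_assoc, S.tt, one_mul]
theorem conj_mul' (a b x : G) : a * b * x * (a * b)⁻¹ = a * (b * x * b⁻¹) * a⁻¹ := by group
theorem ρ3 : S.ρ ^ 3 ∈ S.T := by
  rw [pow_three]
  exact S.mem_T_of (by rw [conj_mul', conj_mul', S.ρ_t, S.ρ_u, S.ρ_tu]) (by rw [conj_mul', conj_mul', S.ρ_u, S.ρ_tu, S.ρ_t])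
theorem wρ : S.w * S.ρ * S.w⁻¹ * S.ρ ∈ S.T := by
  rw [S.w_inv]
  exact S.mem_T_of (by rw [conj_mul', conj_mul', conj_mul', S.ρ_t, S.wu, S.ρ_tu, S.w_t])
    (by rw [conj_mul', conj_mul', conj_mul', S.ρ_u, S.w_tu, S.ρ_u, S.w_tu])

theorem eq_top_of_normal {K : Subgroup G} [hn : K.Normal] (hK : S.H ≤ K) (hρ : S.ρ ∈ K) : K = ⊤ :=
  eq_top_iff.2 fun g _ => by
    obtain ⟨k, hk, e⟩ := S.inv_conj_in hK hρ (hn.conj_mem _ (hK (S.T_le_H S.t_T)) g) (Inv.conj_mul_self S.tt g)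
      (fun e => S.t_ne (by simpa using e))
    have : k⁻¹ * g ∈ S.H := S.mem_H.2 (by
      calc k⁻¹ * g * S.t = k⁻¹ * (g * S.t * g⁻¹) * g := by group
        _ = _ := by rw [e]; group)
    simpa using mul_mem hk (hK this)

theorem lin_eq_one (l : G →* ℂˣ) (h : ∀ x ∈ S.T, l x = 1) : l = 1 := by
  have h1 : Du.mk (l.comp S.H.subtype) = 1 := S.inj_T S.T_le_H (by
    rw [map_one]; exact Du.ext' fun x => congrArg Units.val (h x x.2))
  have h3 := h _ S.ρ3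
  have h2 := h _ S.wρ
  simp only [map_mul, map_inv, map_pow, mul_inv_cancel_comm] at h2 h3
  have := S.eq_top_of_normal (K := l.ker) (fun x hx => (DFunLike.congr_fun (congrArg Du.hom h1) (⟨x, hx⟩ : S.H) :))
    (by rw [MonoidHom.mem_ker, ← h3, pow_three, h2, mul_one])
  exact MonoidHom.ext fun x => (this.ge (mem_top x) : x ∈ l.ker)

theorem cent_V : 𝐂(S.V) = S.T := by
  ext x; rw [V, cent_sup, cent_zpowers, cent_zpowers, mem_inf, mem_cent1_iff, mem_cent1_iff, S.mem_T]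
theorem V_le_T : S.V ≤ S.T := sup_le (zpowers_le.2 S.t_T) (zpowers_le.2 S.u_T)
theorem t_V : S.t ∈ S.V := mem_sup_left (mem_zpowers _)
theorem u_V : S.u ∈ S.V := mem_sup_right (mem_zpowers _)
theorem mem_zp {a x : G} (h : a * a = 1) (hx : x ∈ zpowers a) : x = 1 ∨ x = a := by
  obtain ⟨n, rfl⟩ := hx
  rcases Int.even_or_odd' n with ⟨k, rfl | rfl⟩
  · exact Or.inl (by simp [zpow_mul, zpow_ofNat, sq, h])
  · exact Or.inr (by simp [zpow_add, zpow_mul, zpow_ofNat, sq, h])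
theorem mem_V {x : G} : x ∈ S.V ↔ x = 1 ∨ x = S.t ∨ x = S.u ∨ x = S.t * S.u := by
  refine ⟨fun h => ?_, ?_⟩
  · obtain ⟨a, ha, b, hb, rfl⟩ := (mem_sup_of_norm_left (norms_of_abelian S.commT (zpowers_le.2 S.u_T)
      (zpowers_le.2 S.t_T))).1 h
    rcases mem_zp S.tt ha with rfl | rfl <;> rcases mem_zp S.uu hb with rfl | rfl <;> simp
  · rintro (rfl | rfl | rfl | rfl)
    exacts [one_mem _, S.t_V, S.u_V, mul_mem S.t_V S.u_V]
theorem mem_V' {x : G} : x ∈ S.V ↔ x ∈ S.T ∧ x * x = 1 := by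
  refine ⟨fun h => ⟨S.V_le_T h, ?_⟩, fun h => S.mem_V.2 (S.inv_T h.1 h.2)⟩
  rcases S.mem_V.1 h with rfl | rfl | rfl | rfl
  exacts [one_mul 1, S.tt, S.uu, by rw [← S.wu]; exact Inv.conj_mul_self S.uu _]
theorem card_V : Nat.card S.V = 4 := by
  rw [V, card_sup_of_disjoint (Or.inr (norms_of_abelian S.commT (zpowers_le.2 S.u_T) (zpowers_le.2 S.t_T))),
    Nat.card_zpowers, Nat.card_zpowers, Inv.orderOf_eq_two S.tt S.t_ne, Inv.orderOf_eq_two S.uu S.u_ne]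
  refine eq_bot_iff.2 fun x ⟨h1, h2⟩ => ?_
  rcases mem_zp S.tt h1 with rfl | rfl
  · exact one_mem _
  · exact (mem_zp S.uu h2).resolve_right S.t_ne_u
theorem norm_V : 𝐍(S.V) = 𝐍(S.T) := le_antisymm (S.cent_V ▸ normalizer_le_normalizer_centralizer _) fun n hn =>
  mem_normalizer_of_cj_le (cj_le_iff'.2 fun _ hx => S.mem_V'.2 ⟨conj_mem_of_mem_normalizer hn (S.mem_V'.1 hx).1,
    Inv.conj_mul_self (S.mem_V'.1 hx).2 _⟩)
theorem ρ_norm : S.ρ ∈ 𝐍(S.T) := mem_normalizer_of_cj_le (cj_le_iff'.2 fun _ => S.ρ_T)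
theorem w_norm : S.w ∈ 𝐍(S.T) := mem_normalizer_of_cj_le (cj_le_iff'.2 fun _ => S.w_T)
theorem norm_t {n : G} (hn : n ∈ 𝐍(S.T)) : n * S.t * n⁻¹ = S.t ∨ n * S.t * n⁻¹ = S.u ∨ n * S.t * n⁻¹ = S.t * S.u :=
  (S.inv_T (conj_mem_of_mem_normalizer hn S.t_T) (Inv.conj_mul_self S.tt n)).resolve_left
    fun e => S.t_ne (by simpa using e)
theorem norm_T_H {n : G} (hn : n ∈ 𝐍(S.T)) (h : n ∈ S.H) : n ∈ S.T ∨ S.w * n ∈ S.T :=
  S.fus_T S.u_T S.u_not_Z h (conj_mem_of_mem_normalizer hn S.u_T)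
theorem norm_T {n : G} (hn : n ∈ 𝐍(S.T)) : ∃ x ∈ S.T, ∃ i < 3, n = x * S.ρ ^ i ∨ n = x * S.ρ ^ i * S.w := by
  obtain ⟨i, hi, e⟩ : ∃ i < 3, n * S.t * n⁻¹ = S.ρ ^ i * S.t * (S.ρ ^ i)⁻¹ := by
    rcases S.norm_t hn with e | e | e
    exacts [⟨0, by omega, by simpa using e⟩, ⟨1, by omega, by rw [pow_one, S.ρ_t, e]⟩,
      ⟨2, by omega, by rw [sq, conj_mul', S.ρ_t, S.ρ_u, e]⟩]
  have hr := pow_mem S.ρ_norm i
  have hm : (S.ρ ^ i)⁻¹ * n ∈ S.H := S.mem_H.2 (by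
    calc (S.ρ ^ i)⁻¹ * n * S.t = (S.ρ ^ i)⁻¹ * (n * S.t * n⁻¹) * n := by group
      _ = _ := by rw [e]; group)
  rcases S.norm_T_H (mul_mem (inv_mem hr) hn) hm with h | h
  · exact ⟨_, conj_mem_of_mem_normalizer hr h, i, hi, Or.inl (by group)⟩
  · refine ⟨_, conj_mem_of_mem_normalizer hr (conj_mem_of_mem_normalizer S.w_norm h), i, hi, Or.inr ?_⟩
    rw [← mul_assoc S.w S.w, S.ww']; group
theorem card_norm_T : Nat.card 𝐍(S.T) = 6 * Nat.card S.T := by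
  have h3 : S.H.relIndex 𝐍(S.T) = 3 := by
    rw [S.H_eq, relIndex_cent1_ncard, Set.ncard_eq_three]
    refine ⟨S.t, S.u, S.t * S.u, S.t_ne_u, fun e => S.u_ne (left_eq_mul.1 e), fun e => S.t_ne (right_eq_mul.1 e), ?_⟩
    ext y
    refine ⟨fun ⟨n, hn, e⟩ => e ▸ S.norm_t hn, ?_⟩
    rintro (rfl | rfl | rfl)
    exacts [⟨1, one_mem _, by simp⟩, ⟨_, S.ρ_norm, S.ρ_t.symm⟩,
      ⟨_, mul_mem S.ρ_norm S.ρ_norm, by rw [conj_mul', S.ρ_t, S.ρ_u]⟩]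
  have h2 : S.T.relIndex (S.H ⊓ 𝐍(S.T)) = 2 := by
    rw [relIndex, index_eq_two_iff]
    refine ⟨⟨S.w, S.w_H, S.w_norm⟩, fun b => ?_⟩
    simp only [mem_subgroupOf, coe_mul]
    by_cases hb : (b : G) ∈ S.T
    · exact Or.inr ⟨hb, fun h => S.w_not_T ((mul_mem_cancel_left hb).1 h)⟩
    · refine Or.inl ⟨?_, hb⟩
      have := conj_mem_of_mem_normalizer S.w_norm ((S.norm_T_H b.2.2 b.2.1).resolve_left hb)
      rwa [← mul_assoc, S.ww', one_mul, S.w_inv] at this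
  rw [← card_inf_mul_relIndex S.H, h3, ← card_mul_relIndex (le_inf S.T_le_H le_normalizer), h2]; ring

/-- all the facts -/
noncomputable def toAbs : Abs G :=
  { S with
    card_ZU := S.card_ZU, T_inf_ZU := S.T_inf_ZU, inv_H := S.inv_H, inv_W := S.inv_W, inv_ZU := S.inv_ZU
    refl_U := S.refl_U, lin_Tm := S.lin_Tm, lin_Wm := S.lin_Wm, lin_U := S.lin_U, inv_conj := S.inv_conj
    index_odd := S.index_odd, lin_eq_one := S.lin_eq_one, cent_V := S.cent_V, mem_V := S.mem_V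
    card_V := S.card_V, norm_V := S.norm_V, ρ_norm := S.ρ_norm, w_norm := S.w_norm, ρ3 := S.ρ3, wρ := S.wρ
    norm_T := S.norm_T, card_norm_T := S.card_norm_T }

@[simp] theorem toAbs_toAbs0 : S.toAbs.toAbs0 = S := rfl

end Abs0

end CA.Br
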