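/-
Brauer's characterization of `PSL₃(q)` and `M₁₁`, block B: general tools.
-/
import Cfsg.Agent.Lib.Br.Defs

set_option autoImplicit false
set_option linter.unusedSectionVars false
set_option maxHeartbeats 400000

namespace CA.Br

open Cfsg Subgroup CA CA.Ch Finset ComplexConjugate

section Ab
variable {W : Type*} [Group W] [Finite W] [IsMulCommutative W]

open Classical in
/-- the annihilator as a finset -/
noncomputable def annF (K : Subgroup W) : Finset (Du W) := univ.filter (· ∈ ann K)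

theorem mem_annF {K : Subgroup W} {b : Du W} : b ∈ annF K ↔ b ∈ ann K := by simp [annF]

theorem card_annF (K : Subgroup W) : (annF K).card = K.index := by
  classical
  rw [← card_ann K, Nat.card_eq_fintype_card, Fintype.card_subtype]
  congr 1

theorem sum_annF_mem {K : Subgroup W} {x : W} (h : x ∈ K) : ∑ b ∈ annF K, b.ch x = K.index := by
  rw [Finset.sum_congr rfl (g := fun _ => (1 : ℂ)) fun b hb => mem_ann.mp (mem_annF.mp hb) x h]
  simp [card_annF]

theorem sum_annF_not_mem {K : Subgroup W} {x : W} (h : x ∉ K) : ∑ b ∈ annF K, b.ch x = 0 := by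
  obtain ⟨a, ha, hx⟩ := Du.exists_ne_one K h
  have e : ∑ b ∈ annF K, (a * b).ch x = ∑ b ∈ annF K, b.ch x := by
    refine Finset.sum_bij (fun b _ => a * b) (fun b hb => mem_annF.mpr ((ann K).mul_mem ha (mem_annF.mp hb)))
      (fun b _ c _ h => mul_left_cancel h) (fun c hc => ⟨a⁻¹ * c,
        mem_annF.mpr ((ann K).mul_mem ((ann K).inv_mem ha) (mem_annF.mp hc)), by simp⟩) fun _ _ => rfl
  simp only [Du.ch_mul, Pi.mul_apply, ← Finset.mul_sum] at e
  by_contra h0
  exact hx (mul_right_cancel₀ h0 (e.trans (one_mul _).symm))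

theorem conj_ch (a : Du W) (x : W) : conj (a.ch x) = a⁻¹.ch x := by rw [Du.ch_inv]; rfl

theorem ch_mul_conj (a : Du W) (x : W) : a.ch x * conj (a.ch x) = 1 := by
  rw [conj_ch, ← Pi.mul_apply, ← Du.ch_mul, mul_inv_cancel]; rfl

theorem conj_ch_inv (a : Du W) {x : W} (h : x * x = 1) : conj (a.ch x) = a.ch x := by
  have h1 : a.ch x * a.ch x = 1 := by rw [← Du.ch_apply_mul, h, Du.ch_apply_one]
  exact mul_left_cancel₀ (a.ch_ne_zero x) ((ch_mul_conj a x).trans h1.symm)

variable (W) in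
/-- the elements of odd order of an abelian group -/
def oddK : Subgroup W where
  carrier := {x | Odd (orderOf x)}
  one_mem' := by simp
  mul_mem' := fun {a b} ha hb => Odd.of_dvd_nat (Odd.mul ha hb)
    (Commute.orderOf_mul_dvd_mul_orderOf (IsMulCommutative.is_comm.comm a b))
  inv_mem' := fun {a} ha => by simpa using ha

theorem mem_oddK {x : W} : x ∈ oddK W ↔ Odd (orderOf x) := Iff.rfl

theorem odd_card_oddK : Odd (Nat.card (oddK W)) := by
  rw [← Nat.not_even_iff_odd, even_iff_two_dvd]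
  intro h
  obtain ⟨x, hx⟩ := exists_prime_orderOf_dvd_card' 2 h
  have := x.2
  rw [mem_oddK, Subgroup.orderOf_coe, hx] at this
  exact absurd this (by decide)

theorem two_iff {l : Du W} : Two l.ch ↔ l ∈ ann (oddK W) := by
  rw [mem_ann]
  exact ⟨fun h y hy => by simpa using h 1 y hy, fun h x y hy => by rw [Du.ch_apply_mul, h y hy, mul_one]⟩

theorem piElt_two_iff {A : Type*} [Group A] [Finite A] {x : A} : PiElt {2}ᶜ x ↔ Odd (orderOf x) := by
  rw [piElt_def, ← Nat.not_even_iff_odd, even_iff_two_dvd]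
  exact piNum_compl_singleton Nat.prime_two

theorem ip_shift (g l : W → ℂ) (y : W) : ⟪fun x => g (x * y), fun x => l (x * y)⟫ = ⟪g, l⟫ :=
  ip_comp_equiv (Equiv.mulRight y) g l

theorem ip_two_eq_zero {g : W → ℂ} (hg : Two g) {l : Du W} (hl : ¬ Two l.ch) : ⟪g, l.ch⟫ = 0 := by
  rw [two_iff, mem_ann] at hl
  push_neg at hl
  obtain ⟨y, hy, h1⟩ := hl
  have h := ip_shift g l.ch y
  have e1 : (fun x => g (x * y)) = g := funext fun x => hg x y hy
  have e2 : (fun x => l.ch (x * y)) = l.ch y • l.ch := funext fun x => by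
    rw [Du.ch_apply_mul, mul_comm]; rfl
  rw [e1, e2, ip_smul_right] at h
  by_contra h0
  have := mul_right_cancel₀ h0 (h.trans (one_mul _).symm)
  exact h1 (by simpa using congrArg conj this)

theorem two_regI_mul : ∀ l : Du W, Two l.ch → ⟪l.ch, Blk.regI W 2⟫ = (Nat.card (oddK W) : ℂ) / Nat.card W := by
  classical
  intro l hl
  have := Fintype.ofFinite W
  rw [ip_def, div_eq_inv_mul]
  congr 1
  rw [Nat.card_eq_fintype_card, Fintype.card_subtype, Finset.card_filter, Nat.cast_sum]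
  refine Finset.sum_congr rfl fun x _ => ?_
  split_ifs with h
  · rw [Blk.regI_of (piElt_two_iff.2 h), mem_ann.1 (two_iff.1 hl) x h]; simp
  · rw [Blk.regI_of_not fun h' => h (piElt_two_iff.1 h')]; simp

theorem two_regI : Two (Blk.regI W 2) := fun x y hy => by
  have : Odd (orderOf (x * y)) ↔ Odd (orderOf x) := (oddK W).mul_mem_cancel_right hy
  by_cases h : Odd (orderOf x)
  · rw [Blk.regI_of (piElt_two_iff.2 h), Blk.regI_of (piElt_two_iff.2 (this.2 h))]
  · rw [Blk.regI_of_not fun h' => h (piElt_two_iff.1 h'),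
      Blk.regI_of_not fun h' => h (this.1 (piElt_two_iff.1 h'))]

theorem not_two_regI {l : Du W} (hl : ¬ Two l.ch) : ⟪l.ch, Blk.regI W 2⟫ = 0 :=
  ip_eq_zero_symm (ip_two_eq_zero two_regI hl)

theorem expand_two {g : W → ℂ} (hg : Two g) : g = ∑ l ∈ annF (oddK W), ⟪g, l.ch⟫ • l.ch := by
  conv_lhs => rw [Du.expand g]
  refine (Finset.sum_subset (Finset.subset_univ _) fun l _ hl => ?_).symm
  rw [ip_two_eq_zero hg fun h => hl (mem_annF.2 (two_iff.1 h)), zero_smul]

end Ab

section Ind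
variable {G : Type*} [Group G] [Finite G] {A : Type*} [Group A] [Finite A]

open Classical in
theorem sum_conj [Fintype G] (b : G) (φ : G → ℂ) :
    ∑ x : G, φ (x * b * x⁻¹) = Nat.card 𝐂[b] * ∑ c with IsConj b c, φ c := by
  rw [← Finset.sum_fiberwise_of_maps_to (s := univ) (t := univ.filter (IsConj b)) (g := fun x => x * b * x⁻¹)
    (fun x _ => by simp only [Finset.mem_filter, Finset.mem_univ, true_and]; exact isConj_iff.2 ⟨x, rfl⟩),
    Finset.mul_sum]
  refine Finset.sum_congr rfl fun c hc => ?_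
  obtain ⟨y, rfl⟩ := isConj_iff.1 (Finset.mem_filter.1 hc).2
  rw [Finset.sum_congr rfl (g := fun _ => φ (y * b * y⁻¹)) fun x hx => by rw [(Finset.mem_filter.1 hx).2],
    Finset.sum_const, nsmul_eq_mul]
  congr 2
  rw [Nat.card_eq_fintype_card, Fintype.card_subtype]
  refine Finset.card_bij (fun x _ => y⁻¹ * x) (fun x hx => ?_) (fun x _ x' _ h => mul_left_cancel h)
    fun c hc => ⟨y * c, ?_, by simp⟩
  · have := (Finset.mem_filter.1 hx).2
    simp only [Finset.mem_filter, Finset.mem_univ, true_and, mem_centralizer_singleton_iff]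
    calc y⁻¹ * x * b = y⁻¹ * (x * b * x⁻¹) * x := by group
      _ = _ := by rw [this]; group
  · have := mem_centralizer_singleton_iff.1 (Finset.mem_filter.1 hc).2
    simp only [Finset.mem_filter, Finset.mem_univ, true_and]
    calc y * c * b * (y * c)⁻¹ = y * (c * b) * c⁻¹ * y⁻¹ := by group
      _ = _ := by rw [this]; group

open Classical in
theorem ind_eq_sum [Fintype A] (f : A →* G) [Emb f] (θ : A → ℂ) (b : G) :
    ind f θ b = (Nat.card 𝐂[b] : ℂ) / Nat.card A * ∑ a with IsConj b (f a), θ a := by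
  have := Fintype.ofFinite G
  rw [ind_def', sum_conj b (ext0 f θ), Finset.sum_filter, Finset.sum_filter, ← mul_assoc, mul_comm _⁻¹,
    ← div_eq_mul_inv]
  congr 1
  have := sum_ext0 f θ fun c => if IsConj b c then 1 else 0
  simp only [mul_ite, mul_one, mul_zero] at this
  convert this

theorem ind_central (f : A →* G) [Emb f] (θ : A → ℂ) (a : A) (h : ∀ g, f a * g = g * f a) :
    ind f θ (f a) = (Nat.card G : ℂ) / Nat.card A * θ a := by
  classical
  have := Fintype.ofFinite A
  rw [ind_eq_sum, show 𝐂[f a] = ⊤ from eq_top_iff.2 fun g _ => mem_centralizer_singleton_iff.2 (h g).symm,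
    Subgroup.card_top]
  congr 1
  refine Finset.sum_eq_single_of_mem a (Finset.mem_filter.2 ⟨Finset.mem_univ _, IsConj.refl _⟩) ?_
  intro c hc hne
  obtain ⟨y, hy⟩ := isConj_iff.1 (Finset.mem_filter.1 hc).2
  exact absurd ((emb_eq_iff f).1 (by rw [← hy, ← h, mul_inv_cancel_right])) hne

theorem ind_two (f : A →* G) [Emb f] (θ : A → ℂ) {a a' : A} (hne : a ≠ a') (hc : Nat.card 𝐂[f a] = Nat.card A)
    (h : ∀ c, IsConj (f a) (f c) ↔ c = a ∨ c = a') : ind f θ (f a) = θ a + θ a' := by
  classical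
  have := Fintype.ofFinite A
  rw [ind_eq_sum, hc, div_self (by exact_mod_cast Nat.card_pos.ne'), one_mul, ← Finset.sum_pair hne]
  exact Finset.sum_congr (by
    ext c; simp only [Finset.mem_filter, Finset.mem_univ, true_and, h, Finset.mem_insert, Finset.mem_singleton])
    fun _ _ => rfl

open Classical in
/-- number of factorizations into two conjugates of `t` -/
noncomputable def cnt (t g : G) : ℂ := Set.ncard {i | IsConj t i ∧ IsConj t (i⁻¹ * g)}

theorem isCF_cnt (t : G) : IsCF (cnt t) := fun a b => by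
  unfold cnt
  congr 1
  have k : ∀ x, IsConj t (b * x * b⁻¹) ↔ IsConj t x := fun x =>
    ⟨fun h => h.trans (isConj_iff.2 ⟨b, rfl⟩).symm, fun h => h.trans (isConj_iff.2 ⟨b, rfl⟩)⟩
  symm
  refine Set.ncard_congr (fun x _ => b * x * b⁻¹) (fun x hx => ⟨(k _).2 hx.1, ?_⟩)
    (fun x y _ _ h => by simpa using h) fun y hy => ⟨b⁻¹ * y * b, ⟨(k _).1 ?_, (k _).1 ?_⟩, by group⟩
  · rw [show (b * x * b⁻¹)⁻¹ * (b * a * b⁻¹) = b * (x⁻¹ * a) * b⁻¹ by group]; exact (k _).2 hx.2
  · rw [show b * (b⁻¹ * y * b) * b⁻¹ = y by group]; exact hy.1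
  · rw [show b * ((b⁻¹ * y * b)⁻¹ * a) * b⁻¹ = y⁻¹ * (b * a * b⁻¹) by group]; exact hy.2

theorem ip_cnt (t : G) {χ : G → ℂ} (h : IsIrr χ) :
    ⟪χ, cnt t⟫ = ((𝐂[t]).index : ℂ) / Nat.card 𝐂[t] * (χ t ^ 2 / χ 1) := by
  classical
  have := Fintype.ofFinite G
  have hc : (Nat.card 𝐂[t] : ℂ) ≠ 0 := by exact_mod_cast Nat.card_pos.ne'
  have hi : ((𝐂[t]).index : ℂ) ≠ 0 := by exact_mod_cast Subgroup.index_ne_zero_of_finite
  have hG : (Nat.card G : ℂ) = Nat.card 𝐂[t] * (𝐂[t]).index := by exact_mod_cast (Subgroup.card_mul_index _).symm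
  have n0 := h.ne_zero_one
  have e1 : ∑ g, χ g * conj (cnt t g) = ∑ j with IsConj t j, ∑ i with IsConj t i, χ (i * j) := by
    have : ∀ g, cnt t g = ∑ i with IsConj t i, if IsConj t (i⁻¹ * g) then 1 else 0 := fun g => by
      rw [cnt, Finset.sum_boole, Finset.filter_filter, Set.ncard_eq_toFinset_card']; simp
    simp only [this, map_sum, Finset.mul_sum]
    rw [Finset.sum_comm, Finset.sum_comm (s := univ.filter (IsConj t)) (t := univ.filter (IsConj t))]
    refine Finset.sum_congr rfl fun i _ => ?_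
    rw [Finset.sum_filter]
    refine (Fintype.sum_equiv (Equiv.mulLeft i) _ _ fun j => ?_).symm
    simp only [Equiv.coe_mulLeft, inv_mul_cancel_left]
    split_ifs <;> simp
  have e2 : ∀ j, IsConj t j → χ 1 * (Nat.card 𝐂[t] * ∑ i with IsConj t i, χ (i * j)) = Nat.card G * χ t ^ 2 := by
    intro j hj
    rw [← sum_conj t fun i => χ (i * j), Blk.sum_conj_irr h, ← h.isCF.of_isConj hj, sq]
  have e3 : ∑ j with IsConj t j, (1 : ℂ) = (𝐂[t]).index := by
    have := sum_conj t fun _ => (1 : ℂ)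
    rw [Finset.sum_const, Finset.card_univ, nsmul_eq_mul, mul_one, ← Nat.card_eq_fintype_card, hG] at this
    exact (mul_left_cancel₀ hc this).symm
  rw [ip_def, e1, Finset.sum_congr rfl (g := fun _ => 1 * (Nat.card G * χ t ^ 2 / (χ 1 * Nat.card 𝐂[t])))
    fun j hj => by rw [← e2 j (Finset.mem_filter.1 hj).2]; field_simp, ← Finset.sum_mul, e3, hG]
  field_simp

theorem constt_zpow (π : Set ℕ) (x : G) (k : ℤ) : constt π (x ^ k) = constt π x ^ k := by
  have h := constt_comm π πᶜ x
  refine constt_unique ((constt_piElt π x).zpow k) ((constt_piElt πᶜ x).zpow k) ?_ ?_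
  · exact (Commute.zpow_zpow h k k)
  · rw [← Commute.mul_zpow h, constt_mul_compl]

end Ind

end CA.Br
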