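/-
Brauer's characterization of `PSL₃(q)` and `M₁₁`, block B: class functions of `H = C(t)`.
-/
import Cfsg.Agent.Lib.Br.Om1
import Cfsg.Agent.Lib.Br.Abs

set_option autoImplicit false
set_option linter.unusedSectionVars false
set_option maxHeartbeats 400000

namespace CA.Br.OmB

open Cfsg Subgroup CA CA.Ch Finset ComplexConjugate

variable {G : Type*} [Group G] [Finite G] (S : Abs G)

theorem exists_y0 : ∃ y : S.U, y ≠ 1 := by
  have : Nontrivial S.U := Finite.one_lt_card_iff_nontrivial.1 (by rw [S.card_U]; have := S.three_le; omega)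
  exact exists_ne 1

theorem exists_psi : ∃ ψ : Du S.U, ψ ≠ 1 := by
  obtain ⟨y, hy⟩ := exists_y0 S
  obtain ⟨a, -, ha⟩ := Du.exists_ne_one (⊥ : Subgroup S.U) (g := y) (by simpa using hy)
  exact ⟨a, fun h => ha (by rw [h]; rfl)⟩

/-- a non-trivial character of `U` -/
noncomputable def psi : Du S.U := (exists_psi S).choose

theorem sum_psi [Fintype S.U] : ∑ a, (psi S).ch a = 0 := by
  have h := Du.ip_ch_one (psi S)
  rw [if_neg (show psi S ≠ 1 from (exists_psi S).choose_spec), ip_one_right] at h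
  exact (mul_eq_zero.1 h).resolve_left (inv_ne_zero (by exact_mod_cast Nat.card_pos.ne'))

theorem q_ne : (S.q : ℂ) ≠ 0 := by have := S.three_le; exact_mod_cast (by omega : S.q ≠ 0)
theorem Z_le_H : S.Z ≤ S.H := S.Z_le_T.trans S.T_le_H
theorem d_ne : (S.d : ℂ) ≠ 0 := by exact_mod_cast Nat.card_pos.ne'
theorem card_H_cast : (Nat.card S.H : ℂ) = S.q * (S.q ^ 2 - 1) * S.d := by exact_mod_cast S.card_H
theorem e_sq : (S.e : ℂ) * S.e = 1 := by exact_mod_cast S.e_sq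
theorem Q_cast : (S.Q : ℂ) = S.e * S.q := by simp [Abs0.Q]

/-- `Z → H` -/
noncomputable abbrev zH : S.Z →* S.H := inclusion (Z_le_H S)
theorem zH_comm (z : S.Z) (h : S.H) : zH S z * h = h * zH S z := Subtype.ext (S.Z_comm z.2 h.2)

/-- `Z × U → H` -/
noncomputable def ι : S.Z × S.U →* S.H :=
  MonoidHom.mk' (fun p => ⟨p.1 * p.2, S.H.mul_mem (Z_le_H S p.1.2) (S.U_le_H p.2.2)⟩) fun a b => Subtype.ext (by
    simp only [Prod.fst_mul, Prod.snd_mul, Subgroup.coe_mul]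
    rw [mul_assoc, mul_assoc, ← mul_assoc (b.1 : G), S.Z_comm b.1.2 (S.U_le_H a.2.2), mul_assoc])

theorem ι_coe (p : S.Z × S.U) : (ι S p : G) = p.1 * p.2 := rfl
theorem ι_one (z : S.Z) : ι S (z, 1) = zH S z := Subtype.ext (by simp [ι_coe])

instance instEmbι : Emb (ι S) := ⟨(injective_iff_map_eq_one _).2 fun p hp => by
  have e : (p.1 : G) * p.2 = 1 := congrArg Subtype.val hp
  have h1 : (p.2 : G) ∈ S.Z ⊓ S.U := ⟨by rw [eq_inv_of_mul_eq_one_right e]; exact S.Z.inv_mem p.1.2, p.2.2⟩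
  rw [S.Z_inf_U, mem_bot] at h1
  rw [h1, mul_one] at e
  exact Prod.ext (Subtype.ext e) (Subtype.ext h1)⟩

/-- a fixed non-trivial unipotent element -/
noncomputable def y0 : S.H := inclusion S.U_le_H (exists_y0 S).choose
theorem y0_U : (y0 S : G) ∈ S.U := (exists_y0 S).choose.2
theorem y0_ne : (y0 S : G) ≠ 1 := fun h => (exists_y0 S).choose_spec (Subtype.ext h)

theorem conj_y0 (z : S.Z) {y : S.H} (hy : (y : G) ∈ S.U) (h1 : (y : G) ≠ 1) :
    IsConj (zH S z * y0 S) (zH S z * y) := by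
  obtain ⟨x, hx, e⟩ := S.U_trans (y0_U S) (y0_ne S) hy h1
  refine isConj_iff.2 ⟨⟨x, hx⟩, ?_⟩
  rw [← mul_assoc, ← zH_comm, mul_assoc, mul_assoc]
  congr 1
  exact Subtype.ext (by rw [← e]; simp [mul_assoc])

theorem conj_ι (z : S.Z) {a : S.U} (h : a ≠ 1) : IsConj (zH S z * y0 S) (ι S (z, a)) :=
  conj_y0 S z (y := ⟨a, S.U_le_H a.2⟩) a.2 fun e => h (Subtype.ext e)

theorem mem_Z_of_conj {x h : G} (hh : h ∈ S.H) (e : h * x * h⁻¹ ∈ S.Z) : x ∈ S.Z := by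
  have := S.Z_comm e hh
  rwa [show x = h * x * h⁻¹ by
    calc x = h⁻¹ * (h * x * h⁻¹ * h) := by group
      _ = _ := by rw [this]; group]

/-- the Gelfand-Graev functions -/
noncomputable def Gam : (S.Z → ℂ) →ₗ[ℂ] (S.H → ℂ) where
  toFun ζ := ind (ι S) fun p => ζ p.1 * (psi S).ch p.2
  map_add' a b := by rw [← map_add]; congr 1; ext p; simp [add_mul]
  map_smul' c a := by rw [← map_smul]; congr 1; ext p; simp [mul_assoc]

theorem Gam_def (ζ : S.Z → ℂ) : Gam S ζ = ind (ι S) fun p => ζ p.1 * (psi S).ch p.2 := rfl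
theorem isCF_Gam (ζ : S.Z → ℂ) : IsCF (Gam S ζ) := isCF_ind _ _
theorem isVC_Gam {ζ : S.Z → ℂ} (h : IsVC ζ) : IsVC (Gam S ζ) := by
  have h1 := h.comp (MonoidHom.fst S.Z S.U)
  have h2 := (psi S).isVC.comp (MonoidHom.snd S.Z S.U)
  exact (h1.mul h2).induce (ι S)

theorem card_ZF : (Nat.card (S.Z × S.U) : ℂ) = S.d * S.q := by
  rw [Nat.card_prod, S.card_U]; simp [Abs0.d]

/-- the adjoint of `Gam` -/
noncomputable def j (f : S.H → ℂ) : S.Z → ℂ := fun z => (f (zH S z) - f (zH S z * y0 S)) / S.q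

theorem ip_Gam (ζ : S.Z → ℂ) {f : S.H → ℂ} (hf : IsCF f) : ⟪Gam S ζ, f⟫ = ⟪ζ, j S f⟫ := by
  classical
  have := Fintype.ofFinite S.Z
  have := Fintype.ofFinite S.U
  rw [Gam_def, ip_ind_left _ _ hf, ip_def, ip_def, card_ZF, Fintype.sum_prod_type, mul_inv, mul_assoc,
    Finset.mul_sum _ _ (S.q : ℂ)⁻¹]
  congr 1
  refine Finset.sum_congr rfl fun z _ => ?_
  have h1 := sum_psi S
  rw [← Finset.add_sum_erase _ _ (Finset.mem_univ 1)] at h1 ⊢
  rw [Finset.sum_congr rfl (g := fun a => (psi S).ch a * (ζ z * conj (f (zH S z * y0 S)))) fun a ha => by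
    rw [Function.comp_apply, ← hf.of_isConj (conj_ι S z (Finset.ne_of_mem_erase ha))]; ring, ← Finset.sum_mul,
    eq_neg_of_add_eq_zero_right h1]
  simp only [j, Function.comp_apply, ι_one, Du.ch_apply_one, map_div₀, map_sub, map_natCast]
  ring

theorem Gam_Z (ζ : S.Z → ℂ) (z : S.Z) : Gam S ζ (zH S z) = (S.q ^ 2 - 1) * ζ z := by
  rw [Gam_def, ← ι_one, ind_central _ _ _ fun g => by rw [ι_one, zH_comm], card_ZF, card_H_cast]
  have := d_ne S; have := q_ne S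
  simp only [Du.ch_apply_one]
  field_simp

theorem card_cent_y0 (z : S.Z) : Nat.card 𝐂[zH S z * y0 S] = S.q * S.d := by
  rw [Abs0.d, ← S.card_ZU, ← Nat.card_congr (subgroupOfEquivOfLe (sup_le (Z_le_H S) S.U_le_H)).toEquiv]
  congr 2
  ext h
  rw [mem_centralizer_singleton_iff, mem_subgroupOf, ← mul_assoc, ← zH_comm, mul_assoc, mul_assoc,
    mul_left_cancel_iff]
  refine ⟨fun e => S.cent_U (y0_U S) (y0_ne S) h.2 (congrArg Subtype.val e), fun e => Subtype.ext ?_⟩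
  obtain ⟨z', hz', a, ha, e⟩ := S.mem_ZU.1 e
  have h1 : a * y0 S = y0 S * a :=
    congrArg Subtype.val (IsMulCommutative.is_comm.comm (⟨a, ha⟩ : S.U) ⟨_, y0_U S⟩)
  simp only [Subgroup.coe_mul, e]
  rw [mul_assoc, h1, ← mul_assoc, S.Z_comm hz' (y0 S).2, mul_assoc]

theorem Gam_U (ζ : S.Z → ℂ) (z : S.Z) : Gam S ζ (zH S z * y0 S) = - ζ z := by
  classical
  have := Fintype.ofFinite S.Z
  have := Fintype.ofFinite S.U
  have hq := q_ne S; have := d_ne S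
  rw [Gam_def, ind_eq_sum, card_cent_y0, card_ZF, Nat.cast_mul, mul_comm (S.q : ℂ), div_self (by simp [*]), one_mul,
    Finset.sum_filter, Fintype.sum_prod_type, Finset.sum_eq_single_of_mem z (Finset.mem_univ _)]
  · have h1 := sum_psi S
    rw [← Finset.add_sum_erase _ _ (Finset.mem_univ 1)] at h1 ⊢
    rw [Finset.sum_congr rfl (g := fun a => ζ z * (psi S).ch a) fun a ha =>
      if_pos (conj_ι S z (Finset.ne_of_mem_erase ha)), ← Finset.mul_sum, eq_neg_of_add_eq_zero_right h1, if_neg]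
    · simp
    · intro h
      obtain ⟨c, hc⟩ := isConj_iff.1 h
      exact S.fus_UT z.2 (y0_U S) (y0_ne S) c.2 (by
        have := congrArg Subtype.val hc
        rw [ι_one] at this
        rw [show (c : G) * (z * y0 S) * (c : G)⁻¹ = z from this]
        exact S.Z_le_T z.2)
  · intro z' _ hne
    refine Finset.sum_eq_zero fun a _ => if_neg fun h => hne ?_
    obtain ⟨c, hc⟩ := isConj_iff.1 h
    exact Subtype.ext (S.fus_U z.2 (y0_U S) (y0_ne S) z'.2 a.2 c.2 (congrArg Subtype.val hc)).1.symm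

theorem hext {f g : S.H → ℂ} (hf : IsCF f) (hg : IsCF g) (h1 : ∀ z, f (zH S z) = g (zH S z))
    (h2 : ∀ z, f (zH S z * y0 S) = g (zH S z * y0 S))
    (h3 : ∀ x : S.T, (x : G) ∉ S.Z → f (inclusion S.T_le_H x) = g (inclusion S.T_le_H x))
    (h4 : ∀ x : S.W, (x : G) ∉ S.Z → f (inclusion S.W_le_H x) = g (inclusion S.W_le_H x)) : f = g := by
  ext h
  obtain ⟨k, hk, e⟩ := S.classes h.2
  rw [← hf h ⟨k, hk⟩, ← hg h ⟨k, hk⟩]
  by_cases hz : k * h * k⁻¹ ∈ S.Z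
  · exact h1 ⟨_, hz⟩
  rcases e with e | e | ⟨z, hz, y, hy, hy1, e⟩
  · exact h3 ⟨_, e⟩ hz
  · exact h4 ⟨_, e⟩ hz
  · have c := conj_y0 S ⟨z, hz⟩ (y := ⟨y, S.U_le_H hy⟩) hy hy1
    have : (⟨k, hk⟩ * h * ⟨k, hk⟩⁻¹ : S.H) = zH S ⟨z, hz⟩ * ⟨y, S.U_le_H hy⟩ := Subtype.ext e
    rw [this, ← hf.of_isConj c, ← hg.of_isConj c, h2]

/-- a maximal torus of `H` -/
structure Tor where
  A : Subgroup G
  M : Subgroup G
  n : ℕ
  m : ℕ
  v : G
  hZ : S.Z ≤ A
  hH : A ≤ S.H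
  comm : IsMulCommutative A
  card : Nat.card A = n * S.d
  sq : ((S.q : ℂ) - n) ^ 2 = 1
  nm : (n : ℂ) + m = 2 * S.q
  vH : v ∈ S.H
  vv : v * v = 1
  vA : ∀ x ∈ A, v * x * v⁻¹ ∈ A
  v_not : v ∉ A
  cent : ∀ {x h : G}, x ∈ A → x ∉ S.Z → h ∈ S.H → h * x = x * h → h ∈ A
  fus : ∀ {x h : G}, x ∈ A → x ∉ S.Z → h ∈ S.H → h * x * h⁻¹ ∈ A → h ∈ A ∨ v * h ∈ A
  fusU : ∀ {z y h : G}, z ∈ S.Z → y ∈ S.U → y ≠ 1 → h ∈ S.H → h * (z * y) * h⁻¹ ∉ A
  memZ : ∀ {x : G}, x ∈ S.Z ↔ x ∈ A ∧ v * x * v⁻¹ = x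
  memM : ∀ {x : G}, x ∈ M ↔ x ∈ A ∧ v * x * v⁻¹ = x⁻¹
  cardM : Nat.card M = n
  h90 : ∀ {x : G}, x ∈ M → ∃ y ∈ A, x = v * y * v⁻¹ * y⁻¹
  ext : ∀ l : Du A, (∀ x : A, (x : G) ∈ M → l.ch x = 1) → ∃ β : Du S.H, Du.comp (inclusion hH) β = l

theorem cTm : (Nat.card S.Tm : ℂ) = S.q - S.e := by exact_mod_cast S.card_Tm
theorem cWm : (Nat.card S.Wm : ℂ) = S.q + S.e := by exact_mod_cast S.card_Wm

/-- the torus containing the four-group -/
@[reducible] noncomputable def torT : Tor S where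
  A := S.T
  M := S.Tm
  n := Nat.card S.Tm
  m := Nat.card S.Wm
  v := S.w
  hZ := S.Z_le_T
  hH := S.T_le_H
  comm := S.commT
  card := by have := S.card_T; rw [← S.card_Tm] at this; exact_mod_cast this
  sq := by rw [cTm]; linear_combination e_sq S
  nm := by rw [cTm, cWm]; ring
  vH := S.w_H
  vv := S.ww'
  vA := fun _ => S.w_T
  v_not := S.w_not_T
  cent := S.cent_T
  fus := S.fus_T
  fusU := S.fus_UT
  memZ := S.mem_Z_T
  memM := S.mem_Tm
  cardM := rfl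
  h90 := S.Tm_h90
  ext := S.ext_T S.T_le_H

/-- the cyclic torus -/
@[reducible] noncomputable def torW : Tor S where
  A := S.W
  M := S.Wm
  n := Nat.card S.Wm
  m := Nat.card S.Tm
  v := S.u
  hZ := S.Z_le_W
  hH := S.W_le_H
  comm := S.instCommW
  card := by have := S.card_W; rw [← S.card_Wm] at this; exact_mod_cast this
  sq := by rw [cWm]; linear_combination e_sq S
  nm := by rw [cTm, cWm]; ring
  vH := S.T_le_H S.u_T
  vv := S.uu
  vA := fun _ => S.u_W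
  v_not := S.u_not_W
  cent := S.cent_W
  fus := S.fus_W
  fusU := S.fus_UW
  memZ := S.mem_Z_W
  memM := S.mem_Wm
  cardM := rfl
  h90 := S.Wm_h90
  ext := S.ext_W

namespace Tor
variable {S} (P : Tor S)

instance instCommA : IsMulCommutative P.A := P.comm

/-- `A → H` -/
noncomputable abbrev i : P.A →* S.H := inclusion P.hH
/-- `Z → A` -/
noncomputable abbrev z : S.Z →* P.A := inclusion P.hZ
/-- the Weyl element -/
noncomputable def σ : P.A →* P.A := Hyp.cjr P.A P.v P.vA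
@[simp] theorem σ_coe (x : P.A) : (P.σ x : G) = P.v * x * P.v⁻¹ := rfl
theorem σσ (x : P.A) : P.σ (P.σ x) = x := Subtype.ext (by
  have : P.v⁻¹ = P.v := inv_eq_of_mul_eq_one_right P.vv
  simp only [σ_coe, this]
  calc P.v * (P.v * x * P.v) * P.v = (P.v * P.v) * x * (P.v * P.v) := by group
    _ = x := by rw [P.vv]; group)
theorem σ_z (z : S.Z) : P.σ (P.z z) = P.z z := Subtype.ext (P.memZ.1 z.2).2
theorem cf_σ {f : S.H → ℂ} (hf : IsCF f) (x : P.A) : f (P.i (P.σ x)) = f (P.i x) := hf (P.i x) ⟨P.v, P.vH⟩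
theorem comm' {x y : G} (hx : x ∈ P.A) (hy : y ∈ P.A) : x * y = y * x :=
  congrArg Subtype.val (IsMulCommutative.is_comm.comm (⟨x, hx⟩ : P.A) ⟨y, hy⟩)
theorem card_cast : (Nat.card P.A : ℂ) = P.n * S.d := by rw [P.card]; simp
theorem n_ne : (P.n : ℂ) ≠ 0 := fun h => by
  have : (Nat.card P.A : ℂ) ≠ 0 := by exact_mod_cast Nat.card_pos.ne'
  rw [card_cast, h, zero_mul] at this; exact this rfl
theorem n_mul : (P.n : ℂ) * P.m = S.q ^ 2 - 1 := by
  linear_combination P.n * P.nm - P.sq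

/-- the Deligne-Lusztig functions -/
noncomputable def D : (P.A → ℂ) →ₗ[ℂ] (S.H → ℂ) := ind P.i - Gam S ∘ₗ LinearMap.funLeft ℂ ℂ P.z
theorem D_def (a : P.A → ℂ) : P.D a = ind P.i a - Gam S (a ∘ P.z) := rfl
theorem isCF_D (a : P.A → ℂ) : IsCF (P.D a) := (isCF_ind _ _).sub (isCF_Gam S _)
theorem isVC_D {a : P.A → ℂ} (h : IsVC a) : IsVC (P.D a) := (h.induce _).sub (isVC_Gam S (h.comp _))

theorem D_Z (a : P.A → ℂ) (z : S.Z) : P.D a (zH S z) = P.m * (S.q - P.n) * a (P.z z) := by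
  rw [D_def, Pi.sub_apply, Gam_Z, show zH S z = P.i (P.z z) from rfl,
    ind_central P.i a (P.z z) (zH_comm S z), card_H_cast, card_cast, ← P.n_mul]
  have := d_ne S; have := P.n_ne
  simp only [Function.comp_apply]
  field_simp

theorem D_U (a : P.A → ℂ) (z : S.Z) : P.D a (zH S z * y0 S) = a (P.z z) := by
  rw [D_def, Pi.sub_apply, Gam_U, ind_eq_zero P.i fun x y e =>
    absurd (by rw [← show (x : G) = y * (z * y0 S) * (y : G)⁻¹ from congrArg Subtype.val e]; exact x.2)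
      (P.fusU z.2 (y0_U S) (y0_ne S) y.2)]
  simp

theorem Gam_A (ζ : S.Z → ℂ) {x : P.A} (hx : (x : G) ∉ S.Z) : Gam S ζ (P.i x) = 0 := by
  refine ind_eq_zero _ fun p y e => False.elim ?_
  have e' : (p.1 : G) * p.2 = y * x * (y : G)⁻¹ := congrArg Subtype.val e
  by_cases h : (p.2 : G) = 1
  · exact hx (mem_Z_of_conj S y.2 (by rw [← e', h]; simp))
  · exact P.fusU p.1.2 p.2.2 h (S.H.inv_mem y.2) (by rw [e']; simp [mul_assoc])

theorem card_cent {x : P.A} (hx : (x : G) ∉ S.Z) : Nat.card 𝐂[P.i x] = Nat.card P.A := by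
  rw [← Nat.card_congr (subgroupOfEquivOfLe P.hH).toEquiv]
  congr 2
  ext h
  rw [mem_centralizer_singleton_iff, mem_subgroupOf]
  exact ⟨fun e => P.cent x.2 hx h.2 (congrArg Subtype.val e), fun e => Subtype.ext (P.comm' e x.2)⟩

theorem D_A (a : P.A → ℂ) {x : P.A} (hx : (x : G) ∉ S.Z) : P.D a (P.i x) = a x + a (P.σ x) := by
  rw [D_def, Pi.sub_apply, P.Gam_A _ hx, sub_zero]
  refine ind_two _ _ (fun e => hx (P.memZ.2 ⟨x.2, (congrArg Subtype.val e).symm⟩)) (P.card_cent hx)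
    fun c => ⟨fun h => ?_, ?_⟩
  · obtain ⟨k, hk⟩ := isConj_iff.1 h
    have e : (k : G) * x * (k : G)⁻¹ = c := congrArg Subtype.val hk
    refine (P.fus x.2 hx k.2 (e ▸ c.2)).imp (fun h => Subtype.ext ?_) fun h => Subtype.ext ?_
    · rw [← e, P.comm' h x.2, mul_inv_cancel_right]
    · have : (k : G) = P.v * (P.v * k) := by rw [← mul_assoc, P.vv, one_mul]
      rw [← e, σ_coe, this, mul_assoc P.v, P.comm' h x.2]; group
  · rintro (rfl | rfl)
    exacts [IsConj.refl _, isConj_iff.2 ⟨⟨P.v, P.vH⟩, rfl⟩]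

/-- two non-conjugate tori -/
def Dis (Q : Tor S) : Prop :=
  P.m = Q.n ∧ ∀ {x h : G}, x ∈ Q.A → x ∉ S.Z → h ∈ S.H → h * x * h⁻¹ ∉ P.A

theorem D_B {Q : Tor S} (h : P.Dis Q) (a : P.A → ℂ) {x : Q.A} (hx : (x : G) ∉ S.Z) : P.D a (Q.i x) = 0 := by
  rw [D_def, Pi.sub_apply, Q.Gam_A _ hx, sub_zero]
  exact ind_eq_zero _ fun c y e => absurd
    (by rw [← show (c : G) = y * x * (y : G)⁻¹ from congrArg Subtype.val e]; exact c.2) (h.2 x.2 hx y.2)

open Classical in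
/-- the adjoint of `D` -/
noncomputable def eta (f : S.H → ℂ) : P.A → ℂ := fun x =>
  f (P.i x) - if h : (x : G) ∈ S.Z then P.n * j S f ⟨x, h⟩ else 0

theorem eta_Z (f : S.H → ℂ) (z : S.Z) : P.eta f (P.z z) = f (zH S z) - P.n * j S f z := by
  rw [eta, dif_pos (show ((P.z z : P.A) : G) ∈ S.Z from z.2)]; rfl
theorem eta_A (f : S.H → ℂ) {x : P.A} (hx : (x : G) ∉ S.Z) : P.eta f x = f (P.i x) := by
  rw [eta, dif_neg hx, sub_zero]

theorem fext {a b : P.A → ℂ} (h1 : ∀ z, a (P.z z) = b (P.z z)) (h2 : ∀ x : P.A, (x : G) ∉ S.Z → a x = b x) :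
    a = b := by
  ext x
  by_cases h : (x : G) ∈ S.Z
  exacts [h1 ⟨x, h⟩, h2 x h]

theorem ip_D (a : P.A → ℂ) {f : S.H → ℂ} (hf : IsCF f) : ⟪P.D a, f⟫ = ⟪a, P.eta f⟫ := by
  have e : P.eta f = f ∘ P.i - ind P.z (j S f) := P.fext
    (fun z => by
      rw [eta_Z, Pi.sub_apply, ind_central _ _ _ fun g => IsMulCommutative.is_comm.comm _ _, card_cast,
        show (Nat.card S.Z : ℂ) = S.d from rfl, mul_div_cancel_right₀ _ (d_ne S)]; rfl)
    fun x hx => by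
      rw [P.eta_A _ hx, Pi.sub_apply, ind_eq_zero _ fun c y e => absurd (by
        have : y * x * y⁻¹ = x := by rw [IsMulCommutative.is_comm.comm y x, mul_inv_cancel_right]
        rw [this] at e; exact e ▸ c.2) hx]
      simp
  rw [D_def, ip_sub_left, ip_ind_left _ _ hf, ip_Gam S _ hf, e, ip_sub_right,
    ip_ind_right _ _ (isCF_of_comm a)]

theorem eta_σ {f : S.H → ℂ} (hf : IsCF f) (x : P.A) : P.eta f (P.σ x) = P.eta f x := by
  by_cases h : (x : G) ∈ S.Z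
  · rw [show x = P.z ⟨x, h⟩ from rfl, σ_z]
  · rw [P.eta_A _ h, P.eta_A _ fun h' => h (mem_Z_of_conj S P.vH h'), P.cf_σ hf]

theorem eta_D (a : P.A → ℂ) : P.eta (P.D a) = a + a ∘ P.σ := P.fext
  (fun z => by
    have := q_ne S
    rw [eta_Z, j, D_Z, D_U, Pi.add_apply, Function.comp_apply, σ_z, show (P.m : ℂ) = 2 * S.q - P.n by
      linear_combination P.nm]
    field_simp
    linear_combination (a (P.z z) * (2 * S.q - P.n)) * P.sq)
  fun x hx => by rw [P.eta_A _ hx, P.D_A _ hx]; rfl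

theorem eta_D' {Q : Tor S} (h : P.Dis Q) (a : P.A → ℂ) : Q.eta (P.D a) = 0 := Q.fext
  (fun z => by
    have := q_ne S
    rw [eta_Z, j, D_Z, D_U, ← h.1, show (P.m : ℂ) = 2 * S.q - P.n by linear_combination P.nm, Pi.zero_apply]
    field_simp
    linear_combination (a (P.z z) * (P.n - 2 * S.q)) * P.sq)
  fun x hx => by rw [Q.eta_A _ hx, P.D_B h _ hx]; rfl

theorem ip_DD (a b : P.A → ℂ) : ⟪P.D a, P.D b⟫ = ⟪a, b⟫ + ⟪a, b ∘ P.σ⟫ := by
  rw [P.ip_D _ (P.isCF_D b), eta_D, ip_add_right]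

theorem ip_DD' {Q : Tor S} (h : Q.Dis P) (a : P.A → ℂ) (b : Q.A → ℂ) : ⟪P.D a, Q.D b⟫ = 0 := by
  rw [P.ip_D _ (Q.isCF_D b), Q.eta_D' h, ip_zero_right]

theorem eta_of {f : S.H → ℂ} (h : ∀ z, f (zH S z * y0 S) = f (zH S z)) : P.eta f = f ∘ P.i := P.fext
  (fun z => by rw [eta_Z, j, h]; simp; rfl) fun x hx => P.eta_A _ hx

end Tor

theorem disWT : (torW S).Dis (torT S) := ⟨rfl, S.fus_TW⟩
theorem disTW : (torT S).Dis (torW S) := ⟨rfl, fun hx hz hh e =>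
  S.fus_TW e (fun h => hz (mem_Z_of_conj S hh h)) (S.H.inv_mem hh)
    (by simp only [mul_assoc, inv_inv, inv_mul_cancel, mul_one, inv_mul_cancel_left]; exact hx)⟩

theorem decomp {f : S.H → ℂ} (hf : IsCF f) :
    f = (2 : ℂ)⁻¹ • ((torT S).D ((torT S).eta f) + (torW S).D ((torW S).eta f)) := by
  have hq := q_ne S
  have c1 : ((torT S).n : ℂ) = S.q - S.e := cTm S
  have c2 : ((torT S).m : ℂ) = S.q + S.e := cWm S
  refine hext S hf ((((torT S).isCF_D _).add ((torW S).isCF_D _)).smul _) (fun z => ?_) (fun z => ?_)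
    (fun x hx => ?_) fun x hx => ?_
  · rw [Pi.smul_apply, Pi.add_apply, Tor.D_Z, Tor.D_Z, Tor.eta_Z, Tor.eta_Z, c1, c2, smul_eq_mul]
    linear_combination (-f (zH S z)) * e_sq S
  · rw [Pi.smul_apply, Pi.add_apply, Tor.D_U, Tor.D_U, Tor.eta_Z, Tor.eta_Z, c1, c2, smul_eq_mul, j]
    field_simp; ring
  · have h1 := (torT S).D_A ((torT S).eta f) (x := x) hx
    have h2 := (torW S).D_B (disWT S) ((torW S).eta f) (x := x) hx
    rw [(torT S).eta_σ hf, (torT S).eta_A _ hx] at h1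
    simp only [Pi.smul_apply, Pi.add_apply, smul_eq_mul]
    linear_combination (-2⁻¹ : ℂ) * h1 - 2⁻¹ * h2
  · have h1 := (torW S).D_A ((torW S).eta f) (x := x) hx
    have h2 := (torT S).D_B (disTW S) ((torT S).eta f) (x := x) hx
    rw [(torW S).eta_σ hf, (torW S).eta_A _ hx] at h1
    simp only [Pi.smul_apply, Pi.add_apply, smul_eq_mul]
    linear_combination (-2⁻¹ : ℂ) * h1 - 2⁻¹ * h2

end CA.Br.OmB
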