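/-
Brauer's characterization of `PSL₃(q)` and `M₁₁`, block B: the principal block of `H`, the TI-set `R`.
-/
import Cfsg.Agent.Lib.Br.Om2

set_option autoImplicit false
set_option linter.unusedSectionVars false
set_option maxHeartbeats 400000

namespace CA.Br.OmB

open Cfsg Subgroup CA CA.Ch Finset ComplexConjugate

section Gen
variable {K : Type*} [Group K] [Finite K]

theorem inv_unique {x i k : K} (hi : i ∈ zpowers x) (hk : k ∈ zpowers x) (i2 : i * i = 1) (k2 : k * k = 1)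
    (i1 : i ≠ 1) (k1 : k ≠ 1) : i = k := by
  obtain ⟨a, rfl⟩ := mem_zpowers_iff.1 hi
  obtain ⟨b, rfl⟩ := mem_zpowers_iff.1 hk
  rw [← zpow_add, ← orderOf_dvd_iff_zpow_eq_one] at i2 k2
  rw [Ne, ← orderOf_dvd_iff_zpow_eq_one] at i1 k1
  rw [zpow_eq_zpow_iff_modEq, Int.modEq_iff_dvd]
  obtain ⟨c, hc⟩ := i2
  obtain ⟨e, he⟩ := k2
  rcases Int.even_or_odd' c with ⟨c', rfl | rfl⟩
  · exact absurd ⟨c', by linarith⟩ i1
  rcases Int.even_or_odd' e with ⟨e', rfl | rfl⟩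
  · exact absurd ⟨e', by linarith⟩ k1
  exact ⟨e' - c', by linarith⟩

theorem exists_inv {x : K} (h : ¬ Odd (orderOf x)) : ∃ i ∈ zpowers x, i * i = 1 ∧ i ≠ 1 := by
  obtain ⟨k, hk⟩ := Nat.not_odd_iff_even.1 h
  have hp := orderOf_pos x
  exact ⟨x ^ k, pow_mem (mem_zpowers x) k, by rw [← pow_add, ← hk, pow_orderOf_eq_one],
    pow_ne_one_of_lt_orderOf (by omega) (by omega)⟩

theorem not_odd_of_inv {x i : K} (hi : i ∈ zpowers x) (i2 : i * i = 1) (i1 : i ≠ 1) : ¬ Odd (orderOf x) := fun h =>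
  i1 (orderOf_eq_one_iff.1 ((Nat.coprime_two_right.2 (h.of_dvd_nat (orderOf_dvd_of_mem_zpowers hi))).eq_one_of_dvd
    (orderOf_dvd_of_pow_eq_one (by rw [sq, i2]))))

theorem zp_conj {x i : K} (hi : i ∈ zpowers x) (g : K) : g * i * g⁻¹ ∈ zpowers (g * x * g⁻¹) := by
  obtain ⟨a, rfl⟩ := mem_zpowers_iff.1 hi
  exact mem_zpowers_iff.2 ⟨a, conj_zpow⟩

theorem zp_conj_iff {x i g : K} : g * i * g⁻¹ ∈ zpowers (g * x * g⁻¹) ↔ i ∈ zpowers x :=
  ⟨fun h => by simpa [mul_assoc] using zp_conj h g⁻¹, fun h => zp_conj h g⟩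

theorem zp_mul_odd {x y i : K} (hi : i ∈ zpowers x) (i2 : i * i = 1) (hc : x * y = y * x) (hy : Odd (orderOf y)) :
    i ∈ zpowers (x * y) := by
  obtain ⟨a, rfl⟩ := mem_zpowers_iff.1 hi
  obtain ⟨k, hk⟩ := hy
  refine mem_zpowers_iff.2 ⟨a * orderOf y, ?_⟩
  rw [Commute.mul_zpow hc, mul_comm a, zpow_mul y, zpow_natCast, pow_orderOf_eq_one, one_zpow, mul_one, mul_comm,
    zpow_mul, zpow_natCast, hk, pow_succ, pow_mul, sq, i2, one_pow, one_mul]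

theorem zp_mul_odd_iff {x y i : K} (i2 : i * i = 1) (hc : x * y = y * x) (hy : Odd (orderOf y)) :
    i ∈ zpowers (x * y) ↔ i ∈ zpowers x :=
  ⟨fun h => by
    simpa using zp_mul_odd h i2 (y := y⁻¹) (Commute.mul_left hc (Commute.refl y)).inv_right (by simpa using hy), fun h => zp_mul_odd h i2 hc hy⟩

theorem comm_of_zp {x i g : K} (hi : i ∈ zpowers x) (h : g * x = x * g) : g * i = i * g := by
  obtain ⟨a, rfl⟩ := mem_zpowers_iff.1 hi
  exact Commute.zpow_right h a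

theorem sirr_pi0 {x : K → ℂ} (h : IsSIrr x) (h0 : ⟪x, Blk.regI K 2⟫ ≠ 0) : Blk.pi0 2 x = x := by
  obtain ⟨ε, χ, hε, hχ, rfl⟩ := h.exists_sign
  rw [Blk.pi0_smul, Blk.pi0_of_mem ((Blk.mem_B0_iff hχ).2 fun e => h0 (by rw [ip_smul_left, e, mul_zero]))]

theorem sirr_pi0' {x : K → ℂ} (h : IsSIrr x) (h0 : ⟪x, Blk.regI K 2⟫ = 0) : Blk.pi0 2 x = 0 := by
  obtain ⟨ε, χ, hε, hχ, rfl⟩ := h.exists_sign
  rw [ip_smul_left, mul_eq_zero, or_iff_right (by rcases hε with rfl | rfl <;> simp)] at h0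
  rw [Blk.pi0_smul, Blk.pi0_of_not_mem hχ fun e => (Blk.mem_B0_iff hχ).1 e h0, smul_zero]

end Gen

variable {G : Type*} [Group G] [Finite G] {S : Abs G}

theorem odd_U {y : G} (hy : y ∈ S.U) : Odd (orderOf y) :=
  S.odd.of_dvd_nat (S.card_U ▸ S.U.orderOf_dvd_natCard hy)

/-- the two tori -/
structure Pair (P Q : Tor S) : Prop where
  d1 : P.Dis Q
  d2 : Q.Dis P
  dec : ∀ {f : S.H → ℂ}, IsCF f → f = (2 : ℂ)⁻¹ • (P.D (P.eta f) + Q.D (Q.eta f))

variable (S) in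
theorem pairTW : Pair (torT S) (torW S) := ⟨disTW S, disWT S, decomp S⟩
theorem Pair.symm {P Q : Tor S} (h : Pair P Q) : Pair Q P := ⟨h.d2, h.d1, fun hf => by rw [add_comm]; exact h.dec hf⟩

namespace Tor
variable (P : Tor S)

theorem eta_regI : P.eta (Blk.regI S.H 2) = Blk.regI P.A 2 := by
  rw [P.eta_of, Blk.regI_comp]
  intro z
  refine Blk.regI_sec _ _ ?_
  rw [constt_mul _ (zH_comm S z _), constt_eq_one (x := y0 S) (piElt_two_iff.2 (by
    rw [← Subgroup.orderOf_coe]; exact odd_U (y0_U S))), mul_one]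

theorem eta_lin (β : Du S.H) : P.eta β.ch = (Du.comp P.i β).ch :=
  P.eta_of fun z => by rw [Du.ch_apply_mul, S.lin_U β _ (y0_U S), mul_one]

theorem ip_D_reg (a : P.A → ℂ) : ⟪P.D a, Blk.regI S.H 2⟫ = ⟪a, Blk.regI P.A 2⟫ := by
  rw [P.ip_D _ Blk.isCF_regI, eta_regI]

/-- the proportion of elements of odd order -/
noncomputable def δ : ℂ := (Nat.card (oddK P.A) : ℂ) / Nat.card P.A
theorem δ_ne : P.δ ≠ 0 := div_ne_zero (by exact_mod_cast Nat.card_pos.ne') (by exact_mod_cast Nat.card_pos.ne')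

theorem δ_ne' {Q : Tor S} (h : P.Dis Q) : P.δ ≠ Q.δ := fun e => by
  have hd := d_ne S
  rw [δ, δ, card_cast, card_cast, div_eq_div_iff (mul_ne_zero P.n_ne hd) (mul_ne_zero Q.n_ne hd), ← mul_assoc,
    ← mul_assoc, mul_left_inj' hd, ← h.1] at e
  obtain ⟨a, ha⟩ := odd_card_oddK (W := P.A)
  obtain ⟨b, hb⟩ := odd_card_oddK (W := Q.A)
  obtain ⟨k, hk⟩ := S.odd
  have e1 : ((2 * a + 1 : ℕ) : ℤ) * P.m = (2 * b + 1 : ℕ) * P.n := by rw [← ha, ← hb]; exact_mod_cast e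
  have e2 : (P.n : ℤ) + P.m = 2 * S.q := by exact_mod_cast P.nm
  have e3 : ((S.q : ℤ) - P.n) ^ 2 = 1 := by exact_mod_cast P.sq
  rw [hk] at e2 e3
  push_cast at e1 e2 e3
  rcases sq_eq_one_iff.1 e3 with h | h
  · have h1 : (P.n : ℤ) = 2 * k := by linarith
    have h2 : (P.m : ℤ) = 2 * k + 2 := by linarith
    rw [h1, h2] at e1
    have : 2 * (b * k - a * k - a : ℤ) = 1 := by linarith
    omega
  · have h1 : (P.n : ℤ) = 2 * k + 2 := by linarith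
    have h2 : (P.m : ℤ) = 2 * k := by linarith
    rw [h1, h2] at e1
    have : 2 * (a * k - b * k - b : ℤ) = 1 := by linarith
    omega

theorem not_two {Q : Tor S} (β : Du S.H) (h : ¬ Two (Du.comp P.i β).ch) : ¬ Two (Du.comp Q.i β).ch := fun h' => by
  refine h (two_iff.2 (mem_ann.2 fun x hx => ?_))
  have hz : ((x * P.σ x : P.A) : G) ∈ S.Z := P.memZ.2 ⟨(x * P.σ x).2, by
    have := congrArg Subtype.val (show P.σ (x * P.σ x) = x * P.σ x by
      rw [map_mul, σσ]; exact IsMulCommutative.is_comm.comm _ _)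
    exact this⟩
  have ho : Odd (orderOf (x * P.σ x)) := (oddK P.A).mul_mem hx
    (Odd.of_dvd_nat hx (orderOf_map_dvd P.σ x))
  have h1 := mem_ann.1 (two_iff.1 h') (Q.z ⟨_, hz⟩) (by
    rw [mem_oddK, ← Subgroup.orderOf_coe]; rwa [← Subgroup.orderOf_coe] at ho)
  have h2 : β.ch (P.i x) * β.ch (P.i x) = 1 := by
    rw [← h1]
    conv_lhs => rhs; rw [← P.cf_σ β.isCF x]
    rw [← Du.ch_apply_mul]; rfl
  obtain ⟨k, hk⟩ := mem_oddK.1 hx
  have h3 : β.ch (P.i x) ^ orderOf x = 1 := by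
    rw [← Du.ch_apply_pow, ← map_pow, pow_orderOf_eq_one, map_one, Du.ch_apply_one]
  rwa [hk, pow_succ, pow_mul, pow_two, h2, one_pow, one_mul] at h3

variable {P} {Q : Tor S}

theorem ip_lin_reg (h : Pair P Q) (β : Du S.H) : ⟪β.ch, Blk.regI S.H 2⟫ =
    2⁻¹ * (⟪(Du.comp P.i β).ch, Blk.regI P.A 2⟫ + ⟪(Du.comp Q.i β).ch, Blk.regI Q.A 2⟫) := by
  conv_lhs => rw [h.dec β.isCF]
  rw [ip_smul_left, ip_add_left, ip_D_reg, ip_D_reg, eta_lin, eta_lin]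

theorem D_cases (l : Du P.A) : IsSIrr (P.D l.ch) ∨
    ∃ β : Du S.H, Du.comp P.i β = l ∧ IsSIrr (P.D l.ch - β.ch) := by
  have hv := P.isVC_D l.isVC
  have hn := P.ip_DD l.ch l.ch
  rw [← Du.ch_comp, Du.ip_ch, Du.ip_ch, if_pos rfl] at hn
  split_ifs at hn with h
  · obtain ⟨β, hβ⟩ := P.ext l fun x hx => by
      obtain ⟨y, hy, e⟩ := P.h90 hx
      rw [show x = P.σ ⟨y, hy⟩ * (⟨y, hy⟩ : P.A)⁻¹ from Subtype.ext e, Du.ch_apply_mul,
        show l.ch (P.σ ⟨y, hy⟩) = l.ch ⟨y, hy⟩ from congrFun (congrArg Du.ch h.symm) _, ← Du.ch_apply_mul,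
        mul_inv_cancel, Du.ch_apply_one]
    have h1 : ⟪P.D l.ch, β.ch⟫ = 1 := by rw [P.ip_D _ β.isCF, eta_lin, hβ, Du.ip_ch, if_pos rfl]
    obtain ⟨y, hy, -, e⟩ := hv.norm_two_of (by rw [hn]; norm_num) β.isIrr.isSIrr h1
    exact Or.inr ⟨β, hβ, by rwa [e, add_sub_cancel_left]⟩
  · exact Or.inl (hv.isSIrr (by rw [hn, add_zero]))

theorem pi0_D_two (h : Pair P Q) {l : Du P.A} (hl : Two l.ch) : Blk.pi0 2 (P.D l.ch) = P.D l.ch := by
  have h1 : ⟪P.D l.ch, Blk.regI S.H 2⟫ = P.δ := by rw [ip_D_reg, two_regI_mul l hl, δ]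
  rcases D_cases l with hs | ⟨β, rfl, hs⟩
  · exact sirr_pi0 hs (h1 ▸ P.δ_ne)
  have h2 := ip_lin_reg h β
  by_cases hq : Two (Du.comp Q.i β).ch
  · rw [two_regI_mul _ hl, two_regI_mul _ hq] at h2
    change _ = 2⁻¹ * (P.δ + Q.δ) at h2
    have := sirr_pi0 hs (by
      rw [ip_sub_left, h1, h2]; exact fun e => P.δ_ne' h.d1 (by linear_combination 2 * e))
    rwa [Blk.pi0_sub, sirr_pi0 β.isIrr.isSIrr (by
      rw [h2, δ, δ]
      have h3 : (0 : ℝ) < 2⁻¹ * ((Nat.card (oddK P.A) : ℝ) / Nat.card P.A + (Nat.card (oddK Q.A) : ℝ) / Nat.card Q.A) := by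
        have := Nat.card_pos (α := oddK P.A); have := Nat.card_pos (α := P.A); positivity
      intro e
      apply h3.ne'
      apply Complex.ofReal_injective
      push_cast
      exact e), sub_left_inj] at this
  · exact absurd hl (Q.not_two β hq)

theorem pi0_D_not (h : Pair P Q) {l : Du P.A} (hl : ¬ Two l.ch) : Blk.pi0 2 (P.D l.ch) = 0 := by
  have h1 : ⟪P.D l.ch, Blk.regI S.H 2⟫ = 0 := by rw [ip_D_reg, not_two_regI hl]
  rcases D_cases l with hs | ⟨β, rfl, hs⟩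
  · exact sirr_pi0' hs h1
  have h2 := ip_lin_reg h β
  rw [not_two_regI hl, not_two_regI (P.not_two β hl), add_zero, mul_zero] at h2
  have := sirr_pi0' hs (by rw [ip_sub_left, h1, h2, sub_zero])
  rwa [Blk.pi0_sub, sirr_pi0' β.isIrr.isSIrr h2, sub_zero] at this

theorem pi0_D (h : Pair P Q) (a : P.A → ℂ) :
    Blk.pi0 2 (P.D a) = P.D (∑ l ∈ annF (oddK P.A), ⟪a, l.ch⟫ • l.ch) := by
  conv_lhs => rw [Du.expand a]
  rw [map_sum, map_sum, Blk.pi0_sum, ← Finset.sum_subset (Finset.subset_univ (annF (oddK P.A))) fun l _ hl => by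
    rw [map_smul, Blk.pi0_smul, pi0_D_not h fun h' => hl (mem_annF.2 (two_iff.1 h')), smul_zero]]
  exact Finset.sum_congr rfl fun l hl => by
    rw [map_smul, Blk.pi0_smul, pi0_D_two h (two_iff.2 (mem_annF.1 hl))]

theorem pi0_D_of (h : Pair P Q) {a : P.A → ℂ} (ha : Two a) : Blk.pi0 2 (P.D a) = P.D a := by
  rw [pi0_D h, ← expand_two ha]

end Tor

variable (S) in
/-- the elements with `t` as a power -/
def R : Set S.H := {h | S.t ∈ zpowers (h : G)}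

theorem conj_t {h : G} (hh : h ∈ S.H) : h * S.t * h⁻¹ = S.t := by rw [S.mem_H.1 hh, mul_inv_cancel_right]
theorem rt_conj {h x : G} (hh : h ∈ S.H) : S.t ∈ zpowers (h * x * h⁻¹) ↔ S.t ∈ zpowers x := by
  conv_lhs => rw [← conj_t hh]
  exact zp_conj_iff

variable (S) in
theorem tiR : TIEmb S.H.subtype (R S) where
  cnj a ha x := (rt_conj x.2).2 ha
  ti a ha b hb g e := by
    have h1 := zp_conj ha g
    have hb' : S.t ∈ zpowers (g * (a : G) * g⁻¹) := (show (b : G) = g * a * g⁻¹ from e) ▸ hb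
    have := inv_unique h1 hb' (by
      rw [show g * S.t * g⁻¹ * (g * S.t * g⁻¹) = g * (S.t * S.t) * g⁻¹ by group, S.tt]; group) S.tt
      (fun h => S.t_ne (by simpa using h)) S.t_ne
    exact ⟨⟨g, S.mem_H.2 (mul_inv_eq_iff_eq_mul.1 this)⟩, rfl⟩

theorem one_not_R : (1 : S.H) ∉ R S := fun h => S.t_ne (by simpa [R] using h)

/-- functions supported on `R` -/
def Sup (f : S.H → ℂ) : Prop := ∀ x, x ∉ R S → f x = 0
/-- functions on a torus supported on `R` -/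
def Tor.SupA (P : Tor S) (a : P.A → ℂ) : Prop := ∀ x : P.A, S.t ∉ zpowers (x : G) → a x = 0

theorem Tor.sup_D {P : Tor S} {a : P.A → ℂ} (ha : P.SupA a) : Sup (P.D a) := fun x hx => by
  rw [P.D_def, Pi.sub_apply, ind_eq_zero _ fun c y e => ha c fun h => hx ((rt_conj y.2).1
    ((show (c : G) = y * x * (y : G)⁻¹ from congrArg Subtype.val e) ▸ h)), Gam_def, ind_eq_zero, sub_zero]
  intro p y e
  rw [Function.comp_apply, ha _ fun h => hx ((rt_conj y.2).1 ?_), zero_mul]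
  rw [← show (p.1 : G) * p.2 = y * x * (y : G)⁻¹ from congrArg Subtype.val e]
  exact zp_mul_odd h S.tt (S.Z_comm p.1.2 (S.U_le_H p.2.2)) (odd_U p.2.2)

theorem res_pi0 {χ : G → ℂ} (hχ : IsCF χ) {h : S.H} (hh : h ∈ R S) :
    Blk.pi0 2 χ h = Blk.pi0 2 (χ ∘ S.H.subtype) h := by
  refine Blk.second_main S.H.subtype hχ fun g e => ⟨⟨g, S.mem_H.2 (comm_of_zp ?_ e)⟩, rfl⟩
  obtain ⟨k, hk⟩ := mem_zpowers_iff.1 hh
  refine mem_zpowers_iff.2 ⟨k, ?_⟩
  rw [← constt_zpow, Subgroup.coe_subtype, hk]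
  exact constt_eq_self ((piElt_singleton_iff' Nat.prime_two).2 ⟨1, by rw [pow_one, sq, S.tt]⟩)

theorem pi0_ind {f : S.H → ℂ} (hs : Sup f) (h0 : Blk.pi0 2 f = f) :
    Blk.pi0 2 (ind S.H.subtype f) = ind S.H.subtype f :=
  (Blk.isCF_pi0 _).ext (isCF_ind _ _) fun χ hχ => by
    rw [Blk.ip_pi0_comm, ip_ind_left _ _ (Blk.isCF_pi0 _), ip_ind_left _ _ hχ.isCF,
      ip_congr_support (b := Blk.pi0 2 χ ∘ S.H.subtype) (c := Blk.pi0 2 (χ ∘ S.H.subtype)) fun g hg =>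
        res_pi0 hχ.isCF (by by_contra h; exact hg (hs g h)), ← Blk.ip_pi0_comm, h0]

end CA.Br.OmB
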