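/-
Brauer's characterization of `PSL₃(q)` and `M₁₁`: linear characters of `H`, overgroups of the split torus,
and the construction of the setting.
-/
import Cfsg.Agent.Lib.Br.GL2
import Cfsg.Agent.Lib.Br.Abs1

set_option autoImplicit false
set_option linter.unusedSectionVars false

namespace CA.Br
open Cfsg Subgroup CA CA.Ch Matrix

variable {F : Type*} [Field F] {G : Type*} [Group G] [Fintype F] [Finite G]
local notation "𝔮" => Fintype.card F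

theorem a_lift_hom {A B C : Type*} [Group A] [Group B] [Group C] (f : A →* B) (hf : Function.Surjective f)
    (g : A →* C) (h : ∀ x, f x = 1 → g x = 1) : ∃ μ : B →* C, ∀ x, μ (f x) = g x :=
  ⟨f.liftOfSurjective hf ⟨g, h⟩, fun x => f.liftOfRightInverse_comp_apply _ _ _ x⟩

theorem a_cj_ent (g : L2 F) (l : Fˣ) :
    aDet g * (g * dg (l, 1) * g⁻¹ : L2 F) 0 0 = g 0 0 * g 1 1 * l - g 0 1 * g 1 0 ∧
    aDet g * (g * dg (l, 1) * g⁻¹ : L2 F) 0 1 = g 0 0 * g 0 1 * (1 - l) ∧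
    aDet g * (g * dg (l, 1) * g⁻¹ : L2 F) 1 0 = g 1 0 * g 1 1 * (l - 1) ∧
    aDet g * (g * dg (l, 1) * g⁻¹ : L2 F) 1 1 = g 0 0 * g 1 1 - g 0 1 * g 1 0 * l := by
  have ee := a_cj g (dg (l, 1))
  generalize g * dg (l, 1) * g⁻¹ = h at *
  obtain ⟨e0, e1, e2, e3⟩ := a_ent ee
  simp only [mul_ent, dg_00, dg_01, dg_10, dg_11, Units.val_one] at e0 e1 e2 e3
  simp only [aDet]
  exact ⟨by linear_combination g 1 1 * e0 - g 1 0 * e1, by linear_combination g 0 0 * e1 - g 0 1 * e0,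
    by linear_combination g 1 1 * e2 - g 1 0 * e3, by linear_combination g 0 0 * e3 - g 0 1 * e2⟩

namespace Hyp
variable (S : Hyp G F)

/-! ### linear characters -/
theorem a_lin (β : Du S.H) {g : L2 F} (h : GeneralLinearGroup.det g = 1) : β.hom ⟨S.π g, g, rfl⟩ = 1 := by
  have h1 : g ∈ commutator (L2 F) := by
    rw [Lin.commutator_GL_eq_ker_det fun _ => ⟨-1, by simp, fun e => S.neg_one_ne (Units.ext e)⟩]; exact h
  exact Abelianization.commutator_subset_ker (β.hom.comp S.π.rangeRestrict) h1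

theorem a_inj {A : Subgroup G} (hA : A ≤ S.H) (hd : ∀ c, ∃ g, S.π g ∈ A ∧ GeneralLinearGroup.det g = c) :
    Function.Injective (Du.comp (inclusion hA)) := by
  refine (injective_iff_map_eq_one _).2 fun β h => Du.ext' ?_
  rintro ⟨_, g, rfl⟩
  obtain ⟨k, hk, e⟩ := hd (GeneralLinearGroup.det g)
  have h1 := S.a_lin β (g := g * k⁻¹) (by rw [map_mul, map_inv, e, mul_inv_cancel])
  have h2 : β.hom ⟨S.π k, k, rfl⟩ = 1 := DFunLike.congr_fun (congrArg Du.hom h) (⟨_, hk⟩ : A)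
  have h3 : (⟨S.π g, g, rfl⟩ : S.H) = ⟨S.π (g * k⁻¹), _, rfl⟩ * ⟨S.π k, k, rfl⟩ := Subtype.ext (by simp)
  rw [Du.ch_apply, h3, map_mul, h1, h2]; simp

theorem a_ext {A : Subgroup G} (hA : A ≤ S.H) (hd : ∀ c, ∃ g, S.π g ∈ A ∧ GeneralLinearGroup.det g = c) (l : Du A)
    (h : ∀ g (hg : S.π g ∈ A), GeneralLinearGroup.det g = 1 → l.ch ⟨_, hg⟩ = 1) :
    ∃ β : Du S.H, Du.comp (inclusion hA) β = l := by
  obtain ⟨μ, hμ⟩ := a_lift_hom (GeneralLinearGroup.det.comp (A.comap S.π).subtype)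
    (fun c => let ⟨g, hg, e⟩ := hd c; ⟨⟨g, hg⟩, e⟩) (l.hom.comp (S.π.subgroupComap A))
    (fun x hx => Units.ext (h x x.2 hx))
  obtain ⟨β, hβ⟩ := a_lift_hom S.π.rangeRestrict S.π.rangeRestrict_surjective (μ.comp GeneralLinearGroup.det)
    (fun g hg => by
      have e : S.π g = 1 := congrArg Subtype.val hg
      have hg' : g ∈ A.comap S.π := by rw [mem_comap, e]; exact one_mem _
      refine (hμ ⟨g, hg'⟩).trans ?_
      rw [MonoidHom.comp_apply, show S.π.subgroupComap A ⟨g, hg'⟩ = 1 from Subtype.ext e, map_one])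
  refine ⟨Du.mk β, Du.ext' fun x => ?_⟩
  obtain ⟨x, hx⟩ := x
  obtain ⟨g, rfl⟩ := hA hx
  exact congrArg Units.val ((hβ g).trans (hμ ⟨g, hx⟩))

theorem a_dT (c : Fˣ) : ∃ g, S.π g ∈ S.T ∧ GeneralLinearGroup.det g = c :=
  ⟨dg (c, 1), ⟨_, rfl⟩, by rw [a_det_dg, mul_one]⟩
theorem a_dW (c : Fˣ) : ∃ g, S.π g ∈ S.W ∧ GeneralLinearGroup.det g = c :=
  let ⟨g, hg, e⟩ := a_norm_surj S.odd S.nsq c; ⟨g, mem_map_of_mem _ hg, e⟩

theorem ext_T (l : Du S.T) (h : ∀ x : S.T, (x : G) ∈ S.Tm → l.ch x = 1) :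
    ∃ β : Du S.H, Du.comp (inclusion S.T_le_H) β = l :=
  S.a_ext _ S.a_dT l fun g hg hd => h _ (by
    obtain ⟨⟨a, b⟩, rfl⟩ := exists_dg (S.a_T.1 hg).1 (S.a_T.1 hg).2
    rw [a_det_dg] at hd
    obtain rfl := eq_inv_of_mul_eq_one_right hd
    exact ⟨a, rfl⟩)
theorem ext_W (l : Du S.W) (h : ∀ x : S.W, (x : G) ∈ S.Wm → l.ch x = 1) :
    ∃ β : Du S.H, Du.comp (inclusion S.W_le_H) β = l :=
  S.a_ext _ S.a_dW l fun _ hg hd => h _
    (mem_map_of_mem _ (Subgroup.mem_inf.2 ⟨(mem_WW S.ε_ne).2 (S.a_W.1 hg), MonoidHom.mem_ker.2 hd⟩))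
theorem inj_T : Function.Injective (Du.comp (inclusion S.T_le_H)) := S.a_inj _ S.a_dT
theorem inj_W : Function.Injective (Du.comp (inclusion S.W_le_H)) := S.a_inj _ S.a_dW

/-! ### the Borel subgroup -/
theorem a_y0 : S.π (xp (Multiplicative.ofAdd 1)) ≠ 1 := fun e => by
  have := S.xp_inj (a₁ := Multiplicative.ofAdd 1) (a₂ := 1) (by simpa using e)
  simp at this
theorem a_B_norm : S.T ⊔ S.U ≤ 𝐍(S.U) := sup_le S.T_norm_U le_normalizer
theorem a_fus {y h : G} (hy : y ∈ S.U) (h1 : y ≠ 1) (hh : h ∈ S.H) (e : h * y * h⁻¹ ∈ S.U) : h ∈ S.T ⊔ S.U :=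
  (S.fus_U (one_mem _) hy h1 (one_mem _) e hh (by rw [one_mul, one_mul])).2
theorem norm_U : S.H ⊓ 𝐍(S.U) = S.T ⊔ S.U :=
  le_antisymm (fun _ h => S.a_fus ⟨_, rfl⟩ S.a_y0 h.1 (conj_mem_of_mem_normalizer h.2 ⟨_, rfl⟩))
    (le_inf (sup_le S.T_le_H S.U_le_H) S.a_B_norm)
theorem a_bruhat {h : G} (hh : h ∈ S.H) (hB : h ∉ S.T ⊔ S.U) : ∃ y ∈ S.U, S.w * (y * h) ∈ S.T ⊔ S.U := by
  obtain ⟨g, rfl⟩ := hh
  have n : g 1 0 ≠ 0 := fun e => hB (S.a_B.2 e)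
  refine ⟨S.π (xp (Multiplicative.ofAdd (-g 0 0 / g 1 0))), ⟨_, rfl⟩, ?_⟩
  rw [w, ← map_mul, ← map_mul, a_B]
  simp [mul_ent, n]
theorem B_max {X : Subgroup G} (h1 : S.T ⊔ S.U ≤ X) {x : G} (hx : x ∈ X) (hH : x ∈ S.H) (hB : x ∉ S.T ⊔ S.U) :
    S.H ≤ X := fun h hh => by
  have hU : S.U ≤ X := le_sup_right.trans h1
  obtain ⟨y, hy, e⟩ := S.a_bruhat hH hB
  have hw : S.w ∈ X := (mul_mem_cancel_right (mul_mem (hU hy) hx)).1 (h1 e)
  by_cases hB' : h ∈ S.T ⊔ S.U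
  · exact h1 hB'
  obtain ⟨y, hy, e⟩ := S.a_bruhat hh hB'
  exact (mul_mem_cancel_left (hU hy)).1 ((mul_mem_cancel_left hw).1 (h1 e))

instance instCommU : IsMulCommutative S.U := ⟨⟨by
  rintro ⟨_, a, rfl⟩ ⟨_, b, rfl⟩
  exact Subtype.ext ((map_mul _ a b).symm.trans ((congrArg _ (mul_comm a b)).trans (map_mul _ b a)))⟩⟩

theorem a_q1 : ((𝔮 - 1 : ℕ) : ℤ) = 𝔮 - 1 := by rw [Nat.cast_sub Fintype.card_pos]; rfl

/-- the abstract facts -/
noncomputable def toAbs0 : Abs0 G where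
  q := 𝔮
  e := 1
  he := Or.inl rfl
  p := ringChar F
  f := (FiniteField.card F (ringChar F)).choose
  hp := (FiniteField.card F (ringChar F)).choose_spec.1
  hf := (FiniteField.card F (ringChar F)).choose.2
  hq := (FiniteField.card F (ringChar F)).choose_spec.2
  odd := S.odd
  t := S.t
  u := S.u
  w := S.w
  ρ := S.ρ
  H := S.H
  T := S.T
  W := S.W
  Z := S.Z
  U := S.U
  Tm := S.Tm
  Wm := S.Wm
  H_eq := S.H_eq
  tt := S.tt
  uu := S.uu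
  ww' := S.ww'
  ut := S.ut
  wt := S.wt
  wu := S.wu
  ρ_t := S.ρ_t
  ρ_u := S.ρ_u
  t_ne := S.t_ne
  mem_T := S.mem_T
  W_le_H := S.W_le_H
  U_le_H := S.U_le_H
  t_Z := S.t_Z
  Z_comm := S.Z_comm
  commT := S.instCommT
  commU := S.instCommU
  cyc_W := S.cyc_W
  cyc_Tm := S.cyc_Tm
  card_T := by rw [S.card_T, Nat.cast_mul, a_q1]; rfl
  card_W := by rw [S.card_W, Nat.cast_mul]; rfl
  card_U := S.card_U
  card_H := by rw [S.card_H, d]; push_cast [a_q1]; ring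
  d_dvd := let ⟨k, h, e⟩ := S.d_dvd; ⟨k, h, by rw [← a_q1, e, Nat.cast_mul]; rfl⟩
  card_Tm := by rw [S.card_Tm, a_q1]
  card_Wm := by rw [S.card_Wm]; rfl
  cent_T := S.cent_T
  cent_W := S.cent_W
  cent_U := S.cent_U
  T_inf_W := S.T_inf_W
  Z_inf_U := eq_bot_iff.2 ((inf_le_inf_right _ S.Z_le_T).trans S.T_inf_U.le)
  u_not_W := S.u_not_W
  fus_T := S.fus_T
  fus_W := S.fus_W
  fus_TW := S.fus_TW
  fus_UT := S.fus_UT
  fus_UW := S.fus_UW
  fus_U := fun a b c d e f g => (S.fus_U a b c d e f g).imp_right fun h => S.a_B_norm h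
  U_trans := fun a b c d => let ⟨x, h, e⟩ := S.U_trans a b c d; ⟨x, S.T_le_H h, e⟩
  borel := Or.inl ⟨rfl, S.norm_U, fun _ => S.u_inv_U⟩
  card_B := by rw [S.norm_U, S.card_B, d]; push_cast [a_q1]; ring
  classes := S.classes
  inv_T := S.inv_T
  u_W_pow := fun h => by rw [S.u_W_pow h, one_mul, zpow_natCast]
  mem_Tm := S.mem_Tm
  mem_Wm := S.mem_Wm
  mem_Z_T := S.mem_Z_T
  mem_Z_W := S.mem_Z_W
  Tm_h90 := S.Tm_h90
  Wm_h90 := S.Wm_h90
  ext_T := fun _ => S.ext_T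
  ext_W := S.ext_W
  inj_T := fun _ => S.inj_T
  inj_W := S.inj_W

/-- all the abstract facts -/
noncomputable def toAbs : Abs G := S.toAbs0.toAbs

theorem toAbs0_p (p : ℕ) [CharP F p] : S.toAbs0.p = p := ringChar.eq F p
theorem toAbs0_Q : S.toAbs0.Q = 𝔮 := one_mul _

theorem lin_Tm (β : Du S.H) (x : S.H) (h : (x : G) ∈ S.Tm) : β.ch x = 1 := S.toAbs0.lin_Tm β x h
theorem lin_Wm (β : Du S.H) (x : S.H) (h : (x : G) ∈ S.Wm) : β.ch x = 1 := S.toAbs0.lin_Wm β x h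
theorem lin_U (β : Du S.H) (x : S.H) (h : (x : G) ∈ S.U) : β.ch x = 1 := S.toAbs0.lin_U β x h
theorem inv_conj {i : G} (h2 : i * i = 1) (h1 : i ≠ 1) : IsConj S.t i := S.toAbs0.inv_conj h2 h1
theorem inv_conj_in {K : Subgroup G} (hK : S.H ≤ K) (hρ : S.ρ ∈ K) {i : G} (hi : i ∈ K) (h2 : i * i = 1)
    (h1 : i ≠ 1) : ∃ k ∈ K, i = k * S.t * k⁻¹ := S.toAbs0.inv_conj_in hK hρ hi h2 h1
theorem index_odd : Odd S.H.index := S.toAbs0.index_odd
theorem lin_eq_one (l : G →* ℂˣ) (h : ∀ x ∈ S.T, l x = 1) : l = 1 := S.toAbs0.lin_eq_one l h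
theorem cent_V : 𝐂(S.V) = S.T := S.toAbs0.cent_V
theorem mem_V {x : G} : x ∈ S.V ↔ x = 1 ∨ x = S.t ∨ x = S.u ∨ x = S.t * S.u := S.toAbs0.mem_V
theorem mem_V' {x : G} : x ∈ S.V ↔ x ∈ S.T ∧ x * x = 1 := S.toAbs0.mem_V'
theorem V_le_T : S.V ≤ S.T := S.toAbs0.V_le_T
theorem t_V : S.t ∈ S.V := S.toAbs0.t_V
theorem u_V : S.u ∈ S.V := S.toAbs0.u_V
theorem card_V : Nat.card S.V = 4 := S.toAbs0.card_V
theorem norm_V : 𝐍(S.V) = 𝐍(S.T) := S.toAbs0.norm_V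
theorem ρ_norm : S.ρ ∈ 𝐍(S.T) := S.toAbs0.ρ_norm
theorem w_norm : S.w ∈ 𝐍(S.T) := S.toAbs0.w_norm
theorem ρ3 : S.ρ ^ 3 ∈ S.T := S.toAbs0.ρ3
theorem wρ : S.w * S.ρ * S.w⁻¹ * S.ρ ∈ S.T := S.toAbs0.wρ
theorem norm_t {n : G} (hn : n ∈ 𝐍(S.T)) : n * S.t * n⁻¹ = S.t ∨ n * S.t * n⁻¹ = S.u ∨ n * S.t * n⁻¹ = S.t * S.u :=
  S.toAbs0.norm_t hn
theorem norm_T_H {n : G} (hn : n ∈ 𝐍(S.T)) (h : n ∈ S.H) : n ∈ S.T ∨ S.w * n ∈ S.T := S.toAbs0.norm_T_H hn h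
theorem norm_T {n : G} (hn : n ∈ 𝐍(S.T)) : ∃ x ∈ S.T, ∃ i < 3, n = x * S.ρ ^ i ∨ n = x * S.ρ ^ i * S.w :=
  S.toAbs0.norm_T hn
theorem card_norm_T : Nat.card 𝐍(S.T) = 6 * Nat.card S.T := S.toAbs0.card_norm_T

/-! ### `p`-subgroups -/
theorem a_cjU {k : L2 F} (h : k 0 0 * k 1 0 = 0) : cj (S.π k) S.U = S.U ∨ cj (S.π k) S.U = S.U' := by
  rcases mul_eq_zero.1 h with h | h
  · right
    have : S.w * S.π k ∈ S.T ⊔ S.U := by rw [w, ← map_mul, a_B]; simp [mul_ent, h]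
    calc cj (S.π k) S.U = cj S.w (cj (S.w * S.π k) S.U) := by rw [cj_cj, ← mul_assoc, S.ww', one_mul]
      _ = _ := by rw [cj_eq_of_mem_normalizer (S.a_B_norm this), S.cj_w_U]
  · exact Or.inl (cj_eq_of_mem_normalizer (S.a_B_norm (S.a_B.2 h)))

theorem a_U_le {X : Subgroup G} (h1 : S.T ≤ X) {y : G} (hy : y ∈ X) (y1 : y ≠ 1) (hU : y ∈ S.U) : S.U ≤ X :=
  fun z hz => by
    by_cases z1 : z = 1
    · exact z1 ▸ one_mem _
    obtain ⟨x, hx, rfl⟩ := S.U_trans hU y1 hz z1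
    exact mul_mem (mul_mem (h1 hx) hy) (inv_mem (h1 hx))
theorem a_U'_le {X : Subgroup G} (h1 : S.T ≤ X) {y : G} (hy : y ∈ X) (y1 : y ≠ 1) (hU : y ∈ S.U') : S.U' ≤ X := by
  rw [← S.cj_w_U] at hU ⊢
  refine cj_le_iff.2 (S.a_U_le (y := S.w⁻¹ * y * S.w) (fun x hx => mem_cj_inv.2 (h1 (S.w_T hx)))
    (mem_cj_inv.2 (by simpa [mul_assoc] using hy)) (fun e => y1 ?_) (mem_cj.1 hU))
  calc y = S.w * (S.w⁻¹ * y * S.w) * S.w⁻¹ := by group
    _ = 1 := by rw [e]; group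

section
variable (p : ℕ) [Fact p.Prime] [CharP F p]

theorem a_p_dvd : p ∣ 𝔮 := by
  obtain ⟨n, -, h⟩ := FiniteField.card F p
  exact h ▸ dvd_pow_self _ n.ne_zero
theorem a_p_q1 : ¬ p ∣ 𝔮 - 1 := fun h => (Fact.out : p.Prime).one_lt.ne' (Nat.dvd_one.1 (by
  have := Nat.dvd_sub (a_p_dvd (F := F) p) h
  rwa [Nat.sub_sub_self Fintype.card_pos] at this))
theorem a_p_q1' : ¬ p ∣ 𝔮 + 1 := fun h => (Fact.out : p.Prime).one_lt.ne' (Nat.dvd_one.1
  ((Nat.dvd_add_right (a_p_dvd (F := F) p)).1 h))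
theorem a_p_d : ¬ p ∣ S.d := fun h => let ⟨_, _, e⟩ := S.d_dvd; a_p_q1 (F := F) p (e ▸ h.mul_right _)
theorem U_pgrp : PiGrp {p} S.U := by
  obtain ⟨n, hp, h⟩ := FiniteField.card F p
  exact (piGrp_singleton_iff_card hp).2 ⟨n, S.card_U.trans h⟩
theorem T_pgrp : ¬ p ∣ Nat.card S.T := by
  rw [S.card_T, (Fact.out : p.Prime).dvd_mul]
  exact fun h => h.elim (a_p_q1 p) (S.a_p_d p)
theorem W_pgrp : ¬ p ∣ Nat.card S.W := by
  rw [S.card_W, (Fact.out : p.Prime).dvd_mul]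
  exact fun h => h.elim (a_p_q1' p) (S.a_p_d p)
theorem U_relIndex : S.U.relIndex S.H = (𝔮 - 1) * (𝔮 + 1) * S.d := by
  have := card_mul_relIndex S.U_le_H
  rw [S.card_U, S.card_H, mul_assoc] at this
  exact Nat.eq_of_mul_eq_mul_left Fintype.card_pos this
theorem U_sylow : SylowIn p S.U S.H := by
  have hp : p.Prime := Fact.out
  refine sylowIn_mk hp S.U_le_H ((S.U_pgrp p).isPGroup hp) ?_
  rw [S.U_relIndex, hp.dvd_mul, hp.dvd_mul]
  exact fun h => h.elim (fun h => h.elim (a_p_q1 p) (a_p_q1' p)) (S.a_p_d p)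
theorem p_elt {x : G} (hx : x ∈ S.H) (h : PiElt {p} x) : ∃ k ∈ S.H, k * x * k⁻¹ ∈ S.U :=
  (S.U_sylow p).exists_conj_mem hx h
theorem a_T_one {x : G} (hx : x ∈ S.T) (h : PiElt {p} x) : x = 1 :=
  h.eq_one (((piGrp_compl_singleton Fact.out).2 (S.T_pgrp p)).piElt hx)

theorem p_sub {P : Subgroup G} (hP : P ≤ S.H) (h : PiGrp {p} P) (hu : S.u ∈ 𝐍(P)) : P ≤ S.U ∨ P ≤ S.U' := by
  obtain ⟨_, ⟨k, rfl⟩, hk⟩ := (S.U_sylow p).exists_le_cj h hP
  by_cases h1 : P = ⊥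
  · exact Or.inl (h1 ▸ bot_le)
  obtain ⟨⟨y, hy⟩, y1⟩ := ne_bot_iff_exists_ne_one.1 h1
  have e : (S.π k)⁻¹ * S.u * S.π k ∈ S.T ⊔ S.U := by
    refine S.a_fus (mem_cj.1 (hk hy)) (fun e => y1 (Subtype.ext ?_))
      (mul_mem (mul_mem (inv_mem ⟨k, rfl⟩) (S.T_le_H S.u_T)) ⟨k, rfl⟩) ?_
    · calc y = S.π k * ((S.π k)⁻¹ * y * S.π k) * (S.π k)⁻¹ := by group
        _ = 1 := by rw [e]; group
    · convert mem_cj.1 (hk (conj_mem_of_mem_normalizer hu hy)) using 1; group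
  rw [u, ← map_inv, ← map_mul, ← map_mul, a_B] at e
  have ee : k * (k⁻¹ * dg (1, -1) * k) = dg (1, -1) * k := by group
  generalize k⁻¹ * dg (1, -1) * k = g at *
  obtain ⟨e0, -, e2, -⟩ := a_ent ee
  simp only [mul_ent, e, dg_00, dg_01, dg_10, dg_11, Units.val_one, Units.val_neg] at e0 e2
  rcases S.a_cjU (k := k) (mul_left_cancel₀ S.two_ne (by linear_combination k 0 0 * e2 - k 1 0 * e0)) with e | e
  exacts [Or.inl (e ▸ hk), Or.inr (e ▸ hk)]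

theorem over_p {X : Subgroup G} (h1 : S.T ≤ X) (h2 : X ≤ S.H) (h : p ∣ Nat.card X) : S.U ≤ X ∨ S.U' ≤ X := by
  have hp : p.Prime := Fact.out
  obtain ⟨x, hx, ho⟩ := exists_orderOf_eq_prime hp h
  have hpe : PiElt {p} x := (piElt_of_orderOf_prime hp ho).2 rfl
  have x1 : x ≠ 1 := fun e => hp.one_lt.ne (by rw [← ho, e, orderOf_one])
  have key : ∀ {y : G} {k : L2 F}, y ∈ X → y ≠ 1 → y ∈ cj (S.π k) S.U → k 0 0 * k 1 0 = 0 → S.U ≤ X ∨ S.U' ≤ X :=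
    fun hy y1 hU hk => (S.a_cjU hk).imp (fun e => S.a_U_le h1 hy y1 (e.le hU)) fun e => S.a_U'_le h1 hy y1 (e.le hU)
  obtain ⟨_, ⟨k, rfl⟩, hk⟩ := (S.U_sylow p).exists_le_cj (piGrp_zpowers.2 hpe) (zpowers_le.2 (h2 hx))
  replace hk := hk (mem_zpowers x)
  by_cases hk0 : k 0 0 * k 1 0 = 0
  · exact key hx x1 hk hk0
  obtain ⟨ξ, rfl⟩ := h2 hx
  have key2 : ∀ j : Fin 2, ξ 0 j * ξ 1 j ≠ 0 → S.U ≤ X ∨ S.U' ≤ X := fun j hj => by
    have a0 := left_ne_zero_of_mul hk0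
    have a1 := right_ne_zero_of_mul hk0
    let τ : L2 F := dg (Units.mk0 _ (div_ne_zero (left_ne_zero_of_mul hj) a0),
      Units.mk0 _ (div_ne_zero (right_ne_zero_of_mul hj) a1))
    have hg : S.π (ξ⁻¹ * τ) ∈ X := by rw [map_mul, map_inv]; exact mul_mem (inv_mem hx) (h1 ⟨_, rfl⟩)
    refine key (k := ξ⁻¹ * τ * k) (mul_mem (mul_mem hg hx) (inv_mem hg)) (fun e => x1 (conj_eq_one_iff.1 e))
      (by rw [map_mul S.π (ξ⁻¹ * τ), cj_mul]; exact conj_mem_cj.2 hk) ?_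
    have ee : ξ * (ξ⁻¹ * τ * k) = τ * k := by group
    generalize ξ⁻¹ * τ * k = m at *
    obtain ⟨e0, -, e2, -⟩ := a_ent ee
    simp only [mul_ent, τ, dg_00, dg_01, dg_10, dg_11, Units.val_mk0, zero_mul, add_zero, zero_add,
      div_mul_cancel₀ _ a0, div_mul_cancel₀ _ a1] at e0 e2
    have hd := det_ne ξ
    fin_cases j
    · exact mul_eq_zero_of_right _ (mul_left_cancel₀ hd (by
        simp only [Fin.zero_eta] at e0 e2; linear_combination ξ 0 0 * e2 - ξ 1 0 * e0))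
    · exact mul_eq_zero_of_left (mul_left_cancel₀ hd (by
        simp only [Fin.mk_one] at e0 e2; linear_combination ξ 1 1 * e0 - ξ 0 1 * e2)) _
  by_cases c0 : ξ 0 0 * ξ 1 0 = 0
  swap
  · exact key2 0 c0
  by_cases c1 : ξ 0 1 * ξ 1 1 = 0
  swap
  · exact key2 1 c1
  exfalso
  have hd := det_ne ξ
  have ht : ξ 0 1 * (ξ 0 0 + ξ 1 1) = 0 ∧ ξ 1 0 * (ξ 0 0 + ξ 1 1) = 0 := by
    rcases mul_eq_zero.1 c0 with a | a <;> rcases mul_eq_zero.1 c1 with b | b <;> simp_all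
  have h3 : S.π ξ * S.π ξ ∈ S.T := by
    rw [← map_mul, a_T]; simp only [mul_ent]
    exact ⟨by linear_combination ht.1, by linear_combination ht.2⟩
  have h4 := S.a_T_one p h3 (hpe.mul hpe rfl)
  have h5 : p = 2 := ho ▸ Inv.orderOf_eq_two h4 x1
  exact (Nat.not_even_iff_odd.2 S.odd) (even_iff_two_dvd.2 (h5 ▸ a_p_dvd p))

theorem over_p' (hq : 5 < 𝔮) {X : Subgroup G} (h1 : S.T ≤ X) (h2 : X ≤ S.H) (h : ¬ p ∣ Nat.card X) {x : G}
    (hx : x ∈ X) : x ∈ S.T ∨ S.w * x ∈ S.T := by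
  have hp : p.Prime := Fact.out
  have two := S.two_ne
  have hX := (piGrp_compl_singleton hp).2 h
  have N : ∀ g, S.π g ∈ X → aDisc g = 0 → aSc g := fun g hg hd => by
    by_contra hs
    obtain ⟨k, z, hz, y, hy, y1, e⟩ := S.a_unip hs hd
    refine y1 (((S.U_pgrp p).piElt hy).eq_one ?_)
    have : y = S.π k * (z⁻¹ * S.π g) * (S.π k)⁻¹ := by
      rw [← mul_assoc, ← S.Z_comm (inv_mem hz) ⟨k, rfl⟩, mul_assoc, mul_assoc, ← mul_assoc (S.π k), e]; group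
    rw [this, piElt_conj]
    exact hX.piElt (mul_mem (inv_mem (h1 (S.Z_le_T hz))) hg)
  have M : ∀ {g} (a b : Fˣ), S.π g ∈ X → S.π (g * dg (a, b)) ∈ X := fun a b hg => by
    rw [map_mul]; exact mul_mem hg (h1 ⟨_, rfl⟩)
  have C1 : ∀ g, S.π g ∈ X → g 0 1 * g 1 0 = 0 → g 0 1 = 0 ∧ g 1 0 = 0 := fun g hg e => by
    have hd := det_ne g
    rw [e, sub_zero] at hd
    obtain ⟨k1, k2, -⟩ := N _ (M (Units.mk0 _ (right_ne_zero_of_mul hd)) (Units.mk0 _ (left_ne_zero_of_mul hd)) hg) (by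
      simp only [aDisc, aTr, aDet, mul_ent, dg_00, dg_01, dg_10, dg_11, Units.val_mk0]
      linear_combination 4 * g 0 0 * g 1 1 * e)
    exact ⟨by simpa [mul_ent, left_ne_zero_of_mul hd] using k1, by simpa [mul_ent, right_ne_zero_of_mul hd] using k2⟩
  have C2 : ∀ g, S.π g ∈ X → g 0 0 * g 1 1 = 0 → g 0 0 = 0 ∧ g 1 1 = 0 := fun g hg e => by
    have hd := det_ne g
    rw [e, zero_sub, neg_ne_zero] at hd
    have b0 := left_ne_zero_of_mul hd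
    have c0 := right_ne_zero_of_mul hd
    have four : (4 : F) ≠ 0 := by have := mul_ne_zero two two; rwa [show (2 : F) * 2 = 4 by norm_num] at this
    by_contra hh
    rcases mul_eq_zero.1 e with a | a
    · have n : g 1 1 ≠ 0 := fun e => hh ⟨a, e⟩
      have := (N _ (M (Units.mk0 (-(g 1 1 * g 1 1) / (4 * (g 0 1 * g 1 0)))
        (div_ne_zero (neg_ne_zero.2 (mul_ne_zero n n)) (mul_ne_zero four hd))) 1 hg) (by
          simp only [aDisc, aTr, aDet, mul_ent, dg_00, dg_01, dg_10, dg_11, Units.val_mk0, a, Units.val_one]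
          field_simp; ring)).1
      exact b0 (by simpa [mul_ent] using this)
    · have n : g 0 0 ≠ 0 := fun e => hh ⟨e, a⟩
      have := (N _ (M 1 (Units.mk0 (-(g 0 0 * g 0 0) / (4 * (g 0 1 * g 1 0)))
        (div_ne_zero (neg_ne_zero.2 (mul_ne_zero n n)) (mul_ne_zero four hd))) hg) (by
          simp only [aDisc, aTr, aDet, mul_ent, dg_00, dg_01, dg_10, dg_11, Units.val_mk0, a, Units.val_one]
          field_simp; ring)).2.1
      exact c0 (by simpa [mul_ent] using this)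
  have M' : ∀ {g} (l : Fˣ), S.π g ∈ X → S.π (g * dg (l, 1) * g⁻¹) ∈ X := fun l hg => by
    rw [map_mul, map_inv]; exact mul_mem (M _ _ hg) (inv_mem hg)
  have C3 : ∀ g, S.π g ∈ X → g 0 1 * g 1 0 ≠ 0 → g 0 0 * g 1 1 ≠ 0 → g 0 1 * g 1 0 = -(g 0 0 * g 1 1) :=
    fun g hg e1 e2 => by
      obtain ⟨k0, -, -, k3⟩ := a_cj_ent g (Units.mk0 _ (div_ne_zero e1 e2))
      rw [Units.val_mk0, mul_div_cancel₀ _ e2, sub_self] at k0
      rw [(C2 _ (M' _ hg) (mul_eq_zero_of_left ((mul_eq_zero.1 k0).resolve_left (a_det_ne g)) _)).2, Units.val_mk0,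
        mul_zero, eq_comm, sub_eq_zero, ← mul_div_assoc, eq_div_iff e2] at k3
      exact ((mul_self_eq_mul_self_iff.1 k3.symm).resolve_left fun e => det_ne g (by rw [e, sub_self]))
  obtain ⟨g, rfl⟩ := h2 hx
  by_cases e1 : g 0 1 * g 1 0 = 0
  · exact Or.inl (S.a_T.2 (C1 g hx e1))
  by_cases e2 : g 0 0 * g 1 1 = 0
  · right
    rw [w, ← map_mul, a_T]
    simpa [mul_ent] using (C2 g hx e2).symm
  exfalso
  have e3 := C3 g hx e1 e2
  have : ∀ l : Fˣ, l ^ 4 = 1 := fun l => Units.ext (by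
    rw [Units.val_pow_eq_pow_val, Units.val_one]
    by_cases l1 : (l : F) - 1 = 0
    · linear_combination ((l : F) + 1) * (l ^ 2 + 1) * l1
    by_cases l2 : (l : F) + 1 = 0
    · linear_combination ((l : F) - 1) * (l ^ 2 + 1) * l2
    obtain ⟨k0, k1, k2, k3⟩ := a_cj_ent g l
    have hm := M' l hx
    generalize g * dg (l, 1) * g⁻¹ = m at *
    have j1 : aDet g * aDet g * (m 0 1 * m 1 0) = (g 0 0 * g 1 1) ^ 2 * (l - 1) ^ 2 := by
      linear_combination aDet g * m 1 0 * k1 + g 0 0 * g 0 1 * (1 - l) * k2 - g 0 0 * g 1 1 * (l - 1) ^ 2 * e3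
    have j2 : aDet g * aDet g * (m 0 0 * m 1 1) = (g 0 0 * g 1 1) ^ 2 * (l + 1) ^ 2 := by
      rw [e3] at k0 k3
      linear_combination aDet g * m 1 1 * k0 + g 0 0 * g 1 1 * (l + 1) * k3
    have j3 := C3 m hm (fun e => mul_ne_zero (pow_ne_zero 2 e2) (pow_ne_zero 2 l1) (by rw [← j1, e, mul_zero]))
      (fun e => mul_ne_zero (pow_ne_zero 2 e2) (pow_ne_zero 2 l2) (by rw [← j2, e, mul_zero]))
    have j4 : (l : F) ^ 2 + 1 = 0 := mul_left_cancel₀ (mul_ne_zero two (pow_ne_zero 2 e2)) (by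
      linear_combination aDet g * aDet g * j3 - j1 - j2)
    linear_combination ((l : F) ^ 2 - 1) * j4)
  have := Nat.le_of_dvd (by norm_num) ((FiniteField.forall_pow_eq_one_iff F 4).1 this)
  omega
end
end Hyp

theorem exists_hyp [IsSimpleGroup G] (hF : Odd 𝔮) (Z : Subgroup (GL (Fin 2) F)) [Z.Normal]
    (hZc : Z ≤ center (GL (Fin 2) F)) (hZo : Odd (Nat.card Z)) (t : G) (ht : orderOf t = 2)
    (hC : Nonempty (centralizer ({t} : Set G) ≃* (GL (Fin 2) F ⧸ Z))) : Nonempty (Hyp G F) := by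
  obtain ⟨e⟩ := hC
  have two : (2 : F) ≠ 0 := SL2.two_ne_zero_of_odd hF
  let π : L2 F →* G := (𝐂[t]).subtype.comp (e.symm.toMonoidHom.comp (QuotientGroup.mk' Z))
  have hr : π.range = 𝐂[t] := by
    rw [MonoidHom.range_comp, MonoidHom.range_eq_top.2 (e.symm.surjective.comp (QuotientGroup.mk'_surjective Z)),
      ← MonoidHom.range_eq_map, range_subtype]
  have ker : ∀ g, π g = 1 → ∃ c : Fˣ, Odd (orderOf c) ∧ g = dg (c, c) := fun g hg => by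
    have h1 : g ∈ Z := (QuotientGroup.eq_one_iff g).1 (e.symm.map_eq_one_iff.1 (Subtype.ext hg))
    obtain ⟨-, e1, e2, -⟩ := a_ent (mem_center_iff.1 (hZc h1) (dg (1, -1)))
    obtain ⟨-, e3, -, -⟩ := a_ent (mem_center_iff.1 (hZc h1) ww)
    simp only [mul_ent, dg_00, dg_01, dg_10, dg_11, ww_00, ww_01, ww_11, Units.val_one, Units.val_neg] at e1 e2 e3
    obtain ⟨c, rfl⟩ := a_sc_dg (g := g) ⟨mul_left_cancel₀ two (by linear_combination e1),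
      mul_left_cancel₀ two (by linear_combination -e2), by linear_combination -e3⟩
    refine ⟨c, ?_, rfl⟩
    rw [← orderOf_injective (aS : Fˣ →* L2 F) (fun a b e => (Prod.ext_iff.1 (dg_injective e)).1) c]
    exact hZo.of_dvd_nat (Subgroup.orderOf_dvd_natCard Z h1)
  have n1 : π (dg (-1, -1)) ≠ 1 := fun h => by
    obtain ⟨c, hc, e⟩ := ker _ h
    obtain rfl : -1 = c := (Prod.ext_iff.1 (dg_injective e)).1
    have := congrArg Units.val (Hyp.eq_one_of_sq hc (by simp))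
    simp only [Units.val_neg, Units.val_one] at this
    exact two (by linear_combination -this)
  have tu : π (dg (-1, -1)) * π (dg (1, -1)) = π (dg (-1, 1)) := by rw [← map_mul, ← map_mul]; simp
  have wu : π ww * π (dg (1, -1)) * (π ww)⁻¹ = π (dg (-1, -1)) * π (dg (1, -1)) := by
    rw [tu, ← map_mul, ww_dg, map_mul, mul_inv_cancel_right]
  have nc : π ww * π (dg (1, -1)) ≠ π (dg (1, -1)) * π ww := fun h => n1 (by
    rw [h, mul_inv_cancel_right] at wu; exact mul_eq_right.1 wu.symm)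
  have mem : ∀ {x : G}, (∃ g, π g = x) ↔ x * t = t * x := fun {x} => by
    rw [← mem_cent1_iff, ← hr]; rfl
  have tt := Inv.mul_self_of_orderOf ht
  have t1 := Inv.ne_one_of_orderOf ht
  have inv : ∀ {i : G}, i * t = t * i → i * i = 1 → i ≠ 1 →
      i = π (dg (-1, -1)) ∨ ∃ k, i = π k * π (dg (1, -1)) * (π k)⁻¹ := fun h h2 h1 => by
    obtain ⟨g, rfl⟩ := mem.2 h
    exact a_inv_H π ker two h2 h1
  have et : t = π (dg (-1, -1)) := (inv rfl tt t1).resolve_right fun ⟨k, hk⟩ => nc (by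
    have : π (dg (1, -1)) = t := by
      have := mem.1 ⟨k, rfl⟩
      rw [eq_mul_inv_iff_mul_eq, ← this] at hk
      exact (mul_left_cancel hk).symm
    rw [this]; exact mem.1 ⟨_, rfl⟩)
  rw [← et] at inv tu wu
  have : ¬ Blk.Isol t := fun h => by
    have hO : piCoreOf {2}ᶜ (⊤ : Subgroup G) = ⊥ := ((Blk.normal_piCoreOf_top _).eq_bot_or_eq_top).resolve_right fun h =>
      (Nat.not_even_iff_odd.2 (Blk.piElt_two_compl.1 ((piCoreOf_piGrp _ _).piElt (h.ge (mem_top t))))) (ht ▸ even_two)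
    have hc := h.mem_center (by rwa [piCoreOf_compl_singleton_top Nat.prime_two] at hO)
    have h3 : center G = ⊤ := (IsSimpleGroup.eq_bot_or_eq_top_of_normal _ inferInstance).resolve_left
      fun h => t1 (h.le hc)
    exact nc (mem_center_iff.1 (h3.ge (mem_top _)) _)
  obtain ⟨g, hg⟩ : ∃ g, g * t * g⁻¹ = π (dg (1, -1)) := by
    by_contra hh
    refine this ⟨tt, fun g hg => (inv hg.eq.symm (Inv.conj_mul_self tt g) fun e => t1 (conj_eq_one_iff.1 e)).resolve_right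
      fun ⟨k, hk⟩ => hh ⟨(π k)⁻¹ * g, ?_⟩⟩
    calc _ = (π k)⁻¹ * (g * t * g⁻¹) * π k := by group
      _ = _ := by rw [hk]; group
  have ut : π (dg (1, -1)) * t = t * π (dg (1, -1)) := mem.1 ⟨_, rfl⟩
  obtain ⟨k, hk⟩ := (inv (i := g⁻¹ * t * g⁻¹⁻¹) (by
      calc _ = g⁻¹ * (t * (g * t * g⁻¹)) * g := by group
        _ = g⁻¹ * ((g * t * g⁻¹) * t) * g := by rw [hg, ut]
        _ = _ := by group) (Inv.conj_mul_self tt _) fun e => t1 (conj_eq_one_iff.1 e)).resolve_left fun h => nc (by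
    have : π (dg (1, -1)) = t := by
      rw [← hg]; nth_rewrite 1 [← h]; group
    rw [this]; exact mem.1 ⟨_, rfl⟩)
  have k1 : g * π k * t * (g * π k)⁻¹ = π (dg (1, -1)) := by
    rw [← hg, mul_assoc g, mem.1 ⟨k, rfl⟩]; group
  have k2 : g * π k * π (dg (1, -1)) * (g * π k)⁻¹ = t := by
    calc _ = g * (π k * π (dg (1, -1)) * (π k)⁻¹) * g⁻¹ := by group
      _ = _ := by rw [← hk]; group
  obtain ⟨ε, hε⟩ := FiniteField.exists_nonsquare (a_char hF)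
  refine ⟨⟨π, hF, ker, et ▸ hr, ε, hε, g * π k * π ww, ?_, ?_⟩⟩
  · rw [← et, Abs0.conj_mul', mem.1 ⟨ww, rfl⟩, mul_inv_cancel_right, k1]
  · rw [Abs0.conj_mul', wu, ← tu, ← ut]
    calc _ = (g * π k * π (dg (1, -1)) * (g * π k)⁻¹) * (g * π k * t * (g * π k)⁻¹) := by group
      _ = _ := by rw [k1, k2, ut]

end CA.Br
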