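/-
Suzuki's characterization of `PSU₃(q)`: the setting.
-/
import Cfsg.Agent.Lib.Br.Abs1
import Cfsg.Agent.Lib.Classical.UnitarySmall

set_option autoImplicit false
set_option linter.unusedSectionVars false

namespace CA.Br

open Cfsg Subgroup CA CA.Ch Matrix

variable {F : Type*} [Field F]

/-- the determinant -/
def dt (g : L2 F) : F := g 0 0 * g 1 1 - g 0 1 * g 1 0
theorem dt_ne (g : L2 F) : dt g ≠ 0 := det_ne g
theorem dt_mul (g h : L2 F) : dt (g * h) = dt g * dt h := by simp only [dt, mul_ent]; ring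
theorem dt_one : dt (1 : L2 F) = 1 := by simp [dt]
theorem dt_eq (g : L2 F) : (GeneralLinearGroup.det g : F) = dt g := by
  rw [GeneralLinearGroup.val_det_apply, det_fin_two]; rfl
theorem inv_eq_m2 (g : L2 F) : g⁻¹ = m2 (g 1 1 / dt g) (-g 0 1 / dt g) (-g 1 0 / dt g) (g 0 0 / dt g) (by
    have := dt_ne g
    rw [show g 1 1 / dt g * (g 0 0 / dt g) - -g 0 1 / dt g * (-g 1 0 / dt g) = dt g / (dt g * dt g) by
      field_simp; rw [dt]; ring]
    positivity) := by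
  have := dt_ne g
  refine inv_eq_of_mul_eq_one_right (ext2 ?_ ?_ ?_ ?_) <;>
    simp only [mul_ent, m2_00, m2_01, m2_10, m2_11, one_00, one_01, one_10, one_11] <;> field_simp <;>
    simp only [dt] <;> ring

variable [StarRing F]

theorem star_dt {g : L2 F} (h : ∀ i j, star (g i j) * dt g = g i j) : star (dt g) * dt g = 1 :=
  mul_right_cancel₀ (dt_ne g) (by
    rw [one_mul]; nth_rw 1 [dt]; nth_rw 3 [dt]
    rw [← h 0 0, ← h 1 1, ← h 0 1, ← h 1 0]
    simp only [star_sub, star_mul', h]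
    linear_combination (star (g 1 1) * dt g) * h 0 0 + g 0 0 * h 1 1 - (star (g 1 0) * dt g) * h 0 1 - g 0 1 * h 1 0)

variable (F) in
/-- `GU₂` for the form `δ (x₁ ȳ₀ - x₀ ȳ₁)` (`CA.Unit.h2`): the matrices with `ḡ · det g = g`.
Its elements of determinant 1 are the matrices over the fixed field. -/
def U2 : Subgroup (L2 F) where
  carrier := {g | ∀ i j, star (g i j) * dt g = g i j}
  mul_mem' {g h} hg hh i j := by
    rw [dt_mul, mul_ent, star_add, star_mul', star_mul']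
    linear_combination (star (h 0 j) * dt h) * hg i 0 + g i 0 * hh 0 j + (star (h 1 j) * dt h) * hg i 1 +
      g i 1 * hh 1 j
  one_mem' i j := by rw [dt_one, mul_one]; fin_cases i <;> fin_cases j <;> simp
  inv_mem' {g} hg i j := by
    have h0 := dt_ne g
    have h1 : dt g⁻¹ = (dt g)⁻¹ := eq_inv_of_mul_eq_one_left (by rw [← dt_mul, inv_mul_cancel, dt_one])
    have h2 : star (dt g) = (dt g)⁻¹ := eq_inv_of_mul_eq_one_left (star_dt hg)
    have k : ∀ x : F, star x * dt g = x → star (x / dt g) * (dt g)⁻¹ = x / dt g := fun x hx => by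
      rw [star_div₀, h2, eq_div_iff h0]; field_simp; exact hx
    rw [h1, inv_eq_m2]
    fin_cases i <;> fin_cases j
    exacts [k _ (hg 1 1), k _ (by rw [star_neg, neg_mul, hg]), k _ (by rw [star_neg, neg_mul, hg]), k _ (hg 0 0)]

theorem mem_U2 {g : L2 F} : g ∈ U2 F ↔ ∀ i j, star (g i j) * dt g = g i j := Iff.rfl
theorem mem_U2' {g : L2 F} : g ∈ U2 F ↔ star (g 0 0) * dt g = g 0 0 ∧ star (g 0 1) * dt g = g 0 1 ∧
    star (g 1 0) * dt g = g 1 0 ∧ star (g 1 1) * dt g = g 1 1 :=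
  ⟨fun h => ⟨h _ _, h _ _, h _ _, h _ _⟩, fun h i j => by
    fin_cases i <;> fin_cases j
    exacts [h.1, h.2.1, h.2.2.1, h.2.2.2]⟩

/-- `-1` -/
noncomputable def tU : U2 F := ⟨dg (-1, -1), mem_U2'.2 (by simp [dt])⟩
/-- a reflection interchanging the two coordinate points -/
noncomputable def uU {δ : F} (h0 : δ ≠ 0) (hδ : star δ = -δ) : U2 F :=
  ⟨m2 0 δ δ⁻¹ 0 (by simp [h0]), mem_U2'.2 (by simp [dt, h0, hδ])⟩

/-- `π : GU₂(q) → G` maps onto the centralizer of `t = π (-1)` with central kernel of odd order, and `ρ` permutes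
the three involutions `t`, `u`, `t u`. -/
structure HypU (G : Type*) [Group G] (F : Type*) [Field F] [StarRing F] [Fintype F] (q : ℕ) where
  hF : Cl.IsFq2 F q
  odd : Odd q
  π : U2 F →* G
  ker : ∀ g, π g = 1 → ∃ c : Fˣ, Odd (orderOf c) ∧ (g : L2 F) = dg (c, c)
  cent : π.range = 𝐂[π tU]
  δ : F
  δ0 : δ ≠ 0
  hδ : star δ = -δ
  w0 : U2 F
  ww : w0 * w0 = 1
  wu : w0 * uU δ0 hδ * w0⁻¹ = tU * uU δ0 hδ
  ρ : G
  ρt : ρ * π tU * ρ⁻¹ = π (uU δ0 hδ)
  ρu : ρ * π (uU δ0 hδ) * ρ⁻¹ = π tU * π (uU δ0 hδ)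

namespace HypU

variable {G : Type*} [Group G] [Fintype F] {q : ℕ} (S : HypU G F q)

noncomputable def u0 : U2 F := uU S.δ0 S.hδ
noncomputable def t : G := S.π tU
noncomputable def u : G := S.π S.u0
noncomputable def w : G := S.π S.w0
noncomputable def H : Subgroup G := S.π.range
/-- the image of `SU₂(q) = SL₂(q)` -/
noncomputable def L : Subgroup G := ((GeneralLinearGroup.det.ker).subgroupOf (U2 F)).map S.π
noncomputable def T : Subgroup G := (𝐂[S.u0]).map S.π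
noncomputable def W : Subgroup G := (dg.range.subgroupOf (U2 F)).map S.π
noncomputable def Z : Subgroup G :=
  ((dg.comp ((MonoidHom.id Fˣ).prod (MonoidHom.id Fˣ))).range.subgroupOf (U2 F)).map S.π
noncomputable def U : Subgroup G := (xp.range.subgroupOf (U2 F)).map S.π
noncomputable def Tm : Subgroup G := (𝐂[S.u0] ⊓ (GeneralLinearGroup.det.ker).subgroupOf (U2 F)).map S.π
noncomputable def Wm : Subgroup G := ((dg.range ⊓ GeneralLinearGroup.det.ker).subgroupOf (U2 F)).map S.π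

end HypU

/-- The doubly transitive action on the `q³ + 1` conjugates of `U`. -/
structure TwoT {G : Type*} [Group G] (S : Abs0 G) (P : Subgroup G) : Prop where
  card : Nat.card P = S.q ^ 3
  U_le : S.U ≤ P
  cent : P ≤ 𝐂(S.U)
  norm : 𝐍(S.U) = P ⊔ S.W
  W_norm : S.W ≤ 𝐍(P)
  inf_H : P ⊓ S.H = S.U
  tinv : ∀ y ∈ P, S.t * y * S.t⁻¹ * y ∈ S.U
  free : ∀ h ∈ S.W, h ≠ 1 → ∀ y ∈ P, h * y * h⁻¹ * y⁻¹ ∈ S.U → y ∈ S.U
  irr : ∀ A, S.U ≤ A → A ≤ P → S.W ≤ 𝐍(A) → A = S.U ∨ A = P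
  index : 𝐍(S.U).index = S.q ^ 3 + 1
  bruhat : ∀ g, g ∈ 𝐍(S.U) ∨ ∃ y ∈ P, ∃ b ∈ 𝐍(S.U), g = y * S.u * b
  two : 𝐍(S.U) ⊓ cj S.u 𝐍(S.U) = S.W

end CA.Br
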