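/-
Suzuki's characterization of `PSU₃(q)`: the group `GU₂(q)` in the model `U2`.
-/
import Cfsg.Agent.Lib.Br.GL2b
import Cfsg.Agent.Lib.Br.UDefs

set_option autoImplicit false
set_option linter.unusedSectionVars false
set_option linter.unusedSimpArgs false
set_option linter.unnecessarySeqFocus false

namespace CA.Br
open Cfsg Subgroup CA CA.Ch Matrix

/-! ### generalities -/
section
variable {M G C : Type*} [Group M] [Group G] [Group C]

theorem g_mem (π : M →* G) {X : Subgroup M} (h : π.ker ≤ X) {g : M} : π g ∈ X.map π ↔ g ∈ X := by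
  rw [← mem_comap, comap_map_eq_self h]

theorem g_card [Finite M] (π : M →* G) {X : Subgroup M} (h : ∀ g ∈ X, π g = 1 → g = 1) :
    Nat.card (X.map π) = Nat.card X := by
  have h : π.ker ⊓ X = ⊥ := eq_bot_iff.2 fun g hg => h g hg.2 hg.1
  rw [← relIndex_ker, ← card_inf_mul_relIndex π.ker X, h, card_bot, one_mul]

theorem g_inj (π : M →* G) (D : M →* C) (hl : ∀ (β : M →* ℂˣ) g, D g = 1 → β g = 1) {A : Subgroup G}
    (hA : A ≤ π.range) (hd : ∀ g, ∃ k, π k ∈ A ∧ D k = D g) : Function.Injective (Du.comp (inclusion hA)) := by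
  refine (injective_iff_map_eq_one _).2 fun β h => Du.ext' ?_
  rintro ⟨_, g, rfl⟩
  obtain ⟨k, hk, e⟩ := hd g
  have h1 : β.hom ⟨π (g * k⁻¹), _, rfl⟩ = 1 :=
    hl (β.hom.comp π.rangeRestrict) (g * k⁻¹) (by rw [map_mul, map_inv, e, mul_inv_cancel])
  have h2 : β.hom ⟨π k, k, rfl⟩ = 1 := DFunLike.congr_fun (congrArg Du.hom h) (⟨_, hk⟩ : A)
  have h3 : (⟨π g, g, rfl⟩ : π.range) = ⟨π (g * k⁻¹), _, rfl⟩ * ⟨π k, k, rfl⟩ := Subtype.ext (by simp)
  rw [Du.ch_apply, h3, map_mul, h1, h2]; simp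

theorem g_ext (π : M →* G) (D : M →* C) {A : Subgroup G} (hA : A ≤ π.range) (hd : ∀ g, ∃ k, π k ∈ A ∧ D k = D g)
    (l : Du A) (h : ∀ g (hg : π g ∈ A), D g = 1 → l.ch ⟨_, hg⟩ = 1) :
    ∃ β : Du π.range, Du.comp (inclusion hA) β = l := by
  obtain ⟨μ, hμ⟩ := a_lift_hom (D.rangeRestrict.comp (A.comap π).subtype)
    (fun ⟨_, g, rfl⟩ => let ⟨k, hk, e⟩ := hd g; ⟨⟨k, hk⟩, Subtype.ext e⟩) (l.hom.comp (π.subgroupComap A))
    (fun x hx => Units.ext (h x x.2 (congrArg Subtype.val hx)))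
  obtain ⟨β, hβ⟩ := a_lift_hom π.rangeRestrict π.rangeRestrict_surjective (μ.comp D.rangeRestrict)
    (fun g hg => by
      have e : π g = 1 := congrArg Subtype.val hg
      have hg' : g ∈ A.comap π := by rw [mem_comap, e]; exact one_mem _
      refine (hμ ⟨g, hg'⟩).trans ?_
      rw [MonoidHom.comp_apply, show π.subgroupComap A ⟨g, hg'⟩ = 1 from Subtype.ext e, map_one])
  refine ⟨Du.mk β, Du.ext' fun x => ?_⟩
  obtain ⟨x, hx⟩ := x
  obtain ⟨g, rfl⟩ := hA hx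
  exact congrArg Units.val ((hβ g).trans (hμ ⟨g, hx⟩))

/-- the element permuting the three involutions, from the `Z*`-theorem -/
theorem g_rho [Finite G] [IsSimpleGroup G] {t u w : G} (ht : orderOf t = 2)
    (inv : ∀ {i : G}, i * t = t * i → i * i = 1 → i ≠ 1 → i = t ∨ ∃ k, k * t = t * k ∧ i = k * u * k⁻¹)
    (ut : u * t = t * u) (wt : w * t = t * w) (wu : w * u * w⁻¹ = t * u) :
    ∃ ρ, ρ * t * ρ⁻¹ = u ∧ ρ * u * ρ⁻¹ = t * u := by
  have tt := Inv.mul_self_of_orderOf ht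
  have t1 := Inv.ne_one_of_orderOf ht
  have nc : w * u ≠ u * w := fun h => t1 (by
    rw [h, mul_inv_cancel_right] at wu; exact mul_eq_right.1 wu.symm)
  have : ¬ Blk.Isol t := fun h => by
    have hO : piCoreOf {2}ᶜ (⊤ : Subgroup G) = ⊥ := ((Blk.normal_piCoreOf_top _).eq_bot_or_eq_top).resolve_right fun h =>
      (Nat.not_even_iff_odd.2 (Blk.piElt_two_compl.1 ((piCoreOf_piGrp _ _).piElt (h.ge (mem_top t))))) (ht ▸ even_two)
    have hc := h.mem_center (by rwa [piCoreOf_compl_singleton_top Nat.prime_two] at hO)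
    have h3 : center G = ⊤ := (IsSimpleGroup.eq_bot_or_eq_top_of_normal _ inferInstance).resolve_left
      fun h => t1 (h.le hc)
    exact nc (mem_center_iff.1 (h3.ge (mem_top _)) _)
  obtain ⟨g, hg⟩ : ∃ g, g * t * g⁻¹ = u := by
    by_contra hh
    refine this ⟨tt, fun g hg => (inv hg.eq.symm (Inv.conj_mul_self tt g) fun e => t1 (conj_eq_one_iff.1 e)).resolve_right
      fun ⟨k, _, hk⟩ => hh ⟨k⁻¹ * g, ?_⟩⟩
    calc _ = k⁻¹ * (g * t * g⁻¹) * k := by group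
      _ = _ := by rw [hk]; group
  obtain ⟨k, kt, hk⟩ := (inv (i := g⁻¹ * t * g⁻¹⁻¹) (by
      calc _ = g⁻¹ * (t * (g * t * g⁻¹)) * g := by group
        _ = g⁻¹ * ((g * t * g⁻¹) * t) * g := by rw [hg, ut]
        _ = _ := by group) (Inv.conj_mul_self tt _) fun e => t1 (conj_eq_one_iff.1 e)).resolve_left fun h => nc (by
    have : u = t := by
      rw [← hg]; nth_rewrite 1 [← h]; group
    rw [this, wt])
  have k1 : g * k * t * (g * k)⁻¹ = u := by
    rw [← hg, mul_assoc g, kt]; group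
  have k2 : g * k * u * (g * k)⁻¹ = t := by
    calc _ = g * (k * u * k⁻¹) * g⁻¹ := by group
      _ = _ := by rw [← hk]; group
  refine ⟨g * k * w, by rw [Abs0.conj_mul', wt, mul_inv_cancel_right, k1], ?_⟩
  rw [Abs0.conj_mul', wu]
  calc _ = (g * k * t * (g * k)⁻¹) * (g * k * u * (g * k)⁻¹) := by group
    _ = _ := by rw [k1, k2, ut]
end

/-! ### the subgroups of `U2` -/
variable {F : Type*} [Field F] [StarRing F]

theorem u_mul (g h : U2 F) (i j : Fin 2) : (g * h).1 i j = g.1 i 0 * h.1 0 j + g.1 i 1 * h.1 1 j := mul_ent _ _ _ _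
theorem mm_ent (A B : Matrix (Fin 2) (Fin 2) F) (i j : Fin 2) : (A * B) i j = A i 0 * B 0 j + A i 1 * B 1 j := by
  simp [Matrix.mul_apply, Fin.sum_univ_two]
theorem u_ext {g h : U2 F} (h0 : g.1 0 0 = h.1 0 0) (h1 : g.1 0 1 = h.1 0 1) (h2 : g.1 1 0 = h.1 1 0)
    (h3 : g.1 1 1 = h.1 1 1) : g = h := Subtype.ext (ext2 h0 h1 h2 h3)
theorem u_ent {g h : U2 F} (e : g = h) :
    g.1 0 0 = h.1 0 0 ∧ g.1 0 1 = h.1 0 1 ∧ g.1 1 0 = h.1 1 0 ∧ g.1 1 1 = h.1 1 1 := by subst e; simp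
theorem u_st (g : U2 F) (i j : Fin 2) : star (g.1 i j) * dt g.1 = g.1 i j := g.2 i j
theorem u_dt (g : U2 F) : star (dt g.1) * dt g.1 = 1 := star_dt g.2
theorem dt_aDet (g : L2 F) : dt g = aDet g := rfl
theorem u_cj (h x : U2 F) : (h * x * h⁻¹).1 * h.1 = h.1 * x.1 := a_cj h.1 x.1

/-- the determinant -/
noncomputable def uD : U2 F →* Fˣ := GeneralLinearGroup.det.comp (U2 F).subtype
theorem uD_val (g : U2 F) : (uD g : F) = dt g.1 := dt_eq _
theorem uD_one {g : U2 F} : uD g = 1 ↔ dt g.1 = 1 := by rw [← uD_val, Units.val_eq_one]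

/-- the diagonal matrices -/
noncomputable def wE : Fˣ →* U2 F := MonoidHom.mk'
  (fun a => ⟨m2 a 0 0 (star (a : F))⁻¹ (by simp), mem_U2'.2 (by
    have := a.ne_zero
    have : star (a : F) ≠ 0 := by simp
    simp only [dt, m2_00, m2_01, m2_10, m2_11, star_zero, star_inv₀, star_star]
    refine ⟨?_, ?_, ?_, ?_⟩ <;> field_simp <;> ring)⟩)
  fun a b => u_ext (by simp [mm_ent]) (by simp [mm_ent]) (by simp [mm_ent]) (by simp [mm_ent, mul_comm])
@[simp] theorem wE_00 (a : Fˣ) : (wE a).1 0 0 = (a : F) := rfl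
@[simp] theorem wE_01 (a : Fˣ) : (wE a).1 0 1 = (0 : F) := rfl
@[simp] theorem wE_10 (a : Fˣ) : (wE a).1 1 0 = (0 : F) := rfl
@[simp] theorem wE_11 (a : Fˣ) : (wE a).1 1 1 = (star (a : F))⁻¹ := rfl
/-- the transvections -/
noncomputable def xE : Multiplicative (Cl.fixedField F) →* U2 F := MonoidHom.mk'
  (fun a => ⟨m2 1 (a.toAdd : F) 0 1 (by simp), mem_U2'.2 (by
    have : star (a.toAdd : F) = a.toAdd := a.toAdd.2
    simp [dt, this])⟩)
  fun a b => u_ext (by simp [mm_ent]) (by simp [mm_ent, add_comm]) (by simp [mm_ent]) (by simp [mm_ent])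
@[simp] theorem xE_00 (a : Multiplicative (Cl.fixedField F)) : (xE a).1 0 0 = (1 : F) := rfl
@[simp] theorem xE_01 (a : Multiplicative (Cl.fixedField F)) : (xE a).1 0 1 = (a.toAdd : F) := rfl
@[simp] theorem xE_10 (a : Multiplicative (Cl.fixedField F)) : (xE a).1 1 0 = (0 : F) := rfl
@[simp] theorem xE_11 (a : Multiplicative (Cl.fixedField F)) : (xE a).1 1 1 = (1 : F) := rfl
/-- a transvection from a real parameter -/
noncomputable def xR (a : F) (h : star a = a) : U2 F := xE (Multiplicative.ofAdd ⟨a, h⟩)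
@[simp] theorem xR_00 (a : F) (h) : (xR a h).1 0 0 = (1 : F) := rfl
@[simp] theorem xR_01 (a : F) (h) : (xR a h).1 0 1 = a := rfl
@[simp] theorem xR_10 (a : F) (h) : (xR a h).1 1 0 = (0 : F) := rfl
@[simp] theorem xR_11 (a : F) (h) : (xR a h).1 1 1 = (1 : F) := rfl
/-- the scalars -/
noncomputable def zE : unitary F →* U2 F := wE.comp Unitary.toUnits
theorem u_inv_star (a : unitary F) : (star (a : F))⁻¹ = a := inv_eq_of_mul_eq_one_right a.2.1
@[simp] theorem zE_00 (a : unitary F) : (zE a).1 0 0 = (a : F) := rfl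
@[simp] theorem zE_01 (a : unitary F) : (zE a).1 0 1 = (0 : F) := rfl
@[simp] theorem zE_10 (a : unitary F) : (zE a).1 1 0 = (0 : F) := rfl
@[simp] theorem zE_11 (a : unitary F) : (zE a).1 1 1 = (a : F) := u_inv_star a
@[simp] theorem tU_00 : (tU : U2 F).1 0 0 = -1 := rfl
@[simp] theorem tU_01 : (tU : U2 F).1 0 1 = 0 := rfl
@[simp] theorem tU_10 : (tU : U2 F).1 1 0 = 0 := rfl
@[simp] theorem tU_11 : (tU : U2 F).1 1 1 = -1 := rfl
@[simp] theorem uU_00 {δ : F} (h0 : δ ≠ 0) (hδ : star δ = -δ) : (uU h0 hδ).1 0 0 = 0 := rfl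
@[simp] theorem uU_01 {δ : F} (h0 : δ ≠ 0) (hδ : star δ = -δ) : (uU h0 hδ).1 0 1 = δ := rfl
@[simp] theorem uU_10 {δ : F} (h0 : δ ≠ 0) (hδ : star δ = -δ) : (uU h0 hδ).1 1 0 = δ⁻¹ := rfl
@[simp] theorem uU_11 {δ : F} (h0 : δ ≠ 0) (hδ : star δ = -δ) : (uU h0 hδ).1 1 1 = 0 := rfl
theorem u_one (i j : Fin 2) : (1 : U2 F).1 i j = (1 : L2 F) i j := rfl

theorem wE_inj : Function.Injective (wE : Fˣ → U2 F) := fun _ _ h => Units.ext (u_ent h).1
theorem xE_inj : Function.Injective (xE : Multiplicative (Cl.fixedField F) → U2 F) := fun _ _ h =>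
  Multiplicative.toAdd.injective (Subtype.ext (u_ent h).2.1)
theorem zE_inj : Function.Injective (zE : unitary F → U2 F) := fun _ _ h => Subtype.ext (u_ent h).1

theorem u_11 {g : U2 F} (h : g.1 1 0 = 0) : g.1 0 0 ≠ 0 ∧ g.1 1 1 = (star (g.1 0 0))⁻¹ := by
  have h1 := u_st g 0 0
  have h2 := dt_ne g.1
  rw [dt, h, mul_zero, sub_zero] at h1 h2
  have h3 := left_ne_zero_of_mul h2
  exact ⟨h3, eq_inv_of_mul_eq_one_right (mul_left_cancel₀ h3 (by linear_combination h1))⟩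
theorem exists_wE {g : U2 F} (h1 : g.1 0 1 = 0) (h2 : g.1 1 0 = 0) : ∃ a, wE a = g :=
  ⟨Units.mk0 _ (u_11 h2).1, u_ext rfl h1.symm h2.symm (u_11 h2).2.symm⟩
theorem exists_zE {g : U2 F} (h : aSc g.1) : ∃ a, zE a = g := by
  have h1 := u_11 h.2.1
  have h2 : star (g.1 0 0) * g.1 0 0 = 1 := by
    nth_rewrite 2 [h.2.2]; rw [h1.2, mul_inv_cancel₀ (by simpa using h1.1)]
  exact ⟨⟨_, Unitary.mem_iff_star_mul_self.2 h2⟩, u_ext rfl h.1.symm h.2.1.symm ((zE_11 _).trans h.2.2)⟩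
theorem u_upper {g : U2 F} (h : g.1 1 0 = 0) : ∃ a c, g = wE a * xE c := by
  obtain ⟨h0, h1⟩ := u_11 h
  refine ⟨Units.mk0 _ h0, Multiplicative.ofAdd ⟨g.1 0 1 / g.1 0 0, ?_⟩, ?_⟩
  · change star _ = _
    rw [star_div₀, div_eq_div_iff (by simpa using h0) h0]
    linear_combination star (g.1 0 0) * u_st g 0 1 - star (g.1 0 1) * u_st g 0 0
  · refine u_ext ?_ ?_ ?_ ?_ <;> simp [mm_ent, h, h1]
    field_simp
theorem u_sc_comm {z : U2 F} (h : aSc z.1) (g : U2 F) : z * g = g * z := by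
  obtain ⟨c, hc⟩ := a_sc_dg h
  exact Subtype.ext (by rw [coe_mul, coe_mul, hc, sc_comm])
theorem wE_xE (a : Fˣ) (c : Multiplicative (Cl.fixedField F)) : wE a * xE c * (wE a)⁻¹ =
    xR (a * star (a : F) * c.toAdd) (by rw [star_mul', star_mul', star_star, c.toAdd.2, mul_comm (star _)]) := by
  rw [mul_inv_eq_iff_eq_mul]
  have : star (a : F) ≠ 0 := by simp
  refine u_ext ?_ ?_ ?_ ?_ <;> simp [mm_ent]
  field_simp

theorem uW_eq : dg.range.subgroupOf (U2 F) = wE.range := by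
  ext g
  refine ⟨fun ⟨a, h⟩ => exists_wE (a_ent h).2.1.symm (a_ent h).2.2.1.symm, ?_⟩
  rintro ⟨a, rfl⟩
  exact (exists_dg rfl rfl).imp fun _ => Eq.symm
theorem uU_eq : xp.range.subgroupOf (U2 F) = xE.range := by
  ext g
  refine ⟨fun ⟨a, h⟩ => ⟨Multiplicative.ofAdd ⟨a.toAdd, ?_⟩, Subtype.ext h⟩, ?_⟩
  · have := u_st g 0 1
    rw [show g.1 = xp a from h.symm] at this
    change star _ = _
    simpa [dt] using this
  · rintro ⟨a, rfl⟩
    exact ⟨Multiplicative.ofAdd a.toAdd, rfl⟩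
theorem uZ_eq : (dg.comp ((MonoidHom.id Fˣ).prod (MonoidHom.id Fˣ))).range.subgroupOf (U2 F) = zE.range := by
  ext g
  refine ⟨fun ⟨a, h⟩ => exists_zE (by rw [show g.1 = dg (a, a) from h.symm]; simp [aSc]), ?_⟩
  rintro ⟨a, rfl⟩
  exact (a_sc_dg ⟨rfl, rfl, (zE_11 a).symm⟩).imp fun _ => Eq.symm
theorem mem_wE {g : U2 F} : g ∈ (wE : Fˣ →* U2 F).range ↔ g.1 0 1 = 0 ∧ g.1 1 0 = 0 :=
  ⟨by rintro ⟨a, rfl⟩; exact ⟨rfl, rfl⟩, fun h => exists_wE h.1 h.2⟩
theorem mem_zE {g : U2 F} : g ∈ (zE : unitary F →* U2 F).range ↔ aSc g.1 :=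
  ⟨by rintro ⟨a, rfl⟩; exact ⟨rfl, rfl, (zE_11 a).symm⟩, exists_zE⟩
theorem uWm_eq : (dg.range ⊓ GeneralLinearGroup.det.ker).subgroupOf (U2 F) =
    (wE.comp (Units.map (Cl.fixedField F).subtype.toMonoidHom)).range := by
  ext g
  rw [subgroupOf, comap_inf, ← subgroupOf, uW_eq]
  constructor
  · rintro ⟨⟨a, rfl⟩, h⟩
    have h1 : dt (wE a).1 = 1 := uD_one.1 h
    have h2 : star (a : F) = a := by simpa [h1] using u_st (wE a) 0 0
    exact ⟨Units.mk0 ⟨a, h2⟩ fun e => a.ne_zero (congrArg Subtype.val e), congrArg wE (Units.ext rfl)⟩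
  · rintro ⟨a, rfl⟩
    refine ⟨⟨_, rfl⟩, uD_one.2 ?_⟩
    have : star ((a : Cl.fixedField F) : F) = a := a.1.2
    simp [dt, this]

section
variable {δ : F} (h0 : δ ≠ 0) (hδ : star δ = -δ)

theorem mem_cu {g : U2 F} : g ∈ 𝐂[uU h0 hδ] ↔ g.1 0 0 = g.1 1 1 ∧ g.1 0 1 = δ * δ * g.1 1 0 := by
  rw [mem_cent1_iff]
  refine ⟨fun h => ?_, fun ⟨h1, h2⟩ => u_ext ?_ ?_ ?_ ?_⟩
  · obtain ⟨e0, e1, -, -⟩ := u_ent h
    simp only [u_mul, uU_00, uU_01, uU_10, uU_11] at e0 e1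
    exact ⟨mul_left_cancel₀ h0 (by linear_combination e1), by field_simp at e0; linear_combination e0⟩
  all_goals simp only [u_mul, uU_00, uU_01, uU_10, uU_11, h1, h2]; field_simp; try ring

variable (h2 : (2 : F) ≠ 0)
/-- the matrices commuting with `uU`, by eigenvalues -/
noncomputable def tE : unitary F × unitary F →* U2 F := MonoidHom.mk'
  (fun a => ⟨m2 ((a.1 + a.2) / 2) (δ * (a.1 - a.2) / 2) (δ⁻¹ * (a.1 - a.2) / 2) ((a.1 + a.2) / 2) (by
    rw [show ((a.1 : F) + a.2) / 2 * ((a.1 + a.2) / 2) - δ * (a.1 - a.2) / 2 * (δ⁻¹ * (a.1 - a.2) / 2) = a.1 * a.2 by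
      field_simp; ring]
    exact mul_ne_zero (Unitary.toUnits a.1).ne_zero (Unitary.toUnits a.2).ne_zero), mem_U2'.2 (by
    have e1 := a.1.2.1
    have e2 := a.2.2.1
    simp only [dt, m2_00, m2_01, m2_10, m2_11, star_div₀, star_add, star_sub, star_mul', star_inv₀, hδ, star_ofNat]
    rw [show ((a.1 : F) + a.2) / 2 * ((a.1 + a.2) / 2) - δ * (a.1 - a.2) / 2 * (δ⁻¹ * (a.1 - a.2) / 2) = a.1 * a.2 by
      field_simp; ring]
    refine ⟨?_, ?_, ?_, ?_⟩ <;> field_simp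
    exacts [by linear_combination a.2 * e1 + a.1 * e2, by linear_combination -a.2 * e1 + a.1 * e2,
      by linear_combination -a.2 * e1 + a.1 * e2, by linear_combination a.2 * e1 + a.1 * e2])⟩)
  fun a b => by
    refine u_ext ?_ ?_ ?_ ?_ <;>
      simp only [u_mul, m2_00, m2_01, m2_10, m2_11, Prod.fst_mul, Prod.snd_mul, Submonoid.coe_mul] <;> field_simp <;> ring
theorem tE_00 (a b : unitary F) : (tE h0 hδ h2 (a, b)).1 0 0 = ((a : F) + b) / 2 := rfl
theorem tE_01 (a b : unitary F) : (tE h0 hδ h2 (a, b)).1 0 1 = δ * ((a : F) - b) / 2 := rfl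
theorem tE_10 (a b : unitary F) : (tE h0 hδ h2 (a, b)).1 1 0 = δ⁻¹ * ((a : F) - b) / 2 := rfl
theorem tE_11 (a b : unitary F) : (tE h0 hδ h2 (a, b)).1 1 1 = ((a : F) + b) / 2 := rfl
theorem tE_dt (a b : unitary F) : dt (tE h0 hδ h2 (a, b)).1 = a * b := by
  rw [dt, tE_00, tE_01, tE_10, tE_11]; field_simp; ring
theorem tE_inj : Function.Injective (tE h0 hδ h2) := by
  rintro ⟨a, b⟩ ⟨c, d⟩ h
  obtain ⟨e0, e1, -, -⟩ := u_ent h
  rw [tE_00, tE_00] at e0
  rw [tE_01, tE_01] at e1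
  field_simp at e0 e1
  exact Prod.ext (Subtype.ext (mul_left_cancel₀ h2 (by linear_combination e0 + e1)))
    (Subtype.ext (mul_left_cancel₀ h2 (by linear_combination e0 - e1)))
theorem uT_eq : 𝐂[uU h0 hδ] = (tE h0 hδ h2).range := by
  ext g
  rw [mem_cu]
  constructor
  · rintro ⟨h1, h3⟩
    have e0 := u_st g 1 1
    have e1 := u_st g 1 0
    have hd := dt_ne g.1
    have e2 : dt g.1 = (g.1 1 1 + δ * g.1 1 0) * (g.1 1 1 - δ * g.1 1 0) := by rw [dt, h1, h3]; ring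
    refine ⟨(⟨g.1 1 1 + δ * g.1 1 0, Unitary.mem_iff_star_mul_self.2 (mul_left_cancel₀ hd ?_)⟩,
      ⟨g.1 1 1 - δ * g.1 1 0, Unitary.mem_iff_star_mul_self.2 (mul_left_cancel₀ hd ?_)⟩), u_ext ?_ ?_ ?_ ?_⟩
    · rw [star_add, star_mul', hδ]
      linear_combination (g.1 1 1 + δ * g.1 1 0) * (e0 - δ * e1) - e2
    · rw [star_sub, star_mul', hδ]
      linear_combination (g.1 1 1 - δ * g.1 1 0) * (e0 + δ * e1) - e2
    all_goals simp only [tE_00, tE_01, tE_10, tE_11, h1, h3]; field_simp; ring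
  · rintro ⟨⟨a, b⟩, rfl⟩
    exact ⟨rfl, by rw [tE_01, tE_10]; field_simp⟩
theorem uTm_eq : 𝐂[uU h0 hδ] ⊓ (GeneralLinearGroup.det.ker).subgroupOf (U2 F) =
    ((tE h0 hδ h2).comp ((MonoidHom.id _).prod invMonoidHom)).range := by
  ext g
  rw [uT_eq h0 hδ h2]
  constructor
  · rintro ⟨⟨⟨a, b⟩, rfl⟩, h⟩
    have h1 : a * b = 1 := Subtype.ext ((tE_dt h0 hδ h2 a b).symm.trans (uD_one.1 h))
    obtain rfl := eq_inv_of_mul_eq_one_right h1
    exact ⟨a, rfl⟩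
  · rintro ⟨a, rfl⟩
    exact ⟨⟨_, rfl⟩, uD_one.2 ((tE_dt h0 hδ h2 a a⁻¹).trans (congrArg Subtype.val (mul_inv_cancel a)))⟩
theorem tE_one_neg : tE h0 hδ h2 (1, -1) = uU h0 hδ := by
  refine u_ext ?_ ?_ ?_ ?_ <;> simp only [tE_00, tE_01, tE_10, tE_11, uU_00, uU_01, uU_10, uU_11] <;>
    simp [Unitary.coe_neg] <;> field_simp <;> ring
theorem tE_diag (a : unitary F) : tE h0 hδ h2 (a, a) = zE a := by
  refine u_ext ?_ ?_ ?_ ?_ <;> simp only [tE_00, tE_01, tE_10, tE_11, zE_00, zE_01, zE_10, zE_11] <;> field_simp <;> ring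
theorem uU_sq : uU h0 hδ * uU h0 hδ = 1 := by
  refine u_ext ?_ ?_ ?_ ?_ <;> simp [mm_ent, h0]
theorem uU_wE (a : Fˣ) : uU h0 hδ * wE a * (uU h0 hδ)⁻¹ = wE (star a)⁻¹ := by
  rw [mul_inv_eq_iff_eq_mul]
  refine u_ext ?_ ?_ ?_ ?_ <;> simp only [u_mul, wE_00, wE_01, wE_10, wE_11] <;> simp [mul_comm]
theorem w_tE {w : U2 F} (h : w * uU h0 hδ * w⁻¹ = tU * uU h0 hδ) (a b : unitary F) :
    w * tE h0 hδ h2 (a, b) * w⁻¹ = tE h0 hδ h2 (b, a) := by
  rw [mul_inv_eq_iff_eq_mul] at h ⊢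
  obtain ⟨e0, e1, -, -⟩ := u_ent h
  simp only [u_mul, uU_00, uU_01, uU_10, uU_11, tU_00, tU_01] at e0 e1
  have k0 : w.1 0 1 = -(δ * δ * w.1 1 0) := by field_simp at e0; linear_combination e0
  have k1 : w.1 0 0 = -w.1 1 1 := mul_left_cancel₀ h0 (by linear_combination e1)
  refine u_ext ?_ ?_ ?_ ?_ <;> simp only [u_mul, tE_00, tE_01, tE_10, tE_11, k0, k1] <;> field_simp <;> ring
end
theorem zE_neg : zE (-1 : unitary F) = tU := u_ext rfl rfl rfl (zE_11 _)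
theorem tU_sc : aSc (tU : U2 F).1 := ⟨rfl, rfl, rfl⟩

/-- Hilbert 90 -/
theorem u_h90 {δ : F} (h0 : δ ≠ 0) (hδ : star δ = -δ) {c : F} (h : star c * c = 1) : ∃ a : F, a ≠ 0 ∧ star a * c = a := by
  by_cases e : 1 + c = 0
  · exact ⟨δ, h0, by rw [hδ]; linear_combination -δ * e⟩
  · exact ⟨1 + c, e, by rw [star_add, star_one]; linear_combination h⟩

/-! ### conjugacy and linear characters -/
/-- entrywise conjugation -/
noncomputable def sB : L2 F →* L2 F := GeneralLinearGroup.map (starRingEnd F)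
theorem sB_ent (g : L2 F) (i j : Fin 2) : sB g i j = star (g i j) := rfl

theorem u_comp {g : U2 F} (hg : ¬ aSc g.1) : ∃ P : L2 F, g.1 * P = P * m2 0 (-aDet g.1) 1 (aTr g.1)
    (by simpa using a_det_ne g.1) ∧ sB P * dg (1, uD g) = P := by
  have k : ∀ i j, star (g.1 i j) * uD g = g.1 i j := fun i j => by rw [uD_val, u_st]
  by_cases h1 : g.1 1 0 = 0
  · by_cases h2 : g.1 0 1 = 0
    · have h3 : g.1 0 0 ≠ g.1 1 1 := fun e => hg ⟨h2, h1, e⟩
      refine ⟨m2 1 (g.1 0 0) 1 (g.1 1 1) (by simpa [sub_eq_zero] using h3.symm), ?_, ?_⟩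
      · refine ext2 ?_ ?_ ?_ ?_ <;> simp only [mul_ent, m2_00, m2_01, m2_10, m2_11, aDet, aTr, h1, h2] <;> ring
      · refine ext2 ?_ ?_ ?_ ?_ <;> simp [mul_ent, sB_ent, k]
    · refine ⟨m2 0 (g.1 0 1) 1 (g.1 1 1) (by simpa using h2), ?_, ?_⟩
      · refine ext2 ?_ ?_ ?_ ?_ <;> simp only [mul_ent, m2_00, m2_01, m2_10, m2_11, aDet, aTr] <;> ring
      · refine ext2 ?_ ?_ ?_ ?_ <;> simp [mul_ent, sB_ent, k]
  · refine ⟨m2 1 (g.1 0 0) 0 (g.1 1 0) (by simpa using h1), ?_, ?_⟩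
    · refine ext2 ?_ ?_ ?_ ?_ <;> simp only [mul_ent, m2_00, m2_01, m2_10, m2_11, aDet, aTr] <;> ring
    · refine ext2 ?_ ?_ ?_ ?_ <;> simp [mul_ent, sB_ent, k]

variable [Fintype F] {q : ℕ} (hF : Cl.IsFq2 F q)
include hF

theorem u_scale {k : L2 F} (h : sB k = k) : ∃ c : Fˣ, dg (c, c) * k ∈ U2 F := by
  have e : ∀ i j, star (k i j) = k i j := fun i j => by rw [← sB_ent, h]
  have hd := dt_ne k
  obtain ⟨x, hx⟩ := hF.exists_norm_eq (c := (dt k)⁻¹) (by simp [dt, e])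
  have x0 : x ≠ 0 := fun e => inv_ne_zero hd (by rw [← hx, e, zero_mul])
  have hx' : x * star x * dt k = 1 := by rw [hx, inv_mul_cancel₀ hd]
  refine ⟨Units.mk0 x x0, mem_U2'.2 ?_⟩
  rw [dt_mul]
  simp only [mul_ent, dg_00, dg_01, dg_10, dg_11, Units.val_mk0, zero_mul, add_zero, zero_add, star_mul', e,
    show ∀ c : Fˣ, dt (dg (c, c)) = c * c from fun c => by simp [dt]]
  exact ⟨by linear_combination x * k 0 0 * hx', by linear_combination x * k 0 1 * hx',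
    by linear_combination x * k 1 0 * hx', by linear_combination x * k 1 1 * hx'⟩

/-- non-scalar elements with the same trace and determinant are conjugate -/
theorem u_conj {g g' : U2 F} (hg : ¬ aSc g.1) (hg' : ¬ aSc g'.1) (h1 : aTr g.1 = aTr g'.1) (h2 : aDet g.1 = aDet g'.1) :
    ∃ k : U2 F, k * g * k⁻¹ = g' := by
  obtain ⟨P, hP, hP'⟩ := u_comp hg
  obtain ⟨Q, hQ, hQ'⟩ := u_comp hg'
  have e : m2 0 (-aDet g.1) 1 (aTr g.1) (by simpa using a_det_ne g.1) =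
      m2 0 (-aDet g'.1) 1 (aTr g'.1) (by simpa using a_det_ne g'.1) := ext2 rfl (by simp [h2]) rfl (by simp [h1])
  rw [e] at hP
  rw [show uD g = uD g' from Units.ext (by rw [uD_val, uD_val]; exact h2)] at hP'
  obtain ⟨c, hc⟩ := u_scale hF (k := Q * P⁻¹) (by
    rw [map_mul, map_inv, eq_mul_inv_of_mul_eq hP', eq_mul_inv_of_mul_eq hQ']; group)
  refine ⟨⟨_, hc⟩, Subtype.ext ?_⟩
  calc dg (c, c) * (Q * P⁻¹) * g.1 * (dg (c, c) * (Q * P⁻¹))⁻¹ =
      dg (c, c) * (Q * P⁻¹ * (g.1 * P) * Q⁻¹) * (dg (c, c))⁻¹ := by group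
    _ = g'.1 := by
      rw [hP, ← mul_assoc (Q * P⁻¹), inv_mul_cancel_right, ← hQ, mul_inv_cancel_right, sc_comm, mul_inv_cancel_right]

theorem u_lin (h2 : (2 : F) ≠ 0) {C : Type*} [CommGroup C] (β : U2 F →* C) (g : U2 F) (h : uD g = 1) : β g = 1 := by
  obtain ⟨δ, h0, hδ⟩ := Cl.exists_skew hF.exists_star_ne
  have hx : ∀ a ha, β (xR a ha) = 1 := fun a ha => by
    obtain ⟨c, hc⟩ := hF.exists_norm_eq (c := -1) (by simp)
    have c0 : c ≠ 0 := fun e => by simp [e] at hc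
    have hb : star (-a / 2) = -a / 2 := by simp [ha]
    have : xR a ha * xR _ hb = wE (Units.mk0 c c0) * xR _ hb * (wE (Units.mk0 c c0))⁻¹ := by
      rw [xR, xR, wE_xE]
      refine u_ext ?_ ?_ ?_ ?_ <;> simp [mm_ent, hc]
      field_simp; ring
    have := congrArg β this
    rwa [map_mul, map_mul, map_mul, map_inv, mul_inv_cancel_comm, mul_eq_right] at this
  let y : ∀ a : F, star a = a → U2 F := fun a ha => ⟨m2 1 0 a 1 (by simp), mem_U2'.2 (by simp [dt, ha])⟩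
  have hy : ∀ a ha, β (y a ha) = 1 := fun a ha => by
    have : y a ha * uU h0 hδ = uU h0 hδ * xR (δ * δ * a) (by simp [ha, hδ]) := by
      refine u_ext ?_ ?_ ?_ ?_ <;> simp [mm_ent, y]
      field_simp
    have := congrArg β this
    rwa [map_mul, map_mul, hx, mul_one, mul_eq_right] at this
  have k : ∀ g : U2 F, uD g = 1 → g.1 1 0 ≠ 0 → β g = 1 := fun g h n => by
    have hd := uD_one.1 h
    have e : ∀ i j, star (g.1 i j) = g.1 i j := fun i j => by simpa [hd] using u_st g i j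
    have : g = xR ((g.1 0 0 - 1) / g.1 1 0) (by simp [e]) * y (g.1 1 0) (e _ _) * xR ((g.1 1 1 - 1) / g.1 1 0) (by simp [e]) := by
      rw [dt] at hd
      refine u_ext ?_ ?_ ?_ ?_ <;> simp only [u_mul, y, xR_00, xR_01, xR_10, xR_11, m2_00, m2_01, m2_10, m2_11] <;>
        field_simp
      exacts [by ring, by linear_combination -hd, by ring, by ring]
    rw [this, map_mul, map_mul, hx, hx, hy _ (e _ _), one_mul, one_mul]
  by_cases n : g.1 1 0 = 0
  · have := k (y 1 (star_one F) * g) (by rw [map_mul, h, mul_one, uD_one]; simp [dt, y])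
      (by simpa [mm_ent, y, n] using (u_11 n).1)
    rwa [map_mul, hy _ (star_one F), one_mul] at this
  · exact k g h n

theorem card_unitary : Nat.card (unitary F) = q + 1 := by
  rw [← hF.card_norm_eq (star_one F) one_ne_zero]
  exact Nat.card_congr (Equiv.subtypeEquivRight fun _ => Unitary.mem_iff_self_mul_star)

theorem exists_uEquiv : Nonempty (U2 F ≃* Unit.U (Unit.std F (Fin 2))) := by
  obtain ⟨e, f, p⟩ := Unit.exists_hyp_std (Unit.good_of_isFq2 hF) le_rfl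
  obtain ⟨δ, h0, hδ⟩ := Cl.exists_skew hF.exists_star_ne
  obtain ⟨φ, hφ⟩ := p.exists_equiv_h2 (by simp) h0 hδ
  refine ⟨((Orth.glEquiv.subgroupMap _).trans (MulEquiv.subgroupCongr ?_)).trans (Unit.U.congr φ hφ)⟩
  have key : ∀ g : L2 F, g ∈ U2 F ↔ ∀ x y, Unit.h2 hδ (Orth.glEquiv g x) (Orth.glEquiv g y) = Unit.h2 hδ x y := fun g => by
    simp only [Orth.glEquiv_apply, Unit.h2_apply, Matrix.mulVec, dotProduct, Fin.sum_univ_two, star_add, star_mul']
    refine ⟨fun h x y => mul_left_cancel₀ (dt_ne g) ?_, fun h => ?_⟩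
    · have e : dt g = g 0 0 * g 1 1 - g 0 1 * g 1 0 := rfl
      linear_combination δ * (g 1 0 * x 0 + g 1 1 * x 1) * (star (y 0) * h 0 0 + star (y 1) * h 0 1) -
        δ * (g 0 0 * x 0 + g 0 1 * x 1) * (star (y 0) * h 1 0 + star (y 1) * h 1 1) -
        δ * (x 1 * star (y 0) - x 0 * star (y 1)) * e
    · have e00 := h ![1, 0] ![1, 0]
      have e01 := h ![1, 0] ![0, 1]
      have e10 := h ![0, 1] ![1, 0]
      have e11 := h ![0, 1] ![0, 1]
      simp only [cons_val_zero, cons_val_one, star_one, star_zero, mul_one, mul_zero, add_zero, zero_add,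
        cons_val_fin_one] at e00 e01 e10 e11
      rw [mem_U2', dt]
      exact ⟨mul_left_cancel₀ h0 (by linear_combination g 0 0 * e10 - g 0 1 * e00),
        mul_left_cancel₀ h0 (by linear_combination g 0 0 * e11 - g 0 1 * e01),
        mul_left_cancel₀ h0 (by linear_combination g 1 0 * e10 - g 1 1 * e00),
        mul_left_cancel₀ h0 (by linear_combination g 1 0 * e11 - g 1 1 * e01)⟩
  ext g
  constructor
  · rintro ⟨m, hm, rfl⟩
    exact (key m).1 hm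
  · intro hg
    exact ⟨Orth.glEquiv.symm g, (key _).2 (by rw [MulEquiv.apply_symm_apply]; exact hg), by simp⟩

theorem card_U2 : Nat.card (U2 F) = q * (q ^ 2 - 1) * (q + 1) := by
  obtain ⟨e⟩ := exists_uEquiv hF
  rw [Nat.card_congr e.toEquiv, Unit.card_U_std hF]
  simp [Finset.prod_range_succ]; ring

theorem u_sq (hq : Odd q) {c D : F} (c0 : c ≠ 0) (h : star c * D ^ 2 = c) (hD : star D * D = 1) : IsSquare c := by
  obtain ⟨m, rfl⟩ := hq
  have hc : ringChar F ≠ 2 := a_char (by rw [hF.card]; exact (odd_two_mul_add_one m).pow)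
  rw [FiniteField.isSquare_iff hc c0, hF.card, show (2 * m + 1) ^ 2 / 2 = 2 * m * (m + 1) by
    rw [show (2 * m + 1) ^ 2 = 1 + 2 * (2 * m * (m + 1)) by ring, Nat.add_mul_div_left _ _ two_pos]; simp]
  rw [hF.star_eq] at h hD
  have h1 : c ^ (2 * m) * D ^ 2 = 1 := mul_left_cancel₀ c0 (by linear_combination h)
  calc c ^ (2 * m * (m + 1)) = c ^ (2 * m * (m + 1)) * (D ^ (2 * m + 1) * D) := by rw [hD, mul_one]
    _ = (c ^ (2 * m) * D ^ 2) ^ (m + 1) := by ring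
    _ = 1 := by rw [h1, one_pow]

end CA.Br
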