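/-
Brauer's characterization of `PSL₃(q)` and `M₁₁`: the lattice argument.
-/
import Mathlib.Tactic

set_option autoImplicit false

namespace CA.Br

/-- an abstraction of the lattice of virtual characters -/
structure Lat (Λ : Type*) [AddCommGroup Λ] where
  b : Λ →+ Λ →+ ℤ
  symm : ∀ x y, b x y = b y x
  nonneg : ∀ x, 0 ≤ b x x
  defi : ∀ x, b x x = 0 → x = 0
  deg : Λ →+ ℤ
  deg_ne : ∀ x, b x x = 1 → deg x ≠ 0
  split : ∀ a, b a a ≠ 0 → b a a < 4 → ∃ x, b x x = 1 ∧ b a x = 1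

namespace Lat

variable {Λ : Type*} [AddCommGroup Λ] (L : Lat Λ)

theorem res (a : Λ) {x : Λ} (hx : L.b x x = 1) :
    L.b (a - L.b a x • x) (a - L.b a x • x) = L.b a a - L.b a x ^ 2 := by
  simp only [map_sub, map_zsmul, AddMonoidHom.sub_apply, AddMonoidHom.zsmul_apply, hx, smul_eq_mul, L.symm x a]
  ring

theorem res3 (a : Λ) {x y z : Λ} (hx : L.b x x = 1) (hy : L.b y y = 1) (hz : L.b z z = 1) (xy : L.b x y = 0)
    (xz : L.b x z = 0) (yz : L.b y z = 0) :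
    L.b (a - L.b a x • x - L.b a y • y - L.b a z • z) (a - L.b a x • x - L.b a y • y - L.b a z • z) =
      L.b a a - L.b a x ^ 2 - L.b a y ^ 2 - L.b a z ^ 2 := by
  simp only [map_sub, map_zsmul, AddMonoidHom.sub_apply, AddMonoidHom.zsmul_apply, hx, hy, hz, smul_eq_mul,
    L.symm x a, L.symm y a, L.symm z a, L.symm y x, L.symm z x, L.symm z y, xy, xz, yz]
  ring

theorem bes3 (a : Λ) {x y z : Λ} (hx : L.b x x = 1) (hy : L.b y y = 1) (hz : L.b z z = 1) (xy : L.b x y = 0)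
    (xz : L.b x z = 0) (yz : L.b y z = 0) : L.b a x ^ 2 + L.b a y ^ 2 + L.b a z ^ 2 ≤ L.b a a := by
  have := L.nonneg (a - L.b a x • x - L.b a y • y - L.b a z • z)
  rw [L.res3 a hx hy hz xy xz yz] at this
  linarith

theorem eq3 {a x y z : Λ} (hx : L.b x x = 1) (hy : L.b y y = 1) (hz : L.b z z = 1) (xy : L.b x y = 0)
    (xz : L.b x z = 0) (yz : L.b y z = 0) (h : L.b a x ^ 2 + L.b a y ^ 2 + L.b a z ^ 2 = L.b a a) :
    a = L.b a x • x + L.b a y • y + L.b a z • z := by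
  have := L.defi (a - L.b a x • x - L.b a y • y - L.b a z • z) (by rw [L.res3 a hx hy hz xy xz yz]; linarith)
  rw [← sub_eq_zero, ← this]; abel

theorem res2 (a : Λ) {x y : Λ} (hx : L.b x x = 1) (hy : L.b y y = 1) (xy : L.b x y = 0) :
    L.b (a - L.b a x • x - L.b a y • y) (a - L.b a x • x - L.b a y • y) = L.b a a - L.b a x ^ 2 - L.b a y ^ 2 := by
  simp only [map_sub, map_zsmul, AddMonoidHom.sub_apply, AddMonoidHom.zsmul_apply, hx, hy, smul_eq_mul,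
    L.symm x a, L.symm y a, L.symm y x, xy]
  ring

theorem bes2 (a : Λ) {x y : Λ} (hx : L.b x x = 1) (hy : L.b y y = 1) (xy : L.b x y = 0) :
    L.b a x ^ 2 + L.b a y ^ 2 ≤ L.b a a := by
  have := L.nonneg (a - L.b a x • x - L.b a y • y)
  rw [L.res2 a hx hy xy] at this
  linarith

theorem eq_of_one {x y : Λ} (hx : L.b x x = 1) (hy : L.b y y = 1) (h : L.b x y = 1) : x = y :=
  sub_eq_zero.1 (L.defi _ (by simp only [map_sub, AddMonoidHom.sub_apply, hx, hy, h, L.symm y x]; rfl))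

theorem eq_neg {x y : Λ} (hx : L.b x x = 1) (hy : L.b y y = 1) (h : L.b x y = -1) : x = -y :=
  L.eq_of_one hx (by simp [hy]) (by simp [h])

theorem two_of {a x : Λ} (ha : L.b a a = 2) (hx : L.b x x = 1) (h : L.b a x = 1) :
    ∃ y, L.b y y = 1 ∧ L.b x y = 0 ∧ a = x + y :=
  ⟨a - x, by simp only [map_sub, AddMonoidHom.sub_apply, ha, hx, h, L.symm x a]; rfl,
    by simp only [map_sub, hx, h, L.symm x a]; rfl, by abel⟩

theorem two {a : Λ} (ha : L.b a a = 2) : ∃ x y, L.b x x = 1 ∧ L.b y y = 1 ∧ L.b x y = 0 ∧ a = x + y := by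
  obtain ⟨x, hx, h⟩ := L.split a (by omega) (by omega)
  obtain ⟨y, h1, h2, h3⟩ := L.two_of ha hx h
  exact ⟨x, y, hx, h1, h2, h3⟩

theorem sq2 {m n : ℤ} (h : m ^ 2 + n ^ 2 ≤ 2) (e : m + n = 1) : m = 1 ∨ n = 1 := by
  obtain rfl : n = 1 - m := by omega
  have : 0 ≤ m := by nlinarith
  have : m ≤ 1 := by nlinarith
  omega

theorem sq1 {m n : ℤ} (h : m ^ 2 + n ^ 2 ≤ 1) (e : m = n ∨ m = -n) : m = 0 ∧ n = 0 := by
  have : n = 0 := by
    rcases e with e | e <;> rw [e] at h <;> nlinarith [sq_nonneg n, sq_nonneg (n - 1), sq_nonneg (n + 1)]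
  omega

theorem sq0 {m : ℤ} (h : 3 * m ^ 2 ≤ 2) : m = 0 := by nlinarith [sq_nonneg (m - 1), sq_nonneg (m + 1)]

theorem sq_eq_one_iff_of_ne_zero_aux {m : ℤ} (h : m ^ 2 = 1) : m = 1 ∨ m = -1 := by
  have : (m - 1) * (m + 1) = 0 := by linarith
  rcases mul_eq_zero.1 this with h | h <;> omega

/-- the data of the decomposition -/
structure Dat (Φ B K : Type*) where
  one : Λ
  θ : Φ → Λ
  τ : B → Λ
  η : B → Λ
  κ : K → Λ
  i0 : Φ
  i1 : Φ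
  α : B
  h1 : L.b one one = 1
  θθ : ∀ i, L.b (θ i) (θ i) = 2
  θθ' : ∀ i j, θ i = θ j ∨ L.b (θ i) (θ j) = 1
  θ01 : L.b (θ i1) (θ i0) = 1
  θ1 : ∀ i, L.b one (θ i) = 0
  dθ : ∀ i, L.deg (θ i) = -1
  ττ : ∀ β, L.b (τ β) (τ β) = 3
  ττ' : ∀ β β', β ≠ β' → L.b (τ β) (τ β') = 1
  τθ : ∀ β i, L.b (τ β) (θ i) = 1
  τ1 : ∀ β, L.b one (τ β) = 0
  dτ : ∀ β, L.deg (τ β) = -1
  ηη : ∀ β, L.b (η β) (η β) = 2
  ηη' : ∀ β β', β ≠ β' → L.b (η β) (η β') = 1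
  ηθ : ∀ β i, L.b (η β) (θ i) = 0
  ητ : ∀ β, L.b (η β) (τ β) = -1
  ητ' : ∀ β β', β ≠ β' → L.b (η β) (τ β') = 0
  η1 : ∀ β, L.b one (η β) = 0
  κκ : ∀ l, L.b (κ l) (κ l) = 3
  dκ : ∀ l, L.deg (κ l) = 0
  κθ : ∀ l i, L.b (κ l) (θ i) = 0
  κτ : ∀ l β, L.b (κ l) (τ β) = 0
  κη : ∀ l, L.b (κ l) (η α) = -1
  κη' : ∀ l β, β ≠ α → L.b (κ l) (η β) = 0
  big : ((∃ i, L.b (θ i) (θ i0) = 1 ∧ L.b (θ i) (θ i1) = 1) ∧ IsEmpty K) ∨
    ∀ β : B, ∃ β' β'', β' ≠ β ∧ β'' ≠ β ∧ β' ≠ β''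

variable {L} {Φ B K : Type*} (D : L.Dat Φ B K)

/-- the common constituent -/
structure Com (x X0 X1 : Λ) : Prop where
  hx : L.b x x = 1
  h0 : L.b X0 X0 = 1
  h1 : L.b X1 X1 = 1
  x0 : L.b x X0 = 0
  x1 : L.b x X1 = 0
  x01 : L.b X0 X1 = 0
  e0 : D.θ D.i0 = x + X0
  e1 : D.θ D.i1 = x + X1

theorem exists_com : ∃ x X0 X1, Com D x X0 X1 := by
  have k : ∀ x y, L.b x x = 1 → L.b y y = 1 → L.b x y = 0 → D.θ D.i0 = x + y → L.b (D.θ D.i1) x = 1 →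
      ∃ x X0 X1, Com D x X0 X1 := fun x y hx hy xy e h => by
    obtain ⟨z, hz, xz, e'⟩ := L.two_of (D.θθ D.i1) hx h
    have := D.θ01
    rw [e, map_add, h, e', map_add, AddMonoidHom.add_apply, xy, L.symm] at this
    exact ⟨x, y, z, hx, hy, hz, xy, xz, by omega, e, e'⟩
  obtain ⟨x, y, hx, hy, xy, e⟩ := L.two (D.θθ D.i0)
  have h := D.θ01
  rw [e, map_add] at h
  rcases sq2 (D.θθ D.i1 ▸ L.bes2 (D.θ D.i1) hx hy xy) h with h | h
  · exact k x y hx hy xy e h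
  · exact k y x hy hx (L.symm _ _ ▸ xy) (by rw [e, add_comm]) h

variable {D} {x X0 X1 : Λ} (c : Com D x X0 X1)
include c

theorem Com.deg : L.deg X0 = -1 - L.deg x ∧ L.deg X1 = -1 - L.deg x := by
  have h0 := D.dθ D.i0
  have h1 := D.dθ D.i1
  rw [c.e0, map_add] at h0
  rw [c.e1, map_add] at h1
  omega

theorem Com.ip (a : Λ) : L.b a (D.θ D.i0) = L.b a x + L.b a X0 ∧ L.b a (D.θ D.i1) = L.b a x + L.b a X1 ∧
    L.b a x ^ 2 + L.b a X0 ^ 2 + L.b a X1 ^ 2 ≤ L.b a a :=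
  ⟨by rw [c.e0, map_add], by rw [c.e1, map_add], L.bes3 a c.hx c.h0 c.h1 c.x0 c.x1 c.x01⟩

theorem Com.gen (i : Φ) : L.b (D.θ i) x = 1 := by
  rcases D.θθ' i D.i0 with e | h0
  · rw [e, c.e0, map_add, AddMonoidHom.add_apply, c.hx, L.symm, c.x0]; rfl
  rcases D.θθ' i D.i1 with e | h1
  · rw [e, c.e1, map_add, AddMonoidHom.add_apply, c.hx, L.symm, c.x1]; rfl
  obtain ⟨a0, a1, a2⟩ := c.ip (D.θ i)
  rw [D.θθ] at a2
  by_contra hne
  have hb : L.b (D.θ i) X0 = 1 := (sq2 (m := L.b (D.θ i) x) (by nlinarith [sq_nonneg (L.b (D.θ i) X1)])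
    (by omega)).resolve_left hne
  have e := L.eq3 (a := D.θ i) c.hx c.h0 c.h1 c.x0 c.x1 c.x01 (by
    rw [D.θθ, hb, show L.b (D.θ i) x = 0 by omega, show L.b (D.θ i) X1 = 1 by omega]; rfl)
  have := D.dθ i
  rw [e, hb, show L.b (D.θ i) x = 0 by omega, show L.b (D.θ i) X1 = 1 by omega] at this
  simp only [map_add, map_zsmul, c.deg.1, c.deg.2, smul_eq_mul] at this
  omega

theorem Com.bad {β : B} (h : L.b (D.τ β) x ≠ 1) : ∃ A, L.b A A = 1 ∧ L.b A x = 0 ∧ L.b A X0 = 0 ∧ L.b A X1 = 0 ∧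
    D.τ β = X0 + X1 + A := by
  obtain ⟨a0, a1, a2⟩ := c.ip (D.τ β)
  rw [D.τθ] at a0 a1
  rw [D.ττ] at a2
  have hx : L.b (D.τ β) x = 0 := by
    obtain ⟨m, hm⟩ : ∃ m, m = L.b (D.τ β) x := ⟨_, rfl⟩
    rw [show L.b (D.τ β) X0 = 1 - m by omega, show L.b (D.τ β) X1 = 1 - m by omega, ← hm] at a2
    have : 0 ≤ m := by nlinarith
    have : m ≤ 1 := by nlinarith
    omega
  have h0 : L.b (D.τ β) X0 = 1 := by omega
  have h1 : L.b (D.τ β) X1 = 1 := by omega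
  refine ⟨D.τ β - X0 - X1, ?_, ?_, ?_, ?_, by abel⟩ <;>
    simp only [map_sub, AddMonoidHom.sub_apply, D.ττ, hx, h0, h1, L.symm X0 (D.τ β), L.symm X1 (D.τ β), c.h0, c.h1,
      c.x01, L.symm X1 X0, L.symm X0 x, L.symm X1 x, c.x0, c.x1] <;> rfl

theorem Com.good (β : B) : L.b (D.τ β) x = 1 := by
  by_contra h
  obtain ⟨A, hA, ax, a0, a1, e⟩ := c.bad h
  have hd := D.dτ β
  rw [e, map_add, map_add, c.deg.1, c.deg.2] at hd
  rcases D.big with ⟨⟨i, h0, h1⟩, -⟩ | hb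
  · obtain ⟨X2, h2, x2, e2⟩ := L.two_of (D.θθ i) c.hx (c.gen i)
    obtain ⟨b0, b1, -⟩ := c.ip (D.θ i)
    rw [c.gen] at b0 b1
    have := D.τθ β i
    rw [L.symm, e, map_add, map_add, show L.b (D.θ i) X0 = 0 by omega, show L.b (D.θ i) X1 = 0 by omega, e2, map_add,
      AddMonoidHom.add_apply, L.symm x, ax] at this
    obtain rfl := L.eq_of_one h2 hA (by omega)
    have := D.dθ i
    rw [e2, map_add] at this
    omega
  have g : ∀ β', β' ≠ β → ∃ B', L.b B' B' = 1 ∧ L.b A B' = 0 ∧ L.b x B' = 0 ∧ D.τ β' = x + A + B' := fun β' hβ => by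
    have h1 := D.ττ' β' β hβ
    by_cases h' : L.b (D.τ β') x = 1
    · obtain ⟨b0, b1, -⟩ := c.ip (D.τ β')
      rw [D.τθ, h'] at b0 b1
      rw [e, map_add, map_add] at h1
      obtain ⟨B', p1, p2, p3⟩ := L.two_of (a := D.τ β' - x) (by
        simp only [map_sub, AddMonoidHom.sub_apply, D.ττ, h', L.symm x (D.τ β'), c.hx]; rfl) hA (by
        simp only [map_sub, AddMonoidHom.sub_apply, L.symm x A, ax]; omega)
      refine ⟨B', p1, p2, ?_, by rw [add_assoc, ← p3]; abel⟩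
      have : L.b x (D.τ β' - x) = 0 := by rw [map_sub, L.symm, h', c.hx]; rfl
      rwa [p3, map_add, L.symm, ax, zero_add] at this
    · obtain ⟨A', hA', ax', a0', a1', e'⟩ := c.bad h'
      rw [e, e'] at h1
      simp only [map_add, AddMonoidHom.add_apply, c.h0, c.h1, c.x01, L.symm X1 X0, a0', a1', L.symm X0 A,
        L.symm X1 A, a0, a1] at h1
      have hd' := D.dτ β'
      rw [e', map_add, map_add, c.deg.1, c.deg.2, L.eq_neg hA' hA (by omega), map_neg] at hd'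
      exact absurd (by omega) (L.deg_ne A hA)
  obtain ⟨β', β'', n1, n2, n3⟩ := hb β
  obtain ⟨B', p1, p2, p3, p4⟩ := g β' n1
  obtain ⟨B'', q1, q2, q3, q4⟩ := g β'' n2
  have h1 := D.ττ' β' β'' n3
  have d1 := D.dτ β'
  have d2 := D.dτ β''
  rw [p4, q4] at h1
  simp only [map_add, AddMonoidHom.add_apply, c.hx, hA, ax, L.symm x A, q2, q3, L.symm B' x, L.symm B' A, p2, p3] at h1
  rw [p4, L.eq_neg p1 q1 (by omega)] at d1
  rw [q4] at d2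
  simp only [map_add, map_neg] at d1 d2
  exact absurd (by omega) (L.deg_ne B'' q1)

/-- the constituents belonging to `β` -/
structure Tri (D : L.Dat Φ B K) (x : Λ) (β : B) (A B' C : Λ) : Prop where
  hA : L.b A A = 1
  hB : L.b B' B' = 1
  hC : L.b C C = 1
  ab : L.b A B' = 0
  ac : L.b A C = 0
  bc : L.b B' C = 0
  xa : L.b x A = 0
  xb : L.b x B' = 0
  xc : L.b x C = 0
  eτ : D.τ β = x + A + B'
  eη : D.η β = C - A

theorem Com.eta (β : B) : L.b (D.η β) x = 0 := by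
  obtain ⟨a0, a1, a2⟩ := c.ip (D.η β)
  rw [D.ηθ] at a0 a1
  rw [D.ηη, show L.b (D.η β) X0 = -L.b (D.η β) x by omega, show L.b (D.η β) X1 = -L.b (D.η β) x by omega] at a2
  exact sq0 (by linarith)

theorem Com.tri (β : B) : ∃ A B' C, Tri D x β A B' C := by
  have k : ∀ A B', L.b A A = 1 → L.b B' B' = 1 → L.b A B' = 0 → D.τ β - x = A + B' → L.b (-D.η β) A = 1 →
      L.b (D.η β) B' = 0 → ∃ A B' C, Tri D x β A B' C := fun A B' hA hB ab e h h' => by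
    obtain ⟨C, hC, ac, e'⟩ := L.two_of (a := -D.η β) (by simp [D.ηη]) hA h
    have e2 : D.η β = -C - A := by rw [← neg_neg (D.η β), e']; abel
    have h0 : L.b x (D.τ β - x) = 0 := by rw [map_sub, L.symm, c.good, c.hx]; rfl
    rw [e, map_add] at h0
    obtain ⟨xa, xb⟩ := sq1 (c.hx ▸ L.bes2 x hA hB ab) (Or.inr (by omega))
    have h1 := c.eta β
    rw [e2] at h' h1
    simp only [map_sub, map_neg, AddMonoidHom.sub_apply, AddMonoidHom.neg_apply, ab, L.symm A x, xa] at h' h1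
    exact ⟨A, B', -C, hA, hB, by simp [hC], ab, by simp [ac], by rw [map_neg, L.symm]; omega, xa, xb,
      by rw [map_neg, L.symm]; omega, by rw [add_assoc, ← e]; abel, e2⟩
  obtain ⟨A, B', hA, hB, ab, e⟩ := L.two (a := D.τ β - x) (by
    simp only [map_sub, AddMonoidHom.sub_apply, D.ττ, c.good, L.symm x (D.τ β), c.hx]; rfl)
  have h : L.b (-D.η β) (D.τ β - x) = 1 := by simp [D.ητ, c.eta]
  rw [e, map_add] at h
  have h2 := L.bes2 (-D.η β) hA hB ab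
  rw [show L.b (-D.η β) (-D.η β) = 2 by simp [D.ηη]] at h2
  have n : ∀ y, L.b (-D.η β) y = -L.b (D.η β) y := fun y => by simp
  rcases sq2 h2 h with h' | h'
  · exact k A B' hA hB ab e h' (by have := n B'; omega)
  · exact k B' A hB hA (L.symm _ _ ▸ ab) (by rw [e, add_comm]) h' (by have := n A; omega)

omit c in
theorem Tri.ip {β : B} {A B' C : Λ} (t : Tri D x β A B' C) (a : Λ) :
    L.b a (D.τ β) = L.b a x + L.b a A + L.b a B' ∧ L.b a (D.η β) = L.b a C - L.b a A ∧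
    L.b a A ^ 2 + L.b a B' ^ 2 + L.b a C ^ 2 ≤ L.b a a :=
  ⟨by rw [t.eτ, map_add, map_add], by rw [t.eη, map_sub], L.bes3 a t.hA t.hB t.hC t.ab t.ac t.bc⟩

theorem Com.pair0 {β β' : B} (h : β ≠ β') {A B1 C A' B' C' : Λ} (t : Tri D x β A B1 C) (t' : Tri D x β' A' B' C') :
    L.b A A' = 0 ∧ L.b A B' = 0 ∧ L.b C A' = 0 ∧ L.b C B' = 0 := by
  obtain ⟨a0, a1, a2⟩ := t.ip (A' + B')
  have e : A' + B' = D.τ β' - x := by rw [t'.eτ]; abel
  have h1 : L.b (A' + B') (D.τ β) = 0 := by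
    rw [e, map_sub, AddMonoidHom.sub_apply, D.ττ' _ _ h.symm, L.symm, c.good]; rfl
  have h2 : L.b (A' + B') (D.η β) = 0 := by
    rw [e, map_sub, AddMonoidHom.sub_apply, L.symm, D.ητ' _ _ h, L.symm, c.eta]; rfl
  have h3 : L.b (A' + B') x = 0 := by rw [L.symm, map_add, t'.xa, t'.xb]; rfl
  have h4 : L.b (A' + B') (A' + B') = 2 := by
    simp only [map_add, AddMonoidHom.add_apply, t'.hA, t'.hB, t'.ab, L.symm B' A']; rfl
  rw [h4, show L.b (A' + B') B1 = -L.b (A' + B') A by omega, show L.b (A' + B') C = L.b (A' + B') A by omega] at a2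
  have h5 : L.b (A' + B') A = 0 := sq0 (by linarith)
  have h6 : L.b (A' + B') C = 0 := by omega
  rw [L.symm, map_add] at h5 h6
  obtain ⟨p1, p2⟩ := sq1 (t.hA ▸ L.bes2 A t'.hA t'.hB t'.ab) (Or.inr (by omega))
  obtain ⟨p3, p4⟩ := sq1 (t.hC ▸ L.bes2 C t'.hA t'.hB t'.ab) (Or.inr (by omega))
  exact ⟨p1, p2, p3, p4⟩

theorem Com.pair {β β' : B} (h : β ≠ β') {A B1 C A' B' C' : Λ} (t : Tri D x β A B1 C) (t' : Tri D x β' A' B' C') :
    C = C' := by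
  obtain ⟨p1, -, p3, -⟩ := c.pair0 h t t'
  obtain ⟨-, -, p4, -⟩ := c.pair0 h.symm t' t
  have := D.ηη' _ _ h
  rw [t.eη, t'.eη] at this
  simp only [map_sub, AddMonoidHom.sub_apply, p1, p3, L.symm A C', p4] at this
  exact L.eq_of_one t.hC t'.hC (by omega)

theorem Com.kap (l : K) : L.b (D.κ l) x = 0 := by
  obtain ⟨a0, a1, a2⟩ := c.ip (D.κ l)
  rw [D.κθ] at a0 a1
  obtain ⟨m, hm⟩ : ∃ m, m = L.b (D.κ l) x := ⟨_, rfl⟩
  have h0 : L.b (D.κ l) X0 = -m := by omega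
  have h1 : L.b (D.κ l) X1 = -m := by omega
  rw [D.κκ, h0, h1, ← hm] at a2
  by_contra hne
  have h2 : m ^ 2 = 1 := by
    have : 0 < m ^ 2 := by have : m ≠ 0 := hm ▸ hne; positivity
    nlinarith
  have e := L.eq3 (a := D.κ l) c.hx c.h0 c.h1 c.x0 c.x1 c.x01 (by rw [D.κκ, h0, h1, ← hm]; linarith)
  have := D.dκ l
  rw [e, h0, h1, ← hm] at this
  simp only [map_add, map_zsmul, c.deg.1, c.deg.2, smul_eq_mul] at this
  rcases sq_eq_one_iff_of_ne_zero_aux h2 with rfl | rfl <;> omega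

theorem Com.kap2 (l : K) {A B1 C : Λ} (t : Tri D x D.α A B1 C) :
    L.b (D.κ l) C = 0 ∧ ∃ Γ, L.b Γ Γ = 1 ∧ D.κ l = Γ + A - B1 := by
  obtain ⟨a0, a1, a2⟩ := t.ip (D.κ l)
  rw [D.κτ, c.kap] at a0
  rw [D.κη] at a1
  obtain ⟨m, hm⟩ : ∃ m, m = L.b (D.κ l) A := ⟨_, rfl⟩
  have h0 : L.b (D.κ l) B1 = -m := by omega
  have h1 : L.b (D.κ l) C = m - 1 := by omega
  rw [D.κκ, h0, h1, ← hm] at a2
  have : 0 ≤ m := by nlinarith
  have : m ≤ 1 := by nlinarith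
  by_cases h : m = 1
  · subst h
    refine ⟨by omega, D.κ l - A + B1, ?_, by abel⟩
    simp only [map_sub, map_add, AddMonoidHom.sub_apply, AddMonoidHom.add_apply, D.κκ, ← hm, h0, L.symm A (D.κ l),
      L.symm B1 (D.κ l), t.hA, t.hB, t.ab, L.symm B1 A]
    rfl
  exfalso
  rcases D.big with ⟨-, hK⟩ | hb
  · exact hK.false l
  obtain ⟨β', β'', n1, n2, n3⟩ := hb D.α
  obtain ⟨A', B', C', t'⟩ := c.tri β'
  obtain ⟨A'', B'', C'', t''⟩ := c.tri β''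
  obtain rfl := c.pair n1 t' t
  obtain rfl := c.pair n2 t'' t
  obtain ⟨b0, b1, -⟩ := t'.ip (D.κ l)
  obtain ⟨-, b2, -⟩ := t''.ip (D.κ l)
  rw [D.κτ, c.kap] at b0
  rw [D.κη' _ _ n1] at b1
  rw [D.κη' _ _ n2] at b2
  have g1 : L.b (D.κ l) A' = -1 := by omega
  have g2 : L.b (D.κ l) B' = 1 := by omega
  have g3 : L.b (D.κ l) C'' = -1 := by omega
  have e := L.eq3 (a := D.κ l) t'.hA t'.hB t'.hC t'.ab t'.ac t'.bc (by rw [D.κκ, g1, g2, g3]; rfl)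
  obtain ⟨p1, p2, -⟩ := c.pair0 n3.symm t'' t'
  have : L.b A'' (D.κ l) = 0 := by
    rw [e]; simp only [map_add, map_zsmul, p1, p2, t''.ac, smul_zero, add_zero]
  rw [L.symm] at this
  omega

omit c in
theorem main (D : L.Dat Φ B K) : ∃ S X Y1 Y2 Z, L.b S S = 1 ∧ L.b X X = 1 ∧ L.b Y1 Y1 = 1 ∧ L.b Y2 Y2 = 1 ∧ L.b Z Z = 1 ∧
    D.θ D.i0 = X - S ∧ D.τ D.α = Y2 - Y1 - S ∧ D.η D.α = Y1 - Z ∧
    L.b S D.one = 0 ∧ L.b Z D.one = 0 ∧ L.b Y2 D.one = 0 ∧ L.b Y2 (D.τ D.α) = 1 ∧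
    (∀ i, L.b S (D.θ i) = -1 ∧ L.b Z (D.θ i) = 0) ∧
    (∀ β, L.b S (D.τ β) = -1 ∧ L.b S (D.η β) = 0 ∧ L.b Z (D.τ β) = 0 ∧ L.b Z (D.η β) = -1) ∧
    ∀ l, L.b S (D.κ l) = 0 ∧ L.b Z (D.κ l) = 0 ∧ ∃ Γ, L.b Γ Γ = 1 ∧ D.κ l = Γ - Y1 - Y2 := by
  obtain ⟨x, X0, X1, c⟩ := exists_com D
  obtain ⟨A, B1, C, t⟩ := c.tri D.α
  have o1 : L.b D.one x = 0 := by
    obtain ⟨a0, a1, a2⟩ := c.ip D.one
    rw [D.θ1] at a0 a1
    rw [D.h1, show L.b D.one X0 = -L.b D.one x by omega, show L.b D.one X1 = -L.b D.one x by omega] at a2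
    exact sq0 (by linarith)
  have o2 : L.b D.one A = 0 ∧ L.b D.one B1 = 0 ∧ L.b D.one C = 0 := by
    obtain ⟨a0, a1, a2⟩ := t.ip D.one
    rw [D.τ1, o1] at a0
    rw [D.η1] at a1
    rw [D.h1, show L.b D.one B1 = -L.b D.one A by omega, show L.b D.one C = L.b D.one A by omega] at a2
    have : L.b D.one A = 0 := sq0 (by linarith)
    omega
  have n : ∀ y z, L.b (-y) z = -L.b z y := fun y z => by rw [map_neg, AddMonoidHom.neg_apply, L.symm]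
  refine ⟨-x, X0, -A, B1, -C, by simp [c.hx], c.h0, by simp [t.hA], t.hB, by simp [t.hC], by rw [c.e0]; abel,
    by rw [t.eτ]; abel, by rw [t.eη]; abel, by rw [n, o1]; rfl, by rw [n, o2.2.2]; rfl, by rw [L.symm, o2.2.1],
    ?_, fun i => ⟨by rw [n, c.gen], ?_⟩, fun β => ⟨by rw [n, c.good], by rw [n, c.eta]; rfl, ?_⟩,
    fun l => ⟨by rw [n, c.kap]; rfl, by rw [n, (c.kap2 l t).1]; rfl, ?_⟩⟩
  · rw [(t.ip B1).1, t.hB, L.symm, t.xb, L.symm, t.ab]; rfl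
  · obtain ⟨Xi, h2, x2, e2⟩ := L.two_of (D.θθ i) c.hx (c.gen i)
    have h1 := D.ηθ D.α i
    rw [e2, map_add, c.eta, L.symm, (t.ip Xi).2.1] at h1
    obtain ⟨-, p⟩ := sq1 (h2 ▸ L.bes2 Xi t.hA t.hC t.ac) (Or.inl (by omega))
    rw [n, e2, map_add, AddMonoidHom.add_apply, t.xc, p]; rfl
  · obtain ⟨A', B', C', t'⟩ := c.tri β
    obtain ⟨a0, a1, -⟩ := t'.ip C
    rw [n, n, L.symm, a0, L.symm (D.η β), a1, L.symm C x, t.xc]
    by_cases h : D.α = β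
    · subst h
      obtain ⟨b0, b1, -⟩ := t.ip C
      rw [L.symm C x, t.xc, L.symm C A, L.symm C B1, t.ac, t.bc] at b0
      rw [t.hC, L.symm C A, t.ac] at b1
      rw [L.symm C x, t.xc] at a0
      omega
    · obtain ⟨-, -, p3, p4⟩ := c.pair0 h t t'
      rw [← c.pair h t t', t.hC, p3, p4]; omega
  · obtain ⟨Γ, h1, h2⟩ := (c.kap2 l t).2
    exact ⟨Γ, h1, by rw [h2]; abel⟩

end Lat

end CA.Br
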