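/-
Brauer's characterization of `PSL₃(q)` and `M₁₁`: the lattice argument for virtual characters.
-/
import Cfsg.Agent.Lib.Br.Lat
import Cfsg.Agent.Lib.Char.Integral
import Cfsg.Agent.Lib.Char.Orth

set_option autoImplicit false

namespace CA.Br

open CA.Ch

variable {G : Type*} [Group G] [Finite G]

theorem zi_add_left (x y z : VC G) : zi (x + y).1 z.1 = zi x.1 z.1 + zi y.1 z.1 :=
  zi_of_eq (by
    rw [Submodule.coe_add, ip_add_left, IsVC.zi_eq x.2 z.2, IsVC.zi_eq y.2 z.2]; push_cast; rfl)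
theorem zi_add_right (x y z : VC G) : zi x.1 (y + z).1 = zi x.1 y.1 + zi x.1 z.1 :=
  zi_of_eq (by
    rw [Submodule.coe_add, ip_add_right, IsVC.zi_eq x.2 y.2, IsVC.zi_eq x.2 z.2]; push_cast; rfl)

theorem floor_of_eq {w : ℂ} {n : ℤ} (h : w = n) : ⌊w.re⌋ = n := by simp [h]

variable (G) in
/-- the lattice of virtual characters -/
noncomputable def vcLat : Lat (VC G) where
  b := AddMonoidHom.mk' (fun x => AddMonoidHom.mk' (fun y => zi x.1 y.1) (zi_add_right x))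
    fun x y => AddMonoidHom.ext fun z => zi_add_left x y z
  symm x y := zi_of_eq (by rw [IsVC.ip_comm x.2 y.2]; exact IsVC.zi_eq y.2 x.2)
  nonneg x := by
    obtain ⟨n, h⟩ := IsVC.ip_self_nat x.2
    have : zi x.1 x.1 = n := zi_of_eq (by simpa using h)
    exact (Int.natCast_nonneg n).trans this.ge
  defi x h := Subtype.ext (ip_self_eq_zero.1 (by
    rw [IsVC.zi_eq x.2 x.2]; exact_mod_cast h))
  deg := AddMonoidHom.mk' (fun x => ⌊(x.1 1).re⌋) fun x y => by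
    obtain ⟨m, hm⟩ := IsVC.int x.2
    obtain ⟨n, hn⟩ := IsVC.int y.2
    rw [floor_of_eq hm, floor_of_eq hn]
    exact floor_of_eq (by rw [Submodule.coe_add, Pi.add_apply, hm, hn]; push_cast; rfl)
  deg_ne x h h0 := by
    obtain ⟨m, hm⟩ := IsVC.int x.2
    have h1 : m = 0 := (floor_of_eq hm).symm.trans h0
    exact (IsVC.isSIrr x.2 (by rw [IsVC.zi_eq x.2 x.2]; exact_mod_cast h)).ne_zero_one (by simp [hm, h1])
  split a h0 h4 := by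
    have e : nrm a.1 = (zi a.1 a.1 : ℤ) := nrm_eq_of_ip (by rw [IsVC.zi_eq a.2 a.2]; simp)
    obtain ⟨x, hx, h⟩ := IsVC.exists_sirr_one a.2 (fun h => h0 (zi_of_eq (by simp [h]))) (by
      rw [e]; exact_mod_cast h4)
    exact ⟨⟨x, hx.isVC⟩, zi_of_eq (by simpa using hx.ip_self), zi_of_eq (by simpa using h)⟩

theorem b_of {x y : VC G} {n : ℤ} (h : ⟪x.1, y.1⟫ = n) : (vcLat G).b x y = n := zi_of_eq h
theorem of_b {x y : VC G} {n : ℤ} (h : (vcLat G).b x y = n) : ⟪x.1, y.1⟫ = n := by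
  rw [IsVC.zi_eq x.2 y.2]; exact_mod_cast h
theorem sirr_of_b {x : VC G} (h : (vcLat G).b x x = 1) : IsSIrr x.1 := IsVC.isSIrr x.2 (by simpa using of_b h)

theorem dec {Φ B K : Type*} (θ : Φ → G → ℂ) (τ η : B → G → ℂ) (κ : K → G → ℂ) (i0 i1 : Φ) (α : B)
    (vθ : ∀ i, IsVC (θ i)) (vτ : ∀ i, IsVC (τ i)) (vη : ∀ i, IsVC (η i)) (vκ : ∀ i, IsVC (κ i))
    (θθ : ∀ i, ⟪θ i, θ i⟫ = 2) (θθ' : ∀ i j, θ i = θ j ∨ ⟪θ i, θ j⟫ = 1) (θ01 : ⟪θ i1, θ i0⟫ = 1)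
    (θ1 : ∀ i, ⟪θ i, 1⟫ = 0) (dθ : ∀ i, θ i 1 = -1)
    (ττ : ∀ β, ⟪τ β, τ β⟫ = 3) (ττ' : ∀ β β', β ≠ β' → ⟪τ β, τ β'⟫ = 1) (τθ : ∀ β i, ⟪τ β, θ i⟫ = 1)
    (τ1 : ∀ β, ⟪τ β, 1⟫ = 0) (dτ : ∀ β, τ β 1 = -1)
    (ηη : ∀ β, ⟪η β, η β⟫ = 2) (ηη' : ∀ β β', β ≠ β' → ⟪η β, η β'⟫ = 1) (ηθ : ∀ β i, ⟪η β, θ i⟫ = 0)
    (ητ : ∀ β, ⟪η β, τ β⟫ = -1) (ητ' : ∀ β β', β ≠ β' → ⟪η β, τ β'⟫ = 0) (η1 : ∀ β, ⟪η β, 1⟫ = 0)
    (κκ : ∀ l, ⟪κ l, κ l⟫ = 3) (dκ : ∀ l, κ l 1 = 0) (κθ : ∀ l i, ⟪κ l, θ i⟫ = 0) (κτ : ∀ l β, ⟪κ l, τ β⟫ = 0)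
    (κη : ∀ l, ⟪κ l, η α⟫ = -1) (κη' : ∀ l β, β ≠ α → ⟪κ l, η β⟫ = 0)
    (big : ((∃ i, ⟪θ i, θ i0⟫ = 1 ∧ ⟪θ i, θ i1⟫ = 1) ∧ IsEmpty K) ∨
      ∀ β : B, ∃ β' β'', β' ≠ β ∧ β'' ≠ β ∧ β' ≠ β'') :
    ∃ S X Y1 Y2 Z, IsSIrr S ∧ IsSIrr X ∧ IsSIrr Y1 ∧ IsSIrr Y2 ∧ IsSIrr Z ∧
      θ i0 = X - S ∧ τ α = Y2 - Y1 - S ∧ η α = Y1 - Z ∧
      ⟪S, 1⟫ = 0 ∧ ⟪Z, 1⟫ = 0 ∧ ⟪Y2, 1⟫ = 0 ∧ ⟪Y2, τ α⟫ = 1 ∧
      (∀ i, ⟪S, θ i⟫ = -1 ∧ ⟪Z, θ i⟫ = 0) ∧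
      (∀ β, ⟪S, τ β⟫ = -1 ∧ ⟪S, η β⟫ = 0 ∧ ⟪Z, τ β⟫ = 0 ∧ ⟪Z, η β⟫ = -1) ∧
      ∀ l, ⟪S, κ l⟫ = 0 ∧ ⟪Z, κ l⟫ = 0 ∧ ∃ Γ, IsSIrr Γ ∧ κ l = Γ - Y1 - Y2 := by
  let D : (vcLat G).Dat Φ B K :=
    { one := ⟨1, isVC_one⟩
      θ := fun i => ⟨θ i, vθ i⟩
      τ := fun i => ⟨τ i, vτ i⟩
      η := fun i => ⟨η i, vη i⟩
      κ := fun i => ⟨κ i, vκ i⟩
      i0 := i0
      i1 := i1
      α := α
      h1 := b_of (by simp)
      θθ := fun i => b_of (by simpa using θθ i)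
      θθ' := fun i j => (θθ' i j).imp Subtype.ext fun h => b_of (by simpa using h)
      θ01 := b_of (by simpa using θ01)
      θ1 := fun i => b_of (by simpa using ip_eq_zero_symm (θ1 i))
      dθ := fun i => floor_of_eq (by simpa using dθ i)
      ττ := fun i => b_of (by simpa using ττ i)
      ττ' := fun i j h => b_of (by simpa using ττ' i j h)
      τθ := fun i j => b_of (by simpa using τθ i j)
      τ1 := fun i => b_of (by simpa using ip_eq_zero_symm (τ1 i))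
      dτ := fun i => floor_of_eq (by simpa using dτ i)
      ηη := fun i => b_of (by simpa using ηη i)
      ηη' := fun i j h => b_of (by simpa using ηη' i j h)
      ηθ := fun i j => b_of (by simpa using ηθ i j)
      ητ := fun i => b_of (by simpa using ητ i)
      ητ' := fun i j h => b_of (by simpa using ητ' i j h)
      η1 := fun i => b_of (by simpa using ip_eq_zero_symm (η1 i))
      κκ := fun i => b_of (by simpa using κκ i)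
      dκ := fun i => floor_of_eq (by simpa using dκ i)
      κθ := fun i j => b_of (by simpa using κθ i j)
      κτ := fun i j => b_of (by simpa using κτ i j)
      κη := fun i => b_of (by simpa using κη i)
      κη' := fun i j h => b_of (by simpa using κη' i j h)
      big := big.imp (fun ⟨⟨i, h1, h2⟩, h⟩ => ⟨⟨i, b_of (by simpa using h1), b_of (by simpa using h2)⟩, h⟩) id }
  obtain ⟨S, X, Y1, Y2, Z, a1, a2, a3, a4, a5, e1, e2, e3, b1, b2, b3, b4, c1, c2, c3⟩ := Lat.main D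
  refine ⟨S, X, Y1, Y2, Z, sirr_of_b a1, sirr_of_b a2, sirr_of_b a3, sirr_of_b a4, sirr_of_b a5,
    congrArg Subtype.val e1, congrArg Subtype.val e2, congrArg Subtype.val e3, by simpa using of_b b1,
    by simpa using of_b b2, by simpa using of_b b3, by simpa using of_b b4,
    fun i => ⟨by simpa using of_b (c1 i).1, by simpa using of_b (c1 i).2⟩,
    fun β => ⟨by simpa using of_b (c2 β).1, by simpa using of_b (c2 β).2.1, by simpa using of_b (c2 β).2.2.1,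
      by simpa using of_b (c2 β).2.2.2⟩,
    fun l => ⟨by simpa using of_b (c3 l).1, by simpa using of_b (c3 l).2.1, ?_⟩⟩
  obtain ⟨Γ, h1, h2⟩ := (c3 l).2.2
  exact ⟨Γ, sirr_of_b h1, congrArg Subtype.val h2⟩

end CA.Br
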