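/-
Brauer's characterization of `PSL₃(q)` and `M₁₁`: the characters of the two tori.
-/
import Cfsg.Agent.Lib.Br.Abs

set_option autoImplicit false
set_option linter.unusedSectionVars false

namespace CA.Br

open Cfsg Subgroup CA CA.Ch

section
variable {A : Type*} [Group A]

/-- linear characters trivial on the elements of odd order -/
def Tw (l : Du A) : Prop := ∀ y, Odd (orderOf y) → l.ch y = 1

theorem tw_iff {l : Du A} : Two l.ch ↔ Tw l :=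
  ⟨fun h y hy => by simpa using h 1 y hy, fun h x y hy => by rw [Du.ch_apply_mul, h y hy, mul_one]⟩
theorem tw_one : Tw (1 : Du A) := fun _ _ => rfl
theorem Tw.mul {a b : Du A} (ha : Tw a) (hb : Tw b) : Tw (a * b) := fun y hy => by
  rw [Du.ch_mul, Pi.mul_apply, ha y hy, hb y hy, mul_one]
theorem Tw.comp {B : Type*} [Group B] {a : Du A} (ha : Tw a) (f : B →* A) : Tw (Du.comp f a) := fun y hy =>
  ha (f y) (hy.of_dvd_nat (orderOf_map_dvd f y))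
theorem Tw.van {a b : Du A} (ha : Tw a) (hb : Tw b) : Van (a.ch - b.ch) := fun y hy => by
  rw [Pi.sub_apply, ha y hy, hb y hy, sub_self]
theorem Tw.two {a b : Du A} (ha : Tw a) (hb : Tw b) : Two (a.ch - b.ch) := fun x y hy => by
  rw [Pi.sub_apply, Pi.sub_apply, tw_iff.2 ha x y hy, tw_iff.2 hb x y hy]
theorem tw_of_pow {a : Du A} {k : ℕ} (h : a ^ 2 ^ k = 1) : Tw a := fun y hy => by
  have h1 : a.ch y ^ 2 ^ k = 1 := by rw [← Pi.pow_apply, ← Du.ch_pow, h]; rfl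
  have h2 : a.ch y ^ orderOf y = 1 := by rw [← Du.ch_apply_pow, pow_orderOf_eq_one, Du.ch_apply_one]
  have := pow_gcd_eq_one.2 ⟨h1, h2⟩
  rwa [(Nat.Coprime.pow_left k (Nat.coprime_two_left.2 hy)).gcd_eq_one, pow_one] at this
theorem Tw.pow_eq [Finite A] {a : Du A} (h : Tw a) : ∃ k, a ^ 2 ^ k = 1 := by
  obtain ⟨k, m, hm, e⟩ := Nat.exists_eq_two_pow_mul_odd (Nat.card_pos (α := A)).ne'
  refine ⟨k, Du.ext' fun x => ?_⟩
  rw [Du.ch_pow, Pi.pow_apply, ← Du.ch_apply_pow]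
  exact h _ (hm.of_dvd_nat (orderOf_dvd_of_pow_eq_one (by rw [← pow_mul, ← e, pow_card_eq_one'])))
theorem Tw.zpow [Finite A] {a : Du A} (h : Tw a) (n : ℤ) : Tw (a ^ n) := by
  obtain ⟨k, hk⟩ := h.pow_eq
  exact tw_of_pow (k := k) (by rw [← zpow_natCast, ← zpow_mul, mul_comm, zpow_mul, zpow_natCast, hk, one_zpow])
theorem ch_inv2 (l : Du A) {x : A} (h : x * x = 1) : l.ch x = 1 ∨ l.ch x = -1 :=
  mul_self_eq_one_iff.1 (by rw [← Du.ch_apply_mul, h, Du.ch_apply_one])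
theorem ch_zpow (l : Du A) (x : A) (n : ℤ) : l.ch (x ^ n) = (l ^ n).ch x := by
  rw [Du.ch_apply, Du.ch_apply, map_zpow]; rfl

theorem exists_ord4 [Finite A] (K : Subgroup A) (hc : IsCyclic K) (h : 4 ∣ Nat.card K) : ∃ x ∈ K, x * x ≠ 1 ∧ x * x * (x * x) = 1 := by
  obtain ⟨g, hg⟩ := IsCyclic.exists_ofOrder_eq_natCard (α := K)
  obtain ⟨m, hm⟩ := h
  have h0 : m ≠ 0 := fun e => (Nat.card_pos (α := K)).ne' (by simp [hm, e])
  refine ⟨(g ^ m : K), (g ^ m).2, fun e => ?_, ?_⟩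
  · have : g ^ (m * 2) = 1 := Subtype.ext (by rw [pow_mul, sq]; exact e)
    have := Nat.le_of_dvd (by omega) (orderOf_dvd_of_pow_eq_one this)
    omega
  · have : g ^ (m + m + (m + m)) = 1 := by rw [show m + m + (m + m) = orderOf g by omega, pow_orderOf_eq_one]
    simpa [pow_add] using congrArg Subtype.val this

variable [IsMulCommutative A] [Finite A]

variable (A) in
/-- the elements of odd order -/
def od : Subgroup A where
  carrier := {x | Odd (orderOf x)}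
  one_mem' := by simp
  inv_mem' := by simp
  mul_mem' {a b} ha hb := (Odd.mul ha hb).of_dvd_nat (Commute.orderOf_mul_dvd_mul_orderOf (mul_comm' a b))

theorem exists_tw (K : Subgroup A) {x : A} (h : ∀ n, Odd n → x ^ n ∉ K) :
    ∃ l : Du A, Tw l ∧ (∀ y ∈ K, l.ch y = 1) ∧ l.ch x ≠ 1 := by
  have : K.Normal := ⟨fun a ha g => by rwa [mul_comm' g, mul_inv_cancel_right]⟩
  obtain ⟨l, h1, h2⟩ := Du.exists_ne_one (od A ⊔ K) (g := x) fun hx => by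
    obtain ⟨y, hy, z, hz, rfl⟩ := mem_sup_of_normal_right.1 hx
    exact h _ hy (by rw [(show Commute y z from mul_comm' y z).mul_pow, pow_orderOf_eq_one, one_mul]; exact pow_mem hz _)
  exact ⟨l, fun y hy => mem_ann.1 h1 y (mem_sup_left hy), fun y hy => mem_ann.1 h1 y (mem_sup_right hy), h2⟩

open Classical in
theorem sum_tw {x : A} (h : x * x = 1) (h1 : x ≠ 1) (c : ℂ) (F : Du A → ℂ) (F1 : F 1 = 0)
    (hF : ∀ l, Tw l → l ≠ 1 → F l = c) : ∑ l : Du A with Two l.ch, l.ch x * F l = -c := by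
  obtain ⟨a, ha, -, hx⟩ := exists_tw (⊥ : Subgroup A) (x := x) fun n ⟨k, hk⟩ hn => h1 (by
    rwa [mem_bot, hk, pow_succ, pow_mul, sq, h, one_pow, one_mul] at hn)
  have h0 : ∑ l : Du A with Two l.ch, l.ch x = 0 := by
    have : ∑ l : Du A with Two l.ch, l.ch x = ∑ l : Du A with Two l.ch, a.ch x * l.ch x := by
      symm
      refine Finset.sum_equiv (Equiv.mulLeft a) (fun l => ?_) fun l _ => by simp [Du.ch_mul]
      simp only [Finset.mem_filter, Finset.mem_univ, true_and, tw_iff, Equiv.coe_mulLeft]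
      exact ⟨ha.mul, fun h => by simpa using (ha.zpow (-1)).mul h⟩
    rw [← Finset.mul_sum] at this
    exact (mul_left_eq_self₀.1 this.symm).resolve_left hx
  have : ∀ l ∈ Finset.univ.filter fun l : Du A => Two l.ch, l.ch x * F l = c * l.ch x - if l = 1 then c else 0 :=
    fun l hl => by
      split_ifs with e
      · simp [e, F1]
      · rw [hF l (tw_iff.1 (Finset.mem_filter.1 hl).2) e]; ring
  rw [Finset.sum_congr rfl this, Finset.sum_sub_distrib, ← Finset.mul_sum, h0, Finset.sum_ite_eq' _ (1 : Du A),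
    if_pos (by simp [tw_iff, tw_one])]
  ring

end

namespace Abs

variable {G : Type*} [Group G] [Finite G] (S : Abs G)

noncomputable abbrev R : Du S.T →* Du S.T := Du.comp S.r
noncomputable abbrev Sg : Du S.T →* Du S.T := Du.comp S.s
noncomputable abbrev Sw : Du S.W →* Du S.W := Du.comp S.σ
noncomputable abbrev rT : Du S.H →* Du S.T := Du.comp (inclusion S.T_le_H)
noncomputable abbrev rW : Du S.H →* Du S.W := Du.comp (inclusion S.W_le_H)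

theorem cj_T {n : G} (hn : n ∈ S.T) (x : S.T) : n * x * n⁻¹ = x := by
  rw [show n * x = x * n from congrArg Subtype.val (mul_comm' (⟨n, hn⟩ : S.T) x), mul_inv_cancel_right]
theorem rrr (x : S.T) : S.r (S.r (S.r x)) = x := Subtype.ext (by
  rw [← S.cj_T S.ρ3 x]; simp only [Abs0.r_coe, pow_three]; group)
theorem ss (x : S.T) : S.s (S.s x) = x := Subtype.ext (by
  simp only [Abs0.s_coe]; rw [← mul_assoc, ← mul_assoc, S.ww', mul_assoc, S.w_inv, S.ww', one_mul, mul_one])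
theorem srsr (x : S.T) : S.s (S.r (S.s (S.r x))) = x := Subtype.ext (by
  rw [← S.cj_T S.wρ x]; simp only [Abs0.r_coe, Abs0.s_coe, S.w_inv, mul_inv_rev]; group)
theorem rs (x : S.T) : S.r (S.s x) = S.s (S.r (S.r x)) := by
  have := S.srsr (S.r (S.r x))
  rw [S.rrr] at this
  rw [← this, S.ss]
theorem σσ (x : S.W) : S.σ (S.σ x) = x := Subtype.ext (by
  simp only [Abs0.σ_coe]; rw [← mul_assoc, ← mul_assoc, S.uu, mul_assoc, S.u_inv, S.uu, one_mul, mul_one])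
theorem RRR (l : Du S.T) : S.R (S.R (S.R l)) = l := Du.ext' fun x => congrArg l.ch (S.rrr x)
theorem SS (l : Du S.T) : S.Sg (S.Sg l) = l := Du.ext' fun x => congrArg l.ch (S.ss x)
theorem SR (l : Du S.T) : S.Sg (S.R l) = S.R (S.R (S.Sg l)) := Du.ext' fun x => congrArg l.ch (S.rs x)
theorem SRR (l : Du S.T) : S.Sg (S.R (S.R l)) = S.R (S.Sg l) := by rw [SR, SR, RRR]
theorem SwSw (l : Du S.W) : S.Sw (S.Sw l) = l := Du.ext' fun x => congrArg l.ch (S.σσ x)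
theorem R_inj {a b : Du S.T} (h : S.R a = S.R b) : a = b := by rw [← S.RRR a, h, RRR]
theorem r_t : S.r S.tT = S.uT := Subtype.ext S.ρ_t
theorem r_u : S.r S.uT = S.tT * S.uT := Subtype.ext S.ρ_u
theorem tT2 : S.tT * S.tT = 1 := Subtype.ext S.tt
theorem uT2 : S.uT * S.uT = 1 := Subtype.ext S.uu
theorem tW2 : S.tW * S.tW = 1 := Subtype.ext S.tt
theorem tT_ne : S.tT ≠ 1 := fun h => S.t_ne (congrArg Subtype.val h)
theorem tW_ne : S.tW ≠ 1 := fun h => S.t_ne (congrArg Subtype.val h)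

theorem av_ch (l : Du S.T) : S.av l.ch = l.ch + (S.R l).ch + (S.R (S.R l)).ch := rfl
theorem av_sub (a b : S.T → ℂ) : S.av (a - b) = S.av a - S.av b := by
  ext x; simp only [Abs0.av, Pi.sub_apply]; ring
theorem av_t (a : S.T → ℂ) : S.av a S.tT = a S.tT + a S.uT + a (S.tT * S.uT) := by rw [Abs0.av, r_t, r_u]

theorem fix_T {l : Du S.T} : S.Sg l = l ↔ ∀ x : S.T, (x : G) ∈ S.Tm → l.ch x = 1 := by
  refine ⟨fun h x hx => ?_, fun h => Du.ext' fun x => ?_⟩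
  · obtain ⟨y, hy, e⟩ := S.Tm_h90 hx
    rw [show x = S.s ⟨y, hy⟩ * ⟨y, hy⟩⁻¹ from Subtype.ext e, Du.ch_apply_mul,
      show l.ch (S.s ⟨y, hy⟩) = l.ch ⟨y, hy⟩ from congrFun (congrArg Du.ch h) _, ← Du.ch_apply_mul, mul_inv_cancel,
      Du.ch_apply_one]
  · have := h (S.s x * x⁻¹) (S.mem_Tm.2 ⟨Subtype.prop _, congrArg Subtype.val
      (show S.s (S.s x * x⁻¹) = (S.s x * x⁻¹)⁻¹ by rw [map_mul, map_inv, S.ss, mul_inv_rev, inv_inv])⟩)
    rw [show (S.Sg l).ch x = l.ch (S.s x * x⁻¹ * x) by rw [inv_mul_cancel_right]; rfl, Du.ch_apply_mul, this, one_mul]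
theorem fix_W {l : Du S.W} : S.Sw l = l ↔ ∀ x : S.W, (x : G) ∈ S.Wm → l.ch x = 1 := by
  refine ⟨fun h x hx => ?_, fun h => Du.ext' fun x => ?_⟩
  · obtain ⟨y, hy, e⟩ := S.Wm_h90 hx
    rw [show x = S.σ ⟨y, hy⟩ * ⟨y, hy⟩⁻¹ from Subtype.ext e, Du.ch_apply_mul,
      show l.ch (S.σ ⟨y, hy⟩) = l.ch ⟨y, hy⟩ from congrFun (congrArg Du.ch h) _, ← Du.ch_apply_mul, mul_inv_cancel,
      Du.ch_apply_one]
  · have := h (S.σ x * x⁻¹) (S.mem_Wm.2 ⟨Subtype.prop _, congrArg Subtype.val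
      (show S.σ (S.σ x * x⁻¹) = (S.σ x * x⁻¹)⁻¹ by rw [map_mul, map_inv, S.σσ, mul_inv_rev, inv_inv])⟩)
    rw [show (S.Sw l).ch x = l.ch (S.σ x * x⁻¹ * x) by rw [inv_mul_cancel_right]; rfl, Du.ch_apply_mul, this, one_mul]
theorem fix_rT (β : Du S.H) : S.Sg (S.rT β) = S.rT β := S.fix_T.2 fun _ hx => S.lin_Tm β _ hx
theorem fix_rW (β : Du S.H) : S.Sw (S.rW β) = S.rW β := S.fix_W.2 fun _ hx => S.lin_Wm β _ hx
theorem fix_t {l : Du S.T} (h : S.Sg l = l) : l.ch S.tT = 1 := S.fix_T.1 h _ S.t_Tm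
theorem fix_tW {l : Du S.W} (h : S.Sw l = l) : l.ch S.tW = 1 := S.fix_W.1 h _ S.t_Wm
theorem exists_rT {l : Du S.T} (h : S.Sg l = l) (h2 : Tw l) : ∃ β, Tw β ∧ S.rT β = l := by
  obtain ⟨β, rfl⟩ := S.ext_T S.T_le_H l (S.fix_T.1 h)
  obtain ⟨k, hk⟩ := h2.pow_eq
  exact ⟨β, tw_of_pow (k := k) (S.inj_T S.T_le_H (by rw [map_pow, hk, map_one])), rfl⟩
theorem exists_rW {l : Du S.W} (h : S.Sw l = l) (h2 : Tw l) : ∃ β, Tw β ∧ S.rW β = l := by
  obtain ⟨β, rfl⟩ := S.ext_W l (S.fix_W.1 h)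
  obtain ⟨k, hk⟩ := h2.pow_eq
  exact ⟨β, tw_of_pow (k := k) (S.inj_W (by rw [map_pow, hk, map_one])), rfl⟩
theorem rT_ne {β : Du S.H} (h : β ≠ 1) : S.rT β ≠ 1 := fun e => h (S.inj_T S.T_le_H (by rw [e, map_one]))
theorem rW_ne {β : Du S.H} (h : β ≠ 1) : S.rW β ≠ 1 := fun e => h (S.inj_W (by rw [e, map_one]))

/-- `ρ` acts without fixed points on the 2-part -/
theorem R_fix {l : Du S.T} (h2 : Tw l) (h : S.R l = l) : l = 1 := by
  obtain ⟨k, m, hm, e⟩ := Nat.exists_eq_two_pow_mul_odd (Nat.card_pos (α := S.T)).ne'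
  have key : ∀ j, ∀ x : S.T, S.r x = x → x ^ (2 ^ j * m) = 1 → x ^ m = 1 := fun j => by
    induction j with
    | zero => intro x _ h; simpa using h
    | succ j ih =>
      intro x hx h
      refine ih x hx ?_
      have h1 : S.r (x ^ (2 ^ j * m)) = x ^ (2 ^ j * m) := by rw [map_pow, hx]
      have h2 : x ^ (2 ^ j * m) * x ^ (2 ^ j * m) = 1 := by rw [← pow_add, ← h]; congr 1; ring
      generalize x ^ (2 ^ j * m) = y at h1 h2
      have h3 : S.ρ * y * S.ρ⁻¹ = y := congrArg Subtype.val h1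
      rcases S.inv_T y.2 (congrArg Subtype.val h2) with e | e | e | e
      · exact Subtype.ext e
      · rw [e, S.ρ_t] at h3; exact absurd h3.symm S.t_ne_u
      · rw [e, S.ρ_u, mul_eq_right] at h3; exact absurd h3 S.t_ne
      · rw [e, S.ρ_tu, eq_comm, mul_eq_left] at h3; exact absurd h3 S.u_ne
  refine Du.ext' fun x => ?_
  have h0 : l.ch (S.r x) = l.ch x := congrFun (congrArg Du.ch h) x
  have h0' : l.ch (S.r (S.r x)) = l.ch (S.r x) := congrFun (congrArg Du.ch h) _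
  have h1 := h2 (x * S.r x * S.r (S.r x)) (hm.of_dvd_nat (orderOf_dvd_of_pow_eq_one (key k _ (by
    rw [map_mul, map_mul, S.rrr, mul_comm', mul_assoc]) (by rw [← e, pow_card_eq_one']))))
  rw [Du.ch_apply_mul, Du.ch_apply_mul, h0', h0] at h1
  obtain ⟨j, hj⟩ := h2.pow_eq
  have h3 : l.ch x ^ 2 ^ j = 1 := by rw [← Pi.pow_apply, ← Du.ch_pow, hj]; rfl
  have := pow_gcd_eq_one.2 ⟨h3, show l.ch x ^ 3 = 1 by rw [← h1]; ring⟩
  rwa [(Nat.Coprime.pow_left j (by norm_num : Nat.Coprime 2 3)).gcd_eq_one, pow_one] at this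

/-- trivial stabilizer in `S₃` -/
structure Gen (l : Du S.T) : Prop where
  h0 : S.Sg l ≠ l
  h1 : S.Sg (S.R l) ≠ S.R l
  h2 : S.Sg (S.R (S.R l)) ≠ S.R (S.R l)
  hr : S.R l ≠ l

/-- the number of elements of `S₃` moving `b` to `a` -/
noncomputable def nn (a b : Du S.T) : ℂ := ⟪a.ch, S.av b.ch⟫ + ⟪a.ch, S.av b.ch ∘ S.s⟫

theorem nn_eq (a b : Du S.T) : S.nn a b = (if a = b then 1 else 0) + (if a = S.R b then 1 else 0) +
    (if a = S.R (S.R b) then 1 else 0) + ((if a = S.Sg b then 1 else 0) + (if a = S.Sg (S.R b) then 1 else 0) +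
    (if a = S.Sg (S.R (S.R b)) then 1 else 0)) := by
  have : S.av b.ch ∘ S.s = (S.Sg b).ch + (S.Sg (S.R b)).ch + (S.Sg (S.R (S.R b))).ch := rfl
  rw [nn, this, av_ch]
  simp only [ip_add_right, Du.ip_ch]

theorem nn_one_one : S.nn 1 1 = 6 := by rw [nn_eq]; simp only [map_one, if_true]; norm_num
theorem nn_one {a : Du S.T} (h : a ≠ 1) : S.nn a 1 = 0 := by rw [nn_eq]; simp only [map_one, if_neg h]; norm_num
theorem one_nn {a : Du S.T} (h : a ≠ 1) : S.nn 1 a = 0 := by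
  have h1 : ∀ {b}, b ≠ 1 → S.R b ≠ 1 := fun h e => h (S.R_inj (by rw [e, map_one]))
  have h2 : ∀ {b}, b ≠ 1 → S.Sg b ≠ 1 := fun {b} h e => h (by rw [← S.SS b, e, map_one])
  rw [nn_eq, if_neg h.symm, if_neg (h1 h).symm, if_neg (h1 (h1 h)).symm, if_neg (h2 h).symm, if_neg (h2 (h1 h)).symm,
    if_neg (h2 (h1 (h1 h))).symm]
  norm_num
theorem nn_fix {a b : Du S.T} (ha : S.Sg a = a) (hb : S.Sg b = b) (hr : S.R b ≠ b) :
    S.nn a b = if a = b then 2 else 0 := by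
  have h1 : a ≠ S.R b := fun e => hr (S.R_inj (by rw [e, SR, hb] at ha; exact ha))
  have h2 : a ≠ S.R (S.R b) := fun e => hr (S.R_inj (by rw [e, SRR, hb] at ha; exact ha.symm))
  rw [nn_eq, SR, SRR, hb, if_neg h1, if_neg h2]
  split_ifs <;> norm_num
theorem nn_gen {a : Du S.T} (h : S.Gen a) : S.nn a a = 1 := by
  have h1 : a ≠ S.R (S.R a) := fun e => h.hr (by conv_lhs => rw [e, RRR])
  rw [nn_eq, if_pos rfl, if_neg h.hr.symm, if_neg h1, if_neg h.h0.symm,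
    if_neg fun e => h.h2 (by rw [SRR]; conv_lhs => rw [e, SS]),
    if_neg fun e => h.h1 (by rw [SR]; conv_lhs => rw [e, SS, RRR])]
  norm_num
theorem nn_gen_fix {a b : Du S.T} (h : S.Gen a) (hb : S.Sg b = b) : S.nn a b = 0 := by
  have h0 : a ≠ b := fun e => h.h0 (e ▸ hb)
  have h1 : a ≠ S.R b := fun e => h.h2 (by rw [e, RRR, hb])
  have h2 : a ≠ S.R (S.R b) := fun e => h.h1 (by rw [e, RRR, hb])
  rw [nn_eq, SR, SRR, hb, if_neg h0, if_neg h1, if_neg h2]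
  norm_num
theorem nn_fix_gen {a b : Du S.T} (h : S.Gen a) (hb : S.Sg b = b) : S.nn b a = 0 := by
  have k : ∀ c, b = S.Sg c → b = c := fun c e => by rw [← hb, e, SS]
  have h0 : b ≠ a := fun e => h.h0 (e ▸ hb)
  have h1 : b ≠ S.R a := fun e => h.h1 (e ▸ hb)
  have h2 : b ≠ S.R (S.R a) := fun e => h.h2 (e ▸ hb)
  rw [nn_eq, if_neg h0, if_neg h1, if_neg h2, if_neg (mt (k _) h0), if_neg (mt (k _) h1), if_neg (mt (k _) h2)]
  norm_num
theorem nn_R (a b : Du S.T) : S.nn a (S.R b) = S.nn a b := by rw [nn_eq, nn_eq, RRR]; ring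

theorem ip_Tm (l : Du S.T) : ⟪l.ch ∘ inclusion S.Tm_le_T, 1⟫ = if S.Sg l = l then 1 else 0 := by
  rw [← Du.ch_comp, Du.ip_ch_one]
  refine if_congr ⟨fun h => S.fix_T.2 fun x hx => congrFun (congrArg Du.ch h) ⟨x, hx⟩,
    fun h => Du.ext' fun x => S.fix_T.1 h _ x.2⟩ rfl rfl
theorem ip_Wm (l : Du S.W) : ⟪l.ch ∘ inclusion S.Wm_le_W, 1⟫ = if S.Sw l = l then 1 else 0 := by
  rw [← Du.ch_comp, Du.ip_ch_one]
  refine if_congr ⟨fun h => S.fix_W.2 fun x hx => congrFun (congrArg Du.ch h) ⟨x, hx⟩,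
    fun h => Du.ext' fun x => S.fix_W.1 h _ x.2⟩ rfl rfl
theorem ip_av_Tm (l : Du S.T) : ⟪S.av l.ch ∘ inclusion S.Tm_le_T, 1⟫ = (if S.Sg l = l then 1 else 0) +
    (if S.Sg (S.R l) = S.R l then 1 else 0) + (if S.Sg (S.R (S.R l)) = S.R (S.R l) then 1 else 0) := by
  rw [av_ch, Pi.add_comp, Pi.add_comp, ip_add_left, ip_add_left, ip_Tm, ip_Tm, ip_Tm]

theorem Q_odd : S.Q % 4 = 1 ∨ S.Q % 4 = 3 := by
  obtain ⟨k, hk⟩ := S.odd
  rcases S.Q_cases with ⟨-, h⟩ | ⟨-, h⟩ <;> omega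
theorem d_mul : ∃ k : ℤ, k % 2 = 1 ∧ S.Q - 1 = S.d * k := by
  obtain ⟨k, ⟨j, hj⟩, h⟩ := S.d_dvd
  rcases S.Q_cases with ⟨h1, h2⟩ | ⟨h1, h2⟩
  · exact ⟨k, by omega, by rw [h2, Abs0.d, ← h, h1]⟩
  · exact ⟨-k, by omega, by rw [h2, Abs0.d, mul_neg, ← h, h1]; ring⟩
theorem d_even : (2 : ℤ) ∣ S.d := by
  obtain ⟨k, hk, h⟩ := S.d_mul
  have h2 : (2 : ℤ) ∣ S.d * k := by rw [← h]; have := S.Q_odd; omega
  exact (Int.prime_two.dvd_or_dvd h2).resolve_right (by omega)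
theorem u_not_Tm : S.u ∉ S.Tm := fun h => S.t_ne (by
  have := (S.mem_Tm.1 h).2; rwa [S.wu, S.u_inv, mul_eq_right] at this)
theorem sq_V {x : G} (h : x ∈ S.V) : x * x = 1 := by
  rcases S.mem_V.1 h with rfl | rfl | rfl | rfl
  exacts [mul_one 1, S.tt, S.uu, by rw [mul_assoc, ← mul_assoc S.u, S.ut, mul_assoc, S.uu, mul_one, S.tt]]
theorem t_V : S.t ∈ S.V := S.mem_V.2 (by simp)
theorem u_V : S.u ∈ S.V := S.mem_V.2 (by simp)
theorem V_le_T : S.V ≤ S.T := fun x h => by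
  rcases S.mem_V.1 h with rfl | rfl | rfl | rfl
  exacts [one_mem _, S.t_T, S.u_T, mul_mem S.t_T S.u_T]

theorem exists_α : ∃ α : Du S.H, Tw α ∧ (S.rT α).ch S.uT = -1 := by
  obtain ⟨l, h1, h2, h3⟩ := exists_tw (S.Tm.subgroupOf S.T) (x := S.uT) fun n ⟨k, hk⟩ hn => S.u_not_Tm (by
    rwa [hk, pow_succ, pow_mul, sq, S.uT2, one_pow, one_mul] at hn)
  obtain ⟨β, hβ, rfl⟩ := S.exists_rT (S.fix_T.2 h2) h1
  exact ⟨β, hβ, (ch_inv2 _ S.uT2).resolve_left h3⟩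

theorem Sw_eq (l : Du S.W) : S.Sw l = l ^ S.Q := Du.ext' fun x => by
  rw [← ch_zpow]; exact congrArg l.ch (Subtype.ext (S.u_W_pow x.2))
theorem Sw_t (l : Du S.W) : (S.Sw l).ch S.tW = l.ch S.tW :=
  congrArg l.ch (Subtype.ext (show S.u * S.t * S.u⁻¹ = S.t by rw [S.ut, mul_inv_cancel_right]))

theorem exists_φ : ∃ φ0 φ1 : Du S.W, Tw φ0 ∧ Tw φ1 ∧ φ0.ch S.tW = -1 ∧ φ1.ch S.tW = -1 ∧ φ1 ≠ φ0 ∧ φ1 ≠ S.Sw φ0 ∧
    (S.Q % 4 = 3 → ∃ φ2, Tw φ2 ∧ S.Sw φ2 ≠ φ2 ∧ φ2.ch S.tW = 1) := by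
  obtain ⟨l, h1, -, h3⟩ := exists_tw (⊥ : Subgroup S.W) (x := S.tW) fun n ⟨k, hk⟩ hn => S.tW_ne (by
    rwa [mem_bot, hk, pow_succ, pow_mul, sq, S.tW2, one_pow, one_mul] at hn)
  have ht := (ch_inv2 l S.tW2).resolve_left h3
  have := S.cyc_W
  obtain ⟨ω, hω⟩ := IsCyclic.exists_ofOrder_eq_natCard (α := S.W)
  have key : ∀ a b c : ℤ, c % 2 = 1 → 2 * (a * b) = Nat.card S.W * c → l ^ b ≠ 1 := fun a b c hc h e => by
    have h0 : ω ^ (a * b) ≠ 1 := fun e => by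
      obtain ⟨k, hk⟩ := orderOf_dvd_iff_zpow_eq_one.2 e
      rw [hk, hω, mul_left_comm, mul_right_inj' (by exact_mod_cast Nat.card_pos.ne')] at h
      omega
    have h2 : ω ^ (a * b) * ω ^ (a * b) = 1 := by
      rw [← zpow_add, ← two_mul, h, zpow_mul, zpow_natCast, pow_card_eq_one', one_zpow]
    have h4 : ω ^ (a * b) = S.tW :=
      Subtype.ext ((S.inv_W (ω ^ (a * b)).2 (congrArg Subtype.val h2)).resolve_left fun e => h0 (Subtype.ext e))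
    rw [← h4, zpow_mul, ch_zpow, e] at h3
    exact h3 rfl
  obtain ⟨d, hd⟩ := S.d_even
  have hW := S.card_W'
  rw [hd] at hW
  have he : S.e % 2 = 1 := by rcases S.he with h | h <;> rw [h] <;> rfl
  obtain ⟨m, hm⟩ : ∃ m, S.Q + 1 = 2 * m := ⟨(S.Q + 1) / 2, by have := S.Q_odd; omega⟩
  refine ⟨l, l⁻¹, h1, by simpa using h1.zpow (-1), ht, by simp [Du.ch_inv, ht], fun e => ?_, fun e => ?_, fun h4 => ?_⟩
  · exact key (S.e * m * d) 2 1 rfl (by rw [hW, hm]; ring) (by rw [zpow_two, ← eq_inv_iff_mul_eq_one, e])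
  · exact key (S.e * d) (S.Q + 1) 1 rfl (by rw [hW]; ring) (by rw [zpow_add_one, ← Sw_eq, ← e, inv_mul_cancel])
  · refine ⟨l ^ (2 : ℤ), h1.zpow 2, fun e => ?_, by rw [zpow_two, Du.ch_mul, Pi.mul_apply, ht]; ring⟩
    obtain ⟨j, hj⟩ : ∃ j, S.Q = 4 * j + 3 := ⟨S.Q / 4, by omega⟩
    refine key (S.e * (j + 1) * d) (2 * (S.Q - 1)) (2 * j + 1) (by omega) (by rw [hW, hj]; ring) ?_
    rw [zpow_mul, zpow_sub_one, ← Sw_eq, e, mul_inv_cancel]

theorem exists_sqrt (h : S.Q % 4 = 1) : ∃ x : S.T, x * x = S.uT := by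
  obtain ⟨k, hk, e⟩ := S.d_mul
  obtain ⟨x, hx, h1, h2⟩ := exists_ord4 S.Z S.cyc_Z (by
    have : IsCoprime (4 : ℤ) k := by
      obtain ⟨j, rfl⟩ : ∃ j, k = 2 * j + 1 := ⟨k / 2, by omega⟩
      exact ⟨-(j * j + j), 2 * j + 1, by ring⟩
    exact_mod_cast this.dvd_of_dvd_mul_right (e ▸ by omega : (4 : ℤ) ∣ S.d * k))
  have := (S.inv_W (S.Z_le_W (mul_mem hx hx)) h2).resolve_left h1
  exact ⟨S.r ⟨x, S.Z_le_T hx⟩, by rw [← map_mul, ← r_t]; exact congrArg _ (Subtype.ext this)⟩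

theorem gen_aux {l : Du S.T} (ht : l.ch S.tT = 1) (hu : l.ch S.uT = -1) :
    S.Sg (S.R l) ≠ S.R l ∧ S.Sg (S.R (S.R l)) ≠ S.R (S.R l) := by
  refine ⟨fun e => ?_, fun e => ?_⟩
  · have : l.ch (S.r S.tT) = 1 := S.fix_t e
    rw [r_t, hu] at this; norm_num at this
  · have : l.ch (S.r (S.r S.tT)) = 1 := S.fix_t e
    rw [r_t, r_u, Du.ch_apply_mul, ht, hu] at this; norm_num at this

theorem gen_of {l : Du S.T} (h2 : Tw l) (h0 : S.Sg l ≠ l) (ht : l.ch S.tT = 1) (hu : l.ch S.uT = -1) : S.Gen l :=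
  ⟨h0, (S.gen_aux ht hu).1, (S.gen_aux ht hu).2, fun e => h0 (by rw [S.R_fix h2 e, map_one])⟩

theorem exists_gen (h : S.Q % 4 = 1) : ∃ l, Tw l ∧ S.Gen l ∧ l.ch S.tT = 1 ∧ l.ch S.uT = -1 := by
  obtain ⟨α, h1, h2⟩ := S.exists_α
  obtain ⟨x, hx, x1, x2⟩ := exists_ord4 S.Tm S.cyc_Tm (by
    have : (4 : ℤ) ∣ Nat.card S.Tm := S.card_Tm' ▸ Dvd.dvd.mul_left (by omega) _
    exact_mod_cast this)
  obtain ⟨l, l1, l2, l3⟩ := exists_tw (S.V.subgroupOf S.T) (x := ⟨x, S.Tm_le_T hx⟩) fun n ⟨k, hk⟩ hn => x1 (by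
    have : x ^ n * x ^ n = 1 := S.sq_V hn
    rwa [← pow_add, hk, show 2 * k + 1 + (2 * k + 1) = 4 * k + 2 by ring, pow_add, pow_mul,
      show x ^ 4 = x * x * (x * x) by simp [pow_succ, mul_assoc], x2, one_pow, one_mul, sq] at this)
  have ht : (S.rT α * l).ch S.tT = 1 := by rw [Du.ch_mul, Pi.mul_apply, S.fix_t (S.fix_rT α), l2 _ S.t_V, mul_one]
  have hu : (S.rT α * l).ch S.uT = -1 := by rw [Du.ch_mul, Pi.mul_apply, h2, l2 _ S.u_V, mul_one]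
  refine ⟨_, (h1.comp _).mul l1, S.gen_of ((h1.comp _).mul l1) (fun e => l3 ?_) ht hu, ht, hu⟩
  have := S.fix_T.1 e ⟨x, S.Tm_le_T hx⟩ hx
  rwa [Du.ch_mul, Pi.mul_apply, S.fix_T.1 (S.fix_rT α) _ hx, one_mul] at this

theorem card_Tm2 (h : S.Q % 4 = 3) : ∃ c, Nat.card S.Tm = 2 * (2 * c + 1) := by
  have := S.card_Tm'
  refine ⟨Nat.card S.Tm / 4, ?_⟩
  rcases S.he with e | e <;> rw [e] at this <;> omega

theorem not_gen (h : S.Q % 4 = 3) {l : Du S.T} (h2 : Tw l) : ¬ S.Gen l := fun g => by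
  obtain ⟨c, hc⟩ := S.card_Tm2 h
  have key : ∀ {l : Du S.T}, Tw l → l.ch S.tT = 1 → S.Sg l = l := fun {l} h2 ht => S.fix_T.2 fun x hx => by
    have h1 : x ^ (2 * (2 * c + 1)) = 1 := Subtype.ext (by
      rw [← hc]; exact congrArg S.Tm.subtype (pow_card_eq_one' (x := (⟨x, hx⟩ : S.Tm))))
    have h3 : l.ch (x ^ 2) = 1 := h2 _ (Odd.of_dvd_nat ⟨c, rfl⟩ (orderOf_dvd_of_pow_eq_one (by rw [← pow_mul, h1])))
    have h4 : l.ch (x ^ (2 * c + 1)) = 1 := by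
      have h5 : ((x ^ (2 * c + 1) : S.T) : G) ∈ S.Tm := pow_mem hx _
      rcases S.inv_T (x ^ (2 * c + 1)).2 (congrArg Subtype.val (show x ^ (2 * c + 1) * x ^ (2 * c + 1) = 1 by
        rw [← pow_add, ← two_mul, h1])) with e | e | e | e
      · rw [show x ^ (2 * c + 1) = 1 from Subtype.ext e, Du.ch_apply_one]
      · rw [show x ^ (2 * c + 1) = S.tT from Subtype.ext e, ht]
      · exact absurd (e ▸ h5) S.u_not_Tm
      · exact absurd ((mul_mem_cancel_left S.t_Tm).1 (e ▸ h5)) S.u_not_Tm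
    rwa [pow_succ, pow_mul, Du.ch_apply_mul, Du.ch_apply_pow, h3, one_pow, one_mul] at h4
  have a := (ch_inv2 l S.tT2).resolve_left (mt (key h2) g.h0)
  have b : l.ch (S.r S.tT) = -1 := (ch_inv2 (S.R l) S.tT2).resolve_left (mt (key (h2.comp _)) g.h1)
  refine g.h2 (key ((h2.comp _).comp _) (show l.ch (S.r (S.r S.tT)) = 1 from ?_))
  rw [r_t] at b
  rw [r_t, r_u, Du.ch_apply_mul, a, b]; ring

theorem exists_gen' (h : S.Q % 4 = 3) (h10 : 10 ≤ Nat.card S.Tm) (hT : ¬ S.Triv) :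
    ∃ l, S.Gen l ∧ l.ch S.tT = 1 ∧ l.ch S.uT = 1 ∧ ∃ m, Odd m ∧ l ^ m = 1 := by
  obtain ⟨D, hD⟩ : ∃ D, D = ann (S.V.subgroupOf S.T) := ⟨_, rfl⟩
  have mD : ∀ l, l ∈ D ↔ l.ch S.tT = 1 ∧ l.ch S.uT = 1 := fun l => by
    rw [hD, mem_ann]
    refine ⟨fun h => ⟨h _ S.t_V, h _ S.u_V⟩, fun h x hx => ?_⟩
    rcases S.mem_V.1 hx with e | e | e | e
    · rw [show x = 1 from Subtype.ext e, Du.ch_apply_one]
    · rw [show x = S.tT from Subtype.ext e, h.1]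
    · rw [show x = S.uT from Subtype.ext e, h.2]
    · rw [show x = S.tT * S.uT from Subtype.ext e, Du.ch_apply_mul, h.1, h.2, mul_one]
  have RD : ∀ l ∈ D, S.R l ∈ D := fun l hl => by
    obtain ⟨a, b⟩ := (mD l).1 hl
    exact (mD _).2 ⟨(congrArg l.ch S.r_t).trans b, (congrArg l.ch S.r_u).trans (by rw [Du.ch_apply_mul, a, b, mul_one])⟩
  have cD : Nat.card D * 4 = Nat.card S.T := by
    rw [hD, card_ann, ← S.card_V, ← Nat.card_congr (subgroupOfEquivOfLe S.V_le_T).toEquiv, index_mul_card]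
  have oD : Odd (Nat.card D) := by
    obtain ⟨j, hj, e⟩ := S.d_mul
    have h1 := S.card_T'
    rw [← cD] at h1
    by_contra hc
    obtain ⟨k, hk⟩ := Nat.not_odd_iff_even.1 hc
    have h2 : (8 : ℤ) ∣ (S.Q - 1) * (S.Q - 1) := by
      refine ⟨S.e * j * k, ?_⟩
      rw [hk] at h1
      push_cast at h1
      linear_combination (S.Q - 1) * e - S.e * j * h1 - (S.Q - 1) * S.d * j * S.e_sq
    obtain ⟨i, hi⟩ : ∃ i, S.Q = 4 * i + 3 := ⟨S.Q / 4, by omega⟩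
    rw [hi, show (4 * i + 3 - 1) * (4 * i + 3 - 1) = 8 * (2 * i * i + 2 * i) + 4 by ring] at h2
    omega
  have c0 : 5 * {l | l ∈ D ∧ S.Sg l = l}.ncard ≤ Nat.card D := by
    have e : {l | l ∈ D ∧ S.Sg l = l} = ann (S.V.subgroupOf S.T ⊔ S.Tm.subgroupOf S.T) := by
      ext l; rw [ann_sup, ← hD, SetLike.mem_coe, mem_inf, mem_ann, Set.mem_ofPred, fix_T]; rfl
    have h1 := (S.V.subgroupOf S.T ⊔ S.Tm.subgroupOf S.T).index_mul_card
    have h2 : Nat.card (S.Tm.subgroupOf S.T) = Nat.card S.Tm := Nat.card_congr (subgroupOfEquivOfLe S.Tm_le_T).toEquiv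
    obtain ⟨k, hk⟩ := card_dvd_of_le (le_sup_right : _ ≤ S.V.subgroupOf S.T ⊔ S.Tm.subgroupOf S.T)
    have h3 : k ≠ 1 := fun e => S.u_not_Tm (by
      have := eq_of_le_of_card_ge (le_sup_right : _ ≤ S.V.subgroupOf S.T ⊔ S.Tm.subgroupOf S.T) (by rw [hk, e, mul_one])
      exact (show S.uT ∈ S.Tm.subgroupOf S.T from this ▸ mem_sup_left S.u_V))
    have h4 : k ≠ 0 := fun e => (Nat.card_pos (α := ↥(S.V.subgroupOf S.T ⊔ S.Tm.subgroupOf S.T))).ne' (by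
      rw [hk, e, mul_zero])
    rw [e, ← Nat.card_coe_set_eq, SetLike.coe_sort_coe, card_ann]
    rw [hk, h2, ← cD] at h1
    have : 20 ≤ Nat.card S.Tm * k := by have : 2 ≤ k := by omega
                                        nlinarith
    nlinarith
  have c1 : {l | l ∈ D ∧ S.Sg (S.R l) = S.R l}.ncard ≤ {l | l ∈ D ∧ S.Sg l = l}.ncard :=
    Set.ncard_le_ncard_of_injOn S.R (fun l hl => ⟨RD l hl.1, hl.2⟩) fun _ _ _ _ => S.R_inj
  have c2 : {l | l ∈ D ∧ S.Sg (S.R (S.R l)) = S.R (S.R l)}.ncard ≤ {l | l ∈ D ∧ S.Sg l = l}.ncard :=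
    Set.ncard_le_ncard_of_injOn (fun l => S.R (S.R l)) (fun l hl => ⟨RD _ (RD l hl.1), hl.2⟩)
      fun _ _ _ _ e => S.R_inj (S.R_inj e)
  have c3 : 3 * {l | l ∈ D ∧ S.R l = l}.ncard ≤ Nat.card D := by
    obtain ⟨k, hk⟩ := card_dvd_of_le (inf_le_left : D ⊓ S.R.eqLocus (MonoidHom.id _) ≤ D)
    have e : {l | l ∈ D ∧ S.R l = l} = ↑(D ⊓ S.R.eqLocus (MonoidHom.id _)) := rfl
    have h3 : k ≠ 1 := fun e => hT fun y hy ho => by
      have h1 := eq_of_le_of_card_ge (inf_le_left : D ⊓ S.R.eqLocus (MonoidHom.id _) ≤ D) (by rw [hk, e, mul_one])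
      have h2 : S.r ⟨y, hy⟩ * ⟨y, hy⟩⁻¹ ∈ S.V.subgroupOf S.T := by
        by_contra hc
        obtain ⟨a, ha, hn⟩ := Du.exists_ne_one _ hc
        have : S.R a = a := (show a ∈ D ⊓ S.R.eqLocus (MonoidHom.id _) by rw [h1, hD]; exact ha).2
        exact hn (by rw [Du.ch_apply_mul, show a.ch (S.r ⟨y, hy⟩) = a.ch ⟨y, hy⟩ from congrFun (congrArg Du.ch this) _,
          ← Du.ch_apply_mul, mul_inv_cancel, Du.ch_apply_one])
      have ho' : (⟨y, hy⟩ : S.T) ∈ od S.T := show Odd _ by rwa [orderOf_mk]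
      have h4 : S.r ⟨y, hy⟩ * ⟨y, hy⟩⁻¹ ∈ od S.T :=
        mul_mem (Odd.of_dvd_nat ho' (orderOf_map_dvd _ _)) (inv_mem ho')
      have h5 := (Nat.coprime_two_right.2 h4).eq_one_of_dvd (orderOf_dvd_of_pow_eq_one (Subtype.ext (by
        rw [sq]; exact S.sq_V h2)))
      have h6 : S.ρ * y * S.ρ⁻¹ * y⁻¹ = 1 := congrArg Subtype.val (orderOf_eq_one_iff.1 h5)
      rwa [mul_inv_eq_one, mul_inv_eq_iff_eq_mul] at h6
    have h4 : k % 2 = 1 := Nat.odd_iff.1 (oD.of_dvd_nat (Dvd.intro_left _ hk.symm))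
    rw [e, ← Nat.card_coe_set_eq, SetLike.coe_sort_coe, hk]
    exact (Nat.mul_le_mul_right _ (by omega : 3 ≤ k)).trans (mul_comm _ _).le
  by_contra! hc
  have h1 : (D : Set (Du S.T)) ⊆ {l | l ∈ D ∧ S.Sg l = l} ∪ {l | l ∈ D ∧ S.Sg (S.R l) = S.R l} ∪
      {l | l ∈ D ∧ S.Sg (S.R (S.R l)) = S.R (S.R l)} ∪ {l | l ∈ D ∧ S.R l = l} := fun l hl => by
    by_contra hn
    simp only [Set.mem_union, Set.mem_ofPred, not_or, not_and] at hn
    exact hc l ⟨hn.1.1.1 hl, hn.1.1.2 hl, hn.1.2 hl, hn.2 hl⟩ ((mD l).1 hl).1 ((mD l).1 hl).2 _ oD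
      (congrArg D.subtype (pow_card_eq_one' (x := (⟨l, hl⟩ : D))))
  have h2 := (Set.ncard_le_ncard h1).trans ((Set.ncard_union_le _ _).trans (Nat.add_le_add_right
    ((Set.ncard_union_le _ _).trans (Nat.add_le_add_right (Set.ncard_union_le _ _) _)) _))
  rw [← Nat.card_coe_set_eq, SetLike.coe_sort_coe] at h2
  have := Nat.card_pos (α := D)
  omega

end Abs

end CA.Br
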