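/-
Brauer's characterization of `PSL₃(q)` and `M₁₁`: the characters of the principal block and the degree equations.
-/
import Cfsg.Agent.Lib.Br.Dual
import Cfsg.Agent.Lib.Br.Vc

set_option autoImplicit false
set_option linter.unusedSectionVars false

open scoped ComplexConjugate

namespace CA.Br

open Cfsg Subgroup CA CA.Ch

variable {G : Type*} [Group G] [Finite G] {S : Abs G}

theorem card_class (g : G) : Nat.card {x // IsConj g x} = (𝐂[g]).index :=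
  Nat.eq_of_mul_eq_mul_left (Nat.card_pos (α := 𝐂[g])) (by rw [card_centralizer_mul_card_class, card_mul_index])

theorem dvd_of_sirr {χ : G → ℂ} (h : IsSIrr χ) {g : G} {a b : ℤ} (ha : χ 1 = a) (hb : χ g = b) :
    a ∣ (𝐂[g]).index * b := by
  have k : ∀ {χ : G → ℂ}, IsIrr χ → ∀ {a b : ℤ}, χ 1 = a → χ g = b → a ∣ (𝐂[g]).index * b := fun h a b ha hb => by
    have := h.aint_class g
    rw [card_class, ha, hb] at this
    exact AInt.dvd_of_div (fun e => h.ne_zero_one (by simp [ha, e])) (by exact_mod_cast this)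
  rcases h with h | h
  · exact k h ha hb
  · simpa using k h (a := -a) (b := -b) (by simp [ha]) (by simp [hb])

namespace AOm

variable (O : AOm S)

noncomputable def Θ (l : Du S.T) : G → ℂ := O.OT (l.ch - 1)
noncomputable def θ (f : Du S.W) : G → ℂ := O.OW (1 - f.ch)
noncomputable def η (β : Du S.H) : G → ℂ := (2 : ℂ)⁻¹ • (O.Θ (S.rT β) - O.θ (S.rW β))

theorem gram {a b c d : Du S.T} (h : Van (a.ch - b.ch)) (h' : Van (c.ch - d.ch)) :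
    ⟪O.OT (a.ch - b.ch), O.OT (c.ch - d.ch)⟫ = S.nn a c - S.nn a d - S.nn b c + S.nn b d := by
  rw [O.gTT _ _ h h', S.av_sub, Pi.sub_comp]
  simp only [ip_sub_left, ip_sub_right, Abs.nn]; ring
theorem ΘΘ {a b : Du S.T} (ha : Tw a) (hb : Tw b) (a1 : a ≠ 1) (b1 : b ≠ 1) : ⟪O.Θ a, O.Θ b⟫ = S.nn a b + 6 := by
  have := O.gram (ha.van tw_one) (hb.van tw_one)
  rw [S.nn_one a1, S.one_nn b1, S.nn_one_one, sub_zero, sub_zero] at this
  exact this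
theorem θθ {a b : Du S.W} (ha : Tw a) (hb : Tw b) (a1 : a ≠ 1) (b1 : b ≠ 1) :
    ⟪O.θ a, O.θ b⟫ = 2 + (if a = b then 1 else 0) + if a = S.Sw b then 1 else 0 := by
  have h : S.Sw b ≠ 1 := fun e => b1 (by rw [← S.SwSw b, e, map_one])
  have e : (1 - b.ch) ∘ S.σ = (1 : Du S.W).ch - (S.Sw b).ch := rfl
  rw [θ, θ, O.gWW (1 - a.ch) (1 - b.ch) (tw_one.van ha) (tw_one.van hb), e, ← Du.ch_one]
  simp only [ip_sub_left, ip_sub_right, Du.ip_ch, if_neg a1, if_neg b1.symm, if_neg h.symm, if_true]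
  ring
theorem Θθ {a : Du S.T} {b : Du S.W} (ha : Tw a) (hb : Tw b) : ⟪O.Θ a, O.θ b⟫ = 0 :=
  O.gTW _ _ (ha.van tw_one) (tw_one.van hb)
theorem θΘ {a : Du S.T} {b : Du S.W} (ha : Tw a) (hb : Tw b) : ⟪O.θ b, O.Θ a⟫ = 0 := ip_eq_zero_symm (O.Θθ ha hb)
theorem Θ1 {a : Du S.T} (a1 : a ≠ 1) : ⟪O.Θ a, 1⟫ = -1 := by
  rw [Θ, O.oneT, ip_sub_left, Du.ip_ch_one, if_neg a1, ip_one_one, zero_sub]
theorem θ1 {a : Du S.W} (a1 : a ≠ 1) : ⟪O.θ a, 1⟫ = 1 := by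
  rw [θ, O.oneW, ip_sub_left, Du.ip_ch_one, if_neg a1, ip_one_one, sub_zero]
theorem vΘ (a : Du S.T) : IsVC (O.Θ a) := O.vcT _ (a.isVC.sub isVC_one)
theorem vθ (a : Du S.W) : IsVC (O.θ a) := O.vcW _ (isVC_one.sub a.isVC)
theorem Θ1' {a : Du S.T} (a1 : a ≠ 1) : ⟪1, O.Θ a⟫ = -1 := by rw [isVC_one.ip_comm (O.vΘ a), O.Θ1 a1]
theorem θ1' {a : Du S.W} (a1 : a ≠ 1) : ⟪1, O.θ a⟫ = 1 := by rw [isVC_one.ip_comm (O.vθ a), O.θ1 a1]
theorem vη {β : Du S.H} (h : Tw β) : IsVC (O.η β) := by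
  have := O.eta β h
  rwa [← neg_sub 1 (Du.ch (Du.comp (inclusion S.W_le_H) β)), map_neg, ← sub_eq_add_neg] at this
theorem dΘ {a : Du S.T} (h : Tw a) : O.Θ a 1 = 0 := O.degT _ (h.van tw_one)
theorem dθ {a : Du S.W} (h : Tw a) : O.θ a 1 = 0 := O.degW _ (tw_one.van h)
theorem Θ_R {a : Du S.T} (h : Tw a) : O.Θ (S.R a) = O.Θ a := by
  have := O.gram ((h.comp S.r).van h) ((h.comp S.r).van h)
  rw [S.nn_R, S.nn_R, sub_self, zero_sub, neg_add_cancel, ip_self_eq_zero] at this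
  rw [← sub_eq_zero, Θ, Θ, ← map_sub, sub_sub_sub_cancel_right, this]
theorem Θ_eq (β : Du S.H) : O.Θ (S.rT β) = (2 : ℂ) • O.η β + O.θ (S.rW β) := by
  rw [η, smul_smul, mul_inv_cancel₀ two_ne_zero, one_smul, sub_add_cancel]
theorem bΘ {a : Du S.T} (h : Tw a) : Blk.pi0 2 (O.Θ a) = O.Θ a := O.b0T _ (h.van tw_one) (h.two tw_one)
theorem bθ {a : Du S.W} (h : Tw a) : Blk.pi0 2 (O.θ a) = O.θ a := O.b0W _ (tw_one.van h) (tw_one.two h)

theorem A_sirr {χ : G → ℂ} (h : IsSIrr χ) : O.A χ = (S.H.index : ℂ) * (χ S.t ^ 2 / χ 1) := by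
  rcases h with h | h
  · exact O.A_irr χ h
  · have := O.A_irr _ h
    rw [map_neg, Pi.neg_apply, Pi.neg_apply, neg_sq, div_neg, mul_neg, neg_inj] at this
    exact this
theorem A_one : O.A 1 = S.H.index := by simpa using O.A_irr 1 isIrr_one

omit O in
theorem mem_B0 {χ F : G → ℂ} (h : IsSIrr χ) (hF : Blk.pi0 2 F = F) (h0 : ⟪χ, F⟫ ≠ 0) :
    χ ∈ Blk.B0 G 2 ∨ -χ ∈ Blk.B0 G 2 :=
  h.imp (fun h => Blk.mem_B0_of_ip hF h (mt ip_eq_zero_symm h0))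
    fun h => Blk.mem_B0_of_ip hF h (mt ip_eq_zero_symm (by rwa [ip_neg_left, neg_eq_zero]))

theorem val {χ : G → ℂ} (h : χ ∈ Blk.B0 G 2 ∨ -χ ∈ Blk.B0 G 2) {a b : ℂ} (ha : ∀ l, Tw l → l ≠ 1 → ⟪χ, O.Θ l⟫ = a)
    (hb : ∀ l, Tw l → l ≠ 1 → ⟪χ, O.θ l⟫ = b) : χ S.t = -((S.Q + 1) / 2 * a) - (S.Q - 1) / 2 * b := by
  have k : ∀ {χ : G → ℂ}, χ ∈ Blk.B0 G 2 → ∀ {a b : ℂ}, (∀ l, Tw l → l ≠ 1 → ⟪χ, O.Θ l⟫ = a) →
      (∀ l, Tw l → l ≠ 1 → ⟪χ, O.θ l⟫ = b) → χ S.t = -((S.Q + 1) / 2 * a) - (S.Q - 1) / 2 * b :=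
    fun {χ} h a b ha hb => by
      rw [O.valt χ h, sum_tw S.tT2 S.tT_ne a (fun l => ⟪χ, O.OT (l.ch - 1)⟫) (by simp) ha,
        sum_tw S.tW2 S.tW_ne b (fun l => ⟪χ, O.OW (1 - l.ch)⟫) (by simp) hb]
      ring
  rcases h with h | h
  · exact k h ha hb
  · have := k h (a := -a) (b := -b) (fun l h1 h2 => by rw [ip_neg_left, ha l h1 h2])
      fun l h1 h2 => by rw [ip_neg_left, hb l h1 h2]
    rw [Pi.neg_apply] at this
    linear_combination -this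

theorem Θ_t (a : Du S.T) (h : Tw a) :
    O.Θ a S.t = (S.Q + 1) * (a.ch S.tT + a.ch S.uT + a.ch S.tT * a.ch S.uT - 3) := by
  rw [Θ, O.atT (a.ch - 1) (h.van tw_one), S.av_t]; simp only [Pi.sub_apply, Pi.one_apply, Du.ch_apply_mul]; ring
theorem θ_t (a : Du S.W) (h : Tw a) : O.θ a S.t = (1 - S.Q) * (1 - a.ch S.tW) := O.atW _ (tw_one.van h)
theorem A_θ (a : Du S.W) (h : Tw a) :
    O.A (O.θ a) = S.Q * (S.Q - 1) * (S.Q + 1) ^ 2 * (1 - if S.Sw a = a then 1 else 0) := by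
  rw [θ, O.A_W (1 - a.ch) (tw_one.van h), Pi.sub_comp, ip_sub_left, S.ip_Wm]; simp [Pi.one_comp]

/-- the constituents -/
theorem decomp {α : Du S.H} (hα : Tw α) (hu : (S.rT α).ch S.uT = -1) : ∃ φ χS X Y1 Y2 Z, Tw φ ∧ φ.ch S.tW = -1 ∧
    IsSIrr χS ∧ IsSIrr X ∧ IsSIrr Y1 ∧ IsSIrr Y2 ∧ IsSIrr Z ∧ O.θ φ - 1 = X - χS ∧ O.θ (S.rW α) - 1 = Y2 - Y1 - χS ∧
    O.η α + 1 = Y1 - Z ∧ ⟪Y2, 1⟫ = 0 ∧ (Y2 ∈ Blk.B0 G 2 ∨ -Y2 ∈ Blk.B0 G 2) ∧ χS S.t = S.Q ∧ Z S.t = S.Q + 1 ∧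
    ∀ l, Tw l → S.Gen l → ∃ Γ, IsSIrr Γ ∧ O.Θ l - O.Θ (S.rT α) = Γ - Y1 - Y2 := by
  obtain ⟨φ0, φ1, t0, t1, v0, v1, n1, n2, h3⟩ := S.exists_φ
  have g : ∀ {φ : Du S.W}, φ.ch S.tW = -1 → S.Sw φ ≠ φ := fun h e => by
    rw [S.fix_tW e] at h; norm_num at h
  have α1 : α ≠ 1 := fun e => by rw [e, map_one, Du.ch_one, Pi.one_apply] at hu; norm_num at hu
  have f1 : ∀ {φ : Du S.W}, S.Sw φ ≠ φ → φ ≠ 1 := fun h e => h (by rw [e, map_one])
  have l1 : ∀ {l : Du S.T}, S.Gen l → l ≠ 1 := fun h e => h.h0 (by rw [e, map_one])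
  have hR : ∀ {β : Du S.H}, Tw β → β ≠ 1 → S.R (S.rT β) ≠ S.rT β := fun h h1 e => S.rT_ne h1 (S.R_fix (h.comp _) e)
  have TT : ∀ β β' : {β : Du S.H // Tw β ∧ β ≠ 1}, ⟪O.Θ (S.rT β), O.Θ (S.rT β')⟫ = if β = β' then 8 else 6 :=
    fun β β' => by
      rw [O.ΘΘ (β.2.1.comp _) (β'.2.1.comp _) (S.rT_ne β.2.2) (S.rT_ne β'.2.2),
        S.nn_fix (S.fix_rT _) (S.fix_rT _) (hR β'.2.1 β'.2.2)]
      simp only [(S.inj_T S.T_le_H).eq_iff, Subtype.val_inj]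
      split_ifs <;> norm_num
  have WW : ∀ β β' : {β : Du S.H // Tw β ∧ β ≠ 1}, ⟪O.θ (S.rW β), O.θ (S.rW β')⟫ = if β = β' then 4 else 2 :=
    fun β β' => by
      rw [O.θθ (β.2.1.comp _) (β'.2.1.comp _) (S.rW_ne β.2.2) (S.rW_ne β'.2.2), S.fix_rW]
      simp only [S.inj_W.eq_iff, Subtype.val_inj]
      split_ifs <;> norm_num
  have WF : ∀ (β : {β : Du S.H // Tw β ∧ β ≠ 1}) (i : {f : Du S.W // Tw f ∧ S.Sw f ≠ f}),
      ⟪O.θ (S.rW β), O.θ i⟫ = 2 := fun β i => by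
    rw [O.θθ (β.2.1.comp _) i.2.1 (S.rW_ne β.2.2) (f1 i.2.2), 
      if_neg fun e : S.rW β = i => i.2.2 (e ▸ S.fix_rW β.1),
      if_neg fun e : S.rW β = S.Sw i => i.2.2 (by rw [← e, ← S.fix_rW, e, S.SwSw])]
    norm_num
  have FF : ∀ i j : {f : Du S.W // Tw f ∧ S.Sw f ≠ f}, i.1 ≠ j.1 → i.1 ≠ S.Sw j →
      ⟪O.θ i - 1, O.θ j - 1⟫ = 1 := fun i j a b => by
    simp only [ip_sub_left, ip_sub_right, O.θθ i.2.1 j.2.1 (f1 i.2.2) (f1 j.2.2), if_neg a, if_neg b, O.θ1 (f1 i.2.2),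
      O.θ1' (f1 j.2.2), ip_one_one]
    norm_num
  have LT : ∀ (l : {l : Du S.T // Tw l ∧ S.Gen l}) (β : {β : Du S.H // Tw β ∧ β ≠ 1}),
      ⟪O.Θ l, O.Θ (S.rT β)⟫ = 6 ∧ ⟪O.Θ (S.rT β), O.Θ l⟫ = 6 := fun l β => by
    rw [O.ΘΘ l.2.1 (β.2.1.comp _) (l1 l.2.2) (S.rT_ne β.2.2), O.ΘΘ (β.2.1.comp _) l.2.1 (S.rT_ne β.2.2) (l1 l.2.2),
      S.nn_gen_fix l.2.2 (S.fix_rT _), S.nn_fix_gen l.2.2 (S.fix_rT _), zero_add]
    exact ⟨rfl, rfl⟩
  have c2 : conj (2 : ℂ)⁻¹ = 2⁻¹ := by rw [map_inv₀, map_ofNat]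
  obtain ⟨χS, X, Y1, Y2, Z, a1, a2, a3, a4, a5, e1, e2, e3, b1, b2, b3, b4, c1, c3, c4⟩ :=
    dec (Φ := {f : Du S.W // Tw f ∧ S.Sw f ≠ f}) (B := {β : Du S.H // Tw β ∧ β ≠ 1}) (K := {l // Tw l ∧ S.Gen l})
      (fun i => O.θ i - 1) (fun β => O.θ (S.rW β) - 1) (fun β => O.η β + 1) (fun l => O.Θ l - O.Θ (S.rT α))
      ⟨φ0, t0, g v0⟩ ⟨φ1, t1, g v1⟩ ⟨α, hα, α1⟩ (fun i => (O.vθ _).sub isVC_one) (fun i => (O.vθ _).sub isVC_one)
      (fun i => (O.vη i.2.1).add isVC_one) (fun i => (O.vΘ _).sub (O.vΘ _))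
      (fun i => by
        simp only [ip_sub_left, ip_sub_right, O.θθ i.2.1 i.2.1 (f1 i.2.2) (f1 i.2.2), if_neg i.2.2.symm,
          O.θ1 (f1 i.2.2), O.θ1' (f1 i.2.2), ip_one_one, if_true]
        norm_num)
      (fun i j => by
        by_cases a : i.1 = j.1
        · exact Or.inl (by rw [a])
        by_cases b : i.1 = S.Sw j
        · refine Or.inl (sub_left_inj.2 (sub_eq_zero.1 (ip_self_eq_zero.1 ?_)))
          simp only [ip_sub_left, ip_sub_right, O.θθ i.2.1 i.2.1 (f1 i.2.2) (f1 i.2.2),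
            O.θθ j.2.1 j.2.1 (f1 j.2.2) (f1 j.2.2), O.θθ i.2.1 j.2.1 (f1 i.2.2) (f1 j.2.2),
            O.θθ j.2.1 i.2.1 (f1 j.2.2) (f1 i.2.2), if_neg i.2.2.symm, if_neg j.2.2.symm, if_neg a, if_neg (Ne.symm a),
            if_pos b, if_pos (show j.1 = S.Sw i by rw [b, S.SwSw]), if_true]
          norm_num
        · exact Or.inr (FF i j a b))
      (FF _ _ n1 n2) (fun i => by rw [ip_sub_left, O.θ1 (f1 i.2.2), ip_one_one, sub_self])
      (fun i => by rw [Pi.sub_apply, O.dθ i.2.1, Pi.one_apply, zero_sub])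
      (fun β => by
        simp only [ip_sub_left, ip_sub_right, WW, O.θ1 (S.rW_ne β.2.2), O.θ1' (S.rW_ne β.2.2), ip_one_one, if_true]
        norm_num)
      (fun β β' h => by
        simp only [ip_sub_left, ip_sub_right, WW, O.θ1 (S.rW_ne β.2.2), O.θ1' (S.rW_ne β'.2.2), ip_one_one, if_neg h]
        norm_num)
      (fun β i => by
        simp only [ip_sub_left, ip_sub_right, WF, O.θ1 (S.rW_ne β.2.2), O.θ1' (f1 i.2.2), ip_one_one]
        norm_num)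
      (fun β => by rw [ip_sub_left, O.θ1 (S.rW_ne β.2.2), ip_one_one, sub_self])
      (fun β => by rw [Pi.sub_apply, O.dθ (β.2.1.comp _), Pi.one_apply, zero_sub])
      (fun β => by
        simp only [η, ip_sub_left, ip_sub_right, ip_add_left, ip_add_right, ip_smul_left, ip_smul_right, c2, TT, WW,
          O.Θθ (β.2.1.comp _) (β.2.1.comp _), O.θΘ (β.2.1.comp _) (β.2.1.comp _), O.θ1 (S.rW_ne β.2.2),
          O.θ1' (S.rW_ne β.2.2), O.Θ1 (S.rT_ne β.2.2), O.Θ1' (S.rT_ne β.2.2), ip_one_one, if_true]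
        norm_num)
      (fun β β' h => by
        simp only [η, ip_sub_left, ip_sub_right, ip_add_left, ip_add_right, ip_smul_left, ip_smul_right, c2, TT, WW,
          O.Θθ (β.2.1.comp _) (β'.2.1.comp _), O.θΘ (β'.2.1.comp _) (β.2.1.comp _), O.θ1 (S.rW_ne β.2.2),
          O.θ1' (S.rW_ne β'.2.2), O.Θ1 (S.rT_ne β.2.2), O.Θ1' (S.rT_ne β'.2.2), ip_one_one, if_neg h]
        norm_num)
      (fun β i => by
        simp only [η, ip_sub_left, ip_sub_right, ip_add_left, ip_smul_left, WF,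
          O.Θθ (β.2.1.comp _) i.2.1, O.θ1 (S.rW_ne β.2.2), O.θ1' (f1 i.2.2), O.Θ1 (S.rT_ne β.2.2), ip_one_one]
        norm_num)
      (fun β => by
        simp only [η, ip_sub_left, ip_sub_right, ip_add_left, ip_smul_left, WW,
          O.Θθ (β.2.1.comp _) (β.2.1.comp _), O.θ1 (S.rW_ne β.2.2), O.θ1' (S.rW_ne β.2.2), O.Θ1 (S.rT_ne β.2.2),
          ip_one_one, if_true]
        norm_num)
      (fun β β' h => by
        simp only [η, ip_sub_left, ip_sub_right, ip_add_left, ip_smul_left, WW,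
          O.Θθ (β.2.1.comp _) (β'.2.1.comp _), O.θ1 (S.rW_ne β.2.2), O.θ1' (S.rW_ne β'.2.2), O.Θ1 (S.rT_ne β.2.2),
          ip_one_one, if_neg h]
        norm_num)
      (fun β => by
        simp only [η, ip_sub_left, ip_add_left, ip_smul_left, O.θ1 (S.rW_ne β.2.2), O.Θ1 (S.rT_ne β.2.2), ip_one_one]
        norm_num)
      (fun l => by
        simp only [ip_sub_left, ip_sub_right, LT l ⟨α, hα, α1⟩, O.ΘΘ l.2.1 l.2.1 (l1 l.2.2) (l1 l.2.2), S.nn_gen l.2.2,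
          TT ⟨α, hα, α1⟩ ⟨α, hα, α1⟩, if_true]
        norm_num)
      (fun l => by rw [Pi.sub_apply, O.dΘ l.2.1, O.dΘ (hα.comp _), sub_self])
      (fun l i => by
        simp only [ip_sub_left, ip_sub_right, O.Θθ l.2.1 i.2.1, O.Θθ (hα.comp _) i.2.1, O.Θ1 (l1 l.2.2),
          O.Θ1 (S.rT_ne α1)]
        norm_num)
      (fun l β => by
        simp only [ip_sub_left, ip_sub_right, O.Θθ l.2.1 (β.2.1.comp _), O.Θθ (hα.comp _) (β.2.1.comp _),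
          O.Θ1 (l1 l.2.2), O.Θ1 (S.rT_ne α1)]
        norm_num)
      (fun l => by
        simp only [η, ip_sub_left, ip_sub_right, ip_add_right, ip_smul_right, c2, LT l ⟨α, hα, α1⟩,
          TT ⟨α, hα, α1⟩ ⟨α, hα, α1⟩, O.Θθ l.2.1 (hα.comp _), O.Θθ (hα.comp _) (hα.comp _), O.Θ1 (l1 l.2.2),
          O.Θ1 (S.rT_ne α1), if_true]
        norm_num)
      (fun l β h => by
        simp only [η, ip_sub_left, ip_sub_right, ip_add_right, ip_smul_right, c2, LT l β,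
          TT ⟨α, hα, α1⟩ β, O.Θθ l.2.1 (β.2.1.comp _), O.Θθ (hα.comp _) (β.2.1.comp _), O.Θ1 (l1 l.2.2),
          O.Θ1 (S.rT_ne α1), if_neg h.symm]
        norm_num)
      (by
        rcases S.Q_odd with h | h
        · right
          obtain ⟨x, hx⟩ := S.exists_sqrt h
          have hv : ∀ n : ℤ, (S.rT (α ^ (2 * n))).ch x = (-1) ^ n := fun n => by
            rw [map_zpow, ← ch_zpow, zpow_mul, zpow_two, hx, ch_zpow, ← hu, Du.ch_apply, Du.ch_apply,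
              ← Units.val_zpow_eq_zpow_val]; rfl
          have h2 : α ^ (2 : ℤ) ≠ 1 := fun e => by
            have := hv 1; rw [mul_one, e, map_one, Du.ch_one, Pi.one_apply] at this; norm_num at this
          have h3 : α ^ (3 : ℤ) ≠ 1 := fun e => by
            have := hv 3; rw [mul_comm, zpow_mul, e, one_zpow, map_one, Du.ch_one, Pi.one_apply] at this
            norm_num at this
          have p12 : (⟨α, hα, α1⟩ : {β : Du S.H // Tw β ∧ β ≠ 1}) ≠ ⟨_, hα.zpow 2, h2⟩ := fun e => α1 (by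
            have : α = α ^ (2 : ℤ) := congrArg Subtype.val e; rwa [zpow_two, left_eq_mul] at this)
          have p13 : (⟨α, hα, α1⟩ : {β : Du S.H // Tw β ∧ β ≠ 1}) ≠ ⟨_, hα.zpow 3, h3⟩ := fun e => h2 (by
            have : α = α ^ (2 + 1 : ℤ) := congrArg Subtype.val e; rwa [zpow_add_one, right_eq_mul] at this)
          have p23 : (⟨_, hα.zpow 2, h2⟩ : {β : Du S.H // Tw β ∧ β ≠ 1}) ≠ ⟨_, hα.zpow 3, h3⟩ := fun e => α1 (by
            have : α ^ (2 : ℤ) = α ^ (2 + 1 : ℤ) := congrArg Subtype.val e; rwa [zpow_add_one, left_eq_mul] at this)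
          intro β
          by_cases e1 : β = ⟨α, hα, α1⟩
          · exact ⟨_, _, e1 ▸ p12.symm, e1 ▸ p13.symm, p23⟩
          by_cases e2 : β = ⟨_, hα.zpow 2, h2⟩
          · exact ⟨_, _, e2 ▸ p12, e2 ▸ p23.symm, p13⟩
          · exact ⟨_, _, Ne.symm e1, Ne.symm e2, p12⟩
        · obtain ⟨φ2, t2, g2, v2⟩ := h3 h
          have k : ∀ φ : Du S.W, φ.ch S.tW = -1 → φ2 ≠ φ ∧ φ2 ≠ S.Sw φ := fun φ h => by
            constructor <;> rintro rfl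
            · rw [v2] at h; norm_num at h
            · rw [S.Sw_t, h] at v2; norm_num at v2
          exact Or.inl ⟨⟨⟨φ2, t2, g2⟩, FF _ _ (k _ v0).1 (k _ v0).2, FF _ _ (k _ v1).1 (k _ v1).2⟩,
            ⟨fun l => S.not_gen h l.2.1 l.2.2⟩⟩)
  have vθ : ∀ {χ : G → ℂ} {b : ℂ}, ⟪χ, 1⟫ = 0 → (∀ i : {f : Du S.W // Tw f ∧ S.Sw f ≠ f}, ⟪χ, O.θ i - 1⟫ = b) →
      (∀ β : {β : Du S.H // Tw β ∧ β ≠ 1}, ⟪χ, O.θ (S.rW β) - 1⟫ = b) → ∀ l, Tw l → l ≠ 1 → ⟪χ, O.θ l⟫ = b :=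
    fun {χ b} h0 h1 h2 l hl l1 => by
      by_cases e : S.Sw l = l
      · obtain ⟨β, hβ, rfl⟩ := S.exists_rW e hl
        simpa [ip_sub_right, h0] using h2 ⟨β, hβ, fun e => l1 (by rw [e, map_one])⟩
      · simpa [ip_sub_right, h0] using h1 ⟨l, hl, e⟩
  have vΘ : ∀ {χ : G → ℂ} {a b : ℂ}, ⟪χ, 1⟫ = 0 → (∀ β : {β : Du S.H // Tw β ∧ β ≠ 1}, ⟪χ, O.θ (S.rW β) - 1⟫ = b) →
      (∀ β : {β : Du S.H // Tw β ∧ β ≠ 1}, ⟪χ, O.η β + 1⟫ = a) →
      (∀ l : {l // Tw l ∧ S.Gen l}, ⟪χ, O.Θ l - O.Θ (S.rT α)⟫ = 0) → ∀ l, Tw l → l ≠ 1 → ⟪χ, O.Θ l⟫ = 2 * a + b :=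
    fun {χ a b} h0 h1 h2 h3 l hl l1 => by
      have k : ∀ l, Tw l → l ≠ 1 → S.Sg l = l → ⟪χ, O.Θ l⟫ = 2 * a + b := fun l hl l1 e => by
        obtain ⟨β, hβ, rfl⟩ := S.exists_rT e hl
        have p1 := h1 ⟨β, hβ, fun e => l1 (by rw [e, map_one])⟩
        have p2 := h2 ⟨β, hβ, fun e => l1 (by rw [e, map_one])⟩
        rw [ip_sub_right, h0, sub_zero] at p1
        rw [ip_add_right, h0, add_zero] at p2
        rw [Θ_eq, ip_add_right, ip_smul_right, p1, p2, map_ofNat]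
      have r1 : ∀ {l}, l ≠ 1 → S.R l ≠ 1 := fun h e => h (S.R_inj (by rw [e, map_one]))
      by_cases e0 : S.Sg l = l
      · exact k l hl l1 e0
      by_cases e1 : S.Sg (S.R l) = S.R l
      · rw [← O.Θ_R hl]; exact k _ (hl.comp _) (r1 l1) e1
      by_cases e2 : S.Sg (S.R (S.R l)) = S.R (S.R l)
      · rw [← O.Θ_R hl, ← O.Θ_R (hl.comp _)]; exact k _ ((hl.comp _).comp _) (r1 (r1 l1)) e2
      have := h3 ⟨l, hl, e0, e1, e2, fun e => l1 (S.R_fix hl e)⟩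
      rw [ip_sub_right, sub_eq_zero] at this
      rw [this]; exact k _ (hα.comp _) (S.rT_ne α1) (S.fix_rT _)
  have sθ := vθ b1 (fun i => (c1 i).1) fun β => (c3 β).1
  have zΘ := vΘ b2 (fun β => (c3 β).2.2.1) (fun β => (c3 β).2.2.2) fun l => (c4 l).2.1
  refine ⟨φ0, χS, X, Y1, Y2, Z, t0, v0, a1, a2, a3, a4, a5, e1, e2, e3, b3,
    mem_B0 a4 (O.bθ (a := S.rW α) (hα.comp _)) ?_, ?_, ?_, fun l h1 h2 => (c4 ⟨l, h1, h2⟩).2.2⟩
  · rw [ip_sub_right, b3, sub_zero] at b4; exact b4.trans_ne one_ne_zero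
  · rw [O.val (mem_B0 a1 (O.bθ t0) (by rw [sθ _ t0 (f1 (g v0))]; norm_num))
      (vΘ b1 (fun β => (c3 β).1) (fun β => (c3 β).2.1) fun l => (c4 l).1) sθ]
    ring
  · rw [O.val (mem_B0 a5 (O.bΘ (hα.comp _)) (by rw [zΘ _ (hα.comp _) (S.rT_ne α1)]; norm_num)) zΘ
      (vθ b2 (fun i => (c1 i).2) fun β => (c3 β).2.2.1)]
    ring

theorem A_OT {a b : Du S.T} (h : Van (a.ch - b.ch)) : O.A (O.OT (a.ch - b.ch)) = S.Q * (S.Q + 1) *
    (2 * S.Q * (S.av a.ch S.tT - S.av b.ch S.tT) + (S.Q - 1) ^ 2 * (⟪S.av a.ch ∘ inclusion S.Tm_le_T, 1⟫ -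
      ⟪S.av b.ch ∘ inclusion S.Tm_le_T, 1⟫)) := by
  rw [O.A_T _ h, S.av_sub, Pi.sub_comp, ip_sub_left, Pi.sub_apply]

include O in
/-- the degree equations -/
theorem eqs (hlin : ∀ χ ∈ Blk.B0 G 2, χ 1 = 1 → χ = 1) : ∃ s y : ℤ,
    S.H.index * (s - S.Q) ^ 2 = S.Q * (S.Q + 1) ^ 2 * (S.Q - 1) * s * (s - 1) ∧
    (s - S.Q ^ 2) * (y - S.Q ^ 2) = S.Q ^ 2 * (S.Q ^ 2 - 1) ∧ s ∣ S.H.index * S.Q ∧ s - 1 ∣ S.H.index * (S.Q - 1) ∧
    (S.Q % 4 = 1 → s = S.Q ^ 3) := by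
  obtain ⟨α, hα, hu⟩ := S.exists_α
  obtain ⟨φ, χS, X, Y1, Y2, Z, hφ, hφt, a1, a2, a3, a4, a5, e1, e2, e3, b1, b2, St, Zt, hΓ⟩ := O.decomp hα hu
  obtain ⟨s, hs⟩ := a1.isVC.int
  obtain ⟨y, hy⟩ := a3.isVC.int
  have αt := S.fix_t (S.fix_rT α)
  have αW := S.fix_tW (S.fix_rW α)
  have X1 : X 1 = s - 1 := by
    have := congrFun e1 1
    simp only [Pi.sub_apply, O.dθ hφ, hs, Pi.one_apply] at this
    linear_combination -this
  have Xt : X S.t = 1 - S.Q := by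
    have := congrFun e1 S.t
    simp only [Pi.sub_apply, O.θ_t φ hφ, St, hφt, Pi.one_apply] at this
    linear_combination -this
  have Y1t : Y1 S.t = -S.Q := by
    have := congrFun e3 S.t
    simp only [η, Pi.sub_apply, Pi.add_apply, Pi.smul_apply, smul_eq_mul, O.θ_t _ (hα.comp _), O.Θ_t _ (hα.comp _),
      Zt, αt, αW, hu, Pi.one_apply] at this
    linear_combination -this
  have Y21 : Y2 1 = y + s - 1 := by
    have := congrFun e2 1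
    simp only [Pi.sub_apply, O.dθ (hα.comp _), hs, hy, Pi.one_apply] at this
    linear_combination -this
  have Y2t : Y2 S.t = -1 := by
    have := congrFun e2 S.t
    simp only [Pi.sub_apply, O.θ_t _ (hα.comp _), St, Y1t, αW, Pi.one_apply] at this
    linear_combination -this
  have s0 : (s : ℂ) ≠ 0 := hs ▸ a1.ne_zero_one
  have s1 : (s : ℂ) - 1 ≠ 0 := X1 ▸ a2.ne_zero_one
  have y0 : (y : ℂ) ≠ 0 := hy ▸ a3.ne_zero_one
  have y2 : (y : ℂ) + s - 1 ≠ 0 := Y21 ▸ a4.ne_zero_one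
  have I0 : (S.H.index : ℂ) ≠ 0 := by exact_mod_cast index_ne_zero_of_finite
  have E1 : (S.H.index : ℂ) * (s - S.Q) ^ 2 = S.Q * (S.Q + 1) ^ 2 * (S.Q - 1) * s * (s - 1) := by
    have := congrArg O.A e1
    rw [map_sub, map_sub, A_θ _ _ hφ, A_one, O.A_sirr a1, O.A_sirr a2, if_neg fun e => by
      rw [S.fix_tW e] at hφt; norm_num at hφt, X1, Xt, hs, St] at this
    field_simp at this
    linear_combination -this
  have E2 : (s : ℂ) * y = S.Q ^ 2 * (y + s - 1) := by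
    have := congrArg O.A e2
    rw [map_sub, map_sub, map_sub, A_θ _ _ (hα.comp _), A_one, O.A_sirr a1, O.A_sirr a3, O.A_sirr a4,
      if_pos (S.fix_rW α), Y21, Y2t, hs, St, hy, Y1t] at this
    field_simp at this
    have h2 : ((y : ℂ) + s) * (s * y - S.Q ^ 2 * (y + s - 1)) = 0 :=
      mul_left_cancel₀ I0 (by linear_combination -this)
    refine sub_eq_zero.1 ((mul_eq_zero.1 h2).resolve_left fun e => ?_)
    have h3 : Y2 1 = -1 := by rw [Y21, e, zero_sub]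
    rcases b2 with h | h
    · obtain ⟨n, -, hn⟩ := (Blk.irr_of_B0 h).nat
      have : (n : ℤ) = -1 := by exact_mod_cast hn.symm.trans h3
      omega
    · rw [← neg_neg Y2, hlin _ h (by rw [Pi.neg_apply, h3, neg_neg]), ip_neg_left, ip_one_one] at b1
      norm_num at b1
  refine ⟨s, y, by exact_mod_cast E1, by
    have : ((s : ℂ) - S.Q ^ 2) * (y - S.Q ^ 2) = S.Q ^ 2 * (S.Q ^ 2 - 1) := by linear_combination E2
    exact_mod_cast this, S.H_eq ▸ dvd_of_sirr a1 hs St, ?_, fun h4 => ?_⟩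
  · have := dvd_of_sirr a2 (a := s - 1) (b := -(S.Q - 1)) (g := S.t) (by rw [X1]; simp) (by rw [Xt]; simp)
    rwa [mul_neg, dvd_neg, ← S.H_eq] at this
  obtain ⟨l, l1, l2, l3, l4⟩ := S.exists_gen h4
  obtain ⟨Γ, g1, g2⟩ := hΓ l l1 l2
  have g3 : O.Θ l - O.Θ (S.rT α) = O.OT (l.ch - (S.rT α).ch) := by rw [Θ, Θ, ← map_sub, sub_sub_sub_cancel_right]
  have G1 : Γ 1 = 2 * y + s - 1 := by
    have := congrFun g2 1
    simp only [Pi.sub_apply, O.dΘ l1, O.dΘ (hα.comp _), hy, Y21] at this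
    linear_combination -this
  have Gt : Γ S.t = -(S.Q + 1) := by
    have := congrFun g2 S.t
    simp only [Pi.sub_apply, O.Θ_t _ l1, O.Θ_t _ (hα.comp _), l3, l4, αt, hu, Y1t, Y2t] at this
    linear_combination -this
  have gα := S.gen_aux αt hu
  have E3 := congrArg O.A g2
  rw [g3, O.A_OT (l1.van (hα.comp _)), map_sub, map_sub, O.A_sirr g1, O.A_sirr a3, O.A_sirr a4, G1, Gt, hy, Y1t, Y21, Y2t,
    S.av_t, S.av_t, S.ip_av_Tm, S.ip_av_Tm, if_neg l2.h0, if_neg l2.h1, if_neg l2.h2, if_pos (S.fix_rT α),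
    if_neg gα.1, if_neg gα.2, Du.ch_apply_mul, Du.ch_apply_mul, l3, l4, αt, hu] at E3
  have f0 : 2 * (y : ℂ) + s - 1 ≠ 0 := G1 ▸ g1.ne_zero_one
  have q3 : (3 : ℤ) ≤ S.q := by exact_mod_cast S.three_le
  have Q0 : (S.Q : ℂ) ≠ 0 := by
    have : S.Q ≠ 0 := by omega
    exact_mod_cast this
  have Q1 : (S.Q : ℂ) - 1 ≠ 0 := by
    have : S.Q - 1 ≠ 0 := by rcases S.Q_cases with ⟨-, h⟩ | ⟨-, h⟩ <;> omega
    exact_mod_cast this
  have Q2 : (S.Q : ℂ) + 1 ≠ 0 := by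
    have : S.Q + 1 ≠ 0 := by omega
    exact_mod_cast this
  suffices (s : ℂ) = S.Q ^ 3 by exact_mod_cast this
  generalize (S.Q : ℂ) = Q at *
  have c0 : (s : ℂ) - Q ^ 2 ≠ 0 := fun e => mul_ne_zero (pow_ne_zero 2 Q0) s1 (by linear_combination -E2 + y * e)
  have hy' : (y : ℂ) = Q ^ 2 * (s - 1) / (s - Q ^ 2) := by field_simp; linear_combination E2
  have hy2 : (y : ℂ) + s - 1 = s * (s - 1) / (s - Q ^ 2) := by rw [hy']; field_simp; ring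
  have hf : 2 * (y : ℂ) + s - 1 = (s - 1) * (s + Q ^ 2) / (s - Q ^ 2) := by rw [hy']; field_simp; ring
  have c1 : (s : ℂ) + Q ^ 2 ≠ 0 := fun e => f0 (by rw [hf, e]; simp)
  rw [hf, hy2, hy'] at E3
  field_simp at E3
  have : Q * (Q + 1) * (Q - 1) * s * (s - 1) * (2 * (s - Q ^ 3)) = 0 := by
    linear_combination E3 - (s - Q ^ 2) * E1
  simpa [Q0, Q1, Q2, s0, s1, sub_eq_zero] using this

include O in
/-- a character of the odd part of `T` in general position gives `q² ∣ |G:H|` up to a bounded factor -/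
theorem gen_case (h4 : S.Q % 4 = 3) (h10 : 10 ≤ Nat.card S.Tm) (hT : ¬ S.Triv) : ∃ c1 c2 f : ℤ, 0 < f ∧
    c1 - c2 = 4 * (S.Q + 1) ∧ S.H.index * (c1 + c2) = 2 * S.Q ^ 2 * f ∧ c1 ^ 2 + c2 ^ 2 ≤ Nat.card S.H := by
  obtain ⟨α, hα, hu⟩ := S.exists_α
  obtain ⟨μ, g, μt, μu, m, hm, μm⟩ := S.exists_gen' h4 h10 hT
  obtain ⟨k, hk⟩ := (hα.comp (inclusion S.T_le_H)).pow_eq
  have αt := S.fix_t (S.fix_rT α)
  have k1 : ∀ f f' : Du S.T →* Du S.T, f (μ * S.rT α) = f' (μ * S.rT α) → f μ = f' μ := fun f f' e => by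
    have h1 : (f μ / f' μ) ^ 2 ^ k = 1 := by
      have := congrArg (· ^ 2 ^ k) e
      simp only [← map_pow, mul_pow, hk, mul_one] at this
      rw [div_pow, ← map_pow, ← map_pow, this, div_self']
    have h2 : (f μ / f' μ) ^ m = 1 := by rw [div_pow, ← map_pow, ← map_pow, μm, map_one, map_one, div_one]
    have := pow_gcd_eq_one.2 ⟨h1, h2⟩
    rwa [(Nat.Coprime.pow_left k (Nat.coprime_two_left.2 hm)).gcd_eq_one, pow_one, div_eq_one] at this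
  have g' : S.Gen (μ * S.rT α) := ⟨mt (k1 S.Sg (MonoidHom.id _)) g.h0, mt (k1 (S.Sg.comp S.R) S.R) g.h1,
    mt (k1 (S.Sg.comp (S.R.comp S.R)) (S.R.comp S.R)) g.h2, mt (k1 S.R (MonoidHom.id _)) g.hr⟩
  have bm : (μ * S.rT α) ^ m ≠ 1 := fun e => by
    have := congrFun (congrArg Du.ch e) S.uT
    rw [mul_pow, μm, one_mul, Du.ch_pow, Pi.pow_apply, hu, hm.neg_one_pow, Du.ch_one, Pi.one_apply] at this
    norm_num at this
  have k2 : ∀ f : Du S.T →* Du S.T, Function.Injective f → μ ≠ f (μ * S.rT α) ∧ μ * S.rT α ≠ f μ := fun f hf =>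
    ⟨fun e => bm (hf (by rw [map_pow, ← e, μm, map_one])), fun e => bm (by rw [e, ← map_pow, μm, map_one])⟩
  have iR : Function.Injective S.R := fun _ _ => S.R_inj
  have iS : Function.Injective S.Sg := fun a b e => by rw [← S.SS a, e, S.SS]
  have p0 := k2 (MonoidHom.id _) Function.injective_id
  have p1 := k2 S.R iR
  have p2 := k2 (S.R.comp S.R) (iR.comp iR)
  have p3 := k2 S.Sg iS
  have p4 := k2 (S.Sg.comp S.R) (iS.comp iR)
  have p5 := k2 (S.Sg.comp (S.R.comp S.R)) (iS.comp (iR.comp iR))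
  simp only [MonoidHom.comp_apply, MonoidHom.id_apply] at p0 p2 p4 p5
  have hv : Van (μ.ch - (μ * S.rT α).ch) := fun y hy => by
    rw [Pi.sub_apply, Du.ch_mul, Pi.mul_apply, (hα.comp _) y hy, mul_one, sub_self]
  have hn := O.gram hv hv
  rw [S.nn_gen g, S.nn_gen g', S.nn_eq, S.nn_eq, if_neg p0.1, if_neg p1.1, if_neg p2.1, if_neg p3.1, if_neg p4.1,
    if_neg p5.1, if_neg p0.2, if_neg p1.2, if_neg p2.2, if_neg p3.2, if_neg p4.2, if_neg p5.2] at hn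
  obtain ⟨χ, ψ, h1, h2, hne, e⟩ := (O.vcT _ (μ.isVC.sub (μ * S.rT α).isVC)).norm_two_zero (by rw [hn]; norm_num)
    (O.degT _ hv)
  have int2 : ∀ {χ : G → ℂ}, IsIrr χ → ∃ n : ℤ, χ S.t = n := fun {χ} h => (h.isVC.aint S.t).int_of_fixed fun σ => by
    have := h.isVC.ringHom_apply σ.toRingHom (g := S.t) (k := 1) fun z hz => by
      obtain ⟨c, hc⟩ := orderOf_dvd_of_pow_eq_one ((pow_two S.t).trans S.tt)
      have : z ^ 2 = 1 := by rw [hc, pow_mul, hz, one_pow]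
      rcases sq_eq_one_iff.1 this with rfl | rfl <;> simp
    simpa using this
  obtain ⟨c1, t1⟩ := int2 h1
  obtain ⟨c2, t2⟩ := int2 h2
  obtain ⟨f, f0, hf⟩ := h1.nat
  have hf' : ψ 1 = f := by
    have := congrFun e 1
    rw [O.degT _ hv, Pi.sub_apply, hf] at this
    linear_combination this
  have av1 : S.av μ.ch S.tT - S.av (μ * S.rT α).ch S.tT = 4 := by
    simp only [S.av_t, Du.ch_apply_mul, Du.ch_mul, Pi.mul_apply, μt, μu, αt, hu]; ring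
  have E1 : (c1 : ℂ) - c2 = 4 * (S.Q + 1) := by
    have := congrFun e S.t
    rw [O.atT _ hv, S.av_sub, Pi.sub_apply, av1, Pi.sub_apply, t1, t2] at this
    linear_combination -this
  have E2 := congrArg O.A e
  rw [O.A_OT hv, av1, S.ip_av_Tm, S.ip_av_Tm, if_neg g.h0, if_neg g.h1, if_neg g.h2, if_neg g'.h0, if_neg g'.h1,
    if_neg g'.h2, map_sub, O.A_irr _ h1, O.A_irr _ h2, t1, t2, hf, hf'] at E2
  have f1 : (f : ℂ) ≠ 0 := by exact_mod_cast f0.ne'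
  field_simp at E2
  have Q2 : (S.Q : ℂ) + 1 ≠ 0 := by
    have q3 : (3 : ℤ) ≤ S.q := by exact_mod_cast S.three_le
    have : S.Q + 1 ≠ 0 := by rcases S.Q_cases with ⟨-, h⟩ | ⟨-, h⟩ <;> omega
    exact_mod_cast this
  have E3 : (S.H.index : ℂ) * (c1 + c2) = 2 * S.Q ^ 2 * f := mul_left_cancel₀ (mul_ne_zero (by norm_num : (4:ℂ) ≠ 0) Q2) (by
    linear_combination -E2 - S.H.index * (c1 + c2) * E1)
  refine ⟨c1, c2, f, by exact_mod_cast f0, by exact_mod_cast E1, by exact_mod_cast E3, ?_⟩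
  classical
  have h3 := column_orth S.t S.t
  rw [if_pos (IsConj.refl _), ← S.H_eq, Finset.sum_congr rfl fun x _ => Complex.mul_conj _] at h3
  have h5 : ∑ x ∈ irr G, Complex.normSq (x S.t) = Nat.card S.H := by exact_mod_cast h3
  have h6 := Finset.sum_le_sum_of_subset_of_nonneg (f := fun x => Complex.normSq (x S.t))
    (show {χ, ψ} ⊆ irr G by simp [Finset.insert_subset_iff, h1, h2]) fun _ _ _ => Complex.normSq_nonneg _
  rw [Finset.sum_pair hne, h5, t1, t2, Complex.normSq_intCast, Complex.normSq_intCast, ← sq, ← sq] at h6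
  exact_mod_cast h6

include O in
theorem dvd_index (h4 : S.Q % 4 = 3) (h10 : 10 ≤ Nat.card S.Tm) (hT : ¬ S.Triv) : S.p ∣ S.H.index := by
  by_contra hp
  obtain ⟨c1, c2, f, f0, e1, e2, e3⟩ := O.gen_case h4 h10 hT
  have h1 : IsCoprime (2 * S.Q ^ 2) (S.H.index : ℤ) := by
    rw [S.Q_sq, S.hq]
    refine IsCoprime.mul_left ?_ (IsCoprime.pow_left ?_)
    · exact_mod_cast Nat.isCoprime_iff_coprime.2 (Nat.coprime_two_left.2 S.index_odd)
    · exact Nat.isCoprime_iff_coprime.2 (Nat.Coprime.pow_left _ ((Nat.Prime.coprime_iff_not_dvd S.hp).2 hp))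
  obtain ⟨k, hk⟩ := h1.dvd_of_dvd_mul_left ⟨f, e2⟩
  have q3 : (3 : ℤ) ≤ S.q := by exact_mod_cast S.three_le
  have I0 : (0 : ℤ) < S.H.index := by exact_mod_cast Nat.pos_of_ne_zero index_ne_zero_of_finite
  rw [S.Q_sq] at hk e2
  have k0 : 1 ≤ k := by
    by_contra hc
    have : S.H.index * (c1 + c2) ≤ 0 := mul_nonpos_of_nonneg_of_nonpos I0.le (hk ▸ by nlinarith)
    nlinarith
  obtain ⟨j, ⟨i, hi⟩, hj⟩ := S.d_dvd
  have d1 : (Nat.card S.Z : ℤ) ≤ S.q + 1 := by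
    have : (0 : ℤ) ≤ Nat.card S.Z * i := by positivity
    rw [hi] at hj; push_cast at hj
    rcases S.he with h | h <;> rw [h] at hj <;> nlinarith
  rw [S.card_H] at e3
  have h2 : (S.q : ℤ) * (S.q ^ 2 - 1) * Nat.card S.Z ≤ S.q * (S.q ^ 2 - 1) * (S.q + 1) :=
    mul_le_mul_of_nonneg_left d1 (by nlinarith)
  have h3 : 2 * (S.q : ℤ) ^ 2 ≤ c1 + c2 := by rw [hk]; nlinarith
  have h5 : (2 * (S.q : ℤ) ^ 2) ^ 2 ≤ (c1 + c2) ^ 2 := pow_le_pow_left₀ (by positivity) h3 2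
  nlinarith [sq_nonneg (c1 - c2), pow_pos (show (0 : ℤ) < S.q by omega) 3]

end AOm

end CA.Br
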