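/-
Brauer's characterization of `PSL₃(q)` and `M₁₁`, block B: counting products of involutions.
-/
import Cfsg.Agent.Lib.Br.Om3

set_option autoImplicit false
set_option linter.unusedSectionVars false
set_option maxHeartbeats 400000

namespace CA.Br.OmB

open Cfsg Subgroup CA CA.Ch Finset ComplexConjugate

variable {G : Type*} [Group G] [Finite G] {S : Abs G}

theorem conj_sq {i : G} (h : i * i = 1) (g : G) : g * i * g⁻¹ * (g * i * g⁻¹) = 1 := by
  rw [show g * i * g⁻¹ * (g * i * g⁻¹) = g * (i * i) * g⁻¹ by group, h]; group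

theorem isConj_t {i : G} : IsConj S.t i ↔ i * i = 1 ∧ i ≠ 1 :=
  ⟨fun h => by
    obtain ⟨g, rfl⟩ := isConj_iff.1 h
    exact ⟨conj_sq S.tt g, fun h => S.t_ne (by simpa using h)⟩, fun h => S.inv_conj h.1 h.2⟩

theorem cnt_eq {g : G} (hg : S.t ∈ zpowers g) :
    cnt S.t g = Set.ncard {i | i ∈ S.H ∧ i * i = 1 ∧ i ≠ 1 ∧ i ≠ g ∧ i * g * i⁻¹ = g⁻¹} := by
  unfold cnt
  congr 2
  ext i
  simp only [isConj_t, Set.mem_setOf_eq]
  refine ⟨fun ⟨⟨h1, h2⟩, h3, h4⟩ => ?_, fun ⟨_, h1, h2, h3, h4⟩ => ⟨⟨h1, h2⟩, ?_, fun h => h3 (inv_mul_eq_one.1 h)⟩⟩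
  · have hi : i⁻¹ = i := inv_eq_of_mul_eq_one_right h1
    have h5 : i * g * i⁻¹ = g⁻¹ := by
      rw [hi] at h3 ⊢; exact eq_inv_of_mul_eq_one_left (by rw [← h3]; group)
    have h6 := zp_conj hg i
    rw [h5, zpowers_inv] at h6
    exact ⟨S.mem_H.2 (mul_inv_eq_iff_eq_mul.1 (inv_unique h6 hg (conj_sq S.tt i) S.tt
      (fun h => S.t_ne (by simpa using h)) S.t_ne)), h1, h2, fun h => h4 (by rw [h, inv_mul_cancel]), h5⟩
  · have hi : i⁻¹ = i := inv_eq_of_mul_eq_one_right h1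
    rw [hi] at h4 ⊢
    rw [← mul_assoc, h4, inv_mul_cancel]

theorem cnt_t : cnt S.t S.t = S.q * (S.q + S.e) := by
  classical
  have := Fintype.ofFinite S.H
  have h1 := sum_conj ((torT S).i S.uT) fun _ => (1 : ℂ)
  rw [(torT S).card_cent (x := S.uT) S.u_not_Z, (torT S).card_cast, Finset.sum_const, Finset.sum_const,
    Finset.card_univ, ← Nat.card_eq_fintype_card, nsmul_eq_mul, nsmul_eq_mul, card_H_cast, ← (torT S).n_mul] at h1
  have h2 : {i | i ∈ S.H ∧ i * i = 1 ∧ i ≠ 1 ∧ i ≠ S.t ∧ i * S.t * i⁻¹ = S.t⁻¹} =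
      Subtype.val '' ((univ.filter (IsConj ((torT S).i S.uT)) : Finset S.H) : Set S.H) := by
    ext i
    simp only [Set.mem_setOf_eq, Set.mem_image, Finset.coe_filter, Finset.mem_univ, true_and]
    refine ⟨fun ⟨a, b, c, d, _⟩ => ?_, ?_⟩
    · obtain ⟨k, hk, rfl⟩ := (S.inv_H a b c).resolve_left d
      exact ⟨⟨_, a⟩, isConj_iff.2 ⟨⟨k, hk⟩, rfl⟩, rfl⟩
    · rintro ⟨c, hc, rfl⟩
      obtain ⟨k, rfl⟩ := isConj_iff.1 hc
      refine ⟨Subtype.property _, conj_sq S.uu (k : G), fun h => S.u_ne (by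
        simpa using (show (k : G) * S.u * (k : G)⁻¹ = 1 from h)), fun h => S.t_ne_u ?_,
        by rw [conj_t (Subtype.property _), S.t_inv]⟩
      have h3 : (k : G) * S.u * (k : G)⁻¹ = k * S.t * (k : G)⁻¹ := h.trans (conj_t k.2).symm
      simpa using h3.symm
  rw [cnt_eq (mem_zpowers _), h2, Set.ncard_image_of_injective _ Subtype.val_injective, Set.ncard_coe_finset,
    ← cWm S]
  have := d_ne S; have := (torT S).n_ne
  apply mul_left_cancel₀ (mul_ne_zero (torT S).n_ne (d_ne S))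
  rw [mul_one, mul_one] at h1
  convert h1.symm using 1
  · congr!
  · ring

theorem y0_sq : (y0 S : G) ≠ (y0 S : G)⁻¹ := fun h =>
  not_odd_of_inv (mem_zpowers _) (by nth_rw 2 [h]; rw [mul_inv_cancel]) (y0_ne S) (odd_U (y0_U S))

theorem t_y0 : S.t * y0 S = y0 S * S.t := (S.mem_H.1 (y0 S).2).symm

theorem cnt_ty : cnt S.t (S.t * y0 S) = S.q + S.e * S.q := by
  have h1 : ((Nat.card {i : G // i ∈ S.H ∧ i * i = 1 ∧ i ≠ 1 ∧ i ≠ S.t ∧ i * y0 S * i⁻¹ = (y0 S : G)⁻¹} : ℕ) : ℂ) =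
      S.q + S.e * S.q := by exact_mod_cast S.refl_U (y0_U S) (y0_ne S)
  rw [cnt_eq (zp_mul_odd (mem_zpowers _) S.tt t_y0 (odd_U (y0_U S))), ← h1, ← Nat.card_coe_set_eq]
  congr 1
  refine Nat.card_congr (Equiv.subtypeEquivRight fun i => ?_)
  simp only [Set.mem_setOf_eq]
  refine and_congr_right fun hi => and_congr_right fun h2 => and_congr_right fun h3 => ?_
  have e : i * (S.t * y0 S) * i⁻¹ = (S.t * y0 S)⁻¹ ↔ i * y0 S * i⁻¹ = (y0 S : G)⁻¹ := by
    rw [show i * (S.t * y0 S) * i⁻¹ = i * S.t * i⁻¹ * (i * y0 S * i⁻¹) by group, conj_t hi, t_y0, mul_inv_rev,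
      S.t_inv, mul_left_cancel_iff]
  rw [e]
  refine and_congr_left fun h4 => iff_of_true (fun h => y0_sq (S := S) ?_) fun h => y0_sq (S := S) ?_
  · rw [← h4, h, mul_assoc S.t, ← mul_assoc S.t, t_y0, mul_assoc (y0 S : G), t_y0]; group
  · rw [← h4, h, t_y0, mul_inv_cancel_right]

theorem eq_t {z : G} (hz : z ∈ S.Z) (ht : S.t ∈ zpowers z) (h : z = z⁻¹) : z = S.t :=
  (S.inv_W (S.Z_le_W hz) (by nth_rw 2 [h]; rw [mul_inv_cancel])).resolve_left fun e =>
    S.t_ne (by simpa [e] using ht)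

theorem cnt_Z {z : G} (hz : z ∈ S.Z) (ht : S.t ∈ zpowers z) (h : z ≠ S.t) : cnt S.t z = 0 := by
  rw [cnt_eq ht, Nat.cast_eq_zero, Set.ncard_eq_zero]
  exact Set.eq_empty_of_forall_notMem fun i ⟨a, _, _, _, e⟩ => h (eq_t hz ht (by
    rw [← e, ← S.Z_comm hz a, mul_inv_cancel_right]))

theorem cnt_ZU {z : G} (hz : z ∈ S.Z) (ht : S.t ∈ zpowers z) (h : z ≠ S.t) : cnt S.t (z * y0 S) = 0 := by
  rw [cnt_eq (zp_mul_odd ht S.tt (S.Z_comm hz (y0 S).2) (odd_U (y0_U S))), Nat.cast_eq_zero, Set.ncard_eq_zero]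
  exact Set.eq_empty_of_forall_notMem fun i ⟨a, _, _, _, e⟩ => h (eq_t hz ht
      (S.fus_U hz (y0_U S) (y0_ne S) (inv_mem hz) (inv_mem (y0_U S)) a (by
        rw [e, S.Z_comm hz (y0 S).2, mul_inv_rev])).1)

namespace Tor
variable (P : Tor S)

theorem M_le : P.M ≤ P.A := fun _ h => (P.memM.1 h).1

open Classical in
theorem cnt_A {x : G} (hx : x ∈ P.A) (hz : x ∉ S.Z) (ht : S.t ∈ zpowers x) :
    cnt S.t x = if x ∈ P.M then (P.n : ℂ) else 0 := by
  have hv : P.v⁻¹ = P.v := inv_eq_of_mul_eq_one_right P.vv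
  have key : ∀ i, i ∈ S.H → i * i = 1 → i * x * i⁻¹ = x⁻¹ → x ∈ P.M ∧ P.v * i ∈ P.M := fun i a b e => by
    have hi : i⁻¹ = i := inv_eq_of_mul_eq_one_right b
    rcases P.fus hx hz a (e ▸ inv_mem hx) with h | h
    · rw [P.comm' h hx, mul_inv_cancel_right] at e
      exact absurd ((inv_unique (mem_zpowers x) ht (by nth_rw 2 [e]; rw [mul_inv_cancel]) S.tt
        (fun h => hz (h ▸ one_mem _)) S.t_ne) ▸ S.t_Z) hz
    · refine ⟨P.memM.2 ⟨hx, ?_⟩, P.memM.2 ⟨h, by rw [← mul_assoc, P.vv, one_mul, mul_inv_rev, hi]⟩⟩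
      have : i = P.v * (P.v * i) := by rw [← mul_assoc, P.vv, one_mul]
      rw [← e, this, mul_assoc P.v (P.v * i), P.comm' h hx]; group
  rw [cnt_eq ht]
  split_ifs with h
  · have : {i | i ∈ S.H ∧ i * i = 1 ∧ i ≠ 1 ∧ i ≠ x ∧ i * x * i⁻¹ = x⁻¹} = (P.v * ·) '' (P.M : Set G) := by
      ext i
      refine ⟨fun ⟨a, b, _, _, e⟩ => ⟨_, (key i a b e).2, by simp only [← mul_assoc, P.vv, one_mul]⟩, ?_⟩
      rintro ⟨y, hy, rfl⟩
      have hA := P.M_le hy
      have k : ∀ c ∈ P.A, P.v * y ≠ c := fun c hc e => P.v_not (by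
        rw [eq_mul_inv_of_mul_eq e]; exact mul_mem hc (inv_mem hA))
      refine ⟨mul_mem P.vH (P.hH hA), ?_, k _ (one_mem _), k _ hx, ?_⟩
      · have := (P.memM.1 hy).2
        rw [hv] at this
        simp only [← mul_assoc, this, inv_mul_cancel]
      · simp only
        rw [mul_assoc P.v y, P.comm' hA hx, ← (P.memM.1 h).2]; group
    rw [this, Set.ncard_image_of_injective _ (mul_right_injective _), ← P.cardM, ← Nat.card_coe_set_eq]; rfl
  · rw [Nat.cast_eq_zero, Set.ncard_eq_zero]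
    exact Set.eq_empty_of_forall_notMem fun i ⟨a, b, _, _, e⟩ => h (key i a b e).1

/-- `t` as an element of the torus -/
def tA : P.A := ⟨S.t, P.hZ S.t_Z⟩
theorem t_M : S.t ∈ P.M := P.memM.2 ⟨P.hZ S.t_Z, by rw [conj_t P.vH, S.t_inv]⟩

theorem inv_M {x : G} (hx : x ∈ P.M) (h : ¬ Odd (orderOf x)) : S.t ∈ zpowers x := by
  obtain ⟨i, hi, h2, h1⟩ := exists_inv h
  have hM := P.memM.1 (zpowers_le.2 hx hi)
  rw [inv_eq_of_mul_eq_one_right h2] at hM
  exact ((S.inv_W (S.Z_le_W (P.memZ.2 hM)) h2).resolve_left h1) ▸ hi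

open Classical in
theorem eta_cnt {x : P.A} (ht : S.t ∈ zpowers (x : G)) : P.eta (cnt S.t ∘ S.H.subtype) x =
    P.n * ext0 (inclusion P.M_le) 1 x + if x = P.tA then S.q * (S.q + S.e - P.n : ℂ) else 0 := by
  have e0 : ext0 (inclusion P.M_le) 1 x = if (x : G) ∈ P.M then 1 else 0 := by
    split_ifs with h
    exacts [ext0_of_eq _ _ (h := ⟨x, h⟩) rfl, ext0_not_mem _ _ fun ⟨y, e⟩ => h (e ▸ y.2)]
  rw [e0]
  by_cases hz : (x : G) ∈ S.Z
  · rw [show x = P.z ⟨x, hz⟩ from rfl, eta_Z, j]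
    change cnt S.t x - P.n * ((cnt S.t x - cnt S.t (x * y0 S)) / S.q) = P.n * (if (x : G) ∈ P.M then 1 else 0) +
      if x = P.tA then _ else 0
    by_cases h : (x : G) = S.t
    · rw [if_pos (show x = P.tA from Subtype.ext h), h, if_pos P.t_M, cnt_t, cnt_ty]
      have := q_ne S
      field_simp; ring
    · rw [cnt_Z hz ht h, cnt_ZU hz ht h, if_neg fun e => h (congrArg Subtype.val e), if_neg fun e =>
        h (eq_t hz ht ((P.memZ.1 hz).2.symm.trans (P.memM.1 e).2))]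
      simp
  · rw [P.eta_A _ hz, if_neg fun e : x = P.tA => hz (by rw [e]; exact S.t_Z), add_zero]
    change cnt S.t x = _
    rw [P.cnt_A x.2 hz ht]; simp

theorem ip_cnt_D {a : P.A → ℂ} (ha : P.SupA a) :
    Nat.card S.H * ⟪ind S.H.subtype (P.D a), cnt S.t⟫ =
      S.q * P.m * (S.q * (S.q + S.e - P.n) * a P.tA + P.n ^ 2 * ⟪a ∘ inclusion P.M_le, 1⟫) := by
  classical
  have := Fintype.ofFinite P.A
  have := Fintype.ofFinite P.M
  rw [ip_ind_left _ _ (isCF_cnt _), P.ip_D _ ((isCF_cnt _).comp _), ip_congr_support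
    (c := fun x => P.n * ext0 (inclusion P.M_le) 1 x + if x = P.tA then S.q * (S.q + S.e - P.n : ℂ) else 0)
    fun x hx => P.eta_cnt (by by_contra h; exact hx (ha x h)), ip_def, ip_one_right, card_H_cast, card_cast,
    P.cardM, ← P.n_mul]
  have h1 := sum_ext0 (inclusion P.M_le) 1 a
  have h2 : ∀ x, conj (ext0 (inclusion P.M_le) 1 x) = ext0 (inclusion P.M_le) 1 x := fun x => by
    rw [← ext0_star, star_one]
  simp only [map_add, map_mul, h2, map_natCast, mul_add, Finset.sum_add_distrib, apply_ite conj, map_zero, mul_ite,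
    mul_zero, Finset.sum_ite_eq', Finset.mem_univ, if_true, map_sub, map_intCast, Pi.one_apply, one_mul,
    Function.comp_apply] at h1 ⊢
  rw [← h1, Finset.sum_congr rfl (g := fun x => P.n * (ext0 (inclusion P.M_le) 1 x * a x)) fun x _ => by ring,
    ← Finset.mul_sum]
  have := d_ne S; have := P.n_ne
  field_simp
  ring

end Tor

end CA.Br.OmB
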