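/-
Brauer's characterization of `PSL₃(q)`, `PSU₃(q)` and `M₁₁`: the arithmetic of the degree equations.
-/
import Mathlib

set_option autoImplicit false

namespace CA.Br

structure Eqs (q s y I : ℤ) : Prop where
  pos : 0 < I
  odd : Odd I
  e1 : I * (s - q) ^ 2 = q * (q + 1) ^ 2 * (q - 1) * s * (s - 1)
  e2 : (s - q ^ 2) * (y - q ^ 2) = q ^ 2 * (q ^ 2 - 1)
  k1 : s ∣ I * q
  k2 : s - 1 ∣ I * (q - 1)

/-- `Q = ± p ^ f` with `p` an odd prime -/
structure PQ (p f : ℕ) (Q : ℤ) : Prop where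
  pr : p.Prime
  p2 : p ≠ 2
  f0 : 0 < f
  eq : Q = p ^ f ∨ Q = -p ^ f

theorem ar_div1 {Q c : ℤ} (h3 : 3 ≤ |Q|) (h : c ∣ Q ^ 2 - 1) (h1 : Q ∣ c - 1) :
    c = 1 ∨ c = Q + 1 ∨ c = 1 - Q ∨ c = 1 - Q ^ 2 := by
  obtain ⟨c', hc⟩ := h
  obtain ⟨m, hm⟩ := h1
  have hQ : Q ≠ 0 := by rintro rfl; simp at h3
  have hc1 : c = 1 + Q * m := by linarith
  subst hc1
  have : Q ∣ c' + 1 := ⟨Q - m * c', by linear_combination -hc⟩
  obtain ⟨n, hn⟩ := this
  have hc2 : c' = Q * n - 1 := by linarith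
  subst hc2
  have key : n - m = Q * (1 - m * n) := by
    apply mul_left_cancel₀ hQ; linear_combination -hc
  by_cases m0 : m = 0
  · left; simp [m0]
  by_cases n0 : n = 0
  · right; right; right
    have : m = -Q := by rw [n0] at key; linarith
    rw [this]; ring
  by_cases h1 : m * n = 1
  · rcases Int.eq_one_or_neg_one_of_mul_eq_one h1 with e | e
    · right; left; rw [e]; ring
    · right; right; left; rw [e]; ring
  exfalso
  have a1 : 1 ≤ |m| := Int.one_le_abs m0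
  have a2 : 1 ≤ |n| := Int.one_le_abs n0
  have a3 : |n - m| = |Q| * |1 - m * n| := by rw [key, abs_mul]
  have a4 : 3 * |1 - m * n| ≤ |n - m| := by rw [a3]; exact mul_le_mul_of_nonneg_right h3 (abs_nonneg _)
  clear a3 key hc hm
  rcases abs_cases m with ⟨e1, _⟩ | ⟨e1, _⟩ <;> rcases abs_cases n with ⟨e2, _⟩ | ⟨e2, _⟩ <;>
    rcases abs_cases (n - m) with ⟨e3, _⟩ | ⟨e3, _⟩ <;> rcases abs_cases (1 - m * n) with ⟨e4, _⟩ | ⟨e4, _⟩ <;>
    rw [e3, e4] at a4 <;> rw [e1] at a1 <;> rw [e2] at a2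
  all_goals
    have := mul_nonneg (sub_nonneg.2 a1) (sub_nonneg.2 a2)
    rcases lt_or_gt_of_ne h1 with e5 | e5 <;> nlinarith

theorem ar_div2 {Q m n : ℤ} (h3 : Q ≤ -3 ∨ 7 ≤ Q) (m0 : m ≠ 0) (n0 : n ≠ 0) (h : (n - m) * (Q + 1) = Q * m * n) :
    m = 1 ∨ n = -1 := by
  by_contra hc
  push Not at hc
  obtain ⟨m1, n1⟩ := hc
  have key : Q * ((m - 1) * (-n - 1) - 1) = (m - 1) + (-n - 1) + 2 := by linear_combination h
  generalize hx : m - 1 = x at key
  generalize hy : -n - 1 = y at key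
  have x0 : x ≠ 0 := by omega
  have x1 : x ≠ -1 := by omega
  have y0 : y ≠ 0 := by omega
  have y1 : y ≠ -1 := by omega
  clear hx hy h m1 n1 m0 n0
  rcases lt_or_gt_of_ne x0 with hx | hx <;> rcases lt_or_gt_of_ne y0 with hy | hy
  · have a : x ≤ -2 := by omega
    have b : y ≤ -2 := by omega
    have : 0 ≤ (-2 - x) * (-2 - y) := mul_nonneg (by omega) (by omega)
    rcases h3 with h3 | h3 <;> nlinarith
  · have a : x ≤ -2 := by omega
    have : 0 ≤ (-2 - x) * (y - 1) := mul_nonneg (by omega) (by omega)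
    rcases h3 with h3 | h3 <;> nlinarith
  · have a : y ≤ -2 := by omega
    have : 0 ≤ (x - 1) * (-2 - y) := mul_nonneg (by omega) (by omega)
    rcases h3 with h3 | h3 <;> nlinarith
  · have : 0 ≤ (x - 1) * (y - 1) := mul_nonneg (by omega) (by omega)
    by_cases e : x * y = 1
    · rw [e] at key; omega
    have : 2 ≤ x * y := by
      have : 0 < x * y := mul_pos hx hy
      omega
    rcases h3 with h3 | h3 <;> nlinarith

namespace PQ
variable {p f : ℕ} {Q : ℤ} (P : PQ p f Q)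
include P

theorem p3 : 3 ≤ p := by have := P.pr.two_le; have := P.p2; omega
theorem prime : Prime (p : ℤ) := Nat.prime_iff_prime_int.1 P.pr
theorem abs_eq : |Q| = p ^ f := by
  rcases P.eq with e | e <;> rw [e]
  · exact abs_of_nonneg (by positivity)
  · rw [abs_neg]; exact abs_of_nonneg (by positivity)
theorem three : 3 ≤ |Q| := by
  rw [P.abs_eq]
  calc (3 : ℤ) ≤ p := by exact_mod_cast P.p3
    _ ≤ p ^ f := le_self_pow₀ (by exact_mod_cast P.pr.one_le) P.f0.ne'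
theorem dvd : (p : ℤ) ∣ Q := by
  rw [← dvd_abs, P.abs_eq]; exact dvd_pow_self _ P.f0.ne'
theorem dvd_iff {x : ℤ} : Q ∣ x ↔ (p : ℤ) ^ f ∣ x := by rw [← abs_dvd, P.abs_eq]
theorem pow_dvd_iff {x : ℤ} (k : ℕ) : Q ^ k ∣ x ↔ (p : ℤ) ^ (f * k) ∣ x := by
  rw [← abs_dvd, abs_pow, P.abs_eq, pow_mul]
theorem ne0 : Q ≠ 0 := by rintro rfl; have := P.three; simp at this
theorem odd : Odd Q := by
  have : Odd ((p : ℤ) ^ f) := by
    have := P.pr.odd_of_ne_two P.p2
    exact Odd.pow (by exact_mod_cast this)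
  rcases P.eq with e | e <;> rw [e]
  · exact this
  · exact this.neg
theorem nd1 : ¬ (p : ℤ) ∣ 1 := fun h => P.prime.not_isUnit (isUnit_of_dvd_one h)
theorem nd_add {x : ℤ} (h : (p : ℤ) ∣ x) : ¬ (p : ℤ) ∣ x + 1 := fun h' => P.nd1 (by simpa using dvd_sub h' h)
theorem nd_sub {x : ℤ} (h : (p : ℤ) ∣ x) : ¬ (p : ℤ) ∣ x - 1 := fun h' => P.nd1 (by simpa using dvd_sub h h')
theorem cop {x : ℤ} (h : ¬ (p : ℤ) ∣ x) : IsCoprime x Q := by
  have : IsCoprime ((p : ℤ) ^ f) x := IsCoprime.pow_left (P.prime.coprime_iff_not_dvd.2 h)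
  rcases P.eq with e | e <;> rw [e]
  · exact this.symm
  · exact this.symm.neg_right
theorem val_Q : padicValInt p Q = f := by
  have := Fact.mk P.pr
  have : padicValInt p Q = padicValNat p (p ^ f) := by
    unfold padicValInt
    congr 1
    have := P.abs_eq
    rw [Int.abs_eq_natAbs] at this
    exact_mod_cast this
  rw [this, padicValNat.prime_pow]
theorem sq1 : 0 < Q ^ 2 - 1 := by have := P.three; have := sq_abs Q; nlinarith
theorem a1 : Q + 1 ≠ 0 := fun h => by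
  have := P.sq1
  rw [show Q = -1 by omega] at this; simp at this
theorem s1 : Q - 1 ≠ 0 := fun h => by
  have := P.sq1
  rw [show Q = 1 by omega] at this; simp at this

variable {s y I : ℤ} (h : Eqs Q s y I)
include h

theorem s0 : s ≠ 0 := by
  rintro rfl
  have := h.e1
  have h2 := h.pos
  have := P.ne0
  simp_all
theorem s1' : s - 1 ≠ 0 := by
  intro e
  have := h.e1
  rw [e, mul_zero] at this
  have h2 := h.pos
  have h3 := P.s1
  have : s - Q = 0 := by simpa [h2.ne'] using this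
  omega
theorem k0 : s - Q ≠ 0 := by
  intro e
  have h1 := h.e1
  rw [e] at h1
  have := P.s0 h; have := P.s1' h; have := P.ne0; have := P.a1; have := P.s1
  simp_all
theorem c0 : s - Q ^ 2 ≠ 0 := by
  intro e
  have h1 := h.e2
  rw [e, zero_mul] at h1
  have := P.sq1; have := P.ne0
  have : 0 < Q ^ 2 * (Q ^ 2 - 1) := by positivity
  omega
omit P in
theorem c_dvd : s - Q ^ 2 ∣ Q ^ 2 * (Q ^ 2 - 1) := ⟨_, h.e2.symm⟩
theorem k_dvd : (s - Q) ^ 2 ∣ Q * (Q ^ 2 - 1) ^ 2 * s := by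
  obtain ⟨b, hb⟩ := h.k2
  refine ⟨b, mul_left_cancel₀ (P.s1' h) ?_⟩
  linear_combination (Q - 1) * (-h.e1) + (s - Q) ^ 2 * hb
theorem val_eq : padicValInt p I + 2 * padicValInt p (s - Q) = f + padicValInt p s + padicValInt p (s - 1) := by
  have := Fact.mk P.pr
  have h1 := congrArg (padicValInt p) h.e1
  have := P.s0 h; have := P.s1' h; have := P.ne0; have := P.a1; have := P.s1; have := P.k0 h; have := h.pos.ne'
  rw [sq, sq, padicValInt.mul, padicValInt.mul, padicValInt.mul, padicValInt.mul, padicValInt.mul, padicValInt.mul,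
    padicValInt.mul, P.val_Q, padicValInt.eq_zero_of_not_dvd (P.nd_add P.dvd),
    padicValInt.eq_zero_of_not_dvd (P.nd_sub P.dvd)] at h1
  · omega
  all_goals simp_all

/-- the `p`-part of `I` -/
theorem val_cases : (¬ (p : ℤ) ∣ s ∧ padicValInt p I = f + padicValInt p (s - 1)) ∨
    (0 < padicValInt p s ∧ padicValInt p s < f ∧ padicValInt p I + padicValInt p s = f) ∨
    (padicValInt p s = f ∧ padicValInt p I = 0 ∧ padicValInt p (s - Q) = f) ∨
    (f < padicValInt p s ∧ padicValInt p I + f = padicValInt p s) := by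
  have := Fact.mk P.pr
  have e := P.val_eq h
  have s0 := P.s0 h
  have k0 := P.k0 h
  have dv : ∀ {x : ℤ} (n : ℕ), x ≠ 0 → ((p : ℤ) ^ n ∣ x ↔ n ≤ padicValInt p x) := fun n hx => by
    rw [padicValInt_dvd_iff]; simp [hx]
  have dQ : ∀ n : ℕ, (p : ℤ) ^ n ∣ Q ↔ n ≤ f := fun n => by rw [dv n P.ne0, P.val_Q]
  have lo : ∀ n : ℕ, n ≤ f → n ≤ padicValInt p s → n ≤ padicValInt p (s - Q) := fun n a b =>
    (dv n k0).1 (dvd_sub ((dv n s0).2 b) ((dQ n).2 a))
  have hi : ∀ n : ℕ, n ≤ padicValInt p (s - Q) → (n ≤ f ↔ n ≤ padicValInt p s) := fun n a => by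
    have a' := (dv n k0).2 a
    rw [← dQ, ← dv n s0]
    exact ⟨fun b => by simpa using dvd_add a' b, fun b => by simpa using dvd_sub b a'⟩
  by_cases hs : (p : ℤ) ∣ s
  · right
    have a0 : 1 ≤ padicValInt p s := (dv 1 s0).1 (by simpa using hs)
    rw [padicValInt.eq_zero_of_not_dvd (P.nd_sub hs)] at e
    have l1 := lo (padicValInt p s)
    have l2 := lo f
    have l3 := hi (padicValInt p s + 1)
    have l4 := hi (f + 1)
    omega
  · left
    refine ⟨hs, ?_⟩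
    have : ¬ (p : ℤ) ∣ s - Q := fun a => hs (by simpa using dvd_add a P.dvd)
    rw [padicValInt.eq_zero_of_not_dvd this, padicValInt.eq_zero_of_not_dvd hs] at e
    omega

omit h in
theorem le_val {x : ℤ} (hx : x ≠ 0) (n : ℕ) : Q ^ n ∣ x ↔ f * n ≤ padicValInt p x := by
  have := Fact.mk P.pr
  rw [P.pow_dvd_iff, padicValInt_dvd_iff]; simp [hx]

theorem nd_ck (hs : ¬ (p : ℤ) ∣ s) : s - Q ^ 2 ∣ Q ^ 2 - 1 ∧ s - Q ∣ Q ^ 2 - 1 := by
  have a : ¬ (p : ℤ) ∣ s - Q := fun a => hs (by simpa using dvd_add a P.dvd)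
  have b : ¬ (p : ℤ) ∣ s - Q ^ 2 := fun a => hs (by simpa using dvd_add a (dvd_pow P.dvd two_ne_zero))
  refine ⟨(P.cop b).pow_right.dvd_of_dvd_mul_left (c_dvd h), ?_⟩
  have c1 : IsCoprime (s - Q) Q := P.cop a
  have c2 : IsCoprime (s - Q) s := by
    have := c1.add_mul_left_right 1
    rwa [show Q + (s - Q) * 1 = s by ring] at this
  have := (c2.pow_left (m := 2)).dvd_of_dvd_mul_right (P.k_dvd h)
  exact (Int.pow_dvd_pow_iff two_ne_zero).1 ((c1.pow_left (m := 2)).dvd_of_dvd_mul_left this)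

theorem three_s (h3 : Q ^ 2 ∣ I) : s = Q ^ 3 := by
  have v3 := (P.le_val h.pos.ne' 2).1 h3
  have f0 := P.f0
  have t3 := P.three
  have q0 := P.ne0
  have sq := P.sq1
  rcases P.val_cases h with ⟨a, b⟩ | b | b | b
  · exfalso
    obtain ⟨c1, c2⟩ := P.nd_ck h a
    have d : Q ∣ s - 1 := by simpa using (P.le_val (P.s1' h) 1).2 (by omega)
    have r1 := ar_div1 t3 c1 (by
      rw [show s - Q ^ 2 - 1 = (s - 1) - Q * Q by ring]; exact dvd_sub d (dvd_mul_right _ _))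
    have r2 := ar_div1 t3 c2 (by
      rw [show s - Q - 1 = (s - 1) - Q by ring]; exact dvd_sub d dvd_rfl)
    have s1 := P.s1' h
    have hQ : Q = 3 ∧ s = 7 := by
      rcases abs_cases Q with ⟨e, _⟩ | ⟨e, _⟩ <;> rw [e] at t3 <;>
      rcases r1 with r1 | r1 | r1 | r1 <;> rcases r2 with r2 | r2 | r2 | r2 <;>
      first
        | (exfalso; nlinarith)
        | (exfalso; apply s1; linarith)
        | (have : Q = 3 := by nlinarith
           subst this; constructor <;> linarith)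
    obtain ⟨rfl, rfl⟩ := hQ
    have a1 := h.e1
    have a2 := h.odd
    rw [show I = 252 by linarith] at a2
    exact absurd a2 (by decide)
  · omega
  · omega
  · obtain ⟨m, rfl⟩ := (P.le_val (P.s0 h) 3).2 (by omega)
    have c1 : 1 - Q * m ∣ Q ^ 2 - 1 := by
      have := c_dvd h
      rw [show Q ^ 3 * m - Q ^ 2 = Q ^ 2 * (Q * m - 1) by ring] at this
      have := (mul_dvd_mul_iff_left (pow_ne_zero 2 q0)).1 this
      rwa [← neg_dvd, neg_sub] at this
    have kd : Q ^ 2 * m - 1 ∣ Q ^ 2 - 1 := by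
      have := P.k_dvd h
      rw [show (Q ^ 3 * m - Q) ^ 2 = Q ^ 2 * (Q ^ 2 * m - 1) ^ 2 by ring,
        show Q * (Q ^ 2 - 1) ^ 2 * (Q ^ 3 * m) = Q ^ 2 * ((Q ^ 2 * m) * (Q ^ 2 - 1) ^ 2) by ring] at this
      have := (mul_dvd_mul_iff_left (pow_ne_zero 2 q0)).1 this
      have c : IsCoprime (Q ^ 2 * m - 1) (Q ^ 2 * m) := ⟨-1, 1, by ring⟩
      exact (Int.pow_dvd_pow_iff two_ne_zero).1 ((c.pow_left (m := 2)).dvd_of_dvd_mul_left this)
    have kl : |Q ^ 2 * m - 1| ≤ Q ^ 2 - 1 := Int.le_of_dvd sq ((abs_dvd _ _).2 kd)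
    have m0 : m ≠ 0 := by rintro rfl; exact P.s0 h (by simp)
    have : m = 1 := by
      rcases lt_or_gt_of_ne m0 with e | e
      · exfalso; have := neg_abs_le (Q ^ 2 * m - 1); nlinarith
      · by_contra; have : 2 ≤ m := by omega
        have := le_abs_self (Q ^ 2 * m - 1); nlinarith
    rw [this, mul_one]

theorem three_I (h3 : Q ^ 2 ∣ I) : I = Q ^ 2 * (Q ^ 2 + Q + 1) := by
  have e := P.three_s h h3
  have k := P.k0 h
  have := h.e1
  apply mul_right_cancel₀ (pow_ne_zero 2 k)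
  rw [this, e]; ring

/-- `p`-part of `I` equal to `|Q|` -/
theorem two_s (h1 : Q ∣ I) (h2 : ¬ p * Q ∣ I) : s - Q ^ 2 ∣ Q ^ 2 - 1 ∧ s - Q ∣ Q ^ 2 - 1 := by
  have := Fact.mk P.pr
  have v1 := (P.le_val h.pos.ne' 1).1 (by simpa using h1)
  have v2 : padicValInt p I ≤ f := by
    by_contra c
    apply h2
    have : (p : ℤ) ^ (f + 1) ∣ I := (padicValInt_dvd_iff _ _).2 (Or.inr (by omega))
    rw [← abs_dvd, abs_mul, P.abs_eq, Nat.abs_cast, ← pow_succ']; exact this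
  have f0 := P.f0
  have q0 := P.ne0
  have sq := P.sq1
  rcases P.val_cases h with ⟨a, b⟩ | b | b | b
  · exact P.nd_ck h a
  · omega
  · omega
  · exfalso
    obtain ⟨m, rfl⟩ := (P.le_val (P.s0 h) 2).2 (by omega)
    have kd : 1 - Q * m ∣ Q ^ 2 - 1 := by
      have := P.k_dvd h
      rw [show (Q ^ 2 * m - Q) ^ 2 = Q ^ 2 * (1 - Q * m) ^ 2 by ring,
        show Q * (Q ^ 2 - 1) ^ 2 * (Q ^ 2 * m) = Q ^ 2 * ((Q * m) * (Q ^ 2 - 1) ^ 2) by ring] at this
      have := (mul_dvd_mul_iff_left (pow_ne_zero 2 q0)).1 this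
      have c : IsCoprime (1 - Q * m) (Q * m) := ⟨1, 1, by ring⟩
      exact (Int.pow_dvd_pow_iff two_ne_zero).1 ((c.pow_left (m := 2)).dvd_of_dvd_mul_left this)
    rcases ar_div1 P.three kd ⟨-m, by ring⟩ with r | r | r | r
    · exact P.s0 h (by rw [sq_mul_aux]; rw [show Q * m = 0 by linarith, mul_zero])
    · have : m = -1 := mul_left_cancel₀ q0 (by linarith)
      subst this
      have e : I = Q * (Q - 1) * (Q ^ 2 + 1) := by
        apply mul_right_cancel₀ (pow_ne_zero 2 (P.k0 h))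
        rw [h.e1]; ring
      have o := h.odd
      rw [e] at o
      exact Int.not_odd_iff_even.2 ((P.odd.sub_odd odd_one).mul_left _ |>.mul_right _) o
    · have : m = 1 := mul_left_cancel₀ q0 (by linarith)
      subst this
      exact P.c0 h (by ring)
    · have : m = Q := mul_left_cancel₀ q0 (by linarith)
      subst this
      have := (P.le_val (P.s0 h) 3).1 ⟨1, by ring⟩
      omega
where sq_mul_aux {a b : ℤ} : a ^ 2 * b = a * (a * b) := by ring

theorem two_big (h1 : Q ∣ I) (h2 : ¬ p * Q ∣ I) (hQ : Q ≤ -3 ∨ 7 ≤ Q) :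
    s = Q ^ 2 + Q - 1 ∧ I = Q * (Q + 2) * (Q ^ 2 + Q - 1) := by
  obtain ⟨⟨n, hn⟩, ⟨m, hm⟩⟩ := P.two_s h h1 h2
  have sq := P.sq1
  have m0 : m ≠ 0 := by rintro rfl; omega
  have n0 : n ≠ 0 := by rintro rfl; omega
  have key : (n - m) * (Q + 1) = Q * m * n := by
    apply mul_left_cancel₀ P.s1
    linear_combination n * hm - m * hn
  have es : s = Q ^ 2 + Q - 1 := by
    rcases ar_div2 hQ m0 n0 key with r | r
    · subst r; linarith
    · subst r; exact absurd (by linarith) (P.s1' h)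
  refine ⟨es, ?_⟩
  apply mul_right_cancel₀ (pow_ne_zero 2 (P.k0 h))
  rw [h.e1, es]; ring

/-- `I` prime to `p` -/
theorem one_e (h1 : ¬ (p : ℤ) ∣ I) : ∃ e, s = Q * (e + 1) ∧ e ≠ 0 ∧ e ∣ Q ^ 2 - 1 ∧ e - (Q - 1) ∣ Q ^ 2 - 1 ∧
    I * e ^ 2 = (Q + 1) ^ 2 * (Q - 1) * (e + 1) * (Q * e + Q - 1) := by
  have := Fact.mk P.pr
  have v1 := padicValInt.eq_zero_of_not_dvd h1
  have f0 := P.f0
  have q0 := P.ne0
  rcases P.val_cases h with ⟨a, b⟩ | b | b | b
  · omega
  · omega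
  · obtain ⟨m, rfl⟩ : Q ∣ s := by simpa using (P.le_val (P.s0 h) 1).2 (by omega)
    obtain ⟨e, rfl⟩ : ∃ e, m = e + 1 := ⟨m - 1, by ring⟩
    have m0 : e + 1 ≠ 0 := fun c => P.s0 h (by rw [c, mul_zero])
    have nd : ¬ (p : ℤ) ∣ e + 1 := fun c => by
      have := b.1
      rw [padicValInt.mul q0 m0, P.val_Q] at this
      have := (padicValInt_dvd_iff (p := p) 1 (e + 1)).1 (by simpa using c)
      omega
    refine ⟨e, rfl, fun c => P.k0 h (by rw [c]; ring), ?_, ?_, ?_⟩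
    · have := P.k_dvd h
      rw [show (Q * (e + 1) - Q) ^ 2 = Q ^ 2 * e ^ 2 by ring,
        show Q * (Q ^ 2 - 1) ^ 2 * (Q * (e + 1)) = Q ^ 2 * ((e + 1) * (Q ^ 2 - 1) ^ 2) by ring] at this
      have := (mul_dvd_mul_iff_left (pow_ne_zero 2 q0)).1 this
      have c : IsCoprime e (e + 1) := ⟨-1, 1, by ring⟩
      exact (Int.pow_dvd_pow_iff two_ne_zero).1 ((c.pow_left (m := 2)).dvd_of_dvd_mul_left this)
    · have := c_dvd h
      rw [show Q * (e + 1) - Q ^ 2 = Q * (e - (Q - 1)) by ring,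
        show Q ^ 2 * (Q ^ 2 - 1) = Q * (Q * (Q ^ 2 - 1)) by ring] at this
      have := (mul_dvd_mul_iff_left q0).1 this
      refine (P.cop fun c => nd ?_).dvd_of_dvd_mul_left this
      simpa [show e - (Q - 1) + Q = e + 1 by ring] using dvd_add c P.dvd
    · apply mul_left_cancel₀ (pow_ne_zero 2 q0)
      linear_combination h.e1
  · omega

end PQ

end CA.Br
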