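/-
Brauer's characterization of `PSL₃(q)`, `PSU₃(q)` and `M₁₁`: a finite check.
-/
import Mathlib

set_option autoImplicit false

namespace CA.Br

def arAll (f : ℕ → Bool) : ℕ → Bool
  | 0 => true
  | n + 1 => f n && arAll f n

theorem arAll_spec {f : ℕ → Bool} {n : ℕ} (h : arAll f n = true) {i : ℕ} (hi : i < n) : f i = true := by
  induction n with
  | zero => omega
  | succ n ih =>
    simp only [arAll, Bool.and_eq_true] at h
    rcases Nat.lt_succ_iff_lt_or_eq.1 hi with e | e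
    · exact ih h.2 e
    · rw [e]; exact h.1

/-- the solutions `(Q, e, n)` -/
def arL : List (ℤ × ℤ × ℤ) :=
  [(-20749, 215800, 15), (-1121, 11968, 15), (-109, -440, 15), (-109, 88, 15), (-77, -104, 15), (-29, -24, 15),
   (-29, 40, 3), (-13, -56, 3), (-5, -8, 3), (-5, -8, 15), (11, 8, 15), (11, 40, 15), (19, -72, 15), (19, 24, 3),
   (71, 112, 15)]

def arJ (n c h j : ℤ) : Bool :=
  !(decide ((h * (h - c) * j - 2) % c = 0) && decide (0 < (h * (h - c) * j - 2) / c) &&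
    decide ((n * h * h - 4 * c * h - 4 * c * c) % ((h * (h - c) * j - 2) / 2) = 0) && decide (Int.gcd h c = 1)) ||
  decide ((h * (h - c) * j - 1, (h * (h - c) * j - 2) / c * h, n) ∈ arL)

def arH' (n c h : ℤ) (D H : ℕ) : Bool :=
  arAll (fun b => cond (Nat.beq (Nat.mod D (Nat.succ (Nat.mul H (Nat.succ (Nat.mul 2 b))))) 0 ||
      Nat.beq (Nat.mod D (Nat.pred (Nat.mul H (Nat.succ (Nat.mul 2 b))))) 0)
    (arJ n c h (2 * b + 1) && arJ n c h (-(2 * b + 1))) true) (Nat.succ (Nat.div (Nat.succ D) (Nat.mul 2 H)))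

def arH (n c h : ℤ) : Bool :=
  arH' n c h (n * h * h - 4 * c * h - 4 * c * c).natAbs ((h * (h - c)).natAbs / 2)

def arC (n c : ℤ) : Bool := arAll (fun i => Nat.beq i 470 || arH n c (4 * (i : ℤ) - 1880)) 941

theorem arC_all : ∀ x ∈ [((3 : ℤ), (1 : ℤ)), (3, 3), (3, -1), (3, -3), (15, 1), (15, 3), (15, 5), (15, 15), (15, -1),
    (15, -3), (15, -5), (15, -15)], arC x.1 x.2 = true := by decide +kernel

theorem ar_mem {n c h j : ℤ} (hn : n = 3 ∨ n = 15) (hc : c ∣ n) (h4 : 4 ∣ h) (h0 : h ≠ 0) (hb : |h| ≤ 1880)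
    (hj : Odd j) (h1 : c ∣ h * (h - c) * j - 2) (h2 : 0 < (h * (h - c) * j - 2) / c)
    (h3 : (h * (h - c) * j - 2) / 2 ∣ n * h * h - 4 * c * h - 4 * c * c) (hD : n * h * h - 4 * c * h - 4 * c * c ≠ 0)
    (hg : Int.gcd h c = 1) : (h * (h - c) * j - 1, (h * (h - c) * j - 2) / c * h, n) ∈ arL := by
  have hC : arC n c = true := by
    refine arC_all (n, c) ?_
    have : |c| ≤ 15 := by rcases hn with rfl | rfl <;> exact (Int.le_of_dvd (by norm_num) ((abs_dvd _ _).2 hc)).trans (by norm_num)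
    obtain ⟨a, b⟩ := abs_le.1 this
    rcases hn with rfl | rfl <;> interval_cases c <;> first | decide | exact absurd hc (by decide)
  obtain ⟨k, rfl⟩ := h4
  obtain ⟨i, hi⟩ : ∃ i : ℕ, k = (i : ℤ) - 470 := ⟨(k + 470).toNat, by have := abs_le.1 hb; omega⟩
  have hH := arAll_spec hC (i := i) (by have := abs_le.1 hb; omega)
  rw [show 4 * (i : ℤ) - 1880 = 4 * k by omega, Bool.or_eq_true] at hH
  replace hH := hH.resolve_left (by rw [Nat.beq_eq]; omega)
  unfold arH arH' at hH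
  generalize hD' : n * (4 * k) * (4 * k) - 4 * c * (4 * k) - 4 * c * c = D at *
  have hc1 : 4 * k - c ≠ 0 := fun e => by
    have e' : c = 4 * k := by omega
    rw [e', Int.gcd_self] at hg; omega
  have e1 : (4 * k * (4 * k - c)).natAbs / 2 = (2 * k * (4 * k - c)).natAbs := by
    rw [show 4 * k * (4 * k - c) = 2 * (2 * k * (4 * k - c)) by ring, Int.natAbs_mul]; simp
  rw [e1] at hH
  have e2 : (4 * k * (4 * k - c) * j - 2) / 2 = 2 * k * (4 * k - c) * j - 1 := by
    rw [show 4 * k * (4 * k - c) * j - 2 = 2 * (2 * k * (4 * k - c) * j - 1) by ring]; simp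
  have h3' := h3
  rw [e2] at h3'
  have W0 : 2 * k * (4 * k - c) ≠ 0 := mul_ne_zero (by omega) hc1
  generalize 2 * k * (4 * k - c) = W at hH h3' W0
  obtain ⟨b, hb'⟩ : ∃ b : ℕ, j.natAbs = 2 * b + 1 := Int.natAbs_odd.2 hj
  have m1 : (W * j).natAbs = W.natAbs * (2 * b + 1) := by rw [Int.natAbs_mul, hb']
  have d1 := Int.natAbs_dvd_natAbs.2 h3'
  have l1 := Nat.le_of_dvd (Int.natAbs_pos.2 hD) d1
  have wp := Int.natAbs_pos.2 W0
  have := arAll_spec hH (i := b) (by
    apply Nat.lt_succ_of_le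
    change b ≤ (D.natAbs + 1) / (2 * W.natAbs)
    rw [Nat.le_div_iff_mul_le (by omega)]
    have : W.natAbs * (2 * b + 1) ≤ D.natAbs + 1 := by omega
    nlinarith)
  have c1 : (Nat.beq (Nat.mod D.natAbs (Nat.succ (Nat.mul W.natAbs (Nat.succ (Nat.mul 2 b))))) 0 ||
      Nat.beq (Nat.mod D.natAbs (Nat.pred (Nat.mul W.natAbs (Nat.succ (Nat.mul 2 b))))) 0) = true := by
    rw [Bool.or_eq_true, Nat.beq_eq, Nat.beq_eq]
    change D.natAbs % (W.natAbs * (2 * b + 1) + 1) = 0 ∨ D.natAbs % (W.natAbs * (2 * b + 1) - 1) = 0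
    have : (W * j - 1).natAbs = W.natAbs * (2 * b + 1) + 1 ∨ (W * j - 1).natAbs = W.natAbs * (2 * b + 1) - 1 := by
      have : 0 < W.natAbs * (2 * b + 1) := by positivity
      omega
    rcases this with e | e <;> rw [e] at d1
    · exact Or.inl (Nat.mod_eq_zero_of_dvd d1)
    · exact Or.inr (Nat.mod_eq_zero_of_dvd d1)
  rw [c1, cond_true, Bool.and_eq_true] at this
  have hJ : arJ n c (4 * k) j = true := by
    rcases Int.natAbs_eq j with e | e <;> rw [hb'] at e <;> push_cast at e <;> rw [e]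
    · exact this.1
    · exact this.2
  unfold arJ at hJ
  rw [hD'] at hJ
  simpa [Int.emod_eq_zero_of_dvd h1, h2, Int.emod_eq_zero_of_dvd h3, hg] using hJ

end CA.Br
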