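/-
Brauer's characterization of `PSL₃(q)`, `PSU₃(q)` and `M₁₁`: the arithmetic, final form.
-/
import Cfsg.Agent.Lib.Br.Arith0
import Cfsg.Agent.Lib.Br.ArithK

set_option autoImplicit false

namespace CA.Br

theorem ar_bound {n c h j r : ℤ} (hn : n = 3 ∨ n = 15) (hc : c ∣ n) (j0 : j ≠ 0)
    (e : 2 * (n * h * h - 4 * c * h - 4 * c * c) = r * (h * (h - c) * j - 2)) : |h| ≤ 1880 := by
  by_contra hb
  push Not at hb
  have c15 : |c| ≤ 15 := by
    rcases hn with rfl | rfl <;> exact (Int.le_of_dvd (by norm_num) ((abs_dvd _ _).2 hc)).trans (by norm_num)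
  have c0 : c ≠ 0 := by rintro rfl; rcases hn with rfl | rfl <;> simp at hc
  have n15 : 0 ≤ n ∧ n ≤ 15 := by omega
  have r40 : |r| ≤ 40 := by
    by_contra hr
    push Not at hr
    have a1 : |h| * (|h| - 15) - 2 ≤ |h * (h - c) * j - 2| := by
      have b1 : |h| - 15 ≤ |h - c| := by have := abs_sub_abs_le_abs_sub h c; omega
      have b2 : 1 ≤ |j| := Int.one_le_abs j0
      have b3 : |h| * (|h| - 15) ≤ |h * (h - c) * j| := by
        rw [abs_mul, abs_mul]
        calc |h| * (|h| - 15) ≤ |h| * |h - c| := mul_le_mul_of_nonneg_left b1 (abs_nonneg _)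
          _ ≤ |h| * |h - c| * |j| := le_mul_of_one_le_right (by positivity) b2
      have := abs_sub_abs_le_abs_sub (h * (h - c) * j) 2
      rw [abs_two] at this; omega
    have a2 : |n * h * h - 4 * c * h - 4 * c * c| ≤ 15 * (|h| * |h|) + 60 * |h| + 900 := by
      have b1 : |n * h * h| ≤ 15 * (|h| * |h|) := by
        rw [mul_assoc, abs_mul, abs_mul, abs_of_nonneg n15.1]
        exact mul_le_mul_of_nonneg_right n15.2 (by positivity)
      have b2 : |4 * c * h| ≤ 60 * |h| := by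
        rw [abs_mul, abs_mul, abs_of_nonneg (by norm_num : (0 : ℤ) ≤ 4)]
        exact mul_le_mul_of_nonneg_right (by omega) (abs_nonneg _)
      have b3 : |4 * c * c| ≤ 900 := by
        rw [mul_assoc, abs_mul, abs_mul, abs_of_nonneg (by norm_num : (0 : ℤ) ≤ 4)]
        have := abs_nonneg c
        nlinarith
      have := abs_sub (n * h * h - 4 * c * h) (4 * c * c)
      have := abs_sub (n * h * h) (4 * c * h)
      omega
    have a3 := congrArg abs e
    rw [abs_mul, abs_mul, abs_two] at a3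
    have a4 : 41 * (|h| * (|h| - 15) - 2) ≤ |r| * |h * (h - c) * j - 2| :=
      mul_le_mul (by omega) a1 (by nlinarith) (abs_nonneg _)
    nlinarith
  have cc : 0 < c * c ∧ c * c ≤ 225 := by
    refine ⟨mul_self_pos.2 c0, ?_⟩
    rw [← abs_mul_abs_self]; have := abs_nonneg c; nlinarith
  have r2 := abs_le.1 r40
  have c2 := abs_le.1 c15
  rw [Int.abs_eq_natAbs] at hb
  by_cases hr : r = 4 * (c * c)
  · have d : h - c ∣ 2 * (n - 4) * (c * c) :=
      ⟨r * h * j - 2 * n * (h + c) + 8 * c, by rw [hr] at e ⊢; linear_combination e⟩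
    have n4 : 2 * (n - 4) * (c * c) ≠ 0 := mul_ne_zero (by omega) cc.1.ne'
    have := Int.natAbs_le_of_dvd_ne_zero d n4
    rcases hn with rfl | rfl <;> omega
  · have d : h ∣ 2 * (r - 4 * (c * c)) := ⟨r * (h - c) * j - 2 * n * h + 8 * c, by linear_combination e⟩
    have := Int.natAbs_le_of_dvd_ne_zero d (by omega)
    omega

/-- `I` prime to `p`, `Q ≡ 3 (mod 4)`: finitely many solutions -/
theorem ar_surv {Q e I n : ℤ} (h4 : Q % 4 = 3) (ho : Odd I) (e0 : e ≠ 0) (d1 : e ∣ Q ^ 2 - 1)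
    (d2 : e - (Q - 1) ∣ Q ^ 2 - 1) (hI : I * e ^ 2 = (Q + 1) ^ 2 * (Q - 1) * (e + 1) * (Q * e + Q - 1))
    (hn : n = 3 ∨ n = 15) (hN : (Q - 1) / 2 ∣ I - n) : (Q, e, n) ∈ arL := by
  have gp : 0 < Int.gcd e (Q - 1) := Int.gcd_pos_of_ne_zero_left _ e0
  obtain ⟨h, c, hg, he, hc⟩ := Int.exists_gcd_one gp
  have gp' : (0 : ℤ) < Int.gcd e (Q - 1) := by exact_mod_cast gp
  generalize (Int.gcd e (Q - 1) : ℤ) = g at he hc gp'
  have cop : IsCoprime h c := Int.isCoprime_iff_gcd_eq_one.2 hg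
  have hQ : Q = c * g + 1 := by omega
  have h0 : h ≠ 0 := by rintro rfl; exact e0 (by rw [he, zero_mul])
  have a1 : h ∣ Q + 1 := by
    rw [he, show Q ^ 2 - 1 = (Q - 1) * (Q + 1) by ring, hc, show c * g * (Q + 1) = c * (Q + 1) * g by ring] at d1
    exact cop.dvd_of_dvd_mul_left ((mul_dvd_mul_iff_right gp'.ne').1 d1)
  have cop2 : IsCoprime (h - c) c := by simpa [sub_eq_add_neg] using cop.add_mul_left_left (-1)
  have a2 : h - c ∣ Q + 1 := by
    rw [he, show Q ^ 2 - 1 = (Q - 1) * (Q + 1) by ring, hc, show c * g * (Q + 1) = c * (Q + 1) * g by ring,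
      ← sub_mul] at d2
    exact cop2.dvd_of_dvd_mul_left ((mul_dvd_mul_iff_right gp'.ne').1 d2)
  have cop3 : IsCoprime h (h - c) := by simpa [sub_eq_neg_add] using cop.neg_right.add_mul_left_right 1
  obtain ⟨j, hj⟩ := cop3.mul_dvd a1 a2
  have hI' : I = ((h - c) * j) ^ 2 * c * (h * g + 1) * (Q * h + c) := by
    apply mul_right_cancel₀ (pow_ne_zero 2 e0)
    rw [hI, hj, he, show Q * (h * g) + Q - 1 = Q * (h * g) + (Q - 1) by ring, hc]; ring
  have ho' := ho
  rw [hI', Int.odd_mul, Int.odd_mul, Int.odd_mul, Int.odd_pow' two_ne_zero, Int.odd_mul] at ho'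
  obtain ⟨⟨⟨⟨o1, o2⟩, o3⟩, -⟩, -⟩ := ho'
  have h4' : 4 ∣ h := by
    have : (4 : ℤ) ∣ h * ((h - c) * j) := by rw [← mul_assoc, ← hj]; omega
    refine IsCoprime.dvd_of_dvd_mul_right ?_ this
    obtain ⟨t, ht⟩ := o1.mul o2
    exact ⟨-(t * t + t), 2 * t + 1, by rw [ht]; ring⟩
  obtain ⟨g', rfl⟩ : 2 ∣ g := by
    have : Even (c * g) := by rw [← hc, Int.even_iff]; omega
    exact even_iff_two_dvd.1 ((Int.even_mul.1 this).resolve_left (Int.not_even_iff_odd.2 o3))
  have eN : (Q - 1) / 2 = c * g' := by rw [hc, show c * (2 * g') = 2 * (c * g') by ring]; simp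
  rw [eN] at hN
  have cn : c ∣ n := by
    have b1 : c ∣ I := ⟨((h - c) * j) ^ 2 * (h * (2 * g') + 1) * (Q * h + c), by rw [hI']; ring⟩
    simpa using dvd_sub b1 ((dvd_mul_right c g').trans hN)
  have ih : I * h * h = (Q + 1) ^ 2 * c * (h * (2 * g') + 1) * (Q * h + c) := by rw [hI', hj]; ring
  have dD : c * g' ∣ n * h * h - 4 * c * h - 4 * c * c := by
    have b1 : c * g' ∣ I * h * h - 4 * c * h - 4 * c * c := by
      rw [ih, hQ]
      exact ⟨4 * (c * g' + 1) ^ 2 * 2 * h * ((2 * c * g' + 1) * h + c) + 4 * (c * g' + 2) * c * ((2 * c * g' + 1) * h + c)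
        + 8 * c * h, by ring⟩
    have := dvd_sub b1 (hN.mul_right (h * h))
    rwa [show I * h * h - 4 * c * h - 4 * c * c - (I - n) * (h * h) = n * h * h - 4 * c * h - 4 * c * c by ring] at this
  have D0 : n * h * h - 4 * c * h - 4 * c * c ≠ 0 := by
    obtain ⟨k, rfl⟩ := h4'
    obtain ⟨t, rfl⟩ := o3
    intro z
    have : 16 * (n * k * k - (2 * t + 1) * k - t * t - t) = 4 := by linear_combination z
    omega
  have eM : h * (h - c) * j - 2 = c * (2 * g') := by omega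
  have j0 : j ≠ 0 := by rintro rfl; exact absurd o2 (by decide)
  have c0 : c ≠ 0 := by rintro rfl; exact absurd o3 (by decide)
  obtain ⟨r, hr⟩ := id dD
  have hb := ar_bound hn cn j0 (r := r) (by rw [hr, eM]; ring)
  have eg : (h * (h - c) * j - 2) / c = 2 * g' := by rw [eM, Int.mul_ediv_cancel_left _ c0]
  have := ar_mem hn cn h4' h0 hb o2 ⟨_, eM⟩ (by rw [eg]; exact gp')
    (by rw [eM, show c * (2 * g') = 2 * (c * g') by ring, Int.mul_ediv_cancel_left _ two_ne_zero]; exact dD) D0 hg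
  rwa [eg, show h * (h - c) * j - 1 = Q by omega, mul_comm, ← he] at this

section
variable {p f : ℕ} (hp : p.Prime) (hp2 : p ≠ 2) (hf : 0 < f) {q s y I : ℤ} (hq : q = p ^ f) (h : Eqs q s y I)
include hp hp2 hf hq h

theorem arith3 (h3 : q ^ 2 ∣ I) : I = q ^ 2 * (q ^ 2 + q + 1) := PQ.three_I ⟨hp, hp2, hf, Or.inl hq⟩ h h3

theorem arith2 (h4 : q % 4 = 3) (h1 : q ∣ I) (h2 : ¬ p * q ∣ I)
    (hn : 5 < q → ∃ n : ℤ, n % p = 1 ∧ I * (q + 1) = n * (2 * q)) : q = 3 ∧ I = 165 := by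
  have P : PQ p f q := ⟨hp, hp2, hf, Or.inl hq⟩
  have q0 : 0 < q := by rw [hq]; have := hp.pos; positivity
  by_cases h7 : 7 ≤ q
  · exfalso
    obtain ⟨-, e⟩ := P.two_big h h1 h2 (Or.inr h7)
    obtain ⟨n, n1, n2⟩ := hn (by omega)
    have e2 : (q + 2) * (q ^ 2 + q - 1) * (q + 1) = 2 * n := by
      apply mul_left_cancel₀ P.ne0; rw [e] at n2; linear_combination n2
    have d1 : (p : ℤ) ∣ n - 1 := by
      have := Int.emod_add_mul_ediv n p
      exact ⟨n / p, by omega⟩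
    have d2 : (p : ℤ) ∣ 2 ^ 2 := by
      have := dvd_sub (P.dvd.mul_right (q ^ 3 + 4 * q ^ 2 + 4 * q - 1)) (d1.mul_left 2)
      rwa [show q * (q ^ 3 + 4 * q ^ 2 + 4 * q - 1) - 2 * (n - 1) = 2 ^ 2 by linear_combination e2] at this
    have := Int.le_of_dvd (by norm_num) (P.prime.dvd_of_dvd_pow d2)
    have := P.p3
    omega
  · obtain rfl : q = 3 := by omega
    refine ⟨rfl, ?_⟩
    obtain ⟨a, b⟩ := P.two_s h h1 h2
    have a' := abs_le.1 (Int.le_of_dvd (by norm_num) ((abs_dvd _ _).2 a))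
    have b' := abs_le.1 (Int.le_of_dvd (by norm_num) ((abs_dvd _ _).2 b))
    have e := h.e1
    have o := Int.odd_iff.1 h.odd
    have s1 : 1 ≤ s := by omega
    have s2 : s ≤ 11 := by omega
    clear a' b' h h1 h2 hn P
    interval_cases s <;> first | exact absurd a (by decide) | exact absurd b (by decide) | (clear a b; omega)

theorem arith1 (h4 : q % 4 = 3) (h1 : ¬ (p : ℤ) ∣ I) : 11 ≤ q := by
  have P : PQ p f q := ⟨hp, hp2, hf, Or.inl hq⟩
  have q0 : 0 < q := by rw [hq]; have := hp.pos; positivity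
  by_contra hc
  obtain ⟨e, -, e0, a, b, c⟩ := P.one_e h h1
  have o := Int.odd_iff.1 h.odd
  have a' := abs_le.1 (Int.le_of_dvd P.sq1 ((abs_dvd _ _).2 a))
  have : q = 3 ∨ q = 7 := by omega
  clear h P hq h1
  rcases this with rfl | rfl
  · obtain ⟨a1, a2⟩ : -8 ≤ e ∧ e ≤ 8 := by simpa using a'
    clear a'
    interval_cases e <;> first | exact absurd a (by decide) | exact absurd b (by decide) | (clear a b; omega)
  · obtain ⟨a1, a2⟩ : -48 ≤ e ∧ e ≤ 48 := by simpa using a'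
    clear a'
    interval_cases e <;> first | exact absurd a (by decide) | exact absurd b (by decide) | (clear a b; omega)

theorem arith1' (h4 : q % 4 = 3) (h1 : ¬ (p : ℤ) ∣ I) (h2 : I * (q + 1) % p = 1) {n : ℤ} (hn : n = 3 ∨ n = 15)
    (hN : (q - 1) / 2 ∣ I - n) : (q = 11 ∧ I = 19845) ∨ (q = 19 ∧ I = 148125) := by
  have P : PQ p f q := ⟨hp, hp2, hf, Or.inl hq⟩
  have q0 : 0 < q := by rw [hq]; have := hp.pos; positivity
  obtain ⟨e, -, e0, a, b, c⟩ := P.one_e h h1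
  have m := ar_surv h4 h.odd e0 a b c hn hN
  have d1 : (p : ℤ) ∣ I * (q + 1) - 1 := by
    have := Int.emod_add_mul_ediv (I * (q + 1)) p
    exact ⟨I * (q + 1) / p, by omega⟩
  have d2 : (p : ℤ) ∣ e ^ 2 - e - 1 := by
    obtain ⟨k, hk⟩ := P.dvd
    obtain ⟨l, hl⟩ := d1
    refine ⟨-l * e ^ 2 + k * I * e ^ 2 + k * (e + 1) * (((q + 2) * (q - 1) + 1) * (q * e + q - 1) - (e + 1)), ?_⟩
    linear_combination c - e ^ 2 * hl + (I * e ^ 2 + (e + 1) * (((q + 2) * (q - 1) + 1) * (q * e + q - 1) - (e + 1))) * hk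
  have nc : Int.gcd q (e ^ 2 - e - 1) ≠ 1 := fun z =>
    P.prime.not_isUnit ((Int.isCoprime_iff_gcd_eq_one.2 z).isUnit_of_dvd' P.dvd d2)
  simp only [arL, List.mem_cons, Prod.mk.injEq, List.not_mem_nil, or_false] at m
  clear a b d1 d2 P h hq hN h2
  rcases m with m | m | m | m | m | m | m | m | m | m | m | m | m | m | m <;> obtain ⟨rfl, rfl, rfl⟩ := m <;>
    first | exact absurd q0 (by decide) | exact absurd (by decide) nc | omega

end

end CA.Br
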