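/-
Brauer's characterization of `PSL₃(q)` and `M₁₁`, block B: the class functions `OT`, `OW` of `G`.
-/
import Cfsg.Agent.Lib.Br.Om4

set_option autoImplicit false
set_option linter.unusedSectionVars false
set_option maxHeartbeats 400000

namespace CA.Br.OmB

open Cfsg Subgroup CA CA.Ch Finset ComplexConjugate

variable {G : Type*} [Group G] [Finite G] {S : Abs G}

theorem T_conj {a : G} (ha : a ∈ S.T) (x : S.T) : a * x * a⁻¹ = x := by
  rw [(torT S).comm' ha x.2, mul_inv_cancel_right]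

theorem rrr (x : S.T) : S.r (S.r (S.r x)) = x := Subtype.ext (by
  rw [← T_conj S.ρ3 x]; simp only [Abs0.r_coe, pow_succ, pow_zero]; group)

theorem sr (x : S.T) : S.s (S.r x) = S.r (S.r (S.s x)) := by
  have h : S.r (S.s (S.r x)) = S.s x := Subtype.ext (by
    have h1 := T_conj S.wρ (S.s (S.r x))
    have h2 := T_conj (S.w_T S.wρ) (S.r x)
    have h3 : S.ρ * S.w * S.ρ * S.w⁻¹ ∈ S.T := by
      have := S.ρ_T S.wρ
      rw [S.w_inv] at this ⊢
      have h4 := S.w_T S.wρ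
      rw [S.w_inv] at h4
      rwa [show S.w * (S.w * S.ρ * S.w * S.ρ) * S.w = (S.w * S.w) * S.ρ * S.w * S.ρ * S.w by group, S.ww', one_mul] at h4
    rw [← T_conj h3 (S.s x)]; simp only [Abs0.r_coe, Abs0.s_coe]; group)
  rw [← h, rrr]

theorem ip_r (a b : S.T → ℂ) : ⟪a ∘ S.r, b ∘ S.r⟫ = ⟪a, b⟫ := ip_comp_surj S.r (fun x => ⟨_, rrr x⟩) a b

theorem av_r (a : S.T → ℂ) : S.av a ∘ S.r = S.av a := by
  ext x; simp only [Abs0.av, Function.comp_apply, rrr]; ring
theorem avs_r (a : S.T → ℂ) : (S.av a ∘ S.s) ∘ S.r = S.av a ∘ S.s := by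
  ext x
  simp only [Function.comp_apply, sr]
  exact (congrFun (av_r a) _).trans (congrFun (av_r a) _)

theorem odd_r {x : S.T} (h : Odd (orderOf x)) : Odd (orderOf (S.r x)) := h.of_dvd_nat (orderOf_map_dvd _ _)
theorem van_av {a : S.T → ℂ} (h : Van a) : Van (S.av a) := fun x hx => by
  simp only [Abs0.av, h x hx, h _ (odd_r hx), h _ (odd_r (odd_r hx)), add_zero]
theorem two_av {a : S.T → ℂ} (h : Two a) : Two (S.av a) := fun x y hy => by
  simp only [Abs0.av, map_mul, h _ y hy, h _ _ (odd_r hy), h _ _ (odd_r (odd_r hy))]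

open Classical in
/-- cut down to the elements having `v` as a power -/
noncomputable def ct (v : G) (a : S.T → ℂ) : S.T → ℂ := fun x => if v ∈ zpowers (x : G) then a x else 0

theorem ct_r (v : G) (a : S.T → ℂ) : ct (S.ρ * v * S.ρ⁻¹) a ∘ S.r = ct v (a ∘ S.r) := by
  ext x; simp only [ct, Function.comp_apply, Abs0.r_coe, zp_conj_iff]

theorem tu_sq : S.t * S.u * (S.t * S.u) = 1 := by rw [← S.ρ_u]; exact conj_sq S.uu _
theorem t_ne_tu : S.t ≠ S.t * S.u := fun h => S.u_ne (by simpa using h)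
theorem u_ne_tu : S.u ≠ S.t * S.u := fun h => S.t_ne (by simpa using h)

theorem ct_sum {a : S.T → ℂ} (h : Van a) : a = ct S.t a + ct S.u a + ct (S.t * S.u) a := by
  ext x
  simp only [ct, Pi.add_apply]
  by_cases ho : Odd (orderOf x)
  · simp [h x ho]
  rw [← Subgroup.orderOf_coe] at ho
  obtain ⟨i, hi, h2, h1⟩ := exists_inv ho
  have k : ∀ v : G, v * v = 1 → v ≠ 1 → i ≠ v → v ∉ zpowers (x : G) := fun v a b c e =>
    c (inv_unique hi e h2 a h1 b)
  rcases (S.inv_T (zpowers_le.2 x.2 hi) h2).resolve_left h1 with rfl | rfl | rfl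
  · rw [if_pos hi, if_neg (k _ S.uu S.u_ne S.t_ne_u), if_neg (k _ tu_sq S.tu_ne t_ne_tu)]; simp
  · rw [if_neg (k _ S.tt S.t_ne S.t_ne_u.symm), if_pos hi, if_neg (k _ tu_sq S.tu_ne u_ne_tu)]; simp
  · rw [if_neg (k _ S.tt S.t_ne t_ne_tu.symm), if_neg (k _ S.uu S.u_ne u_ne_tu.symm), if_pos hi]; simp

/-- the orbit sum cut down to `R` -/
noncomputable def cut (a : S.T → ℂ) : S.T → ℂ := ct S.t (S.av a)

theorem cut_of (a : S.T → ℂ) {x : S.T} (h : S.t ∈ zpowers (x : G)) : cut a x = S.av a x := if_pos h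
theorem sup_cut (a : S.T → ℂ) : (torT S).SupA (cut a) := fun _ h => if_neg h

theorem ip_cut {a g : S.T → ℂ} (h : Van a) (hg : g ∘ S.r = g) : ⟪cut a, g⟫ = ⟪a, g⟫ := by
  have e : cut a = ct S.t a + ct S.t (a ∘ S.r) + ct S.t ((a ∘ S.r) ∘ S.r) := by
    ext x; simp only [cut, ct, Pi.add_apply, Abs0.av, Function.comp_apply]; split_ifs <;> simp
  conv_rhs => rw [ct_sum h]
  rw [e, ip_add_left, ip_add_left, ip_add_left, ip_add_left, ← ip_r (ct S.u a), ← ip_r (ct (S.t * S.u) a),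
    ← ip_r (ct (S.t * S.u) a ∘ _), hg, hg, ← S.ρ_u, ct_r, ← S.ρ_t, ct_r, ct_r]

theorem W_inv {x : G} (hx : x ∈ S.W) (h : ¬ Odd (orderOf x)) : S.t ∈ zpowers x := by
  obtain ⟨i, hi, h2, h1⟩ := exists_inv h
  exact ((S.inv_W (zpowers_le.2 hx hi) h2).resolve_left h1) ▸ hi

theorem supW {c : S.W → ℂ} (h : Van c) : (torW S).SupA c := fun x hx =>
  h x (by rw [← Subgroup.orderOf_coe]; by_contra h'; exact hx (W_inv x.2 h'))

theorem cut_eq {a : S.T → ℂ} (h : Van a) {x : S.T} (hx : ¬ Odd (orderOf (x : G)) → S.t ∈ zpowers (x : G)) :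
    cut a x = S.av a x := by
  by_cases ho : Odd (orderOf (x : G))
  · rw [van_av h x (by rwa [← Subgroup.orderOf_coe])]
    exact sup_cut a x fun e => not_odd_of_inv e S.tt S.t_ne ho
  · exact cut_of a (hx ho)

theorem two_cut {a : S.T → ℂ} (h : Two a) : Two (cut a) := fun x y hy => by
  simp only [cut, ct, two_av h x y hy, Subgroup.coe_mul,
    zp_mul_odd_iff S.tt ((torT S).comm' x.2 y.2) (by rwa [Subgroup.orderOf_coe])]

variable (S)

/-- induction from `H` -/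
noncomputable abbrev I : (S.H → ℂ) →ₗ[ℂ] (G → ℂ) := ind S.H.subtype

/-- the orbit sum as a linear map -/
noncomputable def avL : (S.T → ℂ) →ₗ[ℂ] (S.T → ℂ) where
  toFun := S.av
  map_add' a b := by ext x; simp only [Abs0.av, Pi.add_apply]; ring
  map_smul' c a := by ext x; simp only [Abs0.av, Pi.smul_apply, smul_eq_mul, RingHom.id_apply]; ring

noncomputable def OT : (S.T → ℂ) →ₗ[ℂ] (G → ℂ) :=
  ind S.T.subtype - I S ∘ₗ Gam S ∘ₗ LinearMap.funLeft ℂ ℂ (torT S).z ∘ₗ avL S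
noncomputable def OW : (S.W → ℂ) →ₗ[ℂ] (G → ℂ) := I S ∘ₗ (torW S).D
noncomputable def AA : (G → ℂ) →ₗ[ℂ] ℂ where
  toFun f := Nat.card S.H * ⟪f, cnt S.t⟫
  map_add' a b := by rw [ip_add_left, mul_add]
  map_smul' c a := by rw [ip_smul_left, mul_left_comm]; rfl

variable {S}

theorem OT_def (a : S.T → ℂ) : OT S a = ind S.T.subtype a - I S (Gam S (S.av a ∘ (torT S).z)) := rfl
theorem OW_def (c : S.W → ℂ) : OW S c = I S ((torW S).D c) := rfl
theorem I_D (a : S.T → ℂ) : I S ((torT S).D a) = ind S.T.subtype a - I S (Gam S (a ∘ (torT S).z)) := by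
  rw [Tor.D_def, map_sub, ind_subtype_inclusion]

theorem OT_eq {a : S.T → ℂ} (h : Van a) : OT S a = I S ((torT S).D (cut a)) := by
  rw [OT_def, I_D]
  congr 1
  · refine (isCF_ind _ _).ext (isCF_ind _ _) fun χ hχ => ?_
    rw [ip_ind_left _ _ hχ.isCF, ip_ind_left _ _ hχ.isCF, ip_cut h (g := χ ∘ S.T.subtype) (funext fun x => hχ.isCF x S.ρ)]
  · congr 2
    exact funext fun z => (cut_eq h (W_inv (S.Z_le_W z.2))).symm

theorem isVC_av {a : S.T → ℂ} (h : IsVC a) : IsVC (S.av a) :=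
  (h.add (h.comp S.r)).add ((h.comp S.r).comp S.r)

theorem ip_Gam_one (ζ : S.Z → ℂ) : ⟪I S (Gam S ζ), 1⟫ = 0 := by
  rw [ip_ind_left _ _ isCF_one, ip_Gam S _ (isCF_one.comp _), show j S ((1 : G → ℂ) ∘ S.H.subtype) = 0 from
    funext fun z => by simp [j], ip_zero_right]

theorem eta_vc (β : Du S.H) : IsVC ((2 : ℂ)⁻¹ • (OT S ((Du.comp (inclusion S.T_le_H) β).ch - 1) +
    OW S ((Du.comp (inclusion S.W_le_H) β).ch - 1))) := by
  have hf : IsVC (β.ch - 1) := β.isVC.sub isVC_one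
  have h1 : ∀ P : Tor S, P.eta (β.ch - 1) = (Du.comp P.i β).ch - 1 := fun P =>
    P.eta_of fun z => by simp only [Pi.sub_apply, Du.ch_apply_mul, S.lin_U β _ (y0_U S), mul_one, Pi.one_apply]
  have h2 := congrArg (I S) (decomp S hf.isCF)
  rw [h1, h1, map_smul, map_add, I_D] at h2
  set f := (Du.comp (inclusion S.T_le_H) β).ch - 1 with hfd
  have h3 : S.av f ∘ (torT S).z = f ∘ (torT S).z + (2 : ℂ) • ((f ∘ S.r) ∘ (torT S).z) := by
    ext z
    have e1 : S.s ((torT S).z z) = (torT S).z z := (torT S).σ_z z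
    have e2 : f (S.s (S.r ((torT S).z z))) = f (S.r ((torT S).z z)) := (torT S).cf_σ hf.isCF _
    rw [sr, e1] at e2
    simp only [Abs0.av, Function.comp_apply, Pi.add_apply, Pi.smul_apply, smul_eq_mul, e2]; ring
  have : (2 : ℂ)⁻¹ • (OT S f + OW S ((Du.comp (inclusion S.W_le_H) β).ch - 1)) =
      I S (β.ch - 1) - I S (Gam S ((f ∘ S.r) ∘ (torT S).z)) := by
    rw [h2, OT_def, OW_def, h3, map_add, map_add, map_smul, map_smul]
    module
  rw [this]
  exact (hf.induce _).sub ((isVC_Gam S ((((Du.isVC _).sub isVC_one).comp S.r).comp _)).induce _)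

theorem I_one {f : S.H → ℂ} (h : Sup f) : I S f 1 = 0 := by rw [ind_one, h 1 one_not_R, mul_zero]

theorem I_t (P : Tor S) {a : P.A → ℂ} (h : P.SupA a) : I S (P.D a) S.t = P.m * (S.q - P.n) * a P.tA :=
  ((tiR S).ind_apply (P.isCF_D a) (Tor.sup_D h) (a := zH S ⟨S.t, S.t_Z⟩) (mem_zpowers _)).trans (P.D_Z a _)

theorem ip_I {P Q : Tor S} {a : P.A → ℂ} {b : Q.A → ℂ} (ha : P.SupA a) (hb : Q.SupA b) :
    ⟪I S (P.D a), I S (Q.D b)⟫ = ⟪P.D a, Q.D b⟫ := (tiR S).ip_ind (Tor.sup_D ha) (Q.isCF_D b) (Tor.sup_D hb)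

theorem gTT {a b : S.T → ℂ} (ha : Van a) (hb : Van b) : ⟪OT S a, OT S b⟫ = ⟪a, S.av b⟫ + ⟪a, S.av b ∘ S.s⟫ := by
  have k : ∀ x, cut a x ≠ 0 → S.t ∈ zpowers (x : G) := fun x hx => by by_contra h; exact hx (sup_cut a x h)
  rw [OT_eq ha, OT_eq hb, ip_I (sup_cut a) (sup_cut b), Tor.ip_DD, ← ip_cut ha (av_r b), ← ip_cut ha (avs_r b)]
  congr 1
  · exact ip_congr_support fun x hx => cut_of b (k x hx)
  · exact ip_congr_support fun x hx => cut_of b ((rt_conj S.w_H).2 (k x hx))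

open Classical in
/-- `|H|` times the indicator of `t` -/
noncomputable def dt (S : Abs G) : S.H → ℂ := fun h => if (h : G) = S.t then Nat.card S.H else 0

theorem isCF_dt : IsCF (dt S) := fun a b => by
  classical
  have : ((b * a * b⁻¹ : S.H) : G) = S.t ↔ (a : G) = S.t := by
    conv_lhs => rw [← conj_t b.2]
    simp
  unfold dt
  exact if_congr this rfl rfl

theorem ip_dt (f : S.H → ℂ) : ⟪f, dt S⟫ = f (zH S ⟨S.t, S.t_Z⟩) := by
  have := Fintype.ofFinite S.H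
  rw [ip_def, Finset.sum_eq_single_of_mem (zH S ⟨S.t, S.t_Z⟩) (Finset.mem_univ _) fun b _ hb => by
    rw [dt, if_neg fun e : (b : G) = S.t => hb (Subtype.ext e), map_zero, mul_zero], dt,
    if_pos (show ((zH S ⟨S.t, S.t_Z⟩ : S.H) : G) = S.t from rfl), map_natCast, mul_comm _ (_ : ℂ),
    mul_inv_cancel_right₀ (by exact_mod_cast Nat.card_pos.ne')]

namespace Tor
variable (P : Tor S)

/-- the projection of the indicator of `t` -/
noncomputable def gt : P.A → ℂ := ∑ l ∈ annF (oddK P.A), l.ch P.tA • l.ch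

theorem tA_sq : P.tA * P.tA = 1 := Subtype.ext S.tt

theorem gt_apply (x : P.A) : P.gt x = ∑ l ∈ annF (oddK P.A), l.ch (P.tA * x) := by
  simp only [gt, Finset.sum_apply, Pi.smul_apply, smul_eq_mul, Du.ch_apply_mul]

theorem sup_gt : P.SupA P.gt := fun x hx => by
  rw [gt_apply]
  refine sum_annF_not_mem fun h => hx ?_
  have := zp_mul_odd (mem_zpowers S.t) S.tt (P.comm' P.tA.2 (P.tA * x).2) (by rwa [Subgroup.orderOf_coe])
  rwa [Subgroup.coe_mul, ← mul_assoc, show (P.tA : G) = S.t from rfl, S.tt, one_mul] at this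

theorem van_gt : Van P.gt := fun x hx => P.sup_gt x fun h =>
  not_odd_of_inv h S.tt S.t_ne (by rwa [Subgroup.orderOf_coe])

theorem sum_tA : ∑ l ∈ annF (oddK P.A), l.ch P.tA = 0 := by
  have := P.van_gt 1 (by simp)
  rwa [gt_apply, mul_one] at this

theorem gt_eq : P.gt = ∑ l ∈ annF (oddK P.A), l.ch P.tA • (l.ch - 1) := by
  simp only [smul_sub, Finset.sum_sub_distrib, ← Finset.sum_smul, sum_tA, zero_smul, sub_zero, gt]

theorem ip_eta_dt (l : Du P.A) : ⟪P.eta (dt S), l.ch⟫ = P.m * (S.q - P.n) * l.ch P.tA := by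
  rw [← ip_conj, ← P.ip_D _ isCF_dt, ip_dt, D_Z, map_mul, map_mul, map_sub, map_natCast, map_natCast, map_natCast]
  exact congrArg _ (conj_ch_inv l P.tA_sq)

theorem pi0_dt {Q : Tor S} (h : Pair P Q) :
    Blk.pi0 2 (P.D (P.eta (dt S))) = (P.m * (S.q - P.n) : ℂ) • P.D P.gt := by
  rw [pi0_D h, ← map_smul, gt, Finset.smul_sum]
  simp only [ip_eta_dt, smul_smul]

end Tor

theorem cut_gt : cut (torT S).gt = (torT S).gt := by
  ext x
  by_cases h : S.t ∈ zpowers (x : G)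
  · have k : ∀ {v : G} (y : S.T), v * v = 1 → v ≠ 1 → S.t ≠ v → v ∈ zpowers (y : G) → (torT S).gt y = 0 :=
      fun y a b c e => (torT S).sup_gt y fun e' => c (inv_unique e' e S.tt a S.t_ne b)
    have h1 : S.u ∈ zpowers (S.r x : G) := S.ρ_t ▸ zp_conj h S.ρ
    have h2 : S.t * S.u ∈ zpowers (S.r (S.r x) : G) := S.ρ_u ▸ zp_conj h1 S.ρ
    rw [cut_of _ h, Abs0.av, k _ S.uu S.u_ne S.t_ne_u h1, k _ tu_sq S.tu_ne t_ne_tu h2, add_zero, add_zero]
  · rw [sup_cut _ x h, (torT S).sup_gt x h]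

open Classical in
theorem valt {χ : G → ℂ} (hχ : χ ∈ Blk.B0 G 2) : χ S.t =
    (S.Q + 1) / 2 * ∑ l : Du S.T with Two l.ch, l.ch S.tT * ⟪χ, OT S (l.ch - 1)⟫ +
    (S.Q - 1) / 2 * ∑ f : Du S.W with Two f.ch, f.ch S.tW * ⟪χ, OW S (1 - f.ch)⟫ := by
  have hc := (Blk.irr_of_B0 hχ).isCF
  have e1 : (univ.filter fun l : Du S.T => Two l.ch) = annF (oddK S.T) := by ext l; simp [mem_annF, two_iff]
  have e2 : (univ.filter fun l : Du S.W => Two l.ch) = annF (oddK S.W) := by ext l; simp [mem_annF, two_iff]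
  have h1 : ∑ l : Du S.T with Two l.ch, l.ch S.tT * ⟪χ, OT S (l.ch - 1)⟫ =
      ⟪χ ∘ S.H.subtype, (torT S).D (torT S).gt⟫ := by
    rw [← ip_ind_right _ _ hc, ← cut_gt, ← OT_eq (torT S).van_gt, Tor.gt_eq, map_sum, ip_sum_right, e1]
    exact Finset.sum_congr rfl fun l _ => by rw [map_smul, ip_smul_right, conj_ch_inv l (torT S).tA_sq]; rfl
  have h2 : ∑ f : Du S.W with Two f.ch, f.ch S.tW * ⟪χ, OW S (1 - f.ch)⟫ =
      -⟪χ ∘ S.H.subtype, (torW S).D (torW S).gt⟫ := by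
    rw [← ip_ind_right _ _ hc, ← OW_def, Tor.gt_eq, map_sum, ip_sum_right, e2, ← Finset.sum_neg_distrib]
    exact Finset.sum_congr rfl fun l _ => by
      rw [map_smul, ip_smul_right, conj_ch_inv l (torW S).tA_sq, ← neg_sub l.ch, map_neg, ip_neg_right, mul_neg]; rfl
  have h3 := res_pi0 hc (h := zH S ⟨S.t, S.t_Z⟩) (mem_zpowers _)
  rw [Blk.pi0_of_mem hχ, ← ip_dt (Blk.pi0 2 (χ ∘ S.H.subtype)), Blk.ip_pi0_comm, decomp S isCF_dt, Blk.pi0_smul, Blk.pi0_add,
    (torT S).pi0_dt (pairTW S), (torW S).pi0_dt (pairTW S).symm, ip_smul_right, ip_add_right, ip_smul_right,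
    ip_smul_right] at h3
  rw [h1, h2, Q_cast]
  simp only [map_mul, map_sub, map_natCast, map_inv₀, map_ofNat, cTm, cWm, map_add, map_intCast] at h3
  change χ S.t = _ at h3
  linear_combination h3 + (2⁻¹ * (⟪χ ∘ S.H.subtype, (torT S).D (torT S).gt⟫ +
    ⟪χ ∘ S.H.subtype, (torW S).D (torW S).gt⟫)) * e_sq S

end OmB

open Cfsg Subgroup CA CA.Ch OmB in
theorem exists_aom {G : Type*} [Group G] [Finite G] (S : Abs G) : Nonempty (AOm S) := ⟨{
  OT := OT S
  OW := OW S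
  A := AA S
  vcT := fun _ h => (h.induce _).sub ((isVC_Gam S ((isVC_av h).comp _)).induce _)
  vcW := fun _ h => ((torW S).isVC_D h).induce _
  eta := fun β _ => eta_vc β
  oneT := fun a => by rw [OT_def, ip_sub_left, ip_Gam_one, sub_zero, ip_ind_left _ _ isCF_one]; rfl
  oneW := fun c => by
    rw [OW_def, Tor.D_def, map_sub, ip_sub_left, ip_Gam_one, sub_zero, ind_subtype_inclusion,
      ip_ind_left _ _ isCF_one]; rfl
  gTT := fun _ _ => gTT
  gTW := fun a c ha hc => by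
    rw [OT_eq ha, OW_def, ip_I (sup_cut a) (supW hc), (torT S).ip_DD' (disWT S)]
  gWW := fun a c ha hc => by rw [OW_def, OW_def, ip_I (supW ha) (supW hc), Tor.ip_DD]; rfl
  degT := fun a ha => by rw [OT_eq ha, I_one (Tor.sup_D (sup_cut a))]
  degW := fun c hc => I_one (Tor.sup_D (supW hc))
  atT := fun a ha => by
    rw [OT_eq ha, I_t _ (sup_cut a), cut_of a (mem_zpowers _), cTm, cWm, Q_cast]
    change _ * S.av a S.tT = _
    linear_combination S.av a S.tT * e_sq S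
  atW := fun c hc => by
    rw [OW_def, I_t _ (supW hc), cTm, cWm, Q_cast]
    change _ * c S.tW = _
    linear_combination c S.tW * e_sq S
  A_irr := fun χ h => by
    change Nat.card S.H * ⟪χ, cnt S.t⟫ = _
    rw [ip_cnt _ h, ← S.H_eq, ← mul_assoc, mul_div_cancel₀ _ (by exact_mod_cast Nat.card_pos.ne')]
  A_T := fun a ha => by
    have h := (torT S).ip_cnt_D (sup_cut a)
    rw [show cut a ∘ inclusion (torT S).M_le = S.av a ∘ inclusion S.Tm_le_T from
      funext fun x => cut_eq ha ((torT S).inv_M x.2), cut_of a (mem_zpowers _), cTm, cWm] at h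
    change Nat.card S.H * ⟪OT S a, cnt S.t⟫ = _
    rw [OT_eq ha, h, Q_cast]
    change _ * (_ * S.av a S.tT + _) = _
    rcases S.he with e | e <;> rw [e] <;> push_cast <;> ring
  A_W := fun c hc => by
    have h := (torW S).ip_cnt_D (supW hc)
    rw [cTm, cWm] at h
    change Nat.card S.H * ⟪I S ((torW S).D c), cnt S.t⟫ = _
    rw [h, Q_cast]
    change _ * (_ + _ * ⟪c ∘ inclusion S.Wm_le_W, 1⟫) = _
    rcases S.he with e | e <;> rw [e] <;> push_cast <;> ring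
  b0T := fun a ha h2 => by
    rw [OT_eq ha]; exact pi0_ind (Tor.sup_D (sup_cut a)) (Tor.pi0_D_of (pairTW S) (two_cut h2))
  b0W := fun c hc h2 => pi0_ind (Tor.sup_D (supW hc)) (Tor.pi0_D_of (pairTW S).symm h2)
  valt := fun _ h => valt h }⟩

end CA.Br
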