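/-
Brauer's characterization of `PSL₃(q)` and `M₁₁`: the conclusions of the character theory.
-/
import Cfsg.Agent.Lib.Br.Dec
import Cfsg.Agent.Lib.Br.Om

set_option autoImplicit false
set_option linter.unusedSectionVars false

namespace CA.Br

open Cfsg Subgroup CA CA.Ch

namespace Abs

variable {G : Type*} [Group G] [Finite G] (S : Abs G)

include S in
/-- the principal 2-block contains no nontrivial linear character -/
theorem hlin : ∀ χ ∈ Blk.B0 G 2, χ 1 = 1 → χ = 1 := fun χ h h1 => by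
  have : Fact (Nat.Prime 2) := ⟨Nat.prime_two⟩
  obtain ⟨l, rfl⟩ := (Blk.irr_of_B0 h).isChar.exists_lin h1
  have cj : ∀ g x : G, l (g * x * g⁻¹) = l x := fun g x => by
    rw [map_mul, map_mul, map_inv, mul_inv_cancel_comm]
  have hZ : ∀ z ∈ S.Z, Odd (orderOf z) → l z = 1 := fun z hz ho => by
    have a : ∀ g ∈ 𝐂[S.t], g * z = z * g := fun g hg => (S.Z_comm hz (S.H_eq ▸ hg)).symm
    have := Blk.apply_mul_of_B0 h (x := S.t) (w := z) (N := zpowers z) (Blk.piElt_two_of_sq S.tt)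
      (zpowers_le.2 (mem_cent1_iff.2 (a _ (self_mem_cent1 _)).symm))
      (norms_zpowers_of_cent1 fun g hg => mem_cent1_iff.2 (a g hg)) (piGrp_zpowers.2 (Blk.piElt_two_compl.2 ho))
      (mem_zpowers z)
    rw [lin_apply, lin_apply, map_mul, Units.val_inj] at this
    exact mul_eq_left.1 this
  have tw : Tw (Du.mk (l.comp S.T.subtype)) := fun x ho => by
    have c : (x : G) * (S.w * x * S.w⁻¹) = S.w * x * S.w⁻¹ * x :=
      congrArg Subtype.val (mul_comm' x ⟨_, S.w_T x.2⟩)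
    have o1 : Odd (orderOf (x : G)) := by rwa [orderOf_coe]
    have o2 : Odd (orderOf (S.w * x * S.w⁻¹)) := by
      rwa [show orderOf (S.w * x * S.w⁻¹) = orderOf (x : G) from (MulAut.conj S.w).orderOf_eq _]
    have h2 := hZ (x * (S.w * x * S.w⁻¹)) (S.mem_Z_T.2 ⟨mul_mem x.2 (S.w_T x.2), by
      conv_rhs => rw [c]
      rw [S.w_inv]; simp only [mul_assoc, S.ww', mul_one]⟩)
      ((o1.mul o2).of_dvd_nat (Commute.orderOf_mul_dvd_mul_orderOf c))
    rw [map_mul, cj, ← sq] at h2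
    have h3 : l x ^ orderOf (x : G) = 1 := by rw [← map_pow, pow_orderOf_eq_one, map_one]
    have := pow_gcd_eq_one.2 ⟨h2, h3⟩
    rw [(Nat.coprime_two_left.2 o1).gcd_eq_one, pow_one] at this
    exact congrArg Units.val this
  have := S.R_fix tw (Du.ext' fun x => congrArg Units.val (cj S.ρ x))
  rw [S.lin_eq_one l fun x hx => Units.ext (congrFun (congrArg Du.ch this) ⟨x, hx⟩), lin_one]

theorem eqs : ∃ s y : ℤ,
    S.H.index * (s - S.Q) ^ 2 = S.Q * (S.Q + 1) ^ 2 * (S.Q - 1) * s * (s - 1) ∧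
    (s - S.Q ^ 2) * (y - S.Q ^ 2) = S.Q ^ 2 * (S.Q ^ 2 - 1) ∧ s ∣ S.H.index * S.Q ∧ s - 1 ∣ S.H.index * (S.Q - 1) ∧
    (S.Q % 4 = 1 → s = S.Q ^ 3) := let ⟨O⟩ := exists_aom S; O.eqs S.hlin

theorem index_one (h : S.Q % 4 = 1) : (S.H.index : ℤ) = S.Q ^ 2 * (S.Q ^ 2 + S.Q + 1) := by
  obtain ⟨s, y, e1, -, -, -, e⟩ := S.eqs
  rw [e h] at e1
  have q3 : (3 : ℤ) ≤ S.q := by exact_mod_cast S.three_le
  have h0 : S.Q ≠ 0 ∧ S.Q + 1 ≠ 0 ∧ S.Q - 1 ≠ 0 := by rcases S.Q_cases with ⟨-, h⟩ | ⟨-, h⟩ <;> omega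
  exact mul_left_cancel₀ (pow_ne_zero 2 (mul_ne_zero (mul_ne_zero h0.1 h0.2.1) h0.2.2)) (by linear_combination e1)

theorem dvd_index (h4 : S.Q % 4 = 3) (h10 : 10 ≤ Nat.card S.Tm) (hT : ¬ S.Triv) : S.p ∣ S.H.index :=
  let ⟨O⟩ := exists_aom S; O.dvd_index h4 h10 hT

/-- if `ρ` centralizes the odd part of `T` and `H` and `ρ` lie in no proper centralizer, then `|Z| = 2` -/
theorem d_two [IsSimpleGroup G] (h4 : S.Q % 4 = 3) (hT : S.Triv)
    (h : ∀ M : Subgroup G, S.H ≤ M → S.ρ ∈ M → M = ⊤) : S.d = 2 := by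
  obtain ⟨g, hg, e⟩ := isCyclic_iff_exists_zpowers.1 S.cyc_Z
  have hd : S.d = orderOf g := by rw [Abs0.d, e, Nat.card_zpowers]
  obtain ⟨k, -, hk⟩ := S.d_mul
  obtain ⟨c, hc⟩ : 2 ∣ orderOf g := hd ▸ by exact_mod_cast S.d_even
  have o : orderOf (g ^ 2) = c := by
    rw [orderOf_pow_of_dvd two_ne_zero ⟨c, hc⟩, hc, Nat.mul_div_cancel_left _ two_pos]
  have oc : Odd c := by
    rw [← Nat.not_even_iff_odd]
    rintro ⟨j, rfl⟩
    rw [hd, hc] at hk
    push_cast at hk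
    have : S.Q - 1 = 4 * (j * k) := by rw [hk]; ring
    omega
  have z2 := pow_mem hg 2
  have := h 𝐂[g ^ 2] (fun x hx => mem_cent1_iff.2 (S.Z_comm z2 hx).symm)
    (mem_cent1_iff.2 (hT _ (S.Z_le_T z2) (o ▸ oc)))
  have h1 : g ^ 2 ∈ center G := mem_center_iff.2 fun x => mem_cent1_iff.1 (this ▸ mem_top x)
  rcases (inferInstance : (center G).Normal).eq_bot_or_eq_top with a | a
  · rw [a, mem_bot] at h1
    rw [h1, orderOf_one] at o
    rw [hd, hc, ← o]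
  · exact absurd (S.mem_T.2 ⟨S.wt, mem_center_iff.1 (a ▸ mem_top S.u) _⟩) S.w_not_T

end Abs

end CA.Br
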