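/-
Groups with a Klein four Sylow 2-subgroup, one class of involutions and abelian involution centralizers.
-/
import Cfsg.Agent.Lib.Br.Abs1
import Cfsg.Agent.Lib.Ly.Ch
import Cfsg.Agent.Lib.G.Frob

set_option autoImplicit false
set_option linter.unusedSectionVars false

namespace CA.Br
open Cfsg Subgroup CA CA.Ch CA.Blk
open scoped ComplexConjugate

section
variable {G : Type*} [Group G] [Finite G]

theorem sylow_index_mod {p : ℕ} (hp : p.Prime) {P X : Subgroup G} (h : SylowIn p P X) : 𝐍(P).relIndex X % p = 1 := by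
  have : Fact p.Prime := ⟨hp⟩
  obtain ⟨S, hS⟩ := h.exists_sylow'
  have h1 := card_sylow_modEq_one p X
  rw [S.card_eq_index_normalizer, show (S : Set X) = (P.subgroupOf X : Set X) from congrArg SetLike.coe hS,
    ← subgroupOf_normalizer_eq h.le] at h1
  exact Eq.trans h1 (Nat.mod_eq_of_lt hp.one_lt)

theorem mem_of_sq_mem {A : Subgroup G} {x : G} (ho : Odd (orderOf x)) (h : x * x ∈ A) : x ∈ A := by
  obtain ⟨k, hk⟩ := ho
  have : x = (x * x) ^ (k + 1) := by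
    rw [← sq, ← pow_mul, show 2 * (k + 1) = 2 * k + 1 + 1 by ring, pow_succ, ← hk, pow_orderOf_eq_one, one_mul]
  exact this ▸ pow_mem h _

theorem eq_one_of_inv {v x : G} (ho : Odd (orderOf x)) (h : v * x * v⁻¹ = x⁻¹) (hc : x * v = v * x) : x = 1 := by
  rw [← hc, mul_inv_cancel_right] at h
  exact mem_bot.1 (mem_of_sq_mem ho (mem_bot.2 (mul_eq_one_iff_eq_inv.2 h)))

theorem odd_of_mem {A : Subgroup G} {x : G} (h : Odd (Nat.card A)) (hx : x ∈ A) : Odd (orderOf x) :=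
  h.of_dvd_nat (orderOf_dvd_card_of_mem hx)

theorem odd_card_of {A : Subgroup G} (h : ∀ i ∈ A, i * i = 1 → i = 1) : Odd (Nat.card A) := by
  rw [← Nat.not_even_iff_odd, even_iff_two_dvd]
  intro h2
  obtain ⟨i, hi, o⟩ := exists_orderOf_eq_prime Nat.prime_two h2
  exact Inv.ne_one_of_orderOf o (h i hi (Inv.mul_self_of_orderOf o))

theorem ne_one_cj {g x : G} (h : x ≠ 1) : g⁻¹ * x * g ≠ 1 := fun e => h (by
  rw [show x = g * (g⁻¹ * x * g) * g⁻¹ by group, e]; group)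

theorem odd_core (M : Subgroup G) : Odd (Nat.card (piCoreOf {2}ᶜ M)) := (piCoreOf_piGrp {2}ᶜ M).piNum.odd (by simp)
end


theorem four_arith {n : ℕ} {a b c : ℤ} (hs : a + b + c = -1)
    (h : (n : ℚ) * (1 + ((4 * a + 1 : ℚ)⁻¹ + (4 * b + 1 : ℚ)⁻¹ + (4 * c + 1 : ℚ)⁻¹)) = 8) : n < 24 ∧ n % 4 = 3 := by
  have k0 : ∀ a : ℤ, (4 * a + 1 : ℚ) ≠ 0 := fun a e => by
    have : 4 * a + 1 = 0 := by exact_mod_cast e
    omega
  have k1 : ∀ a : ℤ, 0 ≤ a → 0 < (4 * a + 1 : ℚ)⁻¹ := fun a e => by positivity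
  have k2 : ∀ a : ℤ, -1 / 3 ≤ (4 * a + 1 : ℚ)⁻¹ := fun a => by
    rcases le_or_gt 0 a with e | e
    · linarith [k1 a e]
    · have : (a : ℚ) ≤ -1 := by exact_mod_cast Int.le_sub_one_of_lt e
      rw [le_inv_of_neg (by norm_num) (by linarith)]
      linarith
  constructor
  · have : 1 / 3 < 1 + ((4 * a + 1 : ℚ)⁻¹ + (4 * b + 1 : ℚ)⁻¹ + (4 * c + 1 : ℚ)⁻¹) := by
      rcases (by omega : 0 ≤ a ∨ 0 ≤ b ∨ 0 ≤ c) with e | e | e <;> linarith [k1 _ e, k2 a, k2 b, k2 c]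
    by_contra hn
    have : (24 : ℚ) ≤ n := by exact_mod_cast not_lt.1 hn
    nlinarith
  · have h1 := k0 a
    have h2 := k0 b
    have h3 := k0 c
    field_simp at h
    obtain rfl : c = -1 - a - b := by omega
    have h4 : (n : ℤ) * ((2 * a + 1) * (2 * b + 1) * (2 * (-1 - a - b) + 1)) =
        (4 * a + 1) * (4 * b + 1) * (4 * (-1 - a - b) + 1) := by
      have : (n : ℚ) * ((2 * a + 1) * (2 * b + 1) * (2 * (-1 - a - b) + 1)) =
        (4 * a + 1) * (4 * b + 1) * (4 * (-1 - a - b) + 1) := by push_cast at h; linear_combination h / 8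
      exact_mod_cast this
    have h5 := congrArg (Int.cast : ℤ → ZMod 4) h4
    push_cast at h5
    have : ∀ n a b : ZMod 4, n * ((2 * a + 1) * (2 * b + 1) * (2 * (-1 - a - b) + 1)) =
      (4 * a + 1) * (4 * b + 1) * (4 * (-1 - a - b) + 1) → n = (3 : ℕ) := by decide
    exact (ZMod.natCast_eq_natCast_iff' n 3 4).1 (this _ _ _ h5)

structure Four (G : Type*) [Group G] where
  t : G
  u : G
  ρ : G
  tt : t * t = 1
  t_ne : t ≠ 1
  ut : u * t = t * u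
  ρ_t : ρ * t * ρ⁻¹ = u
  ρ_u : ρ * u * ρ⁻¹ = t * u
  comm : IsMulCommutative 𝐂[t]
  n8 : ¬ 8 ∣ Nat.card 𝐂[t]
  inv : ∀ h ∈ 𝐂[t], h * h = 1 → h = 1 ∨ h = t ∨ h = u ∨ h = t * u

namespace Four
variable {G : Type*} [Group G] [Finite G] (S : Four G)

def V : Subgroup G := zpowers S.t ⊔ zpowers S.u
theorem uu : S.u * S.u = 1 := S.ρ_t ▸ Inv.conj_mul_self S.tt _
theorem u_ne : S.u ≠ 1 := fun h => S.t_ne (conj_eq_one_iff.1 (S.ρ_t.trans h))
theorem tu_ne : S.t * S.u ≠ 1 := fun h => S.u_ne (conj_eq_one_iff.1 (S.ρ_u.trans h))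
theorem u_T : S.u ∈ 𝐂[S.t] := mem_cent1_iff.2 S.ut
theorem V_le : S.V ≤ 𝐂[S.t] := sup_le (zpowers_le.2 (self_mem_cent1 _)) (zpowers_le.2 S.u_T)
theorem t_V : S.t ∈ S.V := mem_sup_left (mem_zpowers _)
theorem mem_V {x : G} : x ∈ S.V ↔ x ∈ 𝐂[S.t] ∧ x * x = 1 := by
  refine ⟨fun h => ⟨S.V_le h, ?_⟩, fun h => ?_⟩
  · obtain ⟨a, ha, b, hb, rfl⟩ := (mem_sup_of_norm_left (norms_of_abelian S.comm (zpowers_le.2 S.u_T)
      (zpowers_le.2 (self_mem_cent1 _)))).1 h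
    rcases Abs0.mem_zp S.tt ha with rfl | rfl <;> rcases Abs0.mem_zp S.uu hb with rfl | rfl <;>
      simp [S.tt, S.uu, S.ρ_u ▸ Inv.conj_mul_self S.uu S.ρ]
  · have hu : S.u ∈ S.V := mem_sup_right (mem_zpowers _)
    rcases S.inv _ h.1 h.2 with rfl | rfl | rfl | rfl
    exacts [one_mem _, S.t_V, hu, mul_mem S.t_V hu]
theorem card_V : Nat.card S.V = 4 := by
  rw [V, card_sup_of_disjoint (Or.inr (norms_of_abelian S.comm (zpowers_le.2 S.u_T) (zpowers_le.2 (self_mem_cent1 _)))),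
    Nat.card_zpowers, Nat.card_zpowers, Inv.orderOf_eq_two S.tt S.t_ne, Inv.orderOf_eq_two S.uu S.u_ne]
  refine eq_bot_iff.2 fun x ⟨h1, h2⟩ => ?_
  rcases Abs0.mem_zp S.tt h1 with rfl | rfl
  · exact one_mem _
  · exact (Abs0.mem_zp S.uu h2).resolve_right fun h => S.tu_ne (by rw [← h, S.tt])
theorem conj_u : IsConj S.t S.u := isConj_iff.2 ⟨_, S.ρ_t⟩
theorem conj_tu : IsConj S.t (S.t * S.u) := S.conj_u.trans (isConj_iff.2 ⟨_, S.ρ_u⟩)
theorem conj_V {v : G} (hv : v ∈ S.V) (h1 : v ≠ 1) : IsConj S.t v := by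
  rcases S.inv _ (S.mem_V.1 hv).1 (S.mem_V.1 hv).2 with rfl | rfl | rfl | rfl
  exacts [absurd rfl h1, IsConj.refl _, S.conj_u, S.conj_tu]
theorem cent_v {v : G} (hv : v ∈ S.V) (h1 : v ≠ 1) : 𝐂[v] = 𝐂[S.t] := by
  obtain ⟨g, e⟩ := isConj_iff.1 (S.conj_V hv h1)
  exact (eq_of_le_of_card_eq (mem_cent_iff_le_cent1.1 (abelian_iff.1 S.comm (S.V_le hv)))
    (by rw [← e, ← cj_centralizer_singleton, card_cj])).symm
theorem V_pi : PiGrp {2} S.V := piGrp_of_card_pow Nat.prime_two (k := 2) S.card_V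
theorem syl_T : SylowIn 2 S.V 𝐂[S.t] := sylowIn_mk Nat.prime_two S.V_le (S.V_pi.isPGroup Nat.prime_two) fun h =>
  S.n8 (by rw [← card_mul_relIndex S.V_le, S.card_V]; exact Nat.mul_dvd_mul_left 4 h)
theorem syl : SylowIn 2 S.V ⊤ := by
  obtain ⟨P, hP, h⟩ := exists_sylowIn_ge S.V_pi le_top
  obtain ⟨z, hz, o⟩ := exists_orderOf_eq_prime Nat.prime_two ((hP.piGrp.inf_left 𝐂(P)).dvd_card_of_ne_bot
    (center_ne_bot_nil hP.piGrp.nilpotent (ne_bot_of_mem (h S.t_V) S.t_ne)))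
  have := mem_cent_iff_le_cent1.1 hz.2
  rw [S.cent_v (S.mem_V.2 ⟨mem_cent1_comm.1 (this (h S.t_V)), Inv.mul_self_of_orderOf o⟩) (Inv.ne_one_of_orderOf o)] at this
  exact S.syl_T.eq_of_le h this hP.piGrp ▸ hP
theorem inv_conj {i : G} (h2 : i * i = 1) (h1 : i ≠ 1) : IsConj S.t i := by
  obtain ⟨g, -, h⟩ := S.syl.exists_conj_mem (mem_top i) (piElt_two_of_sq h2)
  exact (S.conj_V h fun e => h1 (conj_eq_one_iff.1 e)).trans (isConj_iff.2 ⟨g, rfl⟩).symm
theorem odd_index : ¬ 2 ∣ 𝐂[S.t].index := fun h => S.syl.not_dvd Nat.prime_two (by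
  rw [relIndex_top_right]; exact h.trans (index_dvd_of_le S.V_le))
theorem le_T {K : Subgroup G} (hn : S.V ≤ 𝐍(K)) (ho : Odd (Nat.card K)) : K ≤ 𝐂[S.t] :=
  le_of_cent1_noncyclic (abelian_of_le S.comm S.V_le) (fun h => by
    obtain ⟨a, ha, e⟩ := isCyclic_iff_exists_zpowers.1 h
    have h1 := S.card_V
    rw [e, Nat.card_zpowers] at h1
    have : orderOf a ∣ 2 := orderOf_dvd_of_pow_eq_one (by rw [sq, (S.mem_V.1 ha).2])
    rw [h1] at this
    omega) hn (S.card_V ▸ (Nat.coprime_two_right.2 ho).pow_right 2) fun a ha h1 => S.cent_v ha h1 ▸ inf_le_right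

theorem sum_fib [Fintype G] [DecidableEq G] {v : G} (h : IsConj S.t v) (c : ℂ) :
    ∑ y, (if y * S.t * y⁻¹ = v then c else 0) = Nat.card 𝐂[S.t] * c := by
  classical
  obtain ⟨g, rfl⟩ := isConj_iff.1 h
  rw [← Equiv.sum_comp (Equiv.mulLeft g), ← Finset.sum_filter, Finset.sum_const, nsmul_eq_mul, Nat.card_eq_fintype_card,
    Fintype.card_subtype]
  congr 3
  ext y
  simp [mem_cent1_iff, mul_assoc, mul_inv_eq_iff_eq_mul, ← mul_inv_eq_iff_eq_mul (a := y * S.t)]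
  simp [← mul_assoc]

theorem idx_lt : 𝐂[S.t].index < 24 ∧ 𝐂[S.t].index % 4 = 3 := by
  classical
  haveI := Fintype.ofFinite G
  have hN := normalPCompl_of_nilpotent (nilpotent_of_abelian S.comm) 2
  have t2 := piElt_two_of_sq S.tt
  have k1 : Ly.KK S.t S.t = 4 := by
    rw [Ly.KK, sum_B0_self t2 hN, (hN.sdprod S.syl_T).relIndex_left, S.card_V]; rfl
  have k2 := Ly.KK_zero (g := 1) (s := S.t) (by rw [constt_one, constt_eq_self t2, isConj_one_right]; exact S.t_ne)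
  have k3 := Ly.cls_eq S.t S.t
  rw [Finset.sum_congr rfl (g := fun y => (if y * S.t * y⁻¹ = S.u then 4 else 0) + if y * S.t * y⁻¹ = S.t * S.u then 4 else 0)
    fun y _ => ?_, Finset.sum_add_distrib, S.sum_fib S.conj_u, S.sum_fib S.conj_tu, ← index_mul_card 𝐂[S.t]] at k3
  swap
  · have k : ∀ g, IsConj S.t g → Ly.KK g S.t = 4 := fun g hg =>
      k1 ▸ Finset.sum_congr rfl fun χ hχ => by rw [(irr_of_B0 hχ).isCF.of_isConj hg]
    have ii := Inv.conj_mul_self S.tt y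
    have i1 : y * S.t * y⁻¹ ≠ 1 := fun e => S.t_ne (conj_eq_one_iff.1 e)
    generalize y * S.t * y⁻¹ = i at ii i1
    split_ifs with h1 h2 h2
    · exact absurd (mul_eq_right.1 (h2.symm.trans h1)) S.t_ne
    · rw [h1, S.ut, k _ S.conj_tu, add_zero]
    · rw [h2, mul_assoc, S.ut, Inv.mul_mul_cancel S.tt, k _ S.conj_u, zero_add]
    rw [add_zero]
    refine Ly.KK_zero fun e => ?_
    rw [constt_eq_self t2] at e
    obtain ⟨g, e⟩ := isConj_iff.1 e.symm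
    obtain ⟨k, hk⟩ := mem_zpowers_iff.1 (constt_mem_zpowers {2} (i * S.t))
    have jj : (i * S.t) ^ k * (i * S.t) ^ k = 1 := by rw [hk, ← e]; exact Inv.conj_mul_self S.tt g
    have j1 : (i * S.t) ^ k ≠ 1 := by rw [hk, ← e]; exact fun e => S.t_ne (conj_eq_one_iff.1 e)
    have j2 : (i * S.t) ^ (-k) = (i * S.t) ^ k := by rw [zpow_neg, Inv.inv_eq_self jj]
    have := S.cent_v (S.mem_V.2 ⟨mem_cent1_iff.2 (by rw [Inv.mul_zpow_right ii S.tt, j2]), jj⟩) j1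
    rcases S.inv i (this ▸ mem_cent1_iff.2 (by rw [Inv.mul_zpow_left ii S.tt, j2])) ii with h | h | h | h
    exacts [i1 h, j1 (by rw [h, S.tt, one_zpow]), h1 h, h2 h]
  have hx : ∀ χ ∈ B0 G 2, ∃ a N : ℤ, χ S.t = a ∧ χ 1 = a + 4 * N := fun χ hχ => by
    have hi := irr_of_B0 hχ
    obtain ⟨d, -, hd⟩ := hi.nat
    obtain ⟨N, hN⟩ := Ly.int2 hi.isVC (n := 1) (m := 1) (by rw [pow_succ, pow_one, S.tt]) (by rw [pow_succ, pow_one, S.uu])
      S.ut.symm (u := -1) (v := 1) (by simp) (by simp)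
    simp [Fin.sum_univ_two, ← hi.isCF.of_isConj S.conj_u, ← hi.isCF.of_isConj S.conj_tu] at hN
    exact ⟨d - 4 * N, N, by push_cast; linear_combination hd - hN, by push_cast; linear_combination hd⟩
  choose! a N ha hN using hx
  have h1 : a 1 = 1 := by exact_mod_cast (show (a 1 : ℂ) = 1 from (ha 1 (one_mem_B0 G 2)).symm)
  have h2 : ∑ χ ∈ (B0 G 2).erase 1, a χ ^ 2 = 3 := by
    rw [Ly.KK, Finset.sum_congr rfl (g := fun χ => ((a χ ^ 2 : ℤ) : ℂ)) fun χ hχ => by rw [ha χ hχ]; simp [sq],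
      ← Int.cast_sum, ← Finset.add_sum_erase _ _ (one_mem_B0 G 2), h1] at k1
    have : (1 ^ 2 + ∑ χ ∈ (B0 G 2).erase 1, a χ ^ 2 : ℤ) = 4 := by exact_mod_cast k1
    omega
  have h3 : ∀ χ ∈ (B0 G 2).erase 1, a χ ^ 2 = 1 := fun χ hχ => by
    have b1 := h2 ▸ Finset.single_le_sum (fun χ _ => sq_nonneg (a χ)) hχ
    have b2 : a χ ≠ 0 := fun e => Ly.ne_zero_of_B0 (Finset.mem_of_mem_erase hχ) S.odd_index (by
      rw [ha χ (Finset.mem_of_mem_erase hχ), e, Int.cast_zero])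
    have b3 : a χ < 2 := by nlinarith
    have b4 : -2 < a χ := by nlinarith
    interval_cases a χ <;> simp_all
  rw [Finset.sum_congr rfl h3, Finset.sum_const, nsmul_eq_mul, mul_one] at h2
  obtain ⟨x, y, z, xy, xz, yz, e⟩ := Finset.card_eq_three.1 (by exact_mod_cast h2 : ((B0 G 2).erase 1).card = 3)
  have h4 : ∀ χ ∈ (B0 G 2).erase 1, χ 1 * conj (χ S.t) = 4 * (a χ * N χ : ℤ) + 1 ∧
      χ S.t * χ S.t / χ 1 * conj (χ S.t) = (4 * (a χ * N χ : ℤ) + 1 : ℂ)⁻¹ := fun χ hχ => by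
    have b1 : (a χ : ℂ) ^ 2 = 1 := by exact_mod_cast h3 χ hχ
    have b2 := Finset.mem_of_mem_erase hχ
    have b3 := (irr_of_B0 b2).ne_zero_one
    have b4 : χ 1 * conj (χ S.t) = 4 * (a χ * N χ : ℤ) + 1 := by
      rw [ha χ b2, hN χ b2, map_intCast]; push_cast; linear_combination b1
    refine ⟨b4, eq_inv_of_mul_eq_one_left ?_⟩
    rw [← b4, ha χ b2, map_intCast]
    field_simp
    linear_combination (a χ ^ 2 + 1) * b1
  rw [Ly.KK, ← Finset.add_sum_erase _ _ (one_mem_B0 G 2), Finset.sum_congr rfl fun χ hχ => (h4 χ hχ).1, e,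
    Finset.sum_insert (by simp [xy, xz]), Finset.sum_pair yz] at k2
  rw [← Finset.add_sum_erase _ _ (one_mem_B0 G 2), Finset.sum_congr rfl fun χ hχ => (h4 χ hχ).2, e,
    Finset.sum_insert (by simp [xy, xz]), Finset.sum_pair yz] at k3
  generalize a x * N x = b1, a y * N y = b2, a z * N z = b3 at k2 k3
  simp only [Pi.one_apply, map_one, mul_one, div_one] at k2 k3
  refine four_arith (a := b1) (b := b2) (c := b3) ?_ ?_
  · have : (1 + (4 * b1 + 1 + (4 * b2 + 1 + (4 * b3 + 1))) : ℤ) = 0 := by exact_mod_cast k2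
    omega
  · apply Rat.cast_injective (α := ℂ)
    apply mul_left_cancel₀ (Ch.card_ne_zero' 𝐂[S.t])
    push_cast at k3 ⊢
    linear_combination k3

theorem ρ_norm : S.ρ ∈ 𝐍(S.V) := mem_normalizer_of_cj_le (by
  rw [V, cj_sup, cj_zpowers, cj_zpowers, S.ρ_t, S.ρ_u]
  exact sup_le le_sup_right (zpowers_le.2 (mul_mem S.t_V (mem_sup_right (mem_zpowers _)))))

theorem rel_norm : 𝐂[S.t].relIndex 𝐍(S.V) = 3 := by
  classical
  have h1 : S.t * S.u ≠ S.t := fun e => S.u_ne (mul_eq_left.1 e)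
  have h2 : S.t * S.u ≠ S.u := fun e => S.t_ne (mul_eq_right.1 e)
  have h3 : S.t ≠ S.u := fun e => S.tu_ne (by rw [← e, S.tt])
  rw [relIndex_cent1_ncard, Set.ncard_eq_three]
  refine ⟨S.t, S.u, S.t * S.u, h3, h1.symm, h2.symm, Set.ext fun y => ⟨?_, ?_⟩⟩
  · rintro ⟨h, hh, rfl⟩
    have := S.mem_V.1 (conj_mem_of_mem_normalizer hh S.t_V)
    exact (S.inv _ this.1 this.2).resolve_left fun e => S.t_ne (conj_eq_one_iff.1 e)
  · rintro (rfl | rfl | rfl)
    exacts [⟨1, one_mem _, by group⟩, ⟨_, S.ρ_norm, S.ρ_t.symm⟩,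
      ⟨_, mul_mem S.ρ_norm S.ρ_norm, by rw [← S.ρ_u, ← S.ρ_t]; group⟩]

theorem T_le_N : 𝐂[S.t] ≤ 𝐍(S.V) := norms_of_abelian S.comm S.V_le le_rfl

theorem idx : 𝐂[S.t].index = 3 ∨ 𝐂[S.t].index = 15 := by
  have h1 := S.idx_lt
  have h2 := relIndex_mul_index S.T_le_N
  rw [S.rel_norm] at h2
  omega

theorem core_idx (L : Subgroup G) : L.normalCore.index ∣ L.index.factorial := by
  rw [normalCore_eq_ker, index_ker, index_eq_card, ← Nat.card_perm]
  exact card_subgroup_dvd_card _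

theorem odd_le_T {K : Subgroup G} [hK : K.Normal] (ho : Odd (Nat.card K)) : K ≤ 𝐂[S.t] :=
  S.le_T (by rw [normalizer_eq_top]; exact le_top) ho

theorem no_idx4 (h : 𝐂[S.t].index = 15) {L : Subgroup G} (ho : Odd (Nat.card L)) : L.index ≠ 4 := fun e => by
  have := (index_dvd_of_le (S.odd_le_T (ho.of_dvd_nat (card_dvd_of_le' (normalCore_le L))))).trans (core_idx L)
  rw [h, e] at this
  exact absurd this (by decide)

theorem cent_odd {i d : G} (h2 : i * i = 1) (hd : d ∈ 𝐂[S.t]) (ho : Odd (orderOf d)) : i * d = d * i := by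
  by_cases h1 : i = 1
  · rw [h1, one_mul, mul_one]
  have k0 := relIndex_mul_index S.T_le_N
  obtain ⟨g, rfl⟩ := isConj_iff.1 (S.inv_conj h2 h1)
  rcases S.idx with h | h
  · rw [h, S.rel_norm, mul_eq_left₀ three_ne_zero, index_eq_one] at k0
    exact abelian_iff'.1 S.comm _ (S.V_le (conj_mem_of_mem_normalizer (k0 ▸ mem_top g) S.t_V)) _ hd
  have k1 : 𝐍(S.V).index = 5 := by rw [h, S.rel_norm] at k0; omega
  have k2 := core_idx 𝐍(S.V)
  set K := 𝐍(S.V).normalCore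
  have k3 : Odd (Nat.card K) := odd_card_of fun j hj j2 => by
    by_contra j1
    have : ∀ k, k * S.t * k⁻¹ ∈ S.V := fun k => by
      obtain ⟨c, rfl⟩ := isConj_iff.1 (S.inv_conj j2 j1)
      refine S.syl.mem_of_mem_norm (normalCore_le _ ?_) (mem_top _) (piElt_two_of_sq (Inv.conj_mul_self S.tt k))
      simpa [mul_assoc] using (inferInstance : K.Normal).conj_mem _ hj (k * c⁻¹)
    have h5 : 𝐂[S.t].index ≤ (S.V : Set G).ncard := by
      rw [← relIndex_top_right, relIndex_cent1_ncard]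
      exact Set.ncard_le_ncard (by rintro _ ⟨k, -, rfl⟩; exact this k)
    rw [← Nat.card_coe_set_eq, h] at h5
    exact absurd (h5.trans S.card_V.le) (by norm_num)
  have k4 := S.odd_le_T k3
  have k5 : K.relIndex 𝐂[S.t] ∣ 8 := by
    rw [← relIndex_mul_index k4, h, k1] at k2
    exact Nat.dvd_of_mul_dvd_mul_right (by norm_num : 0 < 15) k2
  haveI := S.comm
  have k6 : d ∈ K := by
    have := pow_relIndex_mem K hd
    obtain ⟨m, hm⟩ := k5
    have h8 := pow_mem this m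
    rw [← pow_mul, ← hm, show d ^ 8 = d * d * (d * d) * (d * d * (d * d)) by simp only [pow_succ, pow_zero, one_mul, mul_assoc]] at h8
    exact mem_of_sq_mem ho (mem_of_sq_mem (ho.of_dvd_nat (sq d ▸ orderOf_pow_dvd 2))
      (mem_of_sq_mem (ho.of_dvd_nat (by rw [← sq, ← sq, ← pow_mul]; exact orderOf_pow_dvd _)) h8))
  have := mem_cent1_iff.1 (k4 ((inferInstance : K.Normal).conj_mem _ k6 g⁻¹))
  calc _ = g * (S.t * (g⁻¹ * d * g⁻¹⁻¹)) * g⁻¹ := by group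
    _ = _ := by rw [← this]; group
end Four
end CA.Br
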