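/-
Brauer's characterization of `PSL₃(q)` and `M₁₁`: the case where `ρ` centralizes the odd part of the torus.
-/
import Cfsg.Agent.Lib.Br.Four

set_option autoImplicit false
set_option linter.unusedSectionVars false

namespace CA.Br
open Cfsg Subgroup CA CA.Ch CA.Blk

namespace Abs0
variable {G : Type*} [Group G] [Finite G] (S : Abs0 G)

theorem cent_y {y : G} (hy : y ∈ S.T) (hz : y ∉ S.Z) : S.H ⊓ 𝐂[y] = S.T :=
  le_antisymm (fun _ h => S.cent_T hy hz h.1 (mem_cent1_iff.1 h.2))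
    (le_inf S.T_le_H (mem_cent_iff_le_cent1.1 (abelian_iff.1 S.commT hy)))

theorem not_Z {y : G} (hy : y ∈ S.Tm) (ho : Odd (orderOf y)) (h1 : y ≠ 1) : y ∉ S.Z := fun h =>
  h1 (eq_one_of_inv ho (S.mem_Tm.1 hy).2 (S.Z_comm h S.w_H))

theorem half (h4 : S.Q % 4 = 3) : ∃ N : ℕ, Odd N ∧ (S.q : ℤ) - S.e = 2 * N := by
  have := S.three_le
  refine ⟨(((S.q : ℤ) - S.e) / 2).toNat, Nat.odd_iff.2 ?_, ?_⟩ <;> rcases S.Q_cases with ⟨a, b⟩ | ⟨a, b⟩ <;> omega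

theorem not_eight (h4 : S.Q % 4 = 3) : ¬ 8 ∣ Nat.card S.T := fun h => by
  obtain ⟨N, hN, e⟩ := S.half h4
  obtain ⟨k, -, e'⟩ := S.d_dvd
  have h1 := S.card_T
  rw [e] at h1 e'
  have h2 : Nat.card S.T = 2 * (N * Nat.card S.Z) := by rw [← mul_assoc]; exact_mod_cast h1
  have h3 : 2 * N = Nat.card S.Z * k := by exact_mod_cast e'
  rw [h2] at h
  have := (((Nat.coprime_two_left.2 hN).pow_left 2).dvd_of_dvd_mul_left
    (Nat.dvd_of_mul_dvd_mul_left two_pos h)).mul_right k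
  rw [← h3, Nat.odd_iff] at *
  omega

section
variable (h4 : S.Q % 4 = 3) (h : S.Triv) {y : G} (hy : y ∈ S.T) (hz : y ∉ S.Z) (ho : Odd (orderOf y))
include hy hz

theorem T_le_cy : S.T ≤ 𝐂[y] := S.cent_y hy hz ▸ inf_le_right

theorem cent_sub : 𝐂[(⟨S.t, S.T_le_cy hy hz S.t_T⟩ : 𝐂[y])] = S.T.subgroupOf 𝐂[y] := by
  ext x
  rw [mem_subgroupOf, ← S.cent_y hy hz, mem_inf, S.mem_H, mem_cent1_iff, Subtype.ext_iff]
  simp

/-- the centralizer of `y` -/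
def four : Four 𝐂[y] where
  t := ⟨S.t, S.T_le_cy hy hz S.t_T⟩
  u := ⟨S.u, S.T_le_cy hy hz S.u_T⟩
  ρ := ⟨S.ρ, mem_cent1_iff.2 (h y hy ho)⟩
  tt := Subtype.ext S.tt
  t_ne e := S.t_ne (congrArg Subtype.val e)
  ut := Subtype.ext S.ut
  ρ_t := Subtype.ext S.ρ_t
  ρ_u := Subtype.ext S.ρ_u
  comm := by
    rw [S.cent_sub hy hz]
    exact abelian_iff'.2 fun a ha b hb => Subtype.ext (abelian_iff'.1 S.commT _ ha _ hb)
  n8 := by rw [S.cent_sub hy hz, card_subgroupOf_of_le (S.T_le_cy hy hz)]; exact S.not_eight h4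
  inv x hx h2 := by
    rw [S.cent_sub hy hz] at hx
    simp only [Subtype.ext_iff]
    exact S.inv_T hx (congrArg Subtype.val h2)

include h4 h ho
theorem rel_y : S.T.relIndex 𝐂[y] = 3 ∨ S.T.relIndex 𝐂[y] = 15 := by
  rw [relIndex, ← S.cent_sub hy hz]; exact (S.four h4 h hy hz ho).idx

theorem comm_y {i d : G} (h2 : i * i = 1) (hi : i ∈ 𝐂[y]) (hd : d ∈ S.T) (hd' : Odd (orderOf d)) : i * d = d * i :=
  congrArg Subtype.val ((S.four h4 h hy hz ho).cent_odd (i := ⟨i, hi⟩) (d := ⟨d, S.T_le_cy hy hz hd⟩) (Subtype.ext h2)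
    ((S.cent_sub hy hz).ge hd) (by rwa [← orderOf_coe]))

theorem conj_y {i : G} (h2 : i * i = 1) (h1 : i ≠ 1) (hi : i ∈ 𝐂[y]) : ∃ g ∈ 𝐂[y], i = g * S.t * g⁻¹ := by
  obtain ⟨g, e⟩ := isConj_iff.1 ((S.four h4 h hy hz ho).inv_conj (i := ⟨i, hi⟩) (Subtype.ext h2)
    fun e => h1 (congrArg Subtype.val e))
  exact ⟨g, g.2, (congrArg Subtype.val e).symm⟩

theorem no4_y (h15 : S.T.relIndex 𝐂[y] = 15) {L : Subgroup G} (hL : L ≤ 𝐂[y]) (hL' : Odd (Nat.card L)) :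
    L.relIndex 𝐂[y] ≠ 4 :=
  (S.four h4 h hy hz ho).no_idx4 (by rw [← h15, relIndex, ← S.cent_sub hy hz]; rfl) (by rwa [card_subgroupOf_of_le hL])
end

theorem idx_mod (h4 : S.Q % 4 = 3) (h : S.Triv) {y : G} (hy : y ∈ S.Tm) (ho : Odd (orderOf y)) (h1 : y ≠ 1) :
    ∃ k, S.H.index = S.T.relIndex 𝐂[y] + orderOf y * k := by
  have hT := S.Tm_le_T hy
  have hz := S.not_Z hy ho h1
  have h2 : {i | ∃ g ∈ 𝐂[y], i = g * S.t * g⁻¹} ⊆ {i | ∃ g ∈ (⊤ : Subgroup G), i = g * S.t * g⁻¹} :=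
    fun i ⟨g, _, e⟩ => ⟨g, mem_top _, e⟩
  have h3 : ∀ g, g * S.t * g⁻¹ ∈ {i | ∃ g ∈ 𝐂[y], i = g * S.t * g⁻¹} ↔ g * S.t * g⁻¹ ∈ 𝐂[y] := fun g =>
    ⟨fun ⟨k, hk, e⟩ => e ▸ mul_mem (mul_mem hk (S.T_le_cy hT hz S.t_T)) (inv_mem hk),
      S.conj_y h4 h hT hz ho (Inv.conj_mul_self S.tt g) fun e => S.t_ne (conj_eq_one_iff.1 e)⟩
  obtain ⟨k, hk⟩ := card_dvd_ncard_of_conj (H := zpowers y) (S := {i | ∃ g ∈ (⊤ : Subgroup G), i = g * S.t * g⁻¹} \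
    {i | ∃ g ∈ 𝐂[y], i = g * S.t * g⁻¹}) (by
      rintro x hx _ ⟨⟨g, -, rfl⟩, hg⟩
      have hx' : x ∈ 𝐂[y] := zpowers_le.2 (self_mem_cent1 y) hx
      rw [show x * (g * S.t * g⁻¹) * x⁻¹ = x * g * S.t * (x * g)⁻¹ by group]
      refine ⟨⟨_, mem_top _, rfl⟩, fun a => hg ((h3 g).2 ?_)⟩
      simpa [mul_assoc] using mul_mem (mul_mem (inv_mem hx') ((h3 _).1 a)) hx') (by
      rintro x hx _ ⟨⟨g, -, rfl⟩, hg⟩ e
      by_contra x1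
      have a1 := zpowers_le.2 hy hx
      have a2 := ho.of_dvd_nat (orderOf_dvd_of_mem_zpowers hx)
      exact hg ((h3 g).2 (mem_cent1_iff.2 (S.comm_y h4 h (S.Tm_le_T a1) (S.not_Z a1 a2 x1) a2 (Inv.conj_mul_self S.tt g)
        (mem_cent1_iff.2 e.symm) hT ho))))
  refine ⟨k, ?_⟩
  rw [← Nat.card_zpowers, ← hk, ← S.cent_y hT hz, inf_relIndex_right, S.H_eq, ← relIndex_top_right, relIndex_cent1_ncard,
    relIndex_cent1_ncard, add_comm, Set.ncard_diff_add_ncard_of_subset h2]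

theorem exists_y {N : ℕ} (e : (S.q : ℤ) - S.e = 2 * N) : ∃ y ∈ S.Tm, orderOf y = N := by
  obtain ⟨g, hg, e'⟩ := isCyclic_iff_exists_zpowers.1 S.cyc_Tm
  have h1 := S.card_Tm
  rw [e, e', Nat.card_zpowers] at h1
  have h2 : orderOf g = 2 * N := by exact_mod_cast h1
  exact ⟨g ^ 2, pow_mem hg 2, by rw [orderOf_pow_of_dvd two_ne_zero ⟨N, h2⟩, h2, Nat.mul_div_cancel_left _ two_pos]⟩

theorem triv_n (h4 : S.Q % 4 = 3) (h3 : 3 < S.q) (h : S.Triv) :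
    ∃ n : ℤ, (n = 3 ∨ n = 15) ∧ (S.H.index : ℤ) ≡ n [ZMOD (S.Q - 1) / 2] := by
  obtain ⟨N, hN, e⟩ := S.half h4
  obtain ⟨y, hy, rfl⟩ := S.exists_y e
  have h1 : y ≠ 1 := by
    rintro rfl
    rw [orderOf_one] at e
    rcases S.he with a | a <;> omega
  obtain ⟨k, hk⟩ := S.idx_mod h4 h hy hN h1
  refine ⟨S.T.relIndex 𝐂[y], by exact_mod_cast S.rel_y h4 h (S.Tm_le_T hy) (S.not_Z hy hN h1) hN,
    (Int.modEq_iff_dvd.2 ⟨S.e * k, ?_⟩).symm⟩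
  have : (S.Q - 1) / 2 = S.e * orderOf y := by rcases S.Q_cases with ⟨a, b⟩ | ⟨a, b⟩ <;> rw [a] at e ⊢ <;> omega
  rw [this, hk]
  push_cast
  linear_combination (-(orderOf y * k : ℤ)) * S.e_sq

end Abs0
end CA.Br
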