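/-
Brauer's characterization of `PSL₃(q)` and `M₁₁`: the `p`-local analysis.
-/
import Cfsg.Agent.Lib.Br.GL2b
import Cfsg.Agent.Lib.Br.Loc2

set_option autoImplicit false
set_option linter.unusedSectionVars false

namespace CA.Br
open Cfsg Subgroup CA CA.Ch CA.Blk

variable {F : Type*} [Field F] {G : Type*} [Group G] [Fintype F] [Finite G]
local notation "𝔮" => Fintype.card F

namespace Hyp
variable (S : Hyp G F)

theorem V_comm : IsMulCommutative S.V := abelian_of_le S.instCommT S.V_le_T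
theorem V_sq {x : G} (hx : x ∈ S.V) : x * x = 1 := by
  rcases S.mem_V.1 hx with rfl | rfl | rfl | rfl
  exacts [mul_one _, S.tt, S.uu, by rw [mul_assoc, ← mul_assoc S.u, S.ut, mul_assoc, S.uu, mul_one, S.tt]]
theorem V_ncyc : ¬ IsCyclic S.V := fun h => by
  obtain ⟨a, ha, e⟩ := isCyclic_iff_exists_zpowers.1 h
  have h1 := S.card_V
  rw [e, Nat.card_zpowers] at h1
  have : orderOf a ∣ 2 := orderOf_dvd_of_pow_eq_one (by rw [sq, S.V_sq ha])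
  rw [h1] at this
  omega
theorem conj_V {n x : G} (hn : n ∈ 𝐍(S.T)) (hx : x ∈ S.V) : n * x * n⁻¹ ∈ S.V :=
  conj_mem_of_mem_normalizer (S.norm_V ▸ hn) hx
theorem exists_m {v : G} (hv : v ∈ S.V) (h1 : v ≠ 1) : ∃ m ∈ 𝐍(S.T), m * S.t * m⁻¹ = v := by
  rcases S.mem_V.1 hv with rfl | rfl | rfl | rfl
  exacts [absurd rfl h1, ⟨1, one_mem _, by group⟩, ⟨_, S.ρ_norm, S.ρ_t⟩,
    ⟨_, mul_mem S.ρ_norm S.ρ_norm, by rw [← S.ρ_u, ← S.ρ_t]; group⟩]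
theorem inv_U {v y : G} (hv : v ∈ S.V) (h1 : v ≠ 1) (ht : v ≠ S.t) (hy : y ∈ S.U) : v * y * v⁻¹ = y⁻¹ := by
  rcases S.mem_V.1 hv with rfl | rfl | rfl | rfl
  exacts [absurd rfl h1, absurd rfl ht, S.u_inv_U hy, by
    rw [_root_.mul_inv_rev, show S.t * S.u * y * (S.u⁻¹ * S.t⁻¹) = S.t * (S.u * y * S.u⁻¹) * S.t⁻¹ by group, S.u_inv_U hy,
      ← S.mem_H.1 (inv_mem (S.U_le_H hy)), mul_inv_cancel_right]]
theorem inv_cjU {n v y : G} (hn : n ∈ 𝐍(S.T)) (hv : v ∈ S.V) (h1 : v ≠ 1) (ht : v ≠ n * S.t * n⁻¹)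
    (hy : y ∈ cj n S.U) : v * y * v⁻¹ = y⁻¹ := by
  have := S.inv_U (S.conj_V (inv_mem hn) hv) (fun e => h1 (conj_eq_one_iff.1 e))
    (fun e => ht (by rw [← e]; group)) (mem_cj.1 hy)
  calc v * y * v⁻¹ = n * (n⁻¹ * v * n⁻¹⁻¹ * (n⁻¹ * y * n) * (n⁻¹ * v * n⁻¹⁻¹)⁻¹) * n⁻¹ := by group
    _ = y⁻¹ := by rw [this]; group
theorem cj_T {n : G} (hn : n ∈ 𝐍(S.T)) : cj n S.T = S.T := cj_eq_of_mem_normalizer hn
theorem T_norm_cjU {n : G} (hn : n ∈ 𝐍(S.T)) : S.T ≤ 𝐍(cj n S.U) := by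
  rw [← cj_normalizer, ← S.cj_T hn]; exact cj_mono _ S.T_norm_U
theorem cj_H (n : G) : cj n S.H = 𝐂[n * S.t * n⁻¹] := by rw [S.H_eq, cj_centralizer_singleton]
theorem U_ne : S.U ≠ ⊥ := by rw [← one_lt_card_iff_ne_bot', S.card_U]; exact Fintype.one_lt_card
theorem odd_U : Odd (Nat.card S.U) := S.card_U ▸ S.odd
theorem U_comm : IsMulCommutative S.U := abelian_iff'.2 (by
  rintro _ ⟨a, rfl⟩ _ ⟨b, rfl⟩; rw [← map_mul, mul_comm, map_mul])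
theorem H_cent_U : S.H ⊓ 𝐂(S.U) ≤ S.Z ⊔ S.U := fun h hh => by
  obtain ⟨y, hy, h1⟩ := exists_ne_one_mem' S.U_ne
  exact S.cent_U hy h1 hh.1 (mem_cent_iff'.1 hh.2 y hy)
theorem t_cent_U : S.t ∈ 𝐂(S.U) := mem_cent_iff.2 fun _ hy => S.mem_H.1 (S.U_le_H hy)
theorem card_G : Nat.card G = S.H.index * (𝔮 * ((𝔮 - 1) * (𝔮 + 1)) * S.d) := by rw [← S.card_H, index_mul_card]
theorem d_pos : 0 < S.d := Nat.card_pos
theorem cop_q : (𝔮).Coprime ((𝔮 - 1) * (𝔮 + 1) * S.d) := by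
  obtain ⟨k, -, e⟩ := S.d_dvd
  have h : (𝔮).Coprime (𝔮 - 1) := (Nat.coprime_self_sub_right Fintype.card_pos).2 (by simp)
  exact (h.mul_right (by simp)).mul_right (h.coprime_dvd_right ⟨k, e⟩)

theorem odd_T {x : G} (ho : Odd (orderOf x)) (h : x ∈ S.T ∨ S.w * x ∈ S.T) : x ∈ S.T := h.elim id fun h =>
  mem_of_sq_mem ho (by
    have := mul_mem (S.w_T h) h
    rwa [show S.w * (S.w * x) * S.w⁻¹ * (S.w * x) = S.w * S.w * (x * x) by group, S.ww', one_mul] at this)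

theorem NU_eq : 𝐍(S.U) = piCoreOf {2}ᶜ 𝐍(S.U) ⊔ S.T := by
  refine le_antisymm (fun g hg => ?_) (sup_le (piCoreOf_le _ _) S.T_norm_U)
  obtain ⟨o, ho, c, hc, e, rfl⟩ := zstar_factor (S.T_norm_U S.t_T) S.tt (fun k hk c => by
    refine (S.inv_ZU (S.H_cent_U ⟨S.mem_H.2 c.eq.symm, conj_mem_of_mem_normalizer
      (normalizer_le_normalizer_centralizer _ hk) S.t_cent_U⟩) (Inv.conj_mul_self S.tt k)).resolve_left fun e => S.t_ne ?_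
    simpa using e) hg
  refine mul_mem (mem_sup_left ho) (sup_le le_sup_right (le_sup_of_le_left (le_piCoreOf ⟨le_normalizer, le_rfl⟩ ?_))
    (S.norm_U ▸ (⟨S.mem_H.2 e, hc⟩ : c ∈ S.H ⊓ 𝐍(S.U))))
  exact (piGrp_compl_singleton Nat.prime_two).2 (by rw [← even_iff_two_dvd, Nat.not_even_iff_odd]; exact S.odd_U)

theorem le_of_V {K J : Subgroup G} (hn : S.V ≤ 𝐍(K)) (ho : Odd (Nat.card K))
    (h : ∀ m ∈ 𝐍(S.T), K ⊓ 𝐂[m * S.t * m⁻¹] ≤ J) : K ≤ J :=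
  le_of_cent1_noncyclic S.V_comm S.V_ncyc hn (S.card_V ▸ (Nat.coprime_two_right.2 ho).pow_right 2) fun a ha h1 => by
    obtain ⟨m, hm, rfl⟩ := S.exists_m ha h1
    exact h m hm

theorem comm_of_mem {n x : G} (hn : n ∈ 𝐍(S.T)) (hnt : n * S.t * n⁻¹ ≠ S.t) (hx : x ∈ cj n S.U) (h1 : x ≠ 1)
    (hN : x ∈ 𝐍(S.U)) : cj n S.U ≤ 𝐂(S.U) := fun y hy => by
  have hc : x ∈ 𝐂(S.U) := mem_of_sq_mem (odd_of_mem (card_cj n S.U ▸ S.odd_U) hx) (by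
    have := mul_mem (conj_mem_of_mem_normalizer (normalizer_le_normalizer_centralizer _ hN) S.t_cent_U) (inv_mem S.t_cent_U)
    rwa [mul_assoc, mul_assoc, ← mul_assoc S.t, S.inv_cjU hn S.t_V S.t_ne hnt.symm (inv_mem hx), inv_inv] at this)
  by_cases y1 : y = 1
  · exact y1 ▸ one_mem _
  obtain ⟨s, hs, e⟩ := S.U_trans (mem_cj.1 hx) (ne_one_cj h1) (mem_cj.1 hy) (ne_one_cj y1)
  have := conj_mem_of_mem_normalizer (norms_cent S.T_norm_U (conj_mem_of_mem_normalizer hn hs)) hc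
  rwa [show n * s * n⁻¹ * x * (n * s * n⁻¹)⁻¹ = n * (s * (n⁻¹ * x * n) * s⁻¹) * n⁻¹ by group, e,
    show n * (n⁻¹ * y * n) * n⁻¹ = y by group] at this

section
variable (p : ℕ) [hp : Fact p.Prime] [CharP F p]

theorem p_dvd_q : p ∣ 𝔮 := (prime_dvd_char_iff_dvd_card p).1 (ringChar.eq F p ▸ dvd_rfl)
theorem p_not_dvd : ¬ p ∣ (𝔮 - 1) * (𝔮 + 1) * S.d := fun h =>
  hp.out.one_lt.ne' (Nat.eq_one_of_dvd_coprimes S.cop_q (p_dvd_q p) h)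
include S in
theorem odd_of_p {P : Subgroup G} (h : PiGrp {p} P) : Odd (Nat.card P) := h.piNum.odd fun e => by
  have := p_dvd_q (F := F) p
  rw [← Set.mem_singleton_iff.1 e, ← even_iff_two_dvd, ← Nat.not_odd_iff_even] at this
  exact this S.odd

theorem psub {m : G} (hm : m ∈ 𝐍(S.T)) {P : Subgroup G} (hP : P ≤ 𝐂[m * S.t * m⁻¹]) (h : PiGrp {p} P)
    (hV : S.V ≤ 𝐍(P)) : ∃ n ∈ 𝐍(S.T), n * S.t * n⁻¹ = m * S.t * m⁻¹ ∧ P ≤ cj n S.U := by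
  rw [← cj_H, le_cj_iff] at hP
  rcases S.p_sub p hP (h.cj _) (by
    rw [← cj_normalizer, mem_cj_inv]; exact hV (S.conj_V hm (S.mem_V.2 (by simp)))) with h | h
  · exact ⟨m, hm, rfl, le_cj_iff.2 h⟩
  · exact ⟨m * S.w, mul_mem hm S.w_norm, by rw [mul_assoc m, S.wt]; group, by rw [cj_mul, S.cj_w_U]; exact le_cj_iff.2 h⟩

theorem syl_B : SylowIn p S.U (S.T ⊔ S.U) :=
  hall_of_sup_right (Or.inr S.T_norm_U) ((piGrp_compl_singleton hp.out).2 (S.T_pgrp p)) (S.U_pgrp p)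

theorem exists_comm (h : p ∣ S.H.index) : ∃ n ∈ 𝐍(S.T), n * S.t * n⁻¹ ≠ S.t ∧ cj n S.U ≤ 𝐂(S.U) := by
  by_contra hn
  have hK := piCoreOf_le {2}ᶜ 𝐍(S.U)
  have hT : S.T ≤ 𝐍(piCoreOf {2}ᶜ 𝐍(S.U)) := S.T_norm_U.trans (piCoreOf_norm _ _)
  obtain ⟨P, hP, nP⟩ := (copAct_p_right (S.V_le_T.trans hT) (piCoreOf_piGrp _ _)
    (piGrp_of_card_pow Nat.prime_two (k := 2) S.card_V)).exists_sylowIn p
  have h1 : P ≤ S.U := S.le_of_V nP (S.odd_of_p p hP.piGrp) fun m hm => by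
    by_cases e : m * S.t * m⁻¹ = S.t
    · rw [e, ← S.H_eq]
      exact (S.syl_B p).le_of_normal (sup_le S.T_norm_U le_normalizer)
        (S.norm_U ▸ le_inf inf_le_right (inf_le_left.trans (hP.le.trans hK))) (hP.piGrp.inf_left _)
    · obtain ⟨n, hn1, e1, h2⟩ := S.psub p hm inf_le_right (hP.piGrp.inf_left _) (norms_inf nP
        (norms_cent1 fun x hx => mem_cent1_iff.2 (abelian_iff'.1 S.V_comm _ hx _ (S.conj_V hm S.t_V))))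
      intro x hx
      by_contra x1
      exact hn ⟨n, hn1, e1 ▸ e, S.comm_of_mem hn1 (e1 ▸ e) (h2 hx) (fun e => x1 (e ▸ one_mem _)) (hK (hP.le hx.1))⟩
  have h2 : SylowIn p P 𝐍(S.U) := hP.of_not_dvd_relIndex hK hp.out fun a => S.T_pgrp p (by
    have := relIndex_sup_of_norm hT
    rw [← S.NU_eq] at this
    exact (this ▸ a).trans (relIndex_dvd_card _ _))
  rw [← h2.eq_of_le h1 le_normalizer (S.U_pgrp p)] at h2
  have h3 := h2.of_norm_le_top le_rfl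
  exact h3.not_dvd hp.out (by rw [relIndex_top_right, ← relIndex_mul_index S.U_le_H]; exact h.mul_left _)

theorem over_cj (hq : 5 < 𝔮) {m : G} (hm : m ∈ 𝐍(S.T)) {X : Subgroup G} (h1 : S.T ≤ X) (h2 : X ≤ 𝐂[m * S.t * m⁻¹])
    (h : ¬ p ∣ Nat.card X) {x : G} (hx : x ∈ X) : x ∈ S.T ∨ m * S.w * m⁻¹ * x ∈ S.T := by
  rw [← cj_H, le_cj_iff] at h2
  rcases S.over_p' p hq (by rw [← S.cj_T (inv_mem hm)]; exact cj_mono _ h1) h2 (by rwa [card_cj])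
    (conj_mem_cj.2 hx) with h | h
  · exact Or.inl (by simpa [mul_assoc] using conj_mem_of_mem_normalizer hm h)
  · exact Or.inr (by simpa [mul_assoc] using conj_mem_of_mem_normalizer hm h)

theorem NU_eq_B (hq : 5 < 𝔮) (h : ¬ p ∣ S.H.index) : 𝐍(S.U) = S.T ⊔ S.U ∧ SylowIn p S.U ⊤ := by
  have h0 : SylowIn p S.U ⊤ := sylowIn_mk hp.out le_top ((S.U_pgrp p).isPGroup hp.out) fun a => by
    have := card_mul_relIndex (le_top (a := S.U))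
    rw [card_top, S.card_G, S.card_U, mul_assoc, mul_left_comm, mul_right_inj' Fintype.card_ne_zero] at this
    exact (hp.out.dvd_mul.1 (this ▸ a)).elim h (S.p_not_dvd p)
  have hK := piCoreOf_le {2}ᶜ 𝐍(S.U)
  refine ⟨le_antisymm (S.NU_eq.le.trans (sup_le (S.le_of_V (S.V_le_T.trans (S.T_norm_U.trans (piCoreOf_norm _ _)))
    (odd_core _) fun m hm => ?_) le_sup_left)) (sup_le S.T_norm_U le_normalizer), h0⟩
  by_cases e : m * S.t * m⁻¹ = S.t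
  · rw [e, ← S.H_eq, ← S.norm_U, inf_comm]; exact inf_le_inf_left _ hK
  · intro x hx
    have hv := S.conj_V hm S.t_V
    have := S.over_cj p hq hm (X := 𝐍(S.U) ⊓ 𝐂[m * S.t * m⁻¹]) (le_inf S.T_norm_U fun y hy =>
      mem_cent1_iff.2 (abelian_iff'.1 S.instCommT _ hy _ (S.V_le_T hv))) inf_le_right (fun a => by
        obtain ⟨y, hy, o⟩ := exists_orderOf_eq_prime hp.out a
        have yU := h0.mem_of_mem_norm hy.1 (mem_top _) ((piElt_of_orderOf_prime hp.out o).2 rfl)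
        rw [eq_one_of_inv (odd_of_mem S.odd_U yU) (S.inv_U hv (fun e => S.t_ne (conj_eq_one_iff.1 e)) e yU) (mem_cent1_iff.1 hy.2),
          orderOf_one] at o
        exact hp.out.one_lt.ne o) ⟨hK hx.1, hx.2⟩
    refine mem_sup_left ?_
    have := S.odd_T (x := m⁻¹ * x * m⁻¹⁻¹) (by rw [orderOf_conj']; exact odd_of_mem (odd_core _) hx.1) (this.imp
      (conj_mem_of_mem_normalizer (inv_mem hm)) fun h => by
        simpa [mul_assoc] using conj_mem_of_mem_normalizer (inv_mem hm) h)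
    simpa [mul_assoc] using conj_mem_of_mem_normalizer hm this
end

section
variable {n : G} (hn : n ∈ 𝐍(S.T)) (hnt : n * S.t * n⁻¹ ≠ S.t) (hc : cj n S.U ≤ 𝐂(S.U))
include hn hnt

theorem v_V : S.t * (n * S.t * n⁻¹) ∈ S.V := mul_mem S.t_V (S.conj_V hn S.t_V)
theorem v_ne : S.t * (n * S.t * n⁻¹) ≠ 1 := fun e => hnt (by rw [← inv_eq_of_mul_eq_one_right e, Inv.inv_eq_self S.tt])
theorem U_inf_cj : S.U ⊓ cj n S.U = ⊥ := eq_bot_iff.2 fun x hx => mem_bot.2 (eq_one_of_inv (odd_of_mem S.odd_U hx.1)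
  (S.inv_cjU hn S.t_V S.t_ne hnt.symm hx.2) (S.mem_H.1 (S.U_le_H hx.1)))
include hc
theorem E_comm : IsMulCommutative ↥(S.U ⊔ cj n S.U) := abelian_sup S.U_comm ((abelian_cj n).2 S.U_comm) (cents_symm hc)
theorem card_E : Nat.card ↥(S.U ⊔ cj n S.U) = 𝔮 * 𝔮 := by
  rw [card_sup_of_disjoint (Or.inl (norms_of_cents hc)) (S.U_inf_cj hn hnt), card_cj, S.card_U]
theorem v_inv {x : G} (hx : x ∈ S.U ⊔ cj n S.U) : S.t * (n * S.t * n⁻¹) * x * (S.t * (n * S.t * n⁻¹))⁻¹ = x⁻¹ := by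
  obtain ⟨a, ha, b, hb, rfl⟩ := (mem_sup_of_norm_right (norms_of_cents hc)).1 hx
  have h1 := S.inv_U (S.v_V hn hnt) (S.v_ne hn hnt) (fun e => S.t_ne (conj_eq_one_iff.1 (mul_eq_left.1 e))) ha
  have h2 := S.inv_cjU hn (S.v_V hn hnt) (S.v_ne hn hnt) (fun e => S.t_ne (mul_eq_right.1 e)) hb
  rw [← conj_mul, h1, h2, mem_cent_iff.1 (hc hb) a ha, _root_.mul_inv_rev]
theorem odd_CE : Odd (Nat.card 𝐂(S.U ⊔ cj n S.U)) := odd_card_of fun i hi h2 => by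
  by_contra h1
  obtain ⟨g, rfl⟩ := isConj_iff.1 (S.inv_conj h2 h1)
  have := card_dvd_of_le' (mem_cent_iff_le_cent1.1 hi)
  rw [← cj_H, card_cj, S.card_E hn hnt hc, S.card_H, mul_assoc, Nat.mul_dvd_mul_iff_left Fintype.card_pos] at this
  exact Fintype.one_lt_card.ne' (S.cop_q.eq_one_of_dvd this)
theorem T_le_X : S.T ≤ 𝐍(S.U ⊔ cj n S.U) ⊓ 𝐂[S.t * (n * S.t * n⁻¹)] :=
  le_inf (norms_sup S.T_norm_U (S.T_norm_cjU hn)) fun y hy =>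
    mem_cent1_iff.2 (abelian_iff'.1 S.instCommT _ hy _ (S.V_le_T (S.v_V hn hnt)))
theorem NE_eq : 𝐍(S.U ⊔ cj n S.U) = (S.U ⊔ cj n S.U) ⊔ (𝐍(S.U ⊔ cj n S.U) ⊓ 𝐂[S.t * (n * S.t * n⁻¹)]) := by
  have hT := S.T_le_X hn hnt hc
  have hv := S.v_V hn hnt
  have vv := S.V_sq hv
  have h1 : 𝐂(S.U ⊔ cj n S.U) ≤ (S.U ⊔ cj n S.U) ⊔ (𝐍(S.U ⊔ cj n S.U) ⊓ 𝐂[S.t * (n * S.t * n⁻¹)]) := by
    refine S.le_of_V (S.V_le_T.trans (norms_cent (hT.trans inf_le_left))) (S.odd_CE hn hnt hc) fun m hm => ?_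
    by_cases e1 : m * S.t * m⁻¹ = S.t
    · rw [e1, ← S.H_eq, inf_comm]
      exact ((inf_le_inf_left _ (cent_mono le_sup_left)).trans S.H_cent_U).trans
        (sup_le (le_sup_of_le_right (S.Z_le_T.trans hT)) (le_sup_of_le_left le_sup_left))
    by_cases e2 : m * S.t * m⁻¹ = n * S.t * n⁻¹
    · rw [e2, ← S.cj_H, inf_comm]
      refine (inf_le_inf_left _ (cent_mono le_sup_right)).trans ?_
      rw [← cj_centralizer, ← cj_inf]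
      refine (cj_mono _ S.H_cent_U).trans ?_
      rw [cj_sup]
      exact sup_le (le_sup_of_le_right ((cj_le_of_mem_normalizer S.Z_le_T hn).trans hT)) (le_sup_of_le_left le_sup_right)
    have : m * S.t * m⁻¹ = S.t * (n * S.t * n⁻¹) := by
      have a1 : m * S.t * m⁻¹ ≠ 1 := fun e => S.t_ne (conj_eq_one_iff.1 e)
      have a2 : n * S.t * n⁻¹ ≠ 1 := fun e => S.t_ne (conj_eq_one_iff.1 e)
      rcases S.mem_V.1 (S.conj_V hm S.t_V) with a | a | a | a <;>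
        rcases S.mem_V.1 (S.conj_V hn S.t_V) with b | b | b | b <;> simp_all [Inv.mul_mul_cancel S.tt]
    rw [this]
    exact le_sup_of_le_right (inf_le_inf_right _ (centralizer_le_normalizer _))
  refine le_antisymm (fun g hg => ?_) (sup_le le_normalizer inf_le_left)
  set v := S.t * (n * S.t * n⁻¹) with hvd
  have h2 : v * (g * v * g⁻¹) ∈ 𝐂(S.U ⊔ cj n S.U) := mem_cent_iff'.2 fun a ha => by
    have b1 := S.v_inv hn hnt hc (conj_inv_mem_of_mem_normalizer hg ha)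
    have b2 := S.v_inv hn hnt hc (inv_mem ha)
    rw [← hvd] at b1 b2
    calc v * (g * v * g⁻¹) * a = v * g * (v * (g⁻¹ * a * g) * v⁻¹) * v * g⁻¹ := by group
      _ = v * a⁻¹ * v⁻¹ * (v * (g * v * g⁻¹)) := by rw [b1]; group
      _ = _ := by rw [b2, inv_inv]
  obtain ⟨k, hk⟩ := Inv.conj_of_odd vv (Inv.conj_mul_self vv g) (odd_of_mem (S.odd_CE hn hnt hc) h2)
  have h3 := zpow_mem h2 k
  generalize (v * (g * v * g⁻¹)) ^ k = c at hk h3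
  rw [show g = c * (c⁻¹ * g) by group]
  exact mul_mem (h1 h3) (mem_sup_right (mem_inf.2 ⟨mul_mem (inv_mem (centralizer_le_normalizer _ h3)) hg, mem_cent1_iff.2 (by
    rw [mul_assoc, show g * v = g * v * g⁻¹ * g by group, ← hk]; group)⟩))
theorem card_NE : Nat.card 𝐍(S.U ⊔ cj n S.U) =
    𝔮 * 𝔮 * Nat.card ↥(𝐍(S.U ⊔ cj n S.U) ⊓ 𝐂[S.t * (n * S.t * n⁻¹)]) := by
  rw [← S.card_E hn hnt hc, ← card_sup_of_disjoint (Or.inl inf_le_left) (eq_bot_iff.2 fun x hx => mem_bot.2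
    (eq_one_of_inv (odd_of_mem (S.card_E hn hnt hc ▸ S.odd.mul S.odd) hx.1) (S.v_inv hn hnt hc hx.1) (mem_cent1_iff.1 hx.2.2))),
    ← S.NE_eq hn hnt hc]
end

section
variable (p : ℕ) [hp : Fact p.Prime] [CharP F p]

theorem syl_E {n : G} (hn : n ∈ 𝐍(S.T)) (hnt : n * S.t * n⁻¹ ≠ S.t) (hc : cj n S.U ≤ 𝐂(S.U))
    (h : ¬ p ∣ Nat.card ↥(𝐍(S.U ⊔ cj n S.U) ⊓ 𝐂[S.t * (n * S.t * n⁻¹)])) : SylowIn p (S.U ⊔ cj n S.U) ⊤ := by
  have := hall_of_sup_left (Or.inl inf_le_left) ((S.U_pgrp p).sup ((S.U_pgrp p).cj n) (Or.inl (norms_of_cents hc)))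
    ((piGrp_compl_singleton hp.out).2 h)
  rw [← S.NE_eq hn hnt hc] at this
  exact SylowIn.of_norm_le_top this le_rfl

theorem edge_p (h : p * 𝔮 ∣ S.H.index) {n : G} (hn : n ∈ 𝐍(S.T)) (hnt : n * S.t * n⁻¹ ≠ S.t) (hc : cj n S.U ≤ 𝐂(S.U)) :
    p ∣ Nat.card ↥(𝐍(S.U ⊔ cj n S.U) ⊓ 𝐂[S.t * (n * S.t * n⁻¹)]) := by
  by_contra h1
  refine (S.syl_E p hn hnt hc h1).not_dvd hp.out (Nat.dvd_of_mul_dvd_mul_left (Nat.mul_pos Fintype.card_pos Fintype.card_pos :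
    0 < 𝔮 * 𝔮) ?_)
  rw [← S.card_E hn hnt hc, card_mul_relIndex le_top, S.card_E hn hnt hc, card_top, S.card_G,
    show 𝔮 * 𝔮 * p = p * 𝔮 * 𝔮 by ring, mul_assoc 𝔮]
  exact mul_dvd_mul h (dvd_mul_right _ _)

theorem tri : 𝔮 ^ 2 ∣ S.H.index ∨
    (𝔮 ∣ S.H.index ∧ ¬ p * 𝔮 ∣ S.H.index ∧ (5 < 𝔮 → ∃ n, n % p = 1 ∧ S.H.index * (𝔮 + 1) = n * (2 * 𝔮))) ∨
    (¬ p ∣ S.H.index ∧ (5 < 𝔮 → S.H.index * (𝔮 + 1) % p = 1)) := by
  have q0 : 0 < 𝔮 * ((𝔮 - 1) * S.d) := S.card_B ▸ Nat.card_pos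
  by_cases h : p ∣ S.H.index
  swap
  · refine Or.inr (Or.inr ⟨h, fun hq => ?_⟩)
    obtain ⟨h1, h2⟩ := S.NU_eq_B p hq h
    have := card_mul_relIndex (le_top (a := 𝐍(S.U)))
    rw [card_top, S.card_G, h1, S.card_B, ← h1] at this
    rw [← Nat.eq_of_mul_eq_mul_left q0 (this.trans (by ring) : _ = _ * (S.H.index * (𝔮 + 1)))]
    exact sylow_index_mod hp.out h2
  obtain ⟨n, hn, hnt, hc⟩ := S.exists_comm p h
  have hT := S.T_le_X hn hnt hc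
  obtain ⟨m, hm, e⟩ := S.exists_m (S.v_V hn hnt) (S.v_ne hn hnt)
  have hN := card_mul_relIndex (le_top (a := 𝐍(S.U ⊔ cj n S.U)))
  rw [card_top, S.card_G, S.card_NE hn hnt hc] at hN
  by_cases h1 : p ∣ Nat.card ↥(𝐍(S.U ⊔ cj n S.U) ⊓ 𝐂[S.t * (n * S.t * n⁻¹)])
  · have : 𝔮 ∣ Nat.card ↥(𝐍(S.U ⊔ cj n S.U) ⊓ 𝐂[S.t * (n * S.t * n⁻¹)]) := by
      rw [← card_cj m⁻¹] at h1 ⊢
      rcases S.over_p p (by rw [← S.cj_T (inv_mem hm)]; exact cj_mono _ hT)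
        (by rw [← le_cj_iff, S.cj_H, e]; exact inf_le_right) h1 with a | a
      exacts [S.card_U ▸ card_dvd_of_le' a, S.card_U' ▸ card_dvd_of_le' a]
    obtain ⟨k, hk⟩ := this
    refine Or.inl ((S.cop_q.pow_left 2).dvd_of_dvd_mul_right (Nat.dvd_of_mul_dvd_mul_left Fintype.card_pos (k := 𝔮)
      ⟨k * 𝐍(S.U ⊔ cj n S.U).relIndex ⊤, ?_⟩))
    rw [hk] at hN
    linear_combination hN.symm
  refine Or.inr (Or.inl ⟨S.cop_q.dvd_of_dvd_mul_right (Nat.dvd_of_mul_dvd_mul_left Fintype.card_pos (k := 𝔮)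
    ⟨Nat.card ↥(𝐍(S.U ⊔ cj n S.U) ⊓ 𝐂[S.t * (n * S.t * n⁻¹)]) * 𝐍(S.U ⊔ cj n S.U).relIndex ⊤,
      by linear_combination hN.symm⟩), fun a => h1 (S.edge_p p a hn hnt hc), fun hq =>
    ⟨_, sylow_index_mod hp.out (S.syl_E p hn hnt hc h1), ?_⟩⟩)
  have h2 := fun x => S.over_cj p hq hm hT (e ▸ inf_le_right) h1 (x := x)
  have h3 : ¬ 𝐍(S.U ⊔ cj n S.U) ⊓ 𝐂[S.t * (n * S.t * n⁻¹)] ≤ S.T := fun a => by
    obtain ⟨y, hy, y1⟩ := exists_ne_one_mem' S.U_ne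
    have hE := abelian_iff.1 (S.E_comm hn hnt hc)
    obtain ⟨g, hg, e⟩ := (S.syl_E p hn hnt hc h1).exists_norm_conj (mem_top n) (hE (mem_sup_left hy))
      (hE (mem_sup_right (conj_mem_cj.2 hy)))
    have : g ∈ 𝐍(S.U) := (S.NE_eq hn hnt hc).le.trans (sup_le (norms_of_abelian (S.E_comm hn hnt hc) le_sup_left le_rfl)
      (a.trans S.T_norm_U)) hg.2
    exact y1 (conj_eq_one_iff.1 (mem_bot.1 ((S.U_inf_cj hn hnt).le
      ⟨e ▸ conj_mem_of_mem_normalizer this hy, conj_mem_cj.2 hy⟩)))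
  obtain ⟨x, hx, xT⟩ := SetLike.not_le_iff_exists.1 h3
  have h4 : S.T.relIndex (𝐍(S.U ⊔ cj n S.U) ⊓ 𝐂[S.t * (n * S.t * n⁻¹)]) = 2 := index_eq_two_iff'.2 ⟨⟨x⁻¹, inv_mem hx⟩,
    fun b => by
      simp only [mem_subgroupOf, coe_mul]
      by_cases hb : (b : G) ∈ S.T
      · exact Or.inr ⟨hb, fun a => xT (by simpa using inv_mem (mul_mem a (inv_mem hb)))⟩
      · refine Or.inl ⟨?_, hb⟩
        simpa [mul_assoc] using mul_mem (inv_mem ((h2 x hx).resolve_left xT)) ((h2 _ b.2).resolve_left hb)⟩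
  rw [← card_mul_relIndex hT, h4, S.card_T] at hN
  exact Nat.eq_of_mul_eq_mul_left q0 (by linear_combination hN.symm)
end

/-- `ρ` centralizes the odd part of `T` -/
def Triv : Prop := ∀ y ∈ S.T, Odd (orderOf y) → S.ρ * y = y * S.ρ

theorem triv_n (h4 : 𝔮 % 4 = 3) (h3 : 3 < 𝔮) (h : S.Triv) :
    ∃ n, (n = 3 ∨ n = 15) ∧ S.H.index ≡ n [MOD (𝔮 - 1) / 2] := by
  obtain ⟨n, hn, e⟩ := S.toAbs0.triv_n (by rw [S.toAbs0_Q]; omega) h3 h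
  rw [S.toAbs0_Q, show ((𝔮 : ℤ) - 1) / 2 = ((𝔮 - 1) / 2 : ℕ) by omega] at e
  rcases hn with rfl | rfl
  exacts [⟨3, Or.inl rfl, Int.natCast_modEq_iff.1 e⟩, ⟨15, Or.inr rfl, Int.natCast_modEq_iff.1 e⟩]
end Hyp
end CA.Br
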