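/-
Brauer's characterization of `PSL₃(q)` and `M₁₁`: the residual cases `q = 11` and `q = 19`.
-/
import Cfsg.Agent.Lib.Br.Loc1

set_option autoImplicit false
set_option linter.unusedSectionVars false

namespace CA.Br
open Cfsg Subgroup CA CA.Ch CA.Blk

theorem syl_zp {G : Type*} [Group G] [Finite G] {p : ℕ} (hp : p.Prime) {x : G} {M : Subgroup G} (hx : x ∈ M)
    (ho : orderOf x = p) (h : ¬ p * p ∣ Nat.card M) : SylowIn p (zpowers x) M := by
  have hc : Nat.card (zpowers x) = p := by rw [Nat.card_zpowers, ho]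
  refine sylowIn_mk hp ((zpowers_le).2 hx) (IsPGroup.of_card (n := 1) (by rw [hc, pow_one])) fun hd => h ?_
  rw [← card_mul_relIndex ((zpowers_le (H := M)).2 hx), hc]
  exact Nat.mul_dvd_mul_left p hd

namespace Abs0
variable {G : Type*} [Group G] [Finite G] (S : Abs0 G)

theorem odd_cent {x : G} (h : ¬ orderOf x ∣ Nat.card S.H) : Odd (Nat.card 𝐂[x]) := odd_card_of fun i hi h2 => by
  by_contra h1
  obtain ⟨g, rfl⟩ := isConj_iff.1 (S.inv_conj h2 h1)
  have := orderOf_dvd_card_of_mem (mem_cent1_comm.1 hi)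
  rw [← cj_centralizer_singleton, card_cj, ← S.H_eq] at this
  exact h this

set_option synthInstance.maxSize 1000 in
theorem not19 (he : S.e = 1) (hq : S.q = 19) (hd : S.d = 2) (h : S.Triv) : S.H.index ≠ 148125 := fun hI => by
  have h4 : S.Q % 4 = 3 := by rw [Q, he, hq]; rfl
  have cH : Nat.card S.H = 13680 := by have := S.card_H; rw [hq, show Nat.card S.Z = 2 from hd] at this; omega
  have cT : Nat.card S.T = 36 := by have := S.card_T; rw [hq, he, show Nat.card S.Z = 2 from hd] at this; omega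
  have cG : Nat.card (⊤ : Subgroup G) = 79 * 25650000 := by rw [card_top, ← index_mul_card S.H, hI, cH]
  have p79 : Nat.Prime 79 := by norm_num
  obtain ⟨x, -, ox⟩ := exists_orderOf_eq_prime p79 (cG ▸ dvd_mul_right _ _ : 79 ∣ Nat.card (⊤ : Subgroup G))
  obtain ⟨y, hy, oy⟩ := S.exists_y (N := 9) (by rw [hq, he]; rfl)
  have c1 := Nat.odd_iff.1 (S.odd_cent (x := x) (by rw [ox, cH]; decide))
  have c2 : ¬ 9 ∣ Nat.card 𝐂[x] := fun a => by
    obtain ⟨A, hA⟩ := exists_sylowIn 3 𝐂[x]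
    obtain ⟨P, hP, a1⟩ := exists_sylowIn_ge hA.piGrp le_top
    have hD : Nat.card (zpowers y) = 3 ^ 2 := by rw [Nat.card_zpowers, oy]; rfl
    obtain ⟨g, -, a2⟩ := hP.exists_cj_le (piGrp_of_card_pow Nat.prime_three hD) le_top
    have a3 := card_mul_card_le a1 a2
    have a4 : 9 ∣ Nat.card A := by
      rw [hA.card_eq]; exact (piNum_singleton_pow Nat.prime_three 2).dvd_piPart (card_ne_zero' _) a
    have a5 : Nat.card P = 27 := by
      rw [hP.card_eq]
      exact piPart_eq_of_mul (piNum_singleton_pow Nat.prime_three 3) (b := 75050000)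
        ((piNum_compl_singleton Nat.prime_three).2 (by decide)) (card_ne_zero' _) cG.symm
    rw [card_cj, hD, a5] at a3
    obtain ⟨z, hz, z1⟩ := exists_ne_one_mem' (one_lt_card_iff_ne_bot'.1 (by
      have := Nat.le_of_dvd (card_pos' _) a4; omega : 1 < Nat.card ↥(A ⊓ cj g (zpowers y))))
    obtain ⟨s, hs, rfl⟩ := mem_cj'.1 hz.2
    have b1 := zpowers_le.2 hy hs
    have b2 : Odd (orderOf s) := (oy ▸ by decide : Odd (orderOf y)).of_dvd_nat (orderOf_dvd_of_mem_zpowers hs)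
    have b3 := S.not_Z b1 b2 fun e => z1 (by rw [e]; group)
    have b4 := orderOf_dvd_card_of_mem (mem_cent1_comm.1 (hA.le hz.1))
    rw [← cj_centralizer_singleton, card_cj, ← card_mul_relIndex (S.T_le_cy (S.Tm_le_T b1) b3), ox, cT] at b4
    rcases S.rel_y h4 h (S.Tm_le_T b1) b3 b2 with e | e <;> rw [e] at b4 <;> exact absurd b4 (by decide)
  have c3 := sylow_index_mod p79 (syl_zp p79 (mem_top x) ox (by rw [cG]; decide))
  have c4 := relIndex_cent_dvd_pred_of_prime p79 (by rw [Nat.card_zpowers, ox]) (le_refl 𝐍(zpowers x))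
  have c5 := card_mul_relIndex (centralizer_le_normalizer (zpowers x : Set G))
  have c6 := card_mul_relIndex (le_top (a := 𝐍(zpowers x)))
  obtain ⟨c, hc⟩ := ox ▸ orderOf_dvd_card_of_mem (self_mem_cent1 x)
  rw [cent_zpowers] at c4 c5
  rw [cG, ← c5, hc, mul_assoc, mul_assoc, mul_right_inj' (by norm_num), ← mul_assoc] at c6
  rw [hc] at c1 c2
  generalize 𝐂[x].relIndex 𝐍(zpowers x) = e at c4 c6
  generalize 𝐍(zpowers x).relIndex ⊤ = n at c3 c6
  obtain ⟨a, _, ha, hb, rfl⟩ := (Nat.dvd_mul (m := 513) (n := 5 ^ 5)).1 (((Nat.coprime_two_right.2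
    ((Nat.odd_iff.2 c1).of_dvd_nat (dvd_mul_left _ _))).pow_right 4).dvd_of_dvd_mul_left ⟨e * n, c6.symm.trans (mul_assoc c e n)⟩)
  obtain ⟨k, hk, rfl⟩ := (Nat.dvd_prime_pow Nat.prime_five).1 hb
  have : ∀ a < 514, (a ∣ 513 ∧ ¬ 9 ∣ a) → ∀ k < 6, ∀ e < 79, ¬ (e ∣ 78 ∧ a * 5 ^ k * e ∣ 25650000 ∧
    25650000 / (a * 5 ^ k * e) % 79 = 1) := by decide +kernel
  refine this a (Nat.lt_succ_of_le (Nat.le_of_dvd (by norm_num) ha)) ⟨ha, fun b => c2 ((b.mul_right _).mul_left _)⟩ k (by omega) e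
    (Nat.lt_succ_of_le (Nat.le_of_dvd (by norm_num) c4)) ⟨c4, ⟨n, c6.symm⟩, ?_⟩
  rwa [← c6, Nat.mul_div_cancel_left _ (Nat.pos_of_ne_zero fun b => by rw [b] at c6; omega)]

theorem not11 (he : S.e = 1) (hq : S.q = 11) (hd : S.d = 2) (h : S.Triv) : S.H.index ≠ 19845 := fun hI => by
  have h4 : S.Q % 4 = 3 := by rw [Q, he, hq]; rfl
  have cZ : Nat.card S.Z = 2 := hd
  have cH : Nat.card S.H = 2640 := by have := S.card_H; rw [hq, cZ] at this; omega
  have cT : Nat.card S.T = 20 := by have := S.card_T; rw [hq, he, cZ] at this; omega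
  have cW : Nat.card S.W = 24 := by have := S.card_W; rw [hq, he, cZ] at this; omega
  have cG : Nat.card (⊤ : Subgroup G) = 25 * 2095632 := by rw [card_top, ← index_mul_card S.H, hI, cH]
  obtain ⟨y, hy, oy⟩ := S.exists_y (N := 5) (by rw [hq, he]; rfl)
  have yo : Odd (orderOf y) := oy ▸ by decide
  have y1 : y ≠ 1 := fun e => by rw [e, orderOf_one] at oy; omega
  have yT := S.Tm_le_T hy
  have yZ := S.not_Z hy yo y1
  have h15 : S.T.relIndex 𝐂[y] = 15 := by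
    obtain ⟨k, hk⟩ := S.idx_mod h4 h hy yo y1
    have := S.rel_y h4 h yT yZ yo
    rw [oy] at hk
    omega
  have cM : Nat.card 𝐂[y] = 300 := by rw [← card_mul_relIndex (S.T_le_cy yT yZ), cT, h15]
  have no75 : ∀ L ≤ 𝐂[y], Nat.card L ≠ 75 := fun L hL e => S.no4_y h4 h yT yZ yo h15 hL (e ▸ by decide) (by
    have := card_mul_relIndex hL; rw [e, cM] at this; omega)
  obtain ⟨b, hb, ob⟩ := exists_orderOf_eq_prime Nat.prime_three (cM ▸ by decide : 3 ∣ Nat.card 𝐂[y])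
  have hQ := syl_zp Nat.prime_three hb ob (by rw [cM]; decide)
  have k1 : ¬ Odd (Nat.card 𝐂[b]) := fun o => by
    have hN : 𝐂[y] ⊴ 𝐍(zpowers y) := cent_zpowers y ▸ ⟨centralizer_le_normalizer _, normalizer_le_normalizer_centralizer _⟩
    obtain ⟨m, hm, g, hg, e⟩ := frattini_exists_mul hN hQ S.w (mem_normalizer_of_cj_le (by
      rw [cj_zpowers, (S.mem_Tm.1 hy).2]; exact zpowers_le.2 (inv_mem (mem_zpowers y))))
    have a1 := relIndex_cent_dvd_pred_of_prime Nat.prime_five (by rw [Nat.card_zpowers, oy])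
      (inf_le_left (a := 𝐍(zpowers y)) (b := 𝐍(zpowers b)))
    have a2 := relIndex_cent_dvd_pred_of_prime Nat.prime_three (by rw [Nat.card_zpowers, ob])
      (inf_le_right (a := 𝐍(zpowers y)) (b := 𝐍(zpowers b)))
    rw [cent_zpowers] at a1 a2
    have a3 := one_lt_relIndex (A := 𝐂[y]) (SetLike.not_le_iff_exists.2 ⟨g, hg, fun a =>
      y1 (eq_one_of_inv yo (S.mem_Tm.1 hy).2 (mem_cent1_iff.1 (e ▸ mul_mem hm a)).symm)⟩)
    have a4 := card_inf_mul_relIndex 𝐂[y] (𝐍(zpowers y) ⊓ 𝐍(zpowers b))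
    have a5 := card_inf_mul_relIndex 𝐂[b] (𝐍(zpowers y) ⊓ 𝐍(zpowers b))
    have a6 := Nat.odd_iff.1 (o.of_dvd_nat (card_dvd_of_le' (inf_le_left (b := 𝐍(zpowers y) ⊓ 𝐍(zpowers b)))))
    rw [← inf_assoc, inf_eq_left.2 hN.1, inf_comm] at a4
    have a7 := card_inf_mul_relIndex 𝐍(zpowers b) 𝐂[y]
    have a8 := sylow_index_mod Nat.prime_three hQ
    have a9 := no75 _ (inf_le_right (a := 𝐍(zpowers b)))
    have b1 := oy ▸ orderOf_dvd_card_of_mem (mem_inf.2 ⟨norms_zpowers_of_cent1 le_rfl (mem_cent1_comm.1 hb), self_mem_cent1 y⟩)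
    rw [cM] at a7
    rw [← a5] at a4
    generalize Nat.card ↥(𝐍(zpowers b) ⊓ 𝐂[y]) = l at *
    generalize 𝐍(zpowers b).relIndex 𝐂[y] = n at *
    have b2 : ∀ l < 301, 5 ∣ l → l ∣ 300 → 300 / l % 3 = 1 → l ≠ 75 → l % 2 = 0 := by decide +kernel
    have b3 := b2 l (Nat.lt_succ_of_le (Nat.le_of_dvd (by norm_num) ⟨n, a7.symm⟩)) b1 ⟨n, a7.symm⟩ (by
      rwa [← a7, Nat.mul_div_cancel_left _ (Nat.pos_of_ne_zero fun b => by rw [b] at a7; omega)]) a9
    have b4 := Nat.le_of_dvd (by norm_num) a1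
    have b5 := Nat.le_of_dvd (by norm_num) a2
    interval_cases 𝐂[y].relIndex (𝐍(zpowers y) ⊓ 𝐍(zpowers b)) <;>
      interval_cases 𝐂[b].relIndex (𝐍(zpowers y) ⊓ 𝐍(zpowers b)) <;> omega
  obtain ⟨i, hi, oi⟩ := exists_orderOf_eq_prime Nat.prime_two (even_iff_two_dvd.1 (Nat.not_odd_iff_even.1 k1))
  obtain ⟨g, rfl⟩ := isConj_iff.1 (S.inv_conj (Inv.mul_self_of_orderOf oi) (Inv.ne_one_of_orderOf oi))
  rw [mem_cent1_comm, ← cj_centralizer_singleton, ← S.H_eq, mem_cj] at hi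
  obtain ⟨k, -, hk⟩ := S.classes hi
  have oc : orderOf (k * (g⁻¹ * b * g) * k⁻¹) = 3 := by rw [orderOf_conj', ← ob, ← orderOf_conj' g]; congr 1; group
  have c5 : 5 ∣ Nat.card 𝐂[k * (g⁻¹ * b * g) * k⁻¹] := by
    rw [show k * (g⁻¹ * b * g) * k⁻¹ = k * g⁻¹ * b * (k * g⁻¹)⁻¹ by group, ← cj_centralizer_singleton, card_cj, ← oy]
    exact orderOf_dvd_card_of_mem (mem_cent1_comm.1 hb)
  generalize k * (g⁻¹ * b * g) * k⁻¹ = c at hk oc c5
  have nd : ∀ A : Subgroup G, ¬ 3 ∣ Nat.card A → c ∉ A := fun A a hc => a (oc ▸ orderOf_dvd_card_of_mem hc)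
  have cW' : c ∈ S.W := (hk.resolve_left (nd _ (cT ▸ by decide))).resolve_right fun ⟨z, hz, v, hv, _, e⟩ =>
    nd _ (by rw [S.card_ZU, hq, cZ]; decide) (S.mem_ZU.2 ⟨z, hz, v, hv, e⟩)
  have k2 : ∀ x ∈ 𝐂[c], x * S.t = S.t * x → x ∈ S.W := fun x hx e =>
    S.cent_W cW' (nd _ (cZ ▸ by decide)) (S.mem_H.2 e) (mem_cent1_iff.1 hx)
  have k3 : S.W ≤ 𝐂[c] := mem_cent_iff_le_cent1.1 (abelian_iff.1 S.instCommW cW')
  have hK := piCoreOf_norm {2}ᶜ 𝐂[c]
  have k4 : piCoreOf {2}ᶜ 𝐂[c] ⊔ S.W = 𝐂[c] := le_antisymm (sup_le (piCoreOf_le _ _) k3) fun x hx => by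
    obtain ⟨o, ho, s, hs, e, rfl⟩ := zstar_factor (k3 S.t_W) S.tt (fun k hk e =>
      (S.inv_W (k2 _ (mul_mem (mul_mem hk (k3 S.t_W)) (inv_mem hk)) e.eq.symm) (Inv.conj_mul_self S.tt k)).resolve_left
        fun e => S.t_ne (conj_eq_one_iff.1 e)) hx
    exact mul_mem_sup ho (k2 s hs e)
  obtain ⟨A, hA⟩ := exists_sylowIn 2 S.W
  have cA : Nat.card A = 8 := by
    rw [hA.card_eq]
    exact piPart_eq_of_mul (piNum_singleton_pow Nat.prime_two 3) (b := 3)
      ((piNum_compl_singleton Nat.prime_two).2 (by decide)) (card_ne_zero' _) cW.symm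
  obtain ⟨P, hP, nP⟩ := (copAct_p_right (hA.le.trans (k3.trans hK)) (piCoreOf_piGrp _ _) hA.piGrp).exists_sylowIn 5
  have k5 : 5 ∣ Nat.card P := (hP.dvd_card_iff Nat.prime_five).2 (by
    have := c5.trans (k4 ▸ card_sup_dvd (Or.inl (k3.trans hK)))
    rw [cW] at this
    exact (by decide : Nat.Coprime 5 24).dvd_of_dvd_mul_right this)
  have k6 : Nat.card P ∣ 25 := hP.piGrp.piNum.dvd_of_dvd_mul_right ((piNum_compl_singleton Nat.prime_five).2
    (by decide : ¬ 5 ∣ 2095632)) (cG ▸ card_dvd_of_le' le_top)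
  have pc := hP.le.trans (piCoreOf_le _ _)
  have k7 : Nat.card P = 25 := by
    by_contra a
    have a1 : Nat.card P = 5 := by
      have := Nat.le_of_dvd (by norm_num) k6
      interval_cases Nat.card P <;> omega
    have a2 := Nat.le_of_dvd (by norm_num) (relIndex_cent_dvd_pred_of_prime Nat.prime_five a1 nP)
    have a3 := card_inf_mul_relIndex 𝐂(P) A
    obtain ⟨j, hj, oj⟩ := exists_orderOf_eq_prime Nat.prime_two ((hA.piGrp.inf_right 𝐂(P)).dvd_card_of_ne_bot fun e => by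
      rw [e, card_bot, cA] at a3; omega)
    have a4 := card_dvd_of_le' (A := P) (B := S.W) fun x hx => k2 x (pc hx) (mem_cent_iff.1 ((S.inv_W (hA.le hj.2)
      (Inv.mul_self_of_orderOf oj)).resolve_left (Inv.ne_one_of_orderOf oj) ▸ hj.1) x hx)
    rw [a1, cW] at a4
    omega
  haveI := Fact.mk Nat.prime_five
  obtain ⟨s, -, hs⟩ := (sylowIn_mk Nat.prime_five le_top (hP.isPGroup Nat.prime_five) fun a => by
    have := card_mul_relIndex (le_top (a := P))
    rw [cG, k7] at this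
    omega).exists_conj_mem (mem_top y) ((piElt_of_orderOf_prime Nat.prime_five oy).2 rfl)
  have k8 : zpowers c ≤ 𝐂(P) := cents_symm (cent_zpowers c ▸ pc)
  refine no75 (cj s⁻¹ (P ⊔ zpowers c)) ?_ ?_
  · rw [← le_cj_iff, cj_centralizer_singleton]
    exact sup_le (mem_cent_iff_le_cent1.1 (abelian_iff.1 (abelian_of_card_eq_prime_sq (p := 5) k7) hs))
      (zpowers_le.2 (mem_cent1_comm.1 (pc hs)))
  · rw [card_cj, card_sup_of_disjoint (Or.inl (norms_of_cents k8)) (inf_eq_bot_of_card_coprime (by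
      rw [k7, Nat.card_zpowers, oc]; decide)), k7, Nat.card_zpowers, oc]

end Abs0

namespace Hyp
variable {F : Type*} [Field F] {G : Type*} [Group G] [Fintype F] [Finite G] (S : Hyp G F)

theorem not11 (hq : Fintype.card F = 11) (hd : S.d = 2) (h : S.Triv) : S.H.index ≠ 19845 := S.toAbs0.not11 rfl hq hd h
theorem not19 (hq : Fintype.card F = 19) (hd : S.d = 2) (h : S.Triv) : S.H.index ≠ 148125 := S.toAbs0.not19 rfl hq hd h
end Hyp
end CA.Br
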