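/-
Brauer's characterization of `PSL₃(q)`: the six root groups form a hexagon.
-/
import Cfsg.Agent.Lib.Br.Loc1

set_option autoImplicit false
set_option linter.unusedSectionVars false

namespace CA.Br
open Cfsg Subgroup CA CA.Ch CA.Blk

variable {F : Type*} [Field F] {G : Type*} [Group G] [Fintype F] [Finite G]
local notation "𝔮" => Fintype.card F

namespace Hyp
variable (S : Hyp G F)

theorem conj_conj (a b x : G) : a * b * x * (a * b)⁻¹ = a * (b * x * b⁻¹) * a⁻¹ := by group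
theorem T_fix {x v : G} (hx : x ∈ S.T) (hv : v ∈ S.V) : x * v * x⁻¹ = v :=
  conj_eq_of_mem_cent (S.cent_V ▸ hx) hv
theorem third {v v' : G} (hv : v ∈ S.V) (h1 : v ≠ 1) (ht : v ≠ S.t) (hv' : v' ∈ S.V) (h1' : v' ≠ 1) (ht' : v' ≠ S.t)
    (h : v' ≠ v) : v' = S.t * v := by
  rcases S.mem_V.1 hv with rfl | rfl | rfl | rfl <;> rcases S.mem_V.1 hv' with rfl | rfl | rfl | rfl <;>
    first | exact absurd rfl h1 | exact absurd rfl h1' | exact absurd rfl ht | exact absurd rfl ht' |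
      exact absurd rfl h | rfl | rw [← mul_assoc, S.tt, one_mul]
theorem mem_T_of {v x : G} (hv : v ∈ S.V) (h1 : v ≠ 1) (ht : v ≠ S.t) (e1 : x * S.t * x⁻¹ = S.t)
    (e2 : x * v * x⁻¹ = v) : x ∈ S.T := by
  refine S.mem_T.2 ⟨mul_inv_eq_iff_eq_mul.1 e1, mul_inv_eq_iff_eq_mul.1 ?_⟩
  by_cases h : S.u = v
  · rw [h, e2]
  · rw [S.third hv h1 ht S.u_V S.u_ne S.t_ne_u.symm h, show x * (S.t * v) * x⁻¹ = x * S.t * x⁻¹ * (x * v * x⁻¹) by group,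
      e1, e2]
theorem ntn_V {n : G} (hn : n ∈ 𝐍(S.T)) : n * S.t * n⁻¹ ∈ S.V := S.conj_V hn S.t_V
theorem ntn_ne (n : G) : n * S.t * n⁻¹ ≠ 1 := fun e => S.t_ne (conj_eq_one_iff.1 e)
theorem cj_U_T {x : G} (hx : x ∈ S.T) : cj x S.U = S.U := cj_eq_of_mem_normalizer (S.T_norm_U hx)

/-- an element of `N(T)` moving `t` is a reflection or a rotation -/
theorem rot_or_refl {n : G} (hn : n ∈ 𝐍(S.T)) (hnt : n * S.t * n⁻¹ ≠ S.t) :
    n * n ∈ S.T ∨ (n * n * S.t * (n * n)⁻¹ = S.t * (n * S.t * n⁻¹) ∧ n * (n * n) ∈ S.T) := by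
  have hv := S.ntn_V hn
  have e3 : n * (S.t * (n * S.t * n⁻¹)) * n⁻¹ = n * S.t * n⁻¹ * (n * (n * S.t * n⁻¹) * n⁻¹) := by group
  have c := abelian_iff'.1 S.V_comm _ hv _ S.t_V
  by_cases h : n * (n * S.t * n⁻¹) * n⁻¹ = S.t
  · exact Or.inl (S.mem_T_of hv (S.ntn_ne n) hnt (by rw [conj_conj, h]) (by rw [conj_conj, h]))
  · have := S.third hv (S.ntn_ne n) hnt (S.conj_V hn hv) (fun e => S.ntn_ne n (conj_eq_one_iff.1 e)) h
      (fun e => hnt (mul_left_cancel (mul_right_cancel e)))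
    have e4 : n * (S.t * (n * S.t * n⁻¹)) * n⁻¹ = S.t := by
      rw [e3, this, ← mul_assoc, c, mul_assoc, S.V_sq hv, mul_one]
    exact Or.inr ⟨by rw [conj_conj, this], S.mem_T_of hv (S.ntn_ne n) hnt (by rw [conj_conj, conj_conj, this, e4])
      (by rw [conj_conj, conj_conj, this, e4])⟩

section
variable (p : ℕ) [hp : Fact p.Prime] [CharP F p] 
  (h : S.H.index = Fintype.card F ^ 2 * (Fintype.card F ^ 2 + Fintype.card F + 1))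

theorem no_rot_num {q : ℕ} (hq : 3 ≤ q) {d : ℕ} (hd : 0 < d) :
    ¬ q * q * q * (3 * (q * q * q * ((q - 1) * d))) ≤ q ^ 2 * (q ^ 2 + q + 1) * (q * ((q - 1) * (q + 1)) * d) := by
  obtain ⟨r, rfl⟩ : ∃ r, q = r + 1 := ⟨q - 1, by omega⟩
  rw [Nat.add_sub_cancel, not_le]
  have h1 : (r + 1 + 1) * ((r + 1) ^ 2 + (r + 1) + 1) < 3 * (r + 1) ^ 3 := by
    obtain ⟨k, rfl⟩ : ∃ k, r = k + 2 := ⟨r - 2, by omega⟩
    ring_nf; nlinarith [Nat.zero_le (k ^ 3), Nat.zero_le (k ^ 2)]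
  have h2 : 0 < (r + 1) ^ 3 * (r * d) := by have : 0 < r := by omega
                                            positivity
  calc _ = (r + 1) ^ 3 * (r * d) * ((r + 1 + 1) * ((r + 1) ^ 2 + (r + 1) + 1)) := by ring
    _ < (r + 1) ^ 3 * (r * d) * (3 * (r + 1) ^ 3) := Nat.mul_lt_mul_of_pos_left h1 h2
    _ = _ := by ring

include h in
theorem syl_of_card {Q : Subgroup G} (hQ : PiGrp {p} Q) (hc : Nat.card Q = 𝔮 * 𝔮 * 𝔮) : SylowIn p Q ⊤ := by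
  refine sylowIn_mk hp.out le_top (hQ.isPGroup hp.out) fun hd => ?_
  have e := Q.card_mul_index
  rw [hc, S.card_G, h, show 𝔮 ^ 2 * (𝔮 ^ 2 + 𝔮 + 1) * (𝔮 * ((𝔮 - 1) * (𝔮 + 1)) * S.d) =
    𝔮 * 𝔮 * 𝔮 * ((𝔮 ^ 2 + 𝔮 + 1) * ((𝔮 - 1) * (𝔮 + 1) * S.d)) by ring] at e
  rw [relIndex_top_right, Nat.eq_of_mul_eq_mul_left (by have := Fintype.card_pos (α := F); positivity) e] at hd
  rcases (Nat.Prime.dvd_mul hp.out).1 hd with h1 | h1
  · have h2 := p_dvd_q (F := F) p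
    exact hp.out.one_lt.ne' (Nat.dvd_one.1 ((Nat.dvd_add_right (dvd_add (h2.trans (dvd_pow_self _ two_ne_zero)) h2)).1 h1))
  · exact S.p_not_dvd p h1

include p h in
/-- no triangle -/
theorem refl_of_edge {n : G} (hn : n ∈ 𝐍(S.T)) (hnt : n * S.t * n⁻¹ ≠ S.t) (hc : cj n S.U ≤ 𝐂(S.U)) : n * n ∈ S.T := by
  refine (S.rot_or_refl hn hnt).resolve_right fun ⟨e2, h3⟩ => ?_
  have hn2 := mul_mem hn hn
  set E := S.U ⊔ cj n S.U with hE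
  set R := cj (n * n) S.U with hR
  have c1 : R ≤ 𝐂(cj n S.U) := by rw [hR, cj_mul, ← cj_centralizer]; exact cj_mono _ hc
  have cR : cj n R = S.U := by rw [hR, ← cj_mul, S.cj_U_T h3]
  have c2 : R ≤ 𝐂(S.U) := cents_symm (by
    rw [← cR, hR, ← cj_mul, show n * (n * n) = n * n * n by group, cj_mul, ← cj_centralizer]; exact cj_mono _ hc)
  have c3 : R ≤ 𝐂(E) := cents_sup c2 c1
  have oE : Odd (Nat.card E) := by rw [S.card_E hn hnt hc]; exact S.odd.mul S.odd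
  have Rv : R ≤ 𝐂[S.t * (n * S.t * n⁻¹)] := by rw [← e2, ← cj_H]; exact cj_mono _ S.U_le_H
  have d1 : E ⊓ R = ⊥ := eq_bot_iff.2 fun x hx =>
    eq_one_of_inv (odd_of_mem oE hx.1) (S.v_inv hn hnt hc hx.1) (mem_cent1_iff.1 (Rv hx.2))
  set Q := E ⊔ R with hQ
  have pE : PiGrp {p} E := PiGrp.sup (S.U_pgrp p) ((S.U_pgrp p).cj _) (Or.inl (norms_of_cents hc))
  have pQ : PiGrp {p} Q := PiGrp.sup pE ((S.U_pgrp p).cj _) (Or.inl (norms_of_cents c3))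
  have cQ : Nat.card Q = 𝔮 * 𝔮 * 𝔮 := by
    rw [card_sup_of_disjoint (Or.inl (norms_of_cents c3)) d1, S.card_E hn hnt hc, card_cj, S.card_U]
  have sQ := S.syl_of_card p h pQ cQ
  have TQ : S.T ≤ 𝐍(Q) := norms_sup (norms_sup S.T_norm_U (S.T_norm_cjU hn)) (S.T_norm_cjU hn2)
  have nQ : n ∈ 𝐍(Q) := mem_normalizer_iff_cj.2 (by
    rw [hQ, hE, cj_sup, cj_sup, cR, ← cj_mul, ← hR, sup_comm, ← sup_assoc])
  have QT : Q ⊓ S.T = ⊥ := eq_bot_iff.2 fun x hx => S.a_T_one p hx.2 (pQ.piElt hx.1)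
  have oQ := S.odd_of_p p pQ
  have nK : n ∉ Q ⊔ S.T := fun hK => by
    obtain ⟨y, hy, x, hx, e⟩ := (mem_sup_of_norm_right TQ).1 hK
    have : S.t * (n * S.t * n⁻¹) ∈ Q := by
      rw [← e, conj_conj, S.T_fix hx S.t_V, show S.t * (y * S.t * y⁻¹) = S.t * y * S.t⁻¹ * (S.t * S.t) * y⁻¹ by group,
        S.tt, mul_one]
      exact mul_mem (conj_mem_of_mem_normalizer (TQ S.t_T) hy) (inv_mem hy)
    exact S.v_ne hn hnt (mem_bot.1 (mem_of_sq_mem (odd_of_mem oQ this) (S.V_sq (S.v_V hn hnt))))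
  haveI : Fact (Nat.Prime 3) := ⟨Nat.prime_three⟩
  have cK := card_sup_zpowers (p := 3) (norms_sup (X := zpowers n) (zpowers_le.2 nQ) (zpowers_le.2 hn) (mem_zpowers n)) nK
    (mem_sup_right (by rw [pow_three]; exact h3))
  rw [card_sup_of_disjoint (Or.inl TQ) QT, cQ, S.card_T] at cK
  have cN := card_le_of_le' (sup_le (sup_le le_normalizer TQ) (zpowers_le.2 nQ) : Q ⊔ S.T ⊔ zpowers n ≤ 𝐍(Q))
  -- `Q ∩ Q^w = 1`
  have QH : Q ⊓ S.H ≤ S.U := ((S.U_sylow p).eq_of_le (le_inf (le_sup_left.trans le_sup_left) S.U_le_H) inf_le_right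
    (pQ.inf_left _)).le
  have NQ : ∀ m ∈ 𝐍(S.T), m ∈ 𝐍(Q) ∨ m * S.w ∈ 𝐍(Q) := fun m hm => by
    have k : ∀ x ∈ 𝐍(S.T), x ∈ 𝐍(Q) → x * S.t * x⁻¹ = m * S.t * m⁻¹ → m ∈ 𝐍(Q) ∨ m * S.w ∈ 𝐍(Q) := fun x h1 h2 e => by
      rcases S.norm_T_H (mul_mem (inv_mem hm) h1) (S.mem_H.2 (by
        calc m⁻¹ * x * S.t = m⁻¹ * (x * S.t * x⁻¹) * x := by group
          _ = _ := by rw [e]; group)) with a | a
      · exact Or.inl (by simpa using mul_mem h2 (inv_mem (TQ a)))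
      · refine Or.inr ?_
        have := mul_mem h2 (inv_mem (TQ a))
        rwa [show x * (S.w * (m⁻¹ * x))⁻¹ = m * S.w⁻¹ by group, Inv.inv_eq_self S.ww'] at this
    by_cases a : m * S.t * m⁻¹ = S.t
    · exact k 1 (one_mem _) (one_mem _) (by simpa using a.symm)
    by_cases b : m * S.t * m⁻¹ = n * S.t * n⁻¹
    · exact k n hn nQ b.symm
    · exact k _ hn2 (mul_mem nQ nQ) (e2.trans (S.third (S.ntn_V hn) (S.ntn_ne n) hnt (S.ntn_V hm) (S.ntn_ne m) a b).symm)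
  have nw : S.w ∉ 𝐍(Q) := fun a => S.U_ne (eq_bot_iff.2 fun x hx => S.U_inf_U'.le <| mem_inf.2 ⟨hx, by
    rw [← S.cj_w_U, mem_cj]
    exact QH (mem_inf.2 ⟨conj_inv_mem_of_mem_normalizer a (mem_sup_left (mem_sup_left hx)),
      mul_mem (mul_mem (inv_mem S.w_H) (S.U_le_H hx)) S.w_H⟩)⟩)
  have D : Q ⊓ cj S.w Q ≤ ⊥ := by
    have VT := S.V_le_T
    refine S.le_of_V (norms_inf (VT.trans TQ) (VT.trans ?_)) (oQ.of_dvd_nat (card_dvd_of_le' inf_le_left)) fun m hm => ?_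
    · rw [← cj_normalizer, ← S.cj_T S.w_norm]; exact cj_mono _ TQ
    obtain ⟨k, h1, h2, e⟩ : ∃ k ∈ 𝐍(S.T), k ∈ 𝐍(Q) ∧ m * S.t * m⁻¹ = k * S.t * k⁻¹ := by
      rcases NQ m hm with a | a
      exacts [⟨m, hm, a, rfl⟩, ⟨_, mul_mem hm S.w_norm, a, by rw [conj_conj, S.wt, mul_inv_cancel_right]⟩]
    have h4 := (NQ _ (mul_mem (inv_mem S.w_norm) h1)).resolve_left fun a => nw (by simpa using mul_mem h2 (inv_mem a))
    rintro x ⟨⟨x1, x2⟩, x3⟩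
    rw [e, ← cj_H] at x3
    have a1 : k⁻¹ * x * k ∈ S.U := QH ⟨conj_inv_mem_of_mem_normalizer h2 x1, mem_cj.1 x3⟩
    have a2 : k⁻¹ * x * k ∈ S.U' := by
      rw [← S.cj_w_U, mem_cj]
      refine QH (mem_inf.2 ⟨?_, mul_mem (mul_mem (inv_mem S.w_H) (mem_cj.1 x3)) S.w_H⟩)
      have := conj_inv_mem_of_mem_normalizer h4 (mem_cj.1 x2)
      rwa [show (S.w⁻¹ * k * S.w)⁻¹ * (S.w⁻¹ * x * S.w) * (S.w⁻¹ * k * S.w) = S.w⁻¹ * (k⁻¹ * x * k) * S.w by group] at this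
    by_contra x1
    exact ne_one_cj x1 (S.U_inf_U'.le ⟨a1, a2⟩)
  have D' : Q ⊓ cj S.w 𝐍(Q) = ⊥ := eq_bot_iff.2 (le_trans (le_inf inf_le_left (by
    rw [cj_normalizer]
    exact SylowIn.le_of_norm' (cj_top S.w ▸ sQ.cj S.w) (pQ.inf_left _) le_top inf_le_right)) D)
  have := card_mul_card_le (le_top : Q ≤ ⊤) (le_top : cj S.w 𝐍(Q) ≤ ⊤)
  rw [D', card_bot, one_mul, card_top, card_cj, cQ, S.card_G, h] at this
  refine no_rot_num S.toAbs0.three_le S.d_pos (le_trans (Nat.mul_le_mul_left _ ?_) this)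
  exact ((mul_comm _ _).trans cK.symm).le.trans cN

include p h in
theorem norm_edge {n : G} (hn : n ∈ 𝐍(S.T)) (hnt : n * S.t * n⁻¹ ≠ S.t) (hc : cj n S.U ≤ 𝐂(S.U)) :
    𝐂[S.t * (n * S.t * n⁻¹)] ≤ 𝐍(S.U ⊔ cj n S.U) := by
  have h2 := S.refl_of_edge p h hn hnt hc
  have hd := S.edge_p p (h ▸ (mul_dvd_mul_right (p_dvd_q p) _).trans (by rw [sq]; exact Dvd.intro _ rfl)) hn hnt hc
  obtain ⟨m, hm, e⟩ := S.exists_m (S.v_V hn hnt) (S.v_ne hn hnt)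
  have nX : n ∈ 𝐍(S.U ⊔ cj n S.U) ⊓ 𝐂[S.t * (n * S.t * n⁻¹)] := ⟨mem_normalizer_iff_cj.2 (by
    rw [cj_sup, ← cj_mul, S.cj_U_T h2, sup_comm]), mem_cent1_iff.2 (mul_inv_eq_iff_eq_mul.1 (by
      rw [show n * (S.t * (n * S.t * n⁻¹)) * n⁻¹ = n * S.t * n⁻¹ * (n * n * S.t * (n * n)⁻¹) by group,
        S.T_fix h2 S.t_V, abelian_iff'.1 S.V_comm _ (S.ntn_V hn) _ S.t_V]))⟩
  have TX := S.T_le_X hn hnt hc
  set X := 𝐍(S.U ⊔ cj n S.U) ⊓ 𝐂[S.t * (n * S.t * n⁻¹)]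
  have h1 : S.T ≤ cj m⁻¹ X := by rw [← S.cj_T (inv_mem hm)]; exact cj_mono _ TX
  have h3 : cj m⁻¹ X ≤ S.H := by rw [← le_cj_iff, cj_H, e]; exact inf_le_right
  have n1 : m⁻¹ * n * m ∈ cj m⁻¹ X := by
    rw [mem_cj_inv, show m * (m⁻¹ * n * m) * m⁻¹ = n by group]; exact nX
  have hw : S.w ∈ cj m⁻¹ X := by
    have := (S.norm_T_H (mul_mem (mul_mem (inv_mem hm) hn) hm) (h3 n1)).resolve_left fun a => hnt (S.T_fix (by
      have := conj_mem_of_mem_normalizer hm a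
      rwa [show m * (m⁻¹ * n * m) * m⁻¹ = n by group] at this) S.t_V)
    exact (mul_mem_cancel_right n1).1 (h1 this)
  have hU : S.U ≤ cj m⁻¹ X := (S.over_p p h1 h3 (by rwa [card_cj])).elim id fun a => by
    rw [← S.cj_w_U, cj_le_iff, cj_eq_of_mem (inv_mem hw)] at a; exact a
  have := S.B_max (sup_le h1 hU) hw S.w_H S.w_not_B
  rw [← cj_le_iff, cj_H, e] at this
  exact this.trans inf_le_left

theorem edge_congr {n k : G} (hn : n ∈ 𝐍(S.T)) (hnt : n * S.t * n⁻¹ ≠ S.t) (n2 : n * n ∈ S.T) (k2 : k * k ∈ S.T)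
    (e : k * S.t * k⁻¹ = n * S.t * n⁻¹) : cj k S.U = cj n S.U := by
  have : n⁻¹ * k ∈ S.T := S.mem_T_of (S.ntn_V hn) (S.ntn_ne n) hnt (by rw [conj_conj, e]; group) (by
    rw [conj_conj, ← e, ← conj_conj k k, S.T_fix k2 S.t_V, e]
    nth_rw 1 [← S.T_fix n2 S.t_V]; group)
  rw [← cj_cj_inv n (cj k S.U), ← cj_mul n⁻¹, S.cj_U_T this]

theorem split_edge {n x : G} {C : Subgroup G} (hn : n ∈ 𝐍(S.T)) (hnt : n * S.t * n⁻¹ ≠ S.t) (hc : cj n S.U ≤ 𝐂(S.U))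
    (tC : S.t ∈ 𝐍(C)) (x1 : x ∈ S.U ⊔ cj n S.U) (x2 : x ∈ C) :
    ∃ a ∈ S.U, ∃ b ∈ cj n S.U, a ∈ C ∧ b ∈ C ∧ a * b = x := by
  obtain ⟨a, ha, b, hb, rfl⟩ := (mem_sup_of_norm_right (norms_of_cents hc)).1 x1
  have ab : a * b = b * a := mem_cent_iff.1 (hc hb) a ha
  have x4 : a * b⁻¹ ∈ C := by
    have := conj_mem_of_mem_normalizer tC x2
    rwa [show S.t * (a * b) * S.t⁻¹ = S.t * a * S.t⁻¹ * (S.t * b * S.t⁻¹) by group,
      S.inv_cjU hn S.t_V S.t_ne hnt.symm hb, ← S.mem_H.1 (S.U_le_H ha), mul_inv_cancel_right] at this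
  have a1 : a ∈ C := mem_of_sq_mem (odd_of_mem S.odd_U ha) (by
    have := mul_mem x2 x4
    rwa [mul_assoc, ← mul_assoc b, ← ab, mul_inv_cancel_right] at this)
  exact ⟨a, ha, b, hb, a1, (mul_mem_cancel_left a1).1 x2, rfl⟩

theorem comm_of_mem' {n k x : G} (hn : n ∈ 𝐍(S.T)) (hk : k ∈ 𝐍(S.T)) (e : k * S.t * k⁻¹ ≠ n * S.t * n⁻¹)
    (hx : x ∈ cj n S.U) (h1 : x ≠ 1) (hc : x ∈ 𝐂(cj k S.U)) :
    k⁻¹ * n * S.t * (k⁻¹ * n)⁻¹ ≠ S.t ∧ cj (k⁻¹ * n) S.U ≤ 𝐂(S.U) := by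
  have t1 : k⁻¹ * n * S.t * (k⁻¹ * n)⁻¹ ≠ S.t := fun a => e (by nth_rw 1 [← a]; group)
  refine ⟨t1, S.comm_of_mem (mul_mem (inv_mem hk) hn) t1 (x := k⁻¹ * x * k) ?_ (ne_one_cj h1) ?_⟩
  · rw [cj_mul, mem_cj_inv, show k * (k⁻¹ * x * k) * k⁻¹ = x by group]; exact hx
  · rw [← mem_cj, cj_normalizer]; exact centralizer_le_normalizer _ hc

include p h in
/-- the hexagon -/
theorem hex {k : G} (hk : k ∈ 𝐍(S.T)) (hkt : k * S.t * k⁻¹ ≠ S.t) (k2 : k * k ∈ S.T) : cj k S.U ≤ 𝐂(S.U) := by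
  obtain ⟨n, hn, hnt, hc⟩ := S.exists_comm p (h ▸ (p_dvd_q p).trans (by rw [sq, mul_assoc]; exact Dvd.intro _ rfl))
  have n2 := S.refl_of_edge p h hn hnt hc
  by_cases e : k * S.t * k⁻¹ = n * S.t * n⁻¹
  · rwa [S.edge_congr hn hnt n2 k2 e]
  have ev := S.third (S.ntn_V hn) (S.ntn_ne n) hnt (S.ntn_V hk) (S.ntn_ne k) hkt e
  have hN : cj k S.U ≤ 𝐍(S.U ⊔ cj n S.U) := le_trans (by rw [← ev, ← cj_H]; exact cj_mono _ S.U_le_H)
    (S.norm_edge p h hn hnt hc)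
  have pE : PiGrp {p} (S.U ⊔ cj n S.U) := PiGrp.sup (S.U_pgrp p) ((S.U_pgrp p).cj _) (Or.inl (norms_of_cents hc))
  obtain ⟨x, hx, x3⟩ := exists_ne_one_mem' (inf_cent_ne_bot (((S.U_pgrp p).cj k).isPGroup hp.out)
    (pE.isPGroup hp.out) hN fun e => S.U_ne (eq_bot_iff.2 (le_sup_left.trans e.le)))
  obtain ⟨a, ha, b, hb, a1, b1, rfl⟩ := S.split_edge hn hnt hc (norms_cent (S.T_norm_cjU hk) S.t_T) hx.1 hx.2
  by_cases a0 : a = 1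
  · obtain ⟨t1, c1⟩ := S.comm_of_mem' hn hk e hb (fun e => x3 (by rw [a0, e, one_mul])) b1
    have r := S.T_fix (S.refl_of_edge p h (mul_mem (inv_mem hk) hn) t1 c1) S.t_V
    have k1 : k * (n * S.t * n⁻¹) * k⁻¹ = n * S.t * n⁻¹ := by
      have c := abelian_iff'.1 S.V_comm _ (S.ntn_V hk) _ S.t_V
      have e' : n * S.t * n⁻¹ = S.t * (k * S.t * k⁻¹) := by rw [ev, ← mul_assoc, S.tt, one_mul]
      rw [e', show k * (S.t * (k * S.t * k⁻¹)) * k⁻¹ = k * S.t * k⁻¹ * (k * k * S.t * (k * k)⁻¹) by group,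
        S.T_fix k2 S.t_V, c]
    refine absurd ?_ hkt
    rw [conj_conj, conj_conj k⁻¹ n S.t, ← k1, show k⁻¹ * (k * (n * S.t * n⁻¹) * k⁻¹) * k⁻¹⁻¹ = n * S.t * n⁻¹ by group,
      conj_conj, ← conj_conj n n, S.T_fix n2 S.t_V] at r
    nth_rw 1 [← r]; group
  · have c1 := (S.comm_of_mem' (one_mem _) hk (by simpa using hkt) (by simpa using ha) a0 a1).2
    have : cj k⁻¹ S.U = cj k S.U := by rw [cj_eq_iff, inv_inv, ← cj_mul, S.cj_U_T k2]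
    rwa [mul_one, this] at c1
end
end Hyp
end CA.Br
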