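/-
Brauer's characterization of `PSL₃(q)`: the parabolic subgroups and the natural module.
-/
import Cfsg.Agent.Lib.Br.Hex

set_option autoImplicit false
set_option linter.unusedSectionVars false

namespace CA.Br
open Cfsg Subgroup CA CA.Ch CA.Blk

variable {F : Type*} [Field F] {G : Type*} [Group G] [Fintype F] [Finite G]
local notation "𝔮" => Fintype.card F

/-- `r²` acts trivially on `(A B)/A` -/
theorem sq_comm_mem {A B : Subgroup G} (hc : B ≤ 𝐂(A)) {r v β : G} (hr : r ∈ 𝐍(A ⊔ B)) (hrA : r ∈ 𝐂(A))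
    (hv : v * r * v⁻¹ = r⁻¹) (hvB : v ∈ 𝐂(B)) (hvA : v ∈ 𝐍(A)) (hβ : β ∈ B) : r * r * β * (r * r)⁻¹ * β⁻¹ ∈ A := by
  obtain ⟨α, hα, β', hβ', e⟩ := (mem_sup_of_norm_right (norms_of_cents hc)).1
    (conj_mem_of_mem_normalizer hr (mem_sup_right hβ))
  have h1 : v * α * v⁻¹ * β' = r⁻¹ * β * r := by
    calc _ = v * α * v⁻¹ * (v * β' * v⁻¹) := by rw [conj_eq_of_mem_cent hvB hβ']
      _ = v * (r * β * r⁻¹) * v⁻¹ := by rw [← e]; group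
      _ = v * r * v⁻¹ * (v * β * v⁻¹) * (v * r * v⁻¹)⁻¹ := by group
      _ = _ := by rw [hv, conj_eq_of_mem_cent hvB hβ, inv_inv]
  have hα' := conj_mem_of_mem_normalizer hvA hα
  have h2 : r * β' * r⁻¹ = (v * α * v⁻¹)⁻¹ * β := by
    rw [eq_inv_mul_iff_mul_eq, ← conj_eq_of_mem_cent hrA hα']
    calc _ = r * (v * α * v⁻¹ * β') * r⁻¹ := by group
      _ = _ := by rw [h1]; group
  have : r * r * β * (r * r)⁻¹ * β⁻¹ = α * (v * α * v⁻¹)⁻¹ := by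
    calc _ = r * (r * β * r⁻¹) * r⁻¹ * β⁻¹ := by group
      _ = r * α * r⁻¹ * (r * β' * r⁻¹) * β⁻¹ := by rw [← e]; group
      _ = _ := by rw [h2, conj_eq_of_mem_cent hrA hα]; group
  exact this ▸ mul_mem hα (inv_mem hα')

namespace Hyp
variable (S : Hyp G F)

noncomputable def n : G := S.ρ * S.w * S.ρ⁻¹
noncomputable def A : Subgroup G := cj S.n S.U
noncomputable def B : Subgroup G := cj S.w S.A
noncomputable def Em : Subgroup G := cj S.n S.B ⊔ cj S.n S.U'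
noncomputable def P : Subgroup G := S.Em ⊔ S.H
noncomputable def X (l : F) : G := S.π (xp (Multiplicative.ofAdd l))
noncomputable def Y (l : F) : G := S.π (xm (Multiplicative.ofAdd l))
noncomputable def N (l : Fˣ) : G := S.π (dg (l, -l⁻¹) * ww)

theorem w_t : S.w * S.t * S.w⁻¹ = S.t := S.toAbs0.w_t
theorem w_tu : S.w * (S.t * S.u) * S.w⁻¹ = S.u := S.toAbs0.w_tu
theorem w_inv : S.w⁻¹ = S.w := Inv.inv_eq_self S.ww'
theorem nn : S.n * S.n = 1 := Inv.conj_mul_self S.ww' _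
theorem n_inv : S.n⁻¹ = S.n := Inv.inv_eq_self S.nn
theorem n_norm : S.n ∈ 𝐍(S.T) := mul_mem (mul_mem S.ρ_norm S.w_norm) (inv_mem S.ρ_norm)
theorem n_u : S.n * S.u * S.n⁻¹ = S.u := by
  calc _ = S.ρ * (S.w * (S.ρ⁻¹ * (S.ρ * S.t * S.ρ⁻¹) * S.ρ) * S.w⁻¹) * S.ρ⁻¹ := by rw [S.ρ_t, n]; group
    _ = S.ρ * (S.w * S.t * S.w⁻¹) * S.ρ⁻¹ := by group
    _ = _ := by rw [w_t, S.ρ_t]
theorem n_t : S.n * S.t * S.n⁻¹ = S.t * S.u := by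
  calc _ = S.ρ * (S.w * (S.ρ⁻¹ * (S.ρ * (S.t * S.u) * S.ρ⁻¹) * S.ρ) * S.w⁻¹) * S.ρ⁻¹ := by rw [S.ρ_tu, n]; group
    _ = S.ρ * (S.w * (S.t * S.u) * S.w⁻¹) * S.ρ⁻¹ := by group
    _ = _ := by rw [w_tu, S.ρ_u]
theorem n_tu : S.n * (S.t * S.u) * S.n⁻¹ = S.t := by rw [← n_t, ← conj_conj, nn]; group
theorem tu_ne_t : S.t * S.u ≠ S.t := fun e => S.u_ne (mul_eq_left.1 e)
theorem n_ne : S.n * S.t * S.n⁻¹ ≠ S.t := S.n_t ▸ S.tu_ne_t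
theorem cj_nn (K : Subgroup G) : cj S.n (cj S.n K) = K := by rw [← cj_mul, nn, cj_one]
theorem cj_ww (K : Subgroup G) : cj S.w (cj S.w K) = K := by rw [← cj_mul, S.ww', cj_one]
theorem wn_norm : S.w * S.n ∈ 𝐍(S.T) := mul_mem S.w_norm S.n_norm
theorem wn_t : S.w * S.n * S.t * (S.w * S.n)⁻¹ = S.u := by rw [conj_conj, n_t, w_tu]
theorem B_eq : S.B = cj (S.w * S.n) S.U := (cj_mul _ _ _).symm
theorem card_A : Nat.card S.A = 𝔮 := (card_cj _ _).trans S.card_U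
theorem odd_A : Odd (Nat.card S.A) := S.card_A ▸ S.odd
theorem odd_B : Odd (Nat.card S.B) := card_cj S.w S.A ▸ S.odd_A
theorem T_A : S.T ≤ 𝐍(S.A) := S.T_norm_cjU S.n_norm
theorem T_B : S.T ≤ 𝐍(S.B) := S.B_eq ▸ S.T_norm_cjU S.wn_norm
theorem T_cj {K : Subgroup G} {m : G} (hm : m ∈ 𝐍(S.T)) (h : S.T ≤ 𝐍(K)) : S.T ≤ 𝐍(cj m K) := by
  rw [← cj_normalizer, ← S.cj_T hm]; exact cj_mono _ h
theorem T_U' : S.T ≤ 𝐍(S.U') := S.cj_w_U ▸ S.T_norm_cjU S.w_norm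
theorem tu_V : S.t * S.u ∈ S.V := mul_mem S.t_V S.u_V
theorem u_A {x : G} (h : x ∈ S.A) : S.u * x * S.u⁻¹ = x⁻¹ :=
  S.inv_cjU S.n_norm S.u_V S.u_ne (by rw [n_t]; exact fun e => S.t_ne (right_eq_mul.1 e)) h
theorem t_B {x : G} (h : x ∈ S.B) : S.t * x * S.t⁻¹ = x⁻¹ :=
  S.inv_cjU S.wn_norm S.t_V S.t_ne (by rw [wn_t]; exact S.t_ne_u) (S.B_eq ▸ h)
theorem u_B : S.u ∈ 𝐂(S.B) := mem_cent_iff_le_cent1.2 (by rw [B_eq, ← S.wn_t, ← cj_H]; exact cj_mono _ S.U_le_H)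
theorem tu_A : S.t * S.u ∈ 𝐂(S.A) := mem_cent_iff_le_cent1.2 (by rw [← S.n_t, ← cj_H]; exact cj_mono _ S.U_le_H)
theorem A_inf_B : S.A ⊓ S.B = ⊥ := eq_bot_iff.2 fun _ h =>
  eq_one_of_inv (odd_of_mem S.odd_A h.1) (S.u_A h.1) (mem_cent_iff.1 S.u_B _ h.2)
theorem A_comm : IsMulCommutative S.A := (abelian_cj _).2 S.U_comm
theorem B_comm : IsMulCommutative S.B := (abelian_cj _).2 S.A_comm

include S in
theorem halves (a : F) : a = a / 2 + a / 2 := by have := S.two_ne; field_simp; ring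
theorem X_add (a b : F) : S.X (a + b) = S.X a * S.X b := by rw [X, ofAdd_add, map_mul, map_mul]; rfl
theorem Y_add (a b : F) : S.Y (a + b) = S.Y a * S.Y b := by rw [Y, ofAdd_add, map_mul, map_mul]; rfl
theorem X_zero : S.X 0 = 1 := by simp [X]
theorem Y_zero : S.Y 0 = 1 := by simp [Y]
theorem X_U (a : F) : S.X a ∈ S.U := ⟨_, rfl⟩
theorem Y_U (a : F) : S.Y a ∈ S.U' := ⟨_, rfl⟩
theorem X_inj : Function.Injective S.X := fun _ _ h => Multiplicative.ofAdd.injective (S.xp_inj h)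
theorem N_H (l : Fˣ) : S.N l ∈ S.H := ⟨_, rfl⟩
theorem N_eq (l : Fˣ) : S.N l = S.X l * S.Y (-(l : F)⁻¹) * S.X l := by
  rw [N, X, Y, ← map_mul, ← map_mul]
  exact congrArg _ (ext2 (by simp [mul_ent, -ofAdd_neg]) (by simp [mul_ent, -ofAdd_neg]) (by simp [mul_ent, -ofAdd_neg])
    (by simp [mul_ent, -ofAdd_neg]))
theorem N_mul (l s : Fˣ) : S.N l * (S.N 1)⁻¹ * S.N s = S.N (l * s) := by
  have : S.N l = S.π (dg (l, l⁻¹)) * S.N 1 := by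
    rw [N, N, ← map_mul]
    exact congrArg _ (ext2 (by simp [mul_ent]) (by simp [mul_ent]) (by simp [mul_ent]) (by simp [mul_ent]))
  rw [this, mul_inv_cancel_right, N, N, ← map_mul]
  exact congrArg _ (ext2 (by simp [mul_ent]) (by simp [mul_ent]) (by simp [mul_ent, mul_comm]) (by simp [mul_ent]))
theorem N_sq : S.N 1 * S.N 1 = S.t := by
  rw [N, t, ← map_mul]
  exact congrArg _ (ext2 (by simp [mul_ent]) (by simp [mul_ent]) (by simp [mul_ent]) (by simp [mul_ent]))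
theorem Y_eq (m : F) : S.N 1 * S.Y m = S.X (-m) * S.N 1 := by
  rw [N, X, Y, ← map_mul, ← map_mul]
  exact congrArg _ (ext2 (by simp [mul_ent, -ofAdd_neg]) (by simp [mul_ent, -ofAdd_neg]) (by simp [mul_ent, -ofAdd_neg])
    (by simp [mul_ent, -ofAdd_neg]))
theorem N_A (l : Fˣ) : cj (S.N l) S.A = S.B := by
  rw [N, map_mul, cj_mul]; exact cj_eq_of_mem_normalizer (S.T_B ⟨_, rfl⟩)
theorem N_B (l : Fˣ) : cj (S.N l) S.B = S.A := by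
  rw [N, map_mul, cj_mul, B]
  exact (congrArg _ (S.cj_ww _)).trans (cj_eq_of_mem_normalizer (S.T_A ⟨_, rfl⟩))

/-- the consequences of the hexagon -/
structure Hex : Prop where
  AU : S.A ≤ 𝐂(S.U)
  BA : S.B ≤ 𝐂(S.A)
  HE : S.H ≤ 𝐍(S.A ⊔ S.B)
  HEm : S.H ≤ 𝐍(S.Em)
  index : S.P.index = 𝔮 ^ 2 + 𝔮 + 1

theorem card_Em (h : S.A ≤ 𝐂(S.U)) : Nat.card S.Em = 𝔮 * 𝔮 := by
  rw [Em, ← cj_sup, card_cj, B, ← S.cj_w_U, ← cj_sup, card_cj, sup_comm]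
  exact S.card_E S.n_norm S.n_ne h
theorem t_Em (h : S.A ≤ 𝐂(S.U)) {x : G} (hx : x ∈ S.Em) : S.t * x * S.t⁻¹ = x⁻¹ := by
  rw [Em, ← cj_sup, B, ← S.cj_w_U, ← cj_sup, sup_comm, ← cj_mul, mem_cj'] at hx
  obtain ⟨y, hy, rfl⟩ := hx
  have := S.v_inv S.n_norm S.n_ne h hy
  rw [n_t, ← mul_assoc S.t, S.tt, one_mul] at this
  have e : S.t = S.n * S.w * S.u * (S.n * S.w)⁻¹ := by rw [conj_conj, S.wu, n_tu]
  calc _ = S.n * S.w * (S.u * y * S.u⁻¹) * (S.n * S.w)⁻¹ := by rw [e]; group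
    _ = _ := by rw [this]; group
theorem Em_inf_H (h : S.A ≤ 𝐂(S.U)) : S.Em ⊓ S.H = ⊥ := eq_bot_iff.2 fun _ hx =>
  eq_one_of_inv (odd_of_mem (by rw [S.card_Em h]; exact S.odd.mul S.odd) hx.1) (S.t_Em h hx.1) (S.mem_H.1 hx.2)

theorem hex' (h : S.H.index = 𝔮 ^ 2 * (𝔮 ^ 2 + 𝔮 + 1)) : S.Hex := by
  obtain ⟨p, hc⟩ := CharP.exists F
  haveI := Fact.mk (CharP.char_is_prime F p)
  have h1 : S.A ≤ 𝐂(S.U) := S.hex p h S.n_norm S.n_ne (S.nn ▸ one_mem _)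
  have hk := mul_mem (mul_mem S.n_norm S.w_norm) (inv_mem S.n_norm)
  have kt : S.n * S.w * S.n⁻¹ * S.t * (S.n * S.w * S.n⁻¹)⁻¹ = S.u := by
    rw [n_inv, conj_conj, conj_conj, n_t, w_tu, n_u]
  have kn := kt.trans_ne S.t_ne_u.symm
  have h2 := S.hex p h hk kn (Inv.conj_mul_self S.ww' _ ▸ one_mem _)
  have eB : cj S.n (cj (S.n * S.w * S.n⁻¹) S.U) = S.B := by rw [n_inv, cj_mul, cj_mul, cj_nn]; rfl
  have h3 := cj_mono S.n (S.norm_edge p h hk kn h2)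
  rw [kt, cj_centralizer_singleton, n_tu, cj_normalizer, cj_sup, eB, ← S.H_eq] at h3
  have h4 := cj_mono (S.n * S.w) (S.norm_edge p h S.n_norm S.n_ne h1)
  rw [n_t, ← mul_assoc S.t, S.tt, one_mul, cj_centralizer_singleton, conj_conj, S.wu, n_tu, cj_normalizer, ← S.H_eq,
    cj_mul, cj_sup, cj_sup, S.cj_w_U, sup_comm] at h4
  refine ⟨h1, ?_, h3, h4, ?_⟩
  · rw [← eB, A, ← cj_centralizer]; exact cj_mono _ h2
  · have e := S.P.card_mul_index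
    rw [P, card_sup_of_disjoint (A := S.Em) (Or.inl h4) (S.Em_inf_H h1), S.card_Em h1, ← S.H.card_mul_index, h] at e
    have := Fintype.card_pos (α := F)
    have := card_pos' S.H
    refine Nat.eq_of_mul_eq_mul_left (?_ : 0 < 𝔮 * 𝔮 * Nat.card S.H) (e.trans ?_)
    exacts [by positivity, by ring]

variable {S} (h : S.Hex)
include h

theorem Hex.BU' : S.B ≤ 𝐂(S.U') := by rw [B, ← S.cj_w_U, ← cj_centralizer]; exact cj_mono _ h.AU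
theorem Hex.t_E {x : G} (hx : x ∈ S.A ⊔ S.B) : S.t * x * S.t⁻¹ = x⁻¹ := by
  obtain ⟨a, ha, b, hb, rfl⟩ := (mem_sup_of_norm_right (norms_of_cents h.BA)).1 hx
  rw [show S.t * (a * b) * S.t⁻¹ = S.t * a * S.t⁻¹ * (S.t * b * S.t⁻¹) by group, S.t_B hb,
    S.inv_cjU S.n_norm S.t_V S.t_ne S.n_ne.symm ha, ← mul_inv_rev, mem_cent_iff.1 (h.BA hb) a ha]
theorem Hex.odd_E : Odd (Nat.card ↥(S.A ⊔ S.B)) := odd_card_sup (Or.inl (norms_of_cents h.BA)) S.odd_A S.odd_B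

theorem Hex.E_inf_Em : (S.A ⊔ S.B) ⊓ S.Em = ⊥ := by
  have k : ∀ x ∈ S.A, x ∈ S.Em → x = 1 := fun x hx hx' => by
    rw [Em, ← cj_sup, B, ← S.cj_w_U, ← cj_sup, sup_comm, ← cj_mul] at hx'
    obtain ⟨a, ha, b, hb, a1, b1, e⟩ := S.split_edge (C := cj S.w⁻¹ S.H) S.n_norm S.n_ne h.AU
      (le_normalizer (by rw [mem_cj_inv, S.w_t]; exact S.T_le_H S.t_T)) (mem_cj.1 hx') (by
        rw [mem_cj_inv, show S.w * ((S.n * S.w)⁻¹ * x * (S.n * S.w)) * S.w⁻¹ = S.n⁻¹ * x * S.n by group]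
        exact S.U_le_H (mem_cj.1 hx))
    rw [cj_eq_of_mem (inv_mem S.w_H)] at b1
    rw [eq_one_of_inv (odd_of_mem S.odd_A hb) (S.inv_cjU S.n_norm S.t_V S.t_ne S.n_ne.symm hb) (S.mem_H.1 b1),
      mul_one] at e
    by_contra x1
    refine ne_one_cj (g := S.n) x1 (S.U_inf_U'.le (mem_inf.2 ⟨mem_cj.1 hx, ?_⟩))
    rw [← S.cj_w_U, mem_cj, show S.w⁻¹ * (S.n⁻¹ * x * S.n) * S.w = (S.n * S.w)⁻¹ * x * (S.n * S.w) by group, ← e]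
    exact ha
  refine eq_bot_iff.2 fun x hx => ?_
  obtain ⟨a, ha, b, hb, rfl⟩ := (mem_sup_of_norm_right (norms_of_cents h.BA)).1 hx.1
  have h1 := conj_mem_of_mem_normalizer (h.HEm (S.T_le_H S.u_T)) hx.2
  rw [show S.u * (a * b) * S.u⁻¹ = S.u * a * S.u⁻¹ * (S.u * b * S.u⁻¹) by group, S.u_A ha,
    conj_eq_of_mem_cent S.u_B hb] at h1
  have a1 : a ∈ S.Em := mem_of_sq_mem (odd_of_mem S.odd_A ha) (by
    have := mul_mem (mem_inf.1 hx).2 (inv_mem h1)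
    rwa [show a * b * (a⁻¹ * b)⁻¹ = a * a by group] at this)
  have b1 := conj_mem_of_mem_normalizer (h.HEm (inv_mem S.w_H)) ((mul_mem_cancel_left a1).1 hx.2)
  rw [inv_inv] at b1
  rw [k a ha a1, one_mul, mem_bot]
  by_contra b0
  exact ne_one_cj b0 (k _ (mem_cj.1 hb) b1)

theorem Hex.E_inf_P : (S.A ⊔ S.B) ⊓ S.P = ⊥ := eq_bot_iff.2 fun x hx => by
  obtain ⟨y, hy, k, hk, rfl⟩ := (mem_sup_of_norm_right h.HEm).1 hx.2
  have e := h.t_E hx.1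
  rw [show S.t * (y * k) * S.t⁻¹ = S.t * y * S.t⁻¹ * (S.t * k * S.t⁻¹) by group, S.t_Em h.AU hy, ← S.mem_H.1 hk,
    mul_inv_cancel_right] at e
  have k2 : k * k = 1 := (S.Em_inf_H h.AU).le (mem_inf.2 ⟨by
    rw [show k * k = y * (y⁻¹ * k) * (y * k) * (k⁻¹ * y⁻¹ * k) by group, mul_assoc y, e, inv_mul_cancel, mul_one]
    exact mul_mem hy (conj_inv_mem_of_mem_normalizer (h.HEm hk) (inv_mem hy)), mul_mem hk hk⟩)
  refine h.E_inf_Em.le (mem_inf.2 ⟨hx.1, mem_of_sq_mem (odd_of_mem h.odd_E hx.1) ?_⟩)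
  rw [show y * k * (y * k) = y * (k * y * k⁻¹) * (k * k) by group, k2, mul_one]
  exact mul_mem hy (conj_mem_of_mem_normalizer (h.HEm hk) hy)

theorem Hex.X_comm (l : F) {β : G} (hβ : β ∈ S.B) : S.X l * β * (S.X l)⁻¹ * β⁻¹ ∈ S.A := by
  rw [S.halves l, X_add]
  exact sq_comm_mem h.BA (h.HE (S.U_le_H (S.X_U _))) (cents_symm h.AU (S.X_U _)) (S.u_inv_U (S.X_U _)) S.u_B
    (S.T_A S.u_T) hβ

theorem Hex.N_conj (l : Fˣ) {β : G} (hβ : β ∈ S.B) : S.N l * β * (S.N l)⁻¹ = S.X l * β * (S.X l)⁻¹ * β⁻¹ := by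
  have h1 : S.N l * β * (S.N l)⁻¹ ∈ S.A := by rw [← S.N_B l]; exact conj_mem_cj.2 hβ
  have h2 := h.X_comm l hβ
  have h3 : S.Y (l : F)⁻¹ * (S.N l * β * (S.N l)⁻¹) * (S.Y (l : F)⁻¹)⁻¹ * (S.N l * β * (S.N l)⁻¹)⁻¹ ∈ S.B := by
    rw [S.halves (l : F)⁻¹, Y_add]
    exact sq_comm_mem (cents_symm h.BA) (sup_comm S.A S.B ▸ h.HE (S.U'_le_H (S.Y_U _))) (cents_symm h.BU' (S.Y_U _))
      (S.inv_cjU S.w_norm S.tu_V S.tu_ne (by rw [w_t]; exact S.tu_ne_t) (S.cj_w_U ▸ S.Y_U _)) S.tu_A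
      (S.T_B (S.V_le_T S.tu_V)) h1
  have h4 : S.Y (l : F)⁻¹ * (S.N l * β * (S.N l)⁻¹) * (S.Y (l : F)⁻¹)⁻¹ = S.X l * β * (S.X l)⁻¹ := by
    have e : S.Y (-(l : F)⁻¹) = (S.Y (l : F)⁻¹)⁻¹ := eq_inv_of_mul_eq_one_left (by rw [← Y_add, neg_add_cancel, Y_zero])
    rw [← conj_eq_of_mem_cent (inv_mem (cents_symm h.AU (S.X_U l))) h1, N_eq, e]; group
  rw [h4] at h3
  set α := S.N l * β * (S.N l)⁻¹
  set γ := S.X l * β * (S.X l)⁻¹ * β⁻¹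
  have : γ * α⁻¹ = 1 := S.A_inf_B.le (mem_inf.2 ⟨mul_mem h2 (inv_mem h1), by
    have := mul_mem h3 (inv_mem hβ)
    rwa [mul_assoc, mem_cent_iff.1 (h.BA (inv_mem hβ)) _ (inv_mem h1), ← mul_assoc] at this⟩)
  exact (mul_inv_eq_one.1 this).symm

/-- `A B` is the natural module -/
theorem Hex.exists_nat : ∃ φ₁ φ₂ : F → G, (∀ a b, φ₁ (a + b) = φ₁ a * φ₁ b) ∧ (∀ a b, φ₂ (a + b) = φ₂ a * φ₂ b) ∧
    (∀ x, x ∈ S.A ↔ ∃ a, φ₁ a = x) ∧ (∀ x, x ∈ S.B ↔ ∃ a, φ₂ a = x) ∧ (∀ a, φ₁ a = 1 → a = 0) ∧ (∀ a, φ₂ a = 1 → a = 0) ∧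
    (∀ l a, S.X l * φ₂ a * (S.X l)⁻¹ = φ₁ (l * a) * φ₂ a) ∧ ∀ l a, S.Y l * φ₁ a * (S.Y l)⁻¹ = φ₁ a * φ₂ (l * a) := by
  obtain ⟨β, hβ, β1⟩ := exists_ne_one_mem' (A := S.B) (by rw [B, A, Ne, cj_eq_bot, cj_eq_bot]; exact S.U_ne)
  set φ₁ : F → G := fun l => S.X l * β * (S.X l)⁻¹ * β⁻¹ with hφ
  have m1 : ∀ a, φ₁ a ∈ S.A := fun a => h.X_comm a hβ
  have z1 : φ₁ 0 = 1 := by simp [hφ, X_zero]
  have a1 : ∀ a b, φ₁ (a + b) = φ₁ a * φ₁ b := fun a b => by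
    rw [abelian_iff'.1 S.A_comm _ (m1 a) _ (m1 b), ← conj_eq_of_mem_cent (cents_symm h.AU (S.X_U a)) (m1 b)]
    simp only [hφ, X_add]; group
  have i1 : ∀ a, φ₁ a = 1 → a = 0 := fun a e => by
    by_contra a0
    exact β1 (conj_eq_one_iff.1 ((h.N_conj (Units.mk0 a a0) hβ).trans e))
  have s1 : ∀ x, x ∈ S.A ↔ ∃ a, φ₁ a = x := fun x => ⟨fun hx => by
    have := (Nat.bijective_iff_injective_and_card (fun a : F => (⟨φ₁ a, m1 a⟩ : S.A))).2 ⟨fun a b e => by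
      refine sub_eq_zero.1 (i1 _ (mul_right_cancel (b := φ₁ b) ?_))
      rw [← a1, sub_add_cancel, one_mul]; exact congrArg Subtype.val e, by rw [S.card_A, Nat.card_eq_fintype_card]⟩
    obtain ⟨a, e⟩ := this.2 ⟨x, hx⟩
    exact ⟨a, congrArg Subtype.val e⟩, fun ⟨a, e⟩ => e ▸ m1 a⟩
  set φ₂ : F → G := fun l => (S.N 1)⁻¹ * φ₁ l * S.N 1 with hφ₂
  have s2 : ∀ x, x ∈ S.B ↔ ∃ a, φ₂ a = x := fun x => by
    rw [← conj_mem_cj (g := S.N 1), S.N_B, s1]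
    exact exists_congr fun a => ⟨fun e => by simp only [hφ₂, e]; group, fun e => by rw [← e]; simp only [hφ₂]; group⟩
  have x2 : ∀ l a, S.X l * φ₂ a * (S.X l)⁻¹ = φ₁ (l * a) * φ₂ a := fun l a => by
    by_cases l0 : l = 0
    · simp [l0, X_zero, z1]
    by_cases a0 : a = 0
    · simp [a0, hφ₂, z1]
    have e1 := h.N_conj (Units.mk0 l l0) ((s2 _).2 ⟨a, rfl⟩)
    have e2 : φ₁ a = _ := (h.N_conj (Units.mk0 a a0) hβ).symm
    have e3 : φ₁ (l * a) = _ := (h.N_conj (Units.mk0 l l0 * Units.mk0 a a0) hβ).symm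
    rw [← mul_inv_eq_iff_eq_mul, e3, ← N_mul]
    refine e1.symm.trans ?_
    simp only [hφ₂, e2]; group
  have n1 : ∀ a, φ₁ (-a) = (φ₁ a)⁻¹ := fun a => eq_inv_of_mul_eq_one_left (by rw [← a1, neg_add_cancel, z1])
  refine ⟨φ₁, φ₂, a1, fun a b => by simp only [hφ₂, a1]; group, s1, s2, i1,
    fun a e => i1 a (by by_contra a0; exact ne_one_cj a0 e), x2, fun l a => ?_⟩
  have e1 : φ₁ a = (S.N 1)⁻¹ * φ₂ (-a) * S.N 1 := by
    have := S.inv_cjU S.n_norm S.t_V S.t_ne S.n_ne.symm (m1 a)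
    rw [← n1, ← N_sq] at this
    simp only [hφ₂, ← this]; group
  have e2 : S.Y l = (S.N 1)⁻¹ * S.X (-l) * S.N 1 := by rw [mul_assoc, ← Y_eq, inv_mul_cancel_left]
  calc _ = (S.N 1)⁻¹ * (S.X (-l) * φ₂ (-a) * (S.X (-l))⁻¹) * S.N 1 := by rw [e1, e2]; group
    _ = φ₂ (l * a) * φ₁ a := by rw [x2, neg_mul_neg, e1]; simp only [hφ₂]; group
    _ = _ := (mem_cent_iff.1 (h.BA ((s2 _).2 ⟨_, rfl⟩)) _ (m1 a)).symm

end Hyp
end CA.Br
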