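/-
Brauer's characterization of `PSL₃(q)`: the action on the projective plane.
-/
import Cfsg.Agent.Lib.Br.Nat

set_option autoImplicit false
set_option linter.unusedSectionVars false

namespace CA.Br
open Cfsg Subgroup CA CA.Ch CA.Blk Matrix
open scoped MatrixGroups

variable {F : Type*} [Field F] {G : Type*} [Group G] [Fintype F] [Finite G]
local notation "𝔮" => Fintype.card F

namespace Hyp
variable (S : Hyp G F)

/-- coordinates for the natural module -/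
structure Co extends S.Hex where
  φ₁ : F → G
  φ₂ : F → G
  a1 : ∀ a b, φ₁ (a + b) = φ₁ a * φ₁ b
  a2 : ∀ a b, φ₂ (a + b) = φ₂ a * φ₂ b
  s1 : ∀ x, x ∈ S.A ↔ ∃ a, φ₁ a = x
  s2 : ∀ x, x ∈ S.B ↔ ∃ a, φ₂ a = x
  i1 : ∀ a, φ₁ a = 1 → a = 0
  i2 : ∀ a, φ₂ a = 1 → a = 0
  x2 : ∀ l a, S.X l * φ₂ a * (S.X l)⁻¹ = φ₁ (l * a) * φ₂ a
  y1 : ∀ l a, S.Y l * φ₁ a * (S.Y l)⁻¹ = φ₁ a * φ₂ (l * a)

noncomputable def p0 : G ⧸ S.P := ((1 : G) : G ⧸ S.P)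
noncomputable def p1 : G ⧸ S.P := S.n • S.p0

theorem fix0 {g : G} : g • S.p0 = S.p0 ↔ g ∈ S.P := by
  rw [p0, MulAction.Quotient.smul_mk, eq_comm, QuotientGroup.eq]; simp
theorem fix1 {g : G} : g • S.p1 = S.p1 ↔ g ∈ cj S.n S.P := by
  rw [mem_cj, ← fix0, p1, mul_smul, mul_smul, inv_smul_eq_iff]
theorem H_P : S.H ≤ S.P := le_sup_right
theorem H_fix {g : G} (h : g ∈ S.H) : g • S.p0 = S.p0 := S.fix0.2 (S.H_P h)
theorem B'_le : S.T ⊔ S.U' ≤ cj S.n S.P := sup_le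
  (by rw [← S.cj_T S.n_norm]; exact cj_mono _ (S.T_le_H.trans S.H_P))
  (by rw [← S.cj_nn S.U']; exact cj_mono _ (le_sup_right.trans le_sup_left))
theorem E_le : S.A ⊔ S.B ≤ cj S.n S.P := sup_le (cj_mono _ (S.U_le_H.trans S.H_P))
  (by rw [← S.cj_nn S.B]; exact cj_mono _ (le_sup_left.trans le_sup_left))
theorem a_B' {g : L2 F} : S.π g ∈ S.T ⊔ S.U' ↔ g 0 1 = 0 := by
  rw [← S.cj_w_U, ← S.cj_T S.w_norm, ← cj_sup, mem_cj, w_inv, w, ← map_mul, ← map_mul, S.a_B]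
  simp [mul_ent]

namespace Co
variable {S} (C : S.Co)

include C in
theorem stab1 {g : L2 F} : S.π g • S.p1 = S.p1 ↔ g 0 1 = 0 := by
  rw [fix1, ← S.a_B']
  refine ⟨fun h => ?_, fun h => S.B'_le h⟩
  by_contra hB
  have e : S.T ⊔ S.U = cj S.w (S.T ⊔ S.U') := by rw [cj_sup, S.cj_T S.w_norm, ← S.cj_w_U, cj_ww]
  have := S.B_max (X := cj S.w (cj S.n S.P)) (x := S.w * S.π g * S.w⁻¹)
    (e ▸ cj_mono _ S.B'_le) (conj_mem_cj.2 h) (mul_mem (mul_mem S.w_H ⟨_, rfl⟩) (inv_mem S.w_H))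
    (by rwa [e, conj_mem_cj])
  rw [← cj_eq_of_mem S.w_H, cj_le_cj, ← S.cj_nn S.H, cj_le_cj] at this
  refine S.U_ne (cj_eq_bot.1 (eq_bot_iff.2 (le_trans (le_inf le_sup_left ?_) C.toHex.E_inf_P.le)))
  exact (cj_mono _ S.U_le_H).trans this

theorem z1 : C.φ₁ 0 = 1 := by simpa using C.a1 0 0
theorem z2 : C.φ₂ 0 = 1 := by simpa using C.a2 0 0
theorem m1 (a : F) : C.φ₁ a ∈ S.A := (C.s1 _).2 ⟨a, rfl⟩
theorem m2 (a : F) : C.φ₂ a ∈ S.B := (C.s2 _).2 ⟨a, rfl⟩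
theorem c12 (a b : F) : C.φ₁ a * C.φ₂ b = C.φ₂ b * C.φ₁ a := mem_cent_iff.1 (C.BA (C.m2 b)) _ (C.m1 a)
theorem n1 (a : F) : C.φ₁ (-a) = (C.φ₁ a)⁻¹ := eq_inv_of_mul_eq_one_left (by rw [← C.a1, neg_add_cancel, z1])

/-- affine points -/
noncomputable def af (a b : F) : G ⧸ S.P := (C.φ₁ a * C.φ₂ b) • S.p0

open Classical in
/-- homogeneous coordinates -/
noncomputable def ψ (x y z : F) : G ⧸ S.P :=
  if z ≠ 0 then C.af (x / z) (y / z) else if y ≠ 0 then S.X (x / y) • S.p1 else S.w • S.p1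

theorem φ₁_af (c a b : F) : C.φ₁ c • C.af a b = C.af (a + c) b := by
  rw [af, af, ← mul_smul, ← mul_assoc, ← C.a1, add_comm]
theorem φ₂_af (c a b : F) : C.φ₂ c • C.af a b = C.af a (b + c) := by
  rw [af, af, ← mul_smul, ← mul_assoc, ← C.c12, mul_assoc, ← C.a2, add_comm]
theorem H_af {g : G} (hg : g ∈ S.H) (a b : F) : g • C.af a b = (g * C.φ₁ a * g⁻¹ * (g * C.φ₂ b * g⁻¹)) • S.p0 := by
  rw [af, ← mul_smul]; nth_rw 1 [← S.H_fix (inv_mem hg)]; rw [← mul_smul]; congr 1; group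
theorem X_af (l a b : F) : S.X l • C.af a b = C.af (a + l * b) b := by
  rw [C.H_af (S.U_le_H (S.X_U l)), C.x2, conj_eq_of_mem_cent (cents_symm C.AU (S.X_U l)) (C.m1 a), ← mul_assoc, ← C.a1, af]
theorem Y_af (l a b : F) : S.Y l • C.af a b = C.af a (b + l * a) := by
  rw [C.H_af (S.U'_le_H (S.Y_U l)), C.y1, conj_eq_of_mem_cent (cents_symm C.toHex.BU' (S.Y_U l)) (C.m2 b), mul_assoc,
    ← C.a2, af, add_comm]
theorem u_af (a b : F) : S.u • C.af a b = C.af (-a) b := by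
  rw [C.H_af (S.T_le_H S.u_T), S.u_A (C.m1 a), conj_eq_of_mem_cent S.u_B (C.m2 b), af, n1]
theorem af_zero : C.af 0 0 = S.p0 := by rw [af, z1, z2, one_mul, one_smul]
theorem af_inj {a b a' b' : F} (e : C.af a b = C.af a' b') : a = a' ∧ b = b' := by
  have e1 : C.af (a - a') (b - b') = S.p0 := by
    rw [sub_eq_add_neg, sub_eq_add_neg, ← φ₁_af, ← φ₂_af, e, φ₂_af, φ₁_af, add_neg_cancel, add_neg_cancel, af_zero]
  have e2 : C.φ₁ (a - a') * C.φ₂ (b - b') = 1 := C.toHex.E_inf_P.le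
    (mem_inf.2 ⟨mul_mem (mem_sup_left (C.m1 _)) (mem_sup_right (C.m2 _)), S.fix0.1 e1⟩)
  have e3 : C.φ₁ (a - a') = 1 := S.A_inf_B.le (mem_inf.2 ⟨C.m1 _, eq_inv_of_mul_eq_one_left e2 ▸ inv_mem (C.m2 _)⟩)
  rw [e3, one_mul] at e2
  exact ⟨sub_eq_zero.1 (C.i1 _ e3), sub_eq_zero.1 (C.i2 _ e2)⟩
include C in
theorem E_inf {e g : G} (he : e ∈ S.A ⊔ S.B) (hg : g ∈ S.H) : e • g • S.p1 = g • S.p1 := by
  rw [← inv_smul_eq_iff, ← mul_smul, ← mul_smul, fix1]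
  exact S.E_le (conj_inv_mem_of_mem_normalizer (C.HE hg) he)
theorem af_ne (a b : F) {g : G} (hg : g ∈ S.H) : C.af a b ≠ g • S.p1 := fun e => by
  have := C.E_inf (mem_sup_left (C.m1 1)) hg
  rw [← e, φ₁_af] at this
  simpa using (C.af_inj this).1

theorem ψ_af {z : F} (hz : z ≠ 0) (x y : F) : C.ψ x y z = C.af (x / z) (y / z) := if_pos hz
theorem ψ_one (x y : F) : C.ψ x y 1 = C.af x y := by rw [C.ψ_af one_ne_zero, div_one, div_one]
theorem ψ_y {y : F} (hy : y ≠ 0) (x : F) : C.ψ x y 0 = S.X (x / y) • S.p1 := by simp [ψ, hy]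
theorem ψ_x (x : F) : C.ψ x 0 0 = S.w • S.p1 := by simp [ψ]
theorem ψ_smul {c : F} (hc : c ≠ 0) (x y z : F) : C.ψ (c * x) (c * y) (c * z) = C.ψ x y z := by
  by_cases hz : z = 0
  · by_cases hy : y = 0
    · rw [hz, hy, mul_zero, ψ_x, ψ_x]
    · rw [hz, mul_zero, C.ψ_y hy, C.ψ_y (mul_ne_zero hc hy), mul_div_mul_left _ _ hc]
  · rw [C.ψ_af hz, C.ψ_af (mul_ne_zero hc hz), mul_div_mul_left _ _ hc, mul_div_mul_left _ _ hc]
theorem π_p1 (g : L2 F) : S.π g • S.p1 = C.ψ (g 0 1) (g 1 1) 0 := by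
  by_cases h : g 1 1 = 0
  · rw [h, ψ_x, ← inv_smul_eq_iff, ← mul_smul, w_inv, w, ← map_mul, C.stab1]; simp [mul_ent, h]
  · rw [C.ψ_y h, ← inv_smul_eq_iff, ← mul_smul, X, ← map_inv, ← map_inv, ← ofAdd_neg, ← map_mul, C.stab1]
    simp [mul_ent, h, -ofAdd_neg]
theorem π_inf (g : L2 F) {x y : F} (h : x ≠ 0 ∨ y ≠ 0) :
    S.π g • C.ψ x y 0 = C.ψ (g 0 0 * x + g 0 1 * y) (g 1 0 * x + g 1 1 * y) 0 := by
  by_cases hy : y = 0
  · have := C.ψ_smul (h.resolve_right (not_not.2 hy)) (g 0 0) (g 1 0) 0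
    rw [hy, ψ_x, ← mul_smul, w, ← map_mul, C.π_p1]
    simpa [mul_ent, mul_comm] using this.symm
  · rw [C.ψ_y hy, ← mul_smul, X, ← map_mul, C.π_p1, ← C.ψ_smul hy]
    congr 1 <;> simp [mul_ent] <;> field_simp
theorem ψ_inf (x y : F) : ∃ g ∈ S.H, C.ψ x y 0 = g • S.p1 := by
  by_cases hy : y = 0
  exacts [⟨_, S.w_H, by rw [hy, ψ_x]⟩, ⟨_, S.U_le_H (S.X_U _), C.ψ_y hy x⟩]

theorem X_ψ (l : F) {x y z : F} (h : x ≠ 0 ∨ y ≠ 0 ∨ z ≠ 0) : S.X l • C.ψ x y z = C.ψ (x + l * y) y z := by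
  by_cases hz : z = 0
  · subst hz; rw [X, C.π_inf _ (by tauto)]; simp
  · rw [C.ψ_af hz, C.ψ_af hz, X_af, add_div, mul_div_assoc]
theorem Y_ψ (l : F) {x y z : F} (h : x ≠ 0 ∨ y ≠ 0 ∨ z ≠ 0) : S.Y l • C.ψ x y z = C.ψ x (y + l * x) z := by
  by_cases hz : z = 0
  · subst hz; rw [Y, C.π_inf _ (by tauto)]; simp [add_comm]
  · rw [C.ψ_af hz, C.ψ_af hz, Y_af, add_div, mul_div_assoc]
theorem φ₁_ψ (l x y z : F) : C.φ₁ l • C.ψ x y z = C.ψ (x + l * z) y z := by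
  by_cases hz : z = 0
  · obtain ⟨g, hg, e⟩ := C.ψ_inf x y
    rw [hz, mul_zero, add_zero, e, C.E_inf (mem_sup_left (C.m1 l)) hg]
  · rw [C.ψ_af hz, C.ψ_af hz, φ₁_af, add_div, mul_div_cancel_right₀ _ hz]
theorem φ₂_ψ (l x y z : F) : C.φ₂ l • C.ψ x y z = C.ψ x (y + l * z) z := by
  by_cases hz : z = 0
  · obtain ⟨g, hg, e⟩ := C.ψ_inf x y
    rw [hz, mul_zero, add_zero, e, C.E_inf (mem_sup_right (C.m2 l)) hg]
  · rw [C.ψ_af hz, C.ψ_af hz, φ₂_af, add_div, mul_div_cancel_right₀ _ hz]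

include C in
theorem X_p1_inj {a b : F} (e : S.X a • S.p1 = S.X b • S.p1) : a = b := by
  rw [← inv_smul_eq_iff, ← mul_smul, X, X, ← map_inv, ← map_inv, ← ofAdd_neg, ← map_mul, C.stab1] at e
  simpa [mul_ent, add_neg_eq_zero, -ofAdd_neg] using e
include C in
theorem X_p1_ne (a : F) : S.X a • S.p1 ≠ S.w • S.p1 := fun e => by
  rw [← inv_smul_eq_iff, ← mul_smul, w_inv, X, w, ← map_mul, C.stab1] at e
  simp [mul_ent] at e

theorem cases (x : G ⧸ S.P) : (∃ a b, x = C.af a b) ∨ (∃ a, x = S.X a • S.p1) ∨ x = S.w • S.p1 := by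
  have := (Nat.bijective_iff_injective_and_card (Sum.elim (fun a : F × F => C.af a.1 a.2)
    fun o : Option F => o.elim (S.w • S.p1) fun a => S.X a • S.p1)).2 ⟨?_, ?_⟩
  · obtain ⟨a | _ | a, rfl⟩ := this.2 x
    exacts [Or.inl ⟨_, _, rfl⟩, Or.inr (Or.inr rfl), Or.inr (Or.inl ⟨_, rfl⟩)]
  · rintro (a | _ | a) (b | _ | b) e
    exacts [congrArg _ (Prod.ext (C.af_inj e).1 (C.af_inj e).2), absurd e (C.af_ne _ _ S.w_H),
      absurd e (C.af_ne _ _ (S.U_le_H (S.X_U _))), absurd e.symm (C.af_ne _ _ S.w_H), rfl, absurd e.symm (C.X_p1_ne _),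
      absurd e.symm (C.af_ne _ _ (S.U_le_H (S.X_U _))), absurd e (C.X_p1_ne _), by rw [C.X_p1_inj (a := a) (b := b) e]]
  · rw [← index_eq_card, C.index]; simp [sq, add_assoc]

theorem ψ_surj (p : G ⧸ S.P) : ∃ x y z, (x ≠ 0 ∨ y ≠ 0 ∨ z ≠ 0) ∧ p = C.ψ x y z := by
  rcases C.cases p with ⟨a, b, rfl⟩ | ⟨a, rfl⟩ | rfl
  exacts [⟨a, b, 1, by simp, (C.ψ_one a b).symm⟩, ⟨a, 1, 0, by simp, by rw [C.ψ_y one_ne_zero, div_one]⟩,
    ⟨1, 0, 0, by simp, (C.ψ_x 1).symm⟩]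

theorem n_p1 : S.n • S.p1 = S.p0 := by rw [p1, ← mul_smul, nn, one_smul]
theorem n_conj (g : G) (x : G ⧸ S.P) : S.n • g • x = (S.n * g * S.n⁻¹) • S.n • x := by simp [mul_smul]

/-- `n` acts semilinearly -/
theorem exists_semi : ∃ (f : F →+* F) (c k : F), c ≠ 0 ∧ k ≠ 0 ∧ ∀ x y z, (x ≠ 0 ∨ y ≠ 0 ∨ z ≠ 0) →
    S.n • C.ψ x y z = C.ψ (c * f x) (f z) (k * f y) := by
  choose σ hσ using fun l => (C.s1 _).1 (conj_mem_cj.2 (S.X_U l) : S.n * S.X l * S.n⁻¹ ∈ S.A)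
  have h' : ∀ l, ∃ s, S.X s = S.n * C.φ₁ l * S.n⁻¹ := fun l => by
    have : S.n * C.φ₁ l * S.n⁻¹ ∈ S.U := by rw [← S.cj_nn S.U]; exact conj_mem_cj.2 (C.m1 l)
    obtain ⟨a, e⟩ := this
    exact ⟨a.toAdd, e⟩
  choose σ' hσ' using h'
  have add' : ∀ a b, σ' (a + b) = σ' a + σ' b := fun a b => S.X_inj (by rw [X_add, hσ', hσ', hσ', C.a1]; group)
  have inj' : ∀ a, σ' a = 0 → a = 0 := fun a e => C.i1 _ (conj_eq_one_iff.1 (by rw [← hσ', e, X_zero]))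
  have z' : σ' 0 = 0 := by simpa using add' 0 0
  have nn : ∀ {x y : G ⧸ S.P}, S.n • x = y → x = S.n • y := fun e => by rw [← e, ← mul_smul, S.nn, one_smul]
  have p2 : S.n • S.w • S.p1 = S.w • S.p1 := by
    have f1 : C.φ₁ (σ 1) • S.n • S.w • S.p1 = S.n • S.w • S.p1 := by
      rw [hσ, ← n_conj, ← C.ψ_x 1, C.X_ψ _ (by simp)]; simp
    have f2 : S.X (σ' 1) • S.n • S.w • S.p1 = S.n • S.w • S.p1 := by
      rw [hσ', ← n_conj, C.E_inf (mem_sup_left (C.m1 _)) S.w_H]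
    rcases C.cases (S.n • S.w • S.p1) with ⟨a, b, e⟩ | ⟨a, e⟩ | e
    · rw [e, φ₁_af] at f1
      have := hσ 1
      rw [add_eq_left.1 (C.af_inj f1).1, z1, eq_comm, conj_eq_one_iff, ← S.X_zero] at this
      exact absurd (S.X_inj this) one_ne_zero
    · rw [e, ← mul_smul, ← X_add] at f2
      exact absurd (inj' _ (add_eq_right.1 (C.X_p1_inj f2))) one_ne_zero
    · exact e
  have hτ : ∀ y, y ≠ 0 → ∃ τ, τ ≠ 0 ∧ S.n • C.af 0 y = C.af 0 τ := fun y hy => by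
    have inf : ∀ g ∈ S.H, S.n • C.af 0 y ≠ g • S.p1 := fun g hg e => by
      have := C.E_inf (mem_sup_left (C.m1 (σ 1))) hg
      rw [← e, hσ, ← n_conj, smul_left_cancel_iff, X_af] at this
      exact hy (by simpa using (C.af_inj this).1)
    rcases C.cases (S.n • C.af 0 y) with ⟨a, b, e⟩ | ⟨a, e⟩ | e
    · have f1 := n_conj S.u (C.af 0 y)
      rw [n_u, u_af, neg_zero, e, u_af] at f1
      have a0 : a = 0 := mul_left_cancel₀ S.two_ne (by linear_combination (C.af_inj f1).1)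
      refine ⟨b, fun b0 => C.af_ne 0 y (one_mem _) ?_, a0 ▸ e⟩
      rw [a0, b0, af_zero] at e
      rw [nn e, one_smul]; rfl
    exacts [absurd e (inf _ (S.U_le_H (S.X_U _))), absurd e (inf _ S.w_H)]
  choose! τ τ0 hτ using hτ
  have k1 : ∀ x y, y ≠ 0 → S.n • C.af x y = C.af (σ' x * τ y) (τ y) := fun x y hy => by
    rw [← zero_add x, ← φ₁_af, n_conj, ← hσ', hτ y hy, X_af, zero_add, zero_add]
  have k2 : ∀ x y, y ≠ 0 → σ x = σ' (x * y) * τ y := fun x y hy => by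
    have := k1 (x * y) y hy
    rw [← zero_add (x * y), ← X_af, n_conj, ← hσ, hτ y hy, φ₁_af, zero_add, zero_add] at this
    exact (C.af_inj this).1
  have c0 : σ' 1 ≠ 0 := fun e => one_ne_zero (inj' _ e)
  have t0 := τ0 1 one_ne_zero
  have k3 : ∀ y, y ≠ 0 → σ' y * τ y = σ' 1 * τ 1 := fun y hy => by
    have := (k2 1 y hy).symm.trans (k2 1 1 one_ne_zero)
    rwa [one_mul, one_mul] at this
  have k4 : ∀ x y, σ' (x * y) * σ' 1 = σ' x * σ' y := fun x y => by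
    by_cases hy : y = 0
    · simp [hy, z']
    have := (k2 x y hy).symm.trans (k2 x 1 one_ne_zero)
    rw [mul_one] at this
    exact mul_right_cancel₀ t0 (by linear_combination σ' y * this - σ' (x * y) * k3 y hy)
  let f : F →+* F :=
    { toFun := fun x => σ' x / σ' 1
      map_one' := div_self c0
      map_mul' := fun x y => by field_simp; exact k4 x y
      map_zero' := by rw [z', zero_div]
      map_add' := fun x y => by rw [add', add_div] }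
  have hf : ∀ x, σ' x = σ' 1 * f x := fun x => (mul_div_cancel₀ _ c0).symm
  refine ⟨f, σ' 1, (τ 1)⁻¹, c0, inv_ne_zero t0, fun x y z h => ?_⟩
  by_cases hz : z = 0
  · by_cases hy : y = 0
    · rw [hz, hy, map_zero, mul_zero, ψ_x, ψ_x, p2]
    · have := (map_ne_zero f).2 hy
      rw [hz, C.ψ_y hy, n_conj, ← hσ, n_p1, ← C.af_zero, φ₁_af, C.ψ_af (by positivity), k2 _ 1 one_ne_zero, hf]
      congr 1
      · simp; field_simp
      · simp
  · have fz := (map_ne_zero f).2 hz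
    rw [C.ψ_af hz]
    by_cases hy : y = 0
    · rw [hy, zero_div, ← zero_add (x / z), ← φ₁_af, af_zero, n_conj, ← hσ', map_zero, mul_zero, C.ψ_y fz, hf,
        map_div₀, mul_div_assoc]; rfl
    · have fy := (map_ne_zero f).2 hy
      have yz := div_ne_zero hy hz
      have e := k3 _ yz
      rw [hf, map_div₀, mul_assoc, mul_right_inj' c0] at e
      rw [k1 _ _ yz, C.ψ_af (by positivity), hf, map_div₀, ← e]
      have := τ0 _ yz
      congr 1 <;> field_simp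

/-- `g` acts as the matrix `M` -/
def Rel (g : G) (M : SL(3, F)) : Prop :=
  ∀ v : Fin 3 → F, v ≠ 0 → g • C.ψ (v 0) (v 1) (v 2) = C.ψ ((M.1 *ᵥ v) 0) ((M.1 *ᵥ v) 1) ((M.1 *ᵥ v) 2)

omit [Fintype F] in
theorem ne_iff {v : Fin 3 → F} : v ≠ 0 ↔ v 0 ≠ 0 ∨ v 1 ≠ 0 ∨ v 2 ≠ 0 := by
  rw [ne_eq, funext_iff, Fin.forall_fin_succ, Fin.forall_fin_two]; simp; tauto

theorem Rel.mul {g h : G} {M N : SL(3, F)} (a : C.Rel g M) (b : C.Rel h N) : C.Rel (g * h) (M * N) := fun v hv => by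
  rw [mul_smul, b v hv, a _ (fun e => hv (Matrix.eq_zero_of_mulVec_eq_zero (by rw [N.2]; exact one_ne_zero) e)), mulVec_mulVec]; rfl

theorem Rel.uniq [IsSimpleGroup G] {g h : G} {M : SL(3, F)} (a : C.Rel g M) (b : C.Rel h M) : g = h := by
  have : h⁻¹ * g ∈ (MulAction.toPermHom G (G ⧸ S.P)).ker := by
    rw [MonoidHom.mem_ker]; ext p
    obtain ⟨x, y, z, h0, rfl⟩ := C.ψ_surj p
    have := (a ![x, y, z] (ne_iff.2 h0)).trans (b ![x, y, z] (ne_iff.2 h0)).symm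
    simpa [mul_smul, inv_smul_eq_iff] using this
  rw [← normalCore_eq_ker, (normalCore_normal S.P).eq_bot_or_eq_top.resolve_right fun e => by
    have := C.index
    rw [eq_top_iff.2 (e.ge.trans (normalCore_le _)), index_top] at this
    have := Fintype.card_pos (α := F)
    omega] at this
  exact (inv_mul_eq_one.1 this).symm

/-- the root groups -/
noncomputable def R (i j : Fin 3) : Subgroup G := ![![⊥, S.U, S.A], ![S.U', ⊥, S.B], ![cj S.n S.U', cj S.n S.B, ⊥]] i j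

theorem tv (i j : Fin 3) (h : i ≠ j) (c : F) (v : Fin 3 → F) (k : Fin 3) :
    ((SpecialLinearGroup.transvection h c).1 *ᵥ v) k = v k + if k = i then c * v j else 0 := by
  rw [SpecialLinearGroup.transvection_coe, add_mulVec, one_mulVec, single_mulVec]
  simp [Function.update_apply]

theorem root (i j : Fin 3) (h : i ≠ j) : ∃ x : F → G, (∀ g, g ∈ R (S := S) i j ↔ ∃ c, x c = g) ∧
    ∀ c, C.Rel (x c) (SpecialLinearGroup.transvection h c) := by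
  obtain ⟨f, c, k, c0, k0, hn⟩ := C.exists_semi
  have fs : Function.Surjective f := Finite.injective_iff_surjective.1 f.injective
  have key : ∀ v : Fin 3 → F, v ≠ 0 → ∃ x y z, (x ≠ 0 ∨ y ≠ 0 ∨ z ≠ 0) ∧ v 0 = c * f x ∧ v 1 = f z ∧ v 2 = k * f y :=
    fun v hv => by
      obtain ⟨x, hx⟩ := fs (v 0 / c)
      obtain ⟨y, hy⟩ := fs (v 2 / k)
      obtain ⟨z, hz⟩ := fs (v 1)
      have e0 : v 0 = c * f x := by rw [hx, mul_div_cancel₀ _ c0]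
      have e2 : v 2 = k * f y := by rw [hy, mul_div_cancel₀ _ k0]
      refine ⟨x, y, z, ?_, e0, hz.symm, e2⟩
      by_contra a
      push Not at a
      simp [ne_iff, e0, e2, ← hz, a] at hv
  choose g hg using fs
  have gs : Function.Surjective g := fun a => ⟨f a, f.injective (hg _)⟩
  fin_cases i <;> fin_cases j <;> try exact absurd rfl h
  · exact ⟨S.X, fun _ => Iff.rfl, fun l v hv => by simp [tv, C.X_ψ l (ne_iff.1 hv)]⟩
  · exact ⟨C.φ₁, C.s1, fun l v hv => by simp [tv, C.φ₁_ψ]⟩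
  · exact ⟨S.Y, fun _ => Iff.rfl, fun l v hv => by simp [tv, C.Y_ψ l (ne_iff.1 hv)]⟩
  · exact ⟨C.φ₂, C.s2, fun l v hv => by simp [tv, C.φ₂_ψ]⟩
  · refine ⟨fun l => S.n * S.Y (g (l * c / k)) * S.n⁻¹, fun x => mem_cj'.trans ⟨?_, ?_⟩, fun l v hv => ?_⟩
    · rintro ⟨_, ⟨a, rfl⟩, rfl⟩
      obtain ⟨b, hb⟩ := gs a.toAdd
      exact ⟨b * k / c, by simp only [div_mul_cancel₀ _ c0, mul_div_cancel_right₀ _ k0, hb]; rfl⟩
    · rintro ⟨l, rfl⟩; exact ⟨_, S.Y_U _, rfl⟩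
    · obtain ⟨x, y, z, h0, e0, e1, e2⟩ := key v hv
      simp only [tv, e0, e1, e2]
      rw [← hn x y z h0, ← n_conj, C.Y_ψ _ h0, hn _ _ _ (by by_cases a : x = 0 <;> simp_all), map_add, map_mul, hg]
      congr 1 <;> simp [e0]
      field_simp
  · refine ⟨fun l => S.n * C.φ₂ (g (l / k)) * S.n⁻¹, fun x => mem_cj'.trans ⟨?_, ?_⟩, fun l v hv => ?_⟩
    · rintro ⟨_, hb, rfl⟩
      obtain ⟨a, rfl⟩ := (C.s2 _).1 hb
      obtain ⟨b, hb⟩ := gs a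
      exact ⟨b * k, by simp only [mul_div_cancel_right₀ _ k0, hb]⟩
    · rintro ⟨l, rfl⟩; exact ⟨_, C.m2 _, rfl⟩
    · obtain ⟨x, y, z, h0, e0, e1, e2⟩ := key v hv
      simp only [tv, e0, e1, e2]
      rw [← hn x y z h0, ← n_conj, C.φ₂_ψ, hn _ _ _ (by by_cases a : z = 0 <;> simp_all), map_add, map_mul, hg]
      congr 1 <;> simp [e1]
      field_simp

theorem T_R (i j : Fin 3) : S.T ≤ 𝐍(R (S := S) i j) := by
  fin_cases i <;> fin_cases j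
  exacts [norms_bot, S.T_norm_U, S.T_A, S.T_U', norms_bot, S.T_B, S.T_cj S.n_norm S.T_U', S.T_cj S.n_norm S.T_B, norms_bot]

include C in
theorem psl3 [IsSimpleGroup G] : Nonempty (G ≃* Matrix.ProjectiveSpecialLinearGroup (Fin 3) F) := by
  choose x hx hr using C.root
  have ex : ∀ M, ∃ g ∈ ⨆ i, ⨆ j, R (S := S) i j, C.Rel g M := Lin.transvection_induction _
    (fun i j h c => ⟨_, mem_iSup_of_mem i (mem_iSup_of_mem j ((hx i j h _).2 ⟨c, rfl⟩)), hr i j h c⟩)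
    fun _ _ ⟨g, hg, a⟩ ⟨h, hh, b⟩ => ⟨_, mul_mem hg hh, a.mul C b⟩
  choose θ hθ hθ' using ex
  let Θ : SL(3, F) →* G := MonoidHom.mk' θ fun M N => (hθ' _).uniq C ((hθ' M).mul C (hθ' N))
  have hR : ∀ i j, R (S := S) i j ≤ Θ.range := fun i j g hg => by
    by_cases h : i = j
    · subst h; fin_cases i <;> exact (mem_bot.1 hg) ▸ one_mem _
    obtain ⟨c, rfl⟩ := (hx i j h _).1 hg
    exact ⟨_, (hθ' _).uniq C (hr i j h c)⟩
  have hK : Θ.range = ⨆ i, ⨆ j, R (S := S) i j :=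
    le_antisymm (by rintro _ ⟨M, rfl⟩; exact hθ M) (iSup_le fun i => iSup_le (hR i))
  have hT : S.T ≤ 𝐍(Θ.range) := hK ▸ norms_iSup fun i => norms_iSup (T_R i)
  have hN : Θ.range ≤ 𝐍(Θ.range) := le_normalizer
  have hP : S.P ≤ 𝐍(Θ.range) := sup_le (sup_le ((hR 2 1).trans hN) ((hR 2 0).trans hN))
    (S.B_max (sup_le hT ((hR 0 1).trans hN)) (hN (hR 1 0 (S.Y_U 1))) (S.U'_le_H (S.Y_U 1)) (by rw [Y, S.a_B]; simp))
  have orb : ∀ p : G ⧸ S.P, ∃ k ∈ Θ.range, p = k • S.p0 := fun p => by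
    have af : ∀ a b, ∃ k ∈ Θ.range, C.ψ a b 1 = k • S.p0 := fun a b =>
      ⟨_, mul_mem (hR 0 2 (C.m1 a)) (hR 1 2 (C.m2 b)), C.ψ_one a b⟩
    rcases C.cases p with ⟨a, b, rfl⟩ | ⟨a, rfl⟩ | rfl
    · exact C.ψ_one a b ▸ af a b
    · obtain ⟨k, hk, e⟩ := af a 1
      have := hr 2 1 (by decide) (-1) ![a, 1, 1] (by simp [ne_iff])
      refine ⟨_, mul_mem (hR 2 1 ((hx 2 1 (by decide) _).2 ⟨-1, rfl⟩)) hk, ?_⟩
      rw [mul_smul, ← e]
      simpa [tv, C.ψ_y] using this.symm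
    · obtain ⟨k, hk, e⟩ := af 1 0
      have := hr 2 0 (by decide) (-1) ![1, 0, 1] (by simp [ne_iff])
      refine ⟨_, mul_mem (hR 2 0 ((hx 2 0 (by decide) _).2 ⟨-1, rfl⟩)) hk, ?_⟩
      rw [mul_smul, ← e]
      simpa [tv, C.ψ_x] using this.symm
  have hn : Θ.range.Normal := normalizer_eq_top_iff.1 (eq_top_iff.2 fun g _ => by
    obtain ⟨k, hk, e⟩ := orb (g • S.p0)
    rw [← inv_smul_eq_iff, ← mul_smul, fix0] at e
    simpa using mul_mem (hN hk) (hP e))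
  have ne : Θ.range ≠ ⊥ := fun e => S.U_ne (eq_bot_iff.2 ((hR 0 1).trans e.le))
  have hs : Function.Surjective Θ := MonoidHom.range_eq_top.1 (hn.eq_bot_or_eq_top.resolve_left ne)
  have hc : center SL(3, F) ≤ Θ.ker := fun M hM => (hθ' M).uniq C fun v hv => by
    obtain ⟨r, h1, h2⟩ := Matrix.SpecialLinearGroup.mem_center_iff.1 hM
    have r0 : r ≠ 0 := fun e => by simp [e] at h1
    rw [one_smul, ← h2, ← C.ψ_smul r0]; simp
  haveI := Lin.PSL_isSimpleGroup (ι := Fin 3) (F := F) (by simp)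
  let Φ := QuotientGroup.lift _ Θ hc
  have hs' : Function.Surjective Φ := fun g => let ⟨M, e⟩ := hs g; ⟨M, e⟩
  refine ⟨(MulEquiv.ofBijective Φ ⟨(MonoidHom.ker_eq_bot_iff _).1
    ((MonoidHom.normal_ker Φ).eq_bot_or_eq_top.resolve_right fun e => S.t_ne ?_), hs'⟩).symm⟩
  obtain ⟨M, e'⟩ := hs' S.t
  rw [← e']; exact e.ge (mem_top M)

end Co

theorem psl3 [IsSimpleGroup G] (h : S.H.index = 𝔮 ^ 2 * (𝔮 ^ 2 + 𝔮 + 1)) :
    Nonempty (G ≃* Matrix.ProjectiveSpecialLinearGroup (Fin 3) F) :=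
  let ⟨φ₁, φ₂, a, b, c, d, e, f, g, i⟩ := (S.hex' h).exists_nat
  Co.psl3 (⟨S.hex' h, φ₁, φ₂, a, b, c, d, e, f, g, i⟩ : S.Co)

end Hyp
end CA.Br
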