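/-
Brauer's characterization of `PSL₃(q)` and `M₁₁`: the order of `G`.
-/
import Cfsg.Agent.Lib.Br.Fin
import Cfsg.Agent.Lib.Br.Loc3
import Cfsg.Agent.Lib.Br.Arith
import Cfsg.Agent.Lib.Br.Plane

set_option autoImplicit false
set_option linter.unusedSectionVars false

namespace CA.Br

open Cfsg Subgroup CA CA.Ch

variable {F : Type*} [Field F] {G : Type*} [Group G] [Fintype F] [Finite G]
local notation "𝔮" => Fintype.card F

namespace Hyp

variable (S : Hyp G F)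

/-- the hypotheses pass to the subgroups containing `H` and `ρ` -/
noncomputable def sub (M : Subgroup G) (hH : S.H ≤ M) (hρ : S.ρ ∈ M) : Hyp M F where
  π := S.π.codRestrict M fun g => hH ⟨g, rfl⟩
  odd := S.odd
  ker g h := S.ker g (congrArg Subtype.val h)
  cent := by
    ext x
    rw [mem_cent1_iff, Subtype.ext_iff]
    exact ⟨fun ⟨g, e⟩ => S.mem_H.1 ⟨g, congrArg Subtype.val e⟩, fun e => (S.mem_H.2 e).imp fun _ => Subtype.ext⟩
  ε := S.ε
  nsq := S.nsq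
  ρ := ⟨S.ρ, hρ⟩
  ρt := Subtype.ext S.ρt
  ρu := Subtype.ext S.ρu

theorem sub_index (M : Subgroup G) (hH : S.H ≤ M) (hρ : S.ρ ∈ M) :
    (S.sub M hH hρ).H.index * M.index = S.H.index := by
  rw [← relIndex_mul_index hH, relIndex]
  congr 2
  ext x
  exact ⟨fun ⟨g, e⟩ => ⟨g, congrArg Subtype.val e⟩, fun ⟨g, e⟩ => ⟨g, Subtype.ext e⟩⟩

theorem eqs : ∃ s y : ℤ, Eqs 𝔮 s y S.H.index := by
  obtain ⟨s, y, e1, e2, k1, k2, -⟩ := S.toAbs.eqs
  rw [show S.toAbs.Q = 𝔮 from S.toAbs0_Q] at e1 e2 k1 k2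
  exact ⟨s, y, by exact_mod_cast Nat.pos_of_ne_zero index_ne_zero_of_finite, by exact_mod_cast S.index_odd,
    e1, e2, k1, k2⟩

theorem coprime_case (h4 : 𝔮 % 4 = 3) (h : ¬ ringChar F ∣ S.H.index) :
    S.Triv ∧ ((𝔮 = 11 ∧ S.H.index = 19845) ∨ (𝔮 = 19 ∧ S.H.index = 148125)) := by
  have : Fact (ringChar F).Prime := ⟨S.toAbs0.hp⟩
  obtain ⟨s, y, E⟩ := S.eqs
  have hq : (𝔮 : ℤ) = (ringChar F : ℕ) ^ S.toAbs0.f := by exact_mod_cast S.toAbs0.hq
  have h4' : (𝔮 : ℤ) % 4 = 3 := by omega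
  have h' : ¬ ((ringChar F : ℕ) : ℤ) ∣ S.H.index := by exact_mod_cast h
  have h11 := arith1 S.toAbs0.hp S.toAbs0.p_ne_two S.toAbs0.hf hq E h4' h'
  have hT : S.Triv := by
    by_contra hT
    exact h (S.toAbs.dvd_index (by rwa [show S.toAbs.Q = 𝔮 from S.toAbs0_Q])
      (show 10 ≤ Nat.card S.Tm by rw [S.card_Tm]; omega) hT)
  obtain ⟨n, hn, e⟩ := S.toAbs0.triv_n (by rwa [S.toAbs0_Q]) (show 3 < 𝔮 by omega) hT
  rw [S.toAbs0_Q] at e
  have pq : ringChar F ∣ 𝔮 := a_p_dvd _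
  rcases S.tri (ringChar F) with a | ⟨a, -⟩ | ⟨-, a⟩
  · exact absurd ((pq.trans (dvd_pow_self _ two_ne_zero)).trans a) h
  · exact absurd (pq.trans a) h
  · have := arith1' S.toAbs0.hp S.toAbs0.p_ne_two S.toAbs0.hf hq E h4' h' (by exact_mod_cast a (by omega)) hn
      e.symm.dvd
    exact ⟨hT, by exact_mod_cast this⟩

theorem index_cases [IsSimpleGroup G] : S.H.index = 𝔮 ^ 2 * (𝔮 ^ 2 + 𝔮 + 1) ∨ Nat.card G = 7920 := by
  have : Fact (ringChar F).Prime := ⟨S.toAbs0.hp⟩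
  have hQ : S.toAbs.Q = 𝔮 := S.toAbs0_Q
  rcases S.toAbs.Q_odd with h4 | h4
  · have := S.toAbs.index_one h4
    rw [hQ] at this
    exact Or.inl (by exact_mod_cast this)
  have h4' := hQ ▸ h4
  obtain ⟨s, y, E⟩ := S.eqs
  have hq : (𝔮 : ℤ) = (ringChar F : ℕ) ^ S.toAbs0.f := by exact_mod_cast S.toAbs0.hq
  rcases S.tri (ringChar F) with a | ⟨a, b, c⟩ | ⟨a, -⟩
  · exact Or.inl (by
      exact_mod_cast arith3 S.toAbs0.hp S.toAbs0.p_ne_two S.toAbs0.hf hq E (by exact_mod_cast a))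
  · obtain ⟨e1, e2⟩ := arith2 S.toAbs0.hp S.toAbs0.p_ne_two S.toAbs0.hf hq E h4' (by exact_mod_cast a)
      (by exact_mod_cast b) fun h => let ⟨n, h1, h2⟩ := c (by omega); ⟨n, by exact_mod_cast h1, by exact_mod_cast h2⟩
    have e1' : 𝔮 = 3 := by omega
    have e2' : S.H.index = 165 := by omega
    obtain ⟨k, ⟨j, hj⟩, hk⟩ := S.d_dvd
    have hd : S.d = 2 := by
      rw [e1'] at hk
      have : k ≤ 2 := Nat.le_of_dvd two_pos ⟨S.d, by rw [mul_comm]; exact hk⟩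
      obtain rfl : k = 1 := by omega
      omega
    exact Or.inr (by rw [S.card_G, e1', e2', hd])
  · obtain ⟨hT, h⟩ := S.coprime_case (by omega) a
    have hd : S.d = 2 := S.toAbs.d_two h4 hT fun M h1 h2 => by
      have e := S.sub_index M h1 h2
      have h' := ((S.sub M h1 h2).coprime_case (by omega) fun b => a (e ▸ b.mul_right _)).2
      exact index_eq_one.1 (by rcases h with h | h <;> rcases h' with h' | h' <;> rw [h.2, h'.2] at e <;> omega)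
    rcases h with h | h
    exacts [absurd h.2 (S.not11 h.1 hd hT), absurd h.2 (S.not19 h.1 hd hT)]

end Hyp

theorem brauer [IsSimpleGroup G] (hF : Odd 𝔮) (Z : Subgroup (GL (Fin 2) F)) [Z.Normal]
    (hZc : Z ≤ center (GL (Fin 2) F)) (hZo : Odd (Nat.card Z)) (t : G) (ht : orderOf t = 2)
    (hC : Nonempty (centralizer ({t} : Set G) ≃* (GL (Fin 2) F ⧸ Z))) :
    Nonempty (G ≃* Matrix.ProjectiveSpecialLinearGroup (Fin 3) F) ∨ IsM11 G :=
  let ⟨S⟩ := exists_hyp hF Z hZc hZo t ht hC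
  S.index_cases.imp S.psl3 fun h => ⟨inferInstance, h⟩

end CA.Br
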