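/-
The arithmetic of the degree equations in the unitary case.
-/
import Cfsg.Agent.Lib.Br.Arith

set_option autoImplicit false

namespace CA.Br

section
variable {p f : ℕ} (hp : p.Prime) (hp2 : p ≠ 2) (hf : 0 < f) {q s y I : ℤ} (hq : q = p ^ f) (h : Eqs (-q) s y I)
include hp hp2 hf hq h

theorem arithU3 (h3 : q ^ 2 ∣ I) : I = q ^ 2 * (q ^ 2 - q + 1) := by
  have P : PQ p f (-q) := ⟨hp, hp2, hf, Or.inr (by rw [hq])⟩
  rw [P.three_I h (by rwa [neg_sq])]; ring

theorem arithU1 (h4 : q % 4 = 1) (h1 : ¬ (p : ℤ) ∣ I) {n : ℤ} (hn : n = 3 ∨ n = 15) (hN : (q + 1) / 2 ∣ I - n) :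
    (q = 5 ∧ I = 357) ∨ (q = 13 ∧ I = 25245) ∨ (q = 29 ∧ (I = 625485 ∨ I = 717213)) ∨
      (q = 109 ∧ (I = 139213485 ∨ I = 143062605)) ∨ (q = 20749 ∧ I = 185341116732669765) := by
  have P : PQ p f (-q) := ⟨hp, hp2, hf, Or.inr (by rw [hq])⟩
  have q0 : 0 < q := by rw [hq]; have := hp.pos; positivity
  obtain ⟨e, -, e0, a, b, c⟩ := P.one_e h h1
  have m := ar_surv (by omega) h.odd e0 a b c hn (by
    rwa [show (-q - 1) / 2 = -((q + 1) / 2) by omega, neg_dvd])
  have np : ∀ u v : ℕ, Nat.Coprime u v → 1 < u → 1 < v → q ≠ (u * v : ℕ) := fun u v huv hu hv z => by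
    have z' : p ^ f = u * v := by exact_mod_cast hq.symm.trans z
    obtain ⟨i, -, rfl⟩ := (Nat.dvd_prime_pow hp).1 (z' ▸ dvd_mul_right u v : u ∣ p ^ f)
    obtain ⟨j, -, rfl⟩ := (Nat.dvd_prime_pow hp).1 (z' ▸ dvd_mul_left v (p ^ i) : v ∣ p ^ f)
    have i0 : i ≠ 0 := by rintro rfl; simp at hu
    have j0 : j ≠ 0 := by rintro rfl; simp at hv
    exact hp.one_lt.ne' (Nat.eq_one_of_dvd_coprimes huv (dvd_pow_self p i0) (dvd_pow_self p j0))
  have n1 := np 7 11 (by decide) (by decide) (by decide)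
  have n2 := np 19 59 (by decide) (by decide) (by decide)
  simp only [arL, List.mem_cons, Prod.mk.injEq, List.not_mem_nil, or_false] at m
  have o := Int.odd_iff.1 h.odd
  clear a b P h hq hN np
  rcases m with m | m | m | m | m | m | m | m | m | m | m | m | m | m | m <;> obtain ⟨m, rfl, rfl⟩ := m <;>
    obtain rfl := neg_eq_iff_eq_neg.1 m <;>
    first
      | exact absurd q0 (by decide)
      | exact absurd rfl n1
      | exact absurd rfl n2
      | (norm_num at c ⊢; omega)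

end

end CA.Br
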