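/-
Suzuki's characterization of `PSU₃(q)`: the `p`-local analysis.
-/
import Cfsg.Agent.Lib.Br.Loc3
import Cfsg.Agent.Lib.Br.UDefs

set_option autoImplicit false
set_option linter.unusedSectionVars false

namespace CA.Br
open Cfsg Subgroup CA CA.Ch CA.Blk

section
variable {G : Type*} [Group G] [Finite G] {B : Subgroup G} {u : G}

theorem dc_card (B : Subgroup G) (u : G) : (MulAction.orbit B (u : G ⧸ B)).ncard = (cj u B).relIndex B := by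
  have : MulAction.stabilizer B (u : G ⧸ B) = (cj u B).subgroupOf B := by
    ext x
    rw [MulAction.mem_stabilizer_iff, mem_subgroupOf, mem_cj, mul_assoc, ← QuotientGroup.eq, eq_comm]; rfl
  rw [← MulAction.index_stabilizer, this]; rfl

theorem dc_ins (hu : u ∉ B) :
    (insert ((1 : G) : G ⧸ B) (MulAction.orbit B (u : G ⧸ B))).ncard = (cj u B).relIndex B + 1 := by
  rw [Set.ncard_insert_of_notMem, dc_card]
  rintro ⟨x, e⟩
  exact hu (by simpa using mul_mem (inv_mem x.2) (inv_mem (QuotientGroup.eq.1 (e : ((x * u : G) : G ⧸ B) = (1 : G)))))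

theorem dc_le (hu : u ∉ B) : (cj u B).relIndex B + 1 ≤ B.index := by
  rw [← dc_ins hu, index_eq_card, ← Set.ncard_univ]; exact Set.ncard_le_ncard (Set.subset_univ _)

theorem dc_eq (hu : u ∉ B) (h : B.index = (cj u B).relIndex B + 1) (g : G) : g ∈ B ∨ ∃ y ∈ B, ∃ b ∈ B, g = y * u * b := by
  have := Set.eq_of_subset_of_ncard_le (Set.subset_univ (insert ((1 : G) : G ⧸ B) (MulAction.orbit B (u : G ⧸ B))))
    (by rw [dc_ins hu, Set.ncard_univ, ← index_eq_card, h])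
  rcases this.ge (Set.mem_univ (g : G ⧸ B)) with e | ⟨x, e⟩
  · exact Or.inl (by simpa using inv_mem (QuotientGroup.eq.1 e))
  · exact Or.inr ⟨x, x.2, (x * u)⁻¹ * g, QuotientGroup.eq.1 (e : ((x * u : G) : G ⧸ B) = g), by group⟩

theorem pow_dich {p f a : ℕ} (hp : 2 < p) (hf : 0 < f) (h : p ^ a ≡ 1 [MOD 2 * (p ^ f - 1)]) : a = 0 ∨ (p ^ f) ^ 2 ∣ p ^ a := by
  have h0 : p ≤ p ^ f := Nat.le_self_pow hf.ne' p
  rcases le_or_gt (f * 2) a with e | e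
  · exact Or.inr (pow_mul p f 2 ▸ pow_dvd_pow p e)
  left
  have h1 : p ^ f ≡ 1 [MOD p ^ f - 1] := (Nat.modEq_sub (by omega))
  have h2 : p ^ (a % f) ≡ 1 [MOD p ^ f - 1] := by
    have := (h1.pow (a / f)).mul_right (p ^ (a % f))
    rw [← pow_mul, ← pow_add, Nat.div_add_mod, one_pow, one_mul] at this
    exact this.symm.trans (h.of_mul_left 2)
  have h3 : p ^ (a % f) < p ^ f := Nat.pow_lt_pow_right (by omega) (Nat.mod_lt _ hf)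
  have h4 : 0 < p ^ (a % f) := by positivity
  have h5 := Nat.eq_zero_of_dvd_of_lt ((Nat.modEq_iff_dvd' h4).1 h2.symm) (by omega)
  have h6 : a % f = 0 := by
    by_contra c
    have := Nat.le_self_pow c p
    omega
  obtain ⟨j, rfl⟩ := Nat.dvd_of_mod_eq_zero h6
  have : j < 2 := lt_of_mul_lt_mul_left e (Nat.zero_le _)
  interval_cases j
  · rfl
  · have := Nat.le_of_dvd (by omega) ((Nat.modEq_iff_dvd' (by omega)).1 (mul_one f ▸ h).symm)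
    omega
end

namespace Abs0
variable {G : Type*} [Group G] [Finite G] (S : Abs0 G)

theorem p_dvd : S.p ∣ S.q := S.hq ▸ dvd_pow_self _ S.hf.ne'
theorem U_pi : PiGrp {S.p} S.U := piGrp_of_card_pow S.hp (S.card_U.trans S.hq)
theorem odd_of_p {P : Subgroup G} (h : PiGrp {S.p} P) : Odd (Nat.card P) := h.piNum.odd fun e => S.p_ne_two e.symm
theorem V_ncyc : ¬ IsCyclic S.V := fun h => by
  obtain ⟨a, ha, e⟩ := isCyclic_iff_exists_zpowers.1 h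
  have h1 := S.card_V
  rw [e, Nat.card_zpowers] at h1
  have : orderOf a ∣ 2 := orderOf_dvd_of_pow_eq_one (by rw [sq, (S.mem_V'.1 ha).2])
  rw [h1] at this
  omega
theorem H_cent_U : S.H ⊓ 𝐂(S.U) ≤ S.Z ⊔ S.U := fun h hh => by
  obtain ⟨y, hy, h1⟩ := exists_ne_one_mem' S.U_ne_bot
  exact S.cent_U hy h1 hh.1 (mem_cent_iff'.1 hh.2 y hy)
theorem t_cent_U : S.t ∈ 𝐂(S.U) := S.Z_cent_U S.t_Z
theorem eq_t {g : G} (h1 : g * S.t * g⁻¹ ∈ S.H) (h2 : g * S.t * g⁻¹ ∈ 𝐂(S.U)) : g * S.t * g⁻¹ = S.t :=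
  (S.inv_ZU (S.H_cent_U ⟨h1, h2⟩) (Inv.conj_mul_self S.tt g)).resolve_left fun e => S.t_ne (conj_eq_one_iff.1 e)
theorem U_ti {y h : G} (hy : y ∈ S.U) (h1 : y ≠ 1) (hh : h ∈ S.H) (e : h * y * h⁻¹ ∈ S.U) : h ∈ 𝐍(S.U) :=
  (S.fus_U (one_mem _) hy h1 (one_mem _) e hh (by simp)).2
theorem u_norm_W : S.u ∈ 𝐍(S.W) := mem_normalizer_of_cj_le (cj_le_iff'.2 fun _ => S.u_W)
theorem u_H : S.u ∈ S.H := S.T_le_H S.u_T

variable (he : S.e = -1)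
include he

theorem HN : S.H ⊓ 𝐍(S.U) = S.W ⊔ S.U := (S.borel.resolve_left fun h => by have := h.1; omega).2
theorem W_norm_U : S.W ≤ 𝐍(S.U) := le_sup_left.trans (S.HN he ▸ inf_le_right)
theorem mem_HN {g : G} (h1 : g ∈ S.H) (h2 : g ∈ 𝐍(S.U)) : ∃ y ∈ S.U, ∃ x ∈ S.W, y * x = g :=
  (mem_sup_of_norm_right (S.W_norm_U he)).1 (sup_comm S.W S.U ▸ (S.HN he).le ⟨h1, h2⟩)
theorem cards : ∃ r k, S.q = r + 1 ∧ Odd k ∧ r + 2 = S.d * k ∧ Nat.card S.W = r * S.d ∧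
    Nat.card S.H = (r + 1) * (r * (r + 2) * S.d) := by
  obtain ⟨r, hr⟩ : ∃ r, S.q = r + 1 := ⟨S.q - 1, by have := S.three_le; omega⟩
  obtain ⟨k, hk, e⟩ := S.d_dvd
  have h1 := S.card_W
  have h2 := S.card_H
  rw [he, hr] at e h1
  rw [hr] at h2
  refine ⟨r, k, hr, hk, ?_, ?_, ?_⟩ <;> zify <;> unfold d <;> push_cast at e h1 h2 <;> linarith
theorem cop_q {r : ℕ} (hr : S.q = r + 1) : S.q.Coprime (r * (r + 2) * S.d) := by
  obtain ⟨r', k, h1, -, h2, -⟩ := S.cards he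
  obtain rfl : r' = r := by omega
  have h : S.q.Coprime (r' + 2) := by rw [hr]; simp [show r' + 2 = (r' + 1) + 1 from rfl]
  exact (Nat.Coprime.mul_right (by rw [hr]; simp) h).mul_right (h.coprime_dvd_right ⟨k, h2⟩)
theorem W_pi : PiGrp {S.p}ᶜ S.W := (piGrp_compl_singleton S.hp).2 fun h => by
  obtain ⟨r, k, h1, -, -, h2, -⟩ := S.cards he
  exact S.hp.one_lt.ne' (Nat.eq_one_of_dvd_coprimes (S.cop_q he h1) S.p_dvd (h.trans (h2 ▸ ⟨r + 2, by ring⟩)))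
theorem syl_H : SylowIn S.p S.U S.H := sylowIn_mk S.hp S.U_le_H (S.U_pi.isPGroup S.hp) fun h => by
  obtain ⟨r, k, h1, -, -, -, h2⟩ := S.cards he
  have := card_mul_relIndex S.U_le_H
  rw [h2, S.card_U, h1, mul_right_inj' (by omega)] at this
  exact S.hp.one_lt.ne' (Nat.eq_one_of_dvd_coprimes (S.cop_q he h1) S.p_dvd (this ▸ h))
theorem inv_HN {i : G} (h1 : i ∈ S.H) (h2 : i ∈ 𝐍(S.U)) (ii : i * i = 1) : i = 1 ∨ i = S.t := by
  obtain ⟨x, hx, y, hy, xx, rfl⟩ := S.inv_sd (S.W_norm_U he) S.W_inf_U ((S.HN he).le ⟨h1, h2⟩) ii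
  refine S.inv_ZU (mul_mem_sup ?_ hy) ii
  rcases S.inv_W hx xx with rfl | rfl
  exacts [one_mem _, S.t_Z]
theorem u_not_N : S.u ∉ 𝐍(S.U) := fun h => (S.inv_HN he S.u_H h S.uu).elim S.u_ne S.t_ne_u.symm

theorem p_triv {P : Subgroup G} {a b : G} (aa : a * a = 1) (bb : b * b = 1) (a1 : a ≠ 1) (b1 : b ≠ 1) (ab : b ≠ a)
    (hc : b ∈ 𝐂[a]) (hP : PiGrp {S.p} P) (h1 : P ≤ 𝐂[a]) (h2 : b ∈ 𝐍(P)) : P = ⊥ := by
  obtain ⟨g, rfl⟩ := isConj_iff.1 (S.inv_conj aa a1)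
  rw [← cj_centralizer_singleton, ← S.H_eq] at hc h1
  obtain ⟨k, hk, h3⟩ := IsPiHallOf.cj (S.syl_H he) g |> fun h => SylowIn.exists_le_cj h hP h1
  rw [cj_cj] at h3
  by_contra h0
  obtain ⟨y, hy, y1⟩ := exists_ne_one_mem' h0
  have h4 : (k * g)⁻¹ * b * (k * g) ∈ S.H := by
    simpa [mul_assoc] using mem_cj.1 (mul_mem (mul_mem (inv_mem hk) hc) hk)
  have h5 := S.U_ti (mem_cj.1 (h3 hy)) (ne_one_cj y1) h4 (by
    simpa [mul_assoc] using mem_cj.1 (h3 (conj_mem_of_mem_normalizer h2 hy)))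
  rcases S.inv_HN he h4 h5 (by simpa using Inv.conj_mul_self bb (k * g)⁻¹) with e | e
  · exact ne_one_cj b1 e
  · have := S.mem_H.1 (mem_cj.1 hk)
    exact ab (by rw [show b = g * (g⁻¹ * k * g * ((k * g)⁻¹ * b * (k * g)) * (g⁻¹ * k * g)⁻¹) * g⁻¹ by group, e, this]; group)

theorem V_triv {P : Subgroup G} (hP : PiGrp {S.p} P) (h : S.V ≤ 𝐍(P)) : P = ⊥ :=
  eq_bot_iff.2 (le_of_cent1_noncyclic (abelian_of_le S.commT S.V_le_T) S.V_ncyc h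
    (S.card_V ▸ (Nat.coprime_two_right.2 (S.odd_of_p hP)).pow_right 2) fun a ha a1 => by
      obtain ⟨b, hb, b1, ab⟩ : ∃ b ∈ S.V, b ≠ 1 ∧ b ≠ a := by
        by_cases e : S.t = a
        exacts [⟨_, S.u_V, S.u_ne, e ▸ S.t_ne_u.symm⟩, ⟨_, S.t_V, S.t_ne, e⟩]
      have hc := mem_cent1_iff.2 (abelian_iff'.1 S.commT _ (S.V_le_T hb) _ (S.V_le_T ha))
      exact (S.p_triv he (S.mem_V'.1 ha).2 (S.mem_V'.1 hb).2 a1 b1 ab hc (hP.inf_left _) inf_le_right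
        (norms_inf (zpowers_le.2 (h hb)) (norms_cent1 (zpowers_le.2 hc)) (mem_zpowers b))).le)

theorem cent_W_pi {h : G} (hh : h ∈ S.W) (hz : h ∉ S.Z) : PiGrp {S.p}ᶜ 𝐂[h] := by
  have k1 : ∀ x ∈ S.Wm, x ∉ S.Z → PiGrp {S.p}ᶜ 𝐂[x] := fun x hx xz => by
    have xW := S.Wm_le_W hx
    have k2 : ∀ c ∈ 𝐂[x], c * S.t = S.t * c → c ∈ S.W := fun c hc e => S.cent_W xW xz (S.mem_H.2 e) (mem_cent1_iff.1 hc)
    have k3 : S.W ≤ 𝐂[x] := mem_cent_iff_le_cent1.1 (abelian_iff.1 S.instCommW xW)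
    obtain ⟨P, hP, nP⟩ := (copAct_p_right (H := piCoreOf {2}ᶜ 𝐂[x]) (norms_piCoreOf _ (sup_le
      (zpowers_le.2 (le_normalizer (k3 S.t_W))) (zpowers_le.2 (mem_normalizer_iff_cj.2 (by
        rw [cj_centralizer_singleton, (S.mem_Wm.1 hx).2, ← cent_zpowers, zpowers_inv, cent_zpowers])))))
      (piCoreOf_piGrp _ _) (piGrp_of_card_pow Nat.prime_two (k := 2) S.card_V)).exists_sylowIn S.p
    refine piGrp_of_exists_mul (hP.eq_bot_iff.1 (S.V_triv he hP.piGrp nP)) (S.W_pi he) (piCoreOf_le _ _) k3 fun c hc => ?_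
    obtain ⟨o, ho, s, hs, e, rfl⟩ := zstar_factor (k3 S.t_W) S.tt (fun k hk e =>
      (S.inv_W (k2 _ (mul_mem (mul_mem hk (k3 S.t_W)) (inv_mem hk)) e.eq.symm) (Inv.conj_mul_self S.tt k)).resolve_left
        fun e => S.t_ne (conj_eq_one_iff.1 e)) hc
    exact ⟨o, ho, s, k2 s hs e, rfl⟩
  have h1 : S.u * h * S.u⁻¹ * h⁻¹ ∈ zpowers h := S.u_W_pow hh ▸ mul_mem (zpow_mem (mem_zpowers h) _) (inv_mem (mem_zpowers h))
  have h2 : 𝐂[h] ≤ 𝐂[S.u * h * S.u⁻¹ * h⁻¹] := cent_zpowers h ▸ cent_le_cent1 h1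
  have h3 := zpowers_le.2 hh h1
  have h4 : S.u * (S.u * h * S.u⁻¹ * h⁻¹) * S.u⁻¹ = (S.u * h * S.u⁻¹ * h⁻¹)⁻¹ := by
    calc _ = S.u * S.u * h * (S.u * S.u)⁻¹ * (S.u * h * S.u⁻¹)⁻¹ := by group
      _ = _ := by rw [S.uu]; group
  by_cases c : S.u * h * S.u⁻¹ * h⁻¹ ∈ S.Z
  · rcases S.inv_W h3 (mul_eq_one_iff_eq_inv.2 ((S.mem_Z_W.1 c).2.symm.trans h4)) with e | e
    · exact absurd (S.mem_Z_W.2 ⟨hh, mul_inv_eq_one.1 e⟩) hz
    · exact (S.W_pi he).of_le fun x hx => S.cent_W hh hz (S.H_eq ▸ e ▸ h2 hx) (mem_cent1_iff.1 hx)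
  · exact (k1 _ (S.mem_Wm.2 ⟨h3, h4⟩) c).of_le h2

theorem t_mem : S.t ∈ S.U ⊔ cj S.u S.U := by
  have h1 : S.U ⊔ cj S.u S.U ≤ S.H := sup_le S.U_le_H (cj_le_of_le S.U_le_H S.u_H)
  obtain ⟨l, hl, e⟩ := SylowIn.exists_cj ((S.syl_H he).of_le le_sup_left h1)
    (((S.syl_H he).cj_of_mem S.u_H).of_le le_sup_right h1)
  obtain ⟨y, hy, x, hx, e'⟩ := S.mem_HN he (mul_mem (inv_mem (h1 hl)) S.u_H)
    (mem_normalizer_iff_cj.2 (by rw [cj_mul, e, cj_inv_cj]))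
  obtain ⟨z, hz, e2⟩ := S.Wm_h90 S.t_Wm
  have h2 : z ∈ 𝐍(S.U ⊔ cj S.u S.U) := norms_sup (S.W_norm_U he) (by
    rw [← cj_normalizer, ← cj_eq_of_mem_normalizer S.u_norm_W]; exact cj_mono _ (S.W_norm_U he)) hz
  have h3 := mul_mem hl (mem_sup_left hy)
  have := mul_mem h3 (conj_mem_of_mem_normalizer h2 (inv_mem h3))
  rwa [show l * y * (z * (l * y)⁻¹ * z⁻¹) = l * (y * x) * (x⁻¹ * z * x) * (l * (y * x))⁻¹ * z⁻¹ by group, e',
    mul_inv_cancel_left, mul_assoc x⁻¹, ← abelian_iff'.1 S.instCommW x hx z hz, inv_mul_cancel_left, ← e2] at this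

theorem two : 𝐍(S.U) ⊓ cj S.u 𝐍(S.U) = S.W := by
  have h0 : S.W ≤ cj S.u 𝐍(S.U) := by rw [← cj_eq_of_mem_normalizer S.u_norm_W]; exact cj_mono _ (S.W_norm_U he)
  refine le_antisymm (fun c hc => ?_) (le_inf (S.W_norm_U he) h0)
  have h1 := conj_mem_of_mem_normalizer (normalizer_le_normalizer_centralizer _ hc.1) S.t_cent_U
  have h2 : c * S.t * c⁻¹ ∈ 𝐂(cj S.u S.U) := conj_mem_of_mem_normalizer (normalizer_le_normalizer_centralizer _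
    (cj_normalizer S.u S.U ▸ hc.2)) (mem_cent_iff.2 fun y hy => S.mem_H.1 (cj_le_of_le S.U_le_H S.u_H hy))
  obtain ⟨y, hy, x, hx, rfl⟩ := S.mem_HN he (S.mem_H.2 (mul_inv_eq_iff_eq_mul.1 (S.eq_t (S.mem_H.2
    (mem_cent_iff'.1 ((cent_sup _ _).ge ⟨h1, h2⟩) _ (S.t_mem he))) h1))) hc.1
  by_cases y1 : y = 1
  · rwa [y1, one_mul]
  have h3 : y ∈ 𝐍(cj S.u S.U) := by rw [← cj_normalizer]; simpa using mul_mem (mem_inf.1 hc).2 (inv_mem (h0 hx))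
  have h4 := ((S.syl_H he).cj_of_mem S.u_H).mem_of_mem_norm h3 (S.U_le_H hy) (S.U_pi.piElt hy)
  exact absurd (inv_mem_iff.1 (S.U_ti hy y1 (inv_mem S.u_H) (by simpa using mem_cj.1 h4))) (S.u_not_N he)

omit he

/-- the odd core of `C(U)` -/
def K : Subgroup G := 𝐂(S.U) ⊓ piCoreOf {2}ᶜ 𝐍(S.U)
theorem K_le : S.K ≤ 𝐍(S.U) := inf_le_right.trans (piCoreOf_le _ _)
theorem K_norm : 𝐍(S.U) ≤ 𝐍(S.K) := norms_inf (normalizer_le_normalizer_centralizer _) (piCoreOf_norm _ _)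
theorem K_odd : Odd (Nat.card S.K) := (odd_core _).of_dvd_nat (card_dvd_of_le' inf_le_right)
theorem K_pi : PiGrp {2}ᶜ S.K := (piCoreOf_piGrp _ _).inf_right _
theorem U_le_K : S.U ≤ S.K := le_inf (abelian_iff.1 S.commU)
  (le_piCoreOf ⟨le_normalizer, le_rfl⟩ (S.U_pi.compl_singleton fun e => S.p_ne_two e.symm))
theorem tj_K {g : G} (hg : g ∈ 𝐍(S.U)) : S.t * (g * S.t * g⁻¹) ∈ S.K :=
  have h : ∀ k ∈ 𝐍(S.U), k * S.t * k⁻¹ ∈ 𝐂(S.U) := fun _ hk =>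
    conj_mem_of_mem_normalizer (normalizer_le_normalizer_centralizer _ hk) S.t_cent_U
  ⟨mul_mem S.t_cent_U (h g hg), zstar_in' (centralizer_le_normalizer _ S.t_cent_U) S.tt
    (fun k hk c => S.eq_t (S.mem_H.2 c.eq.symm) (h k hk)) hg⟩

theorem decomp {R : Subgroup G} (ho : Odd (Nat.card R)) {g : G} (h : S.t * (g * S.t * g⁻¹) ∈ R) :
    ∃ k : ℤ, ∃ c ∈ S.H, g = (S.t * (g * S.t * g⁻¹)) ^ k * c := by
  obtain ⟨k, hk⟩ := Inv.conj_of_odd S.tt (Inv.conj_mul_self S.tt g) (odd_of_mem ho h)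
  generalize S.t * (g * S.t * g⁻¹) = s at hk ⊢
  exact ⟨k, (s ^ k)⁻¹ * g, S.mem_H.2 (by rw [mul_assoc, show g * S.t = g * S.t * g⁻¹ * g by group, ← hk]; group), by group⟩

theorem sem {A R : Subgroup G} (hA : A ≤ S.H) (hn : A ≤ 𝐍(R))
    (hf : ∀ h ∈ A, h ≠ 1 → ∀ y ∈ R, h ∈ 𝐂[y * S.t * y⁻¹] → y * S.t * y⁻¹ = S.t) :
    S.H.relIndex R ≡ 1 [MOD Nat.card A] := by
  have := card_dvd_ncard_of_conj (H := A) (S := {i | ∃ y ∈ R, i = y * S.t * y⁻¹} \ {S.t}) (by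
    rintro h hh _ ⟨⟨y, hy, rfl⟩, e⟩
    have := S.mem_H.1 (hA hh)
    exact ⟨⟨_, conj_mem_of_mem_normalizer (hn hh) hy, by
      rw [show h * y * h⁻¹ * S.t * (h * y * h⁻¹)⁻¹ = h * y * (h⁻¹ * (S.t * h)) * y⁻¹ * h⁻¹ by group, ← this]; group⟩,
      fun e' => e (S.eq_t_of_conj (hA hh) e')⟩) (by
    rintro h hh _ ⟨⟨y, hy, rfl⟩, e⟩ c
    by_contra h1
    exact e (hf h hh h1 y hy (mem_cent1_iff.2 c)))
  rw [S.H_eq, relIndex_cent1_ncard, ← Set.ncard_sdiff_singleton_add_one (s := {i | ∃ y ∈ R, i = y * S.t * y⁻¹})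
    (a := S.t) ⟨1, one_mem _, by group⟩]
  exact ((Nat.modEq_zero_iff_dvd.2 this).add_right 1).trans (by rw [zero_add])

theorem sem_two {h y : G} (hh : PiElt {2} h) (hA : h ∈ S.W) (h1 : h ≠ 1) (hy : y ∈ 𝐂(S.U))
    (c : h ∈ 𝐂[y * S.t * y⁻¹]) : y * S.t * y⁻¹ = S.t := by
  obtain ⟨i, hi, o⟩ := exists_orderOf_eq_prime Nat.prime_two ((piGrp_zpowers.2 hh).dvd_card_of_ne_bot (by simpa using h1))
  have := (S.inv_W (zpowers_le.2 hA hi) (Inv.mul_self_of_orderOf o)).resolve_left (Inv.ne_one_of_orderOf o)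
  exact S.eq_t (S.H_eq ▸ mem_cent1_comm.1 (this ▸ zpowers_le.2 c hi))
    (mul_mem (mul_mem hy S.t_cent_U) (inv_mem hy))

include he
theorem N_eq {g : G} (hg : g ∈ 𝐍(S.U)) : ∃ c ∈ S.K, ∃ x ∈ S.W, g = c * x := by
  obtain ⟨k, c, hc, e⟩ := S.decomp S.K_odd (S.tj_K hg)
  have h1 := zpow_mem (S.tj_K hg) k
  obtain ⟨y, hy, x, hx, rfl⟩ := S.mem_HN he hc (inv_mul_eq_iff_eq_mul.2 e ▸ mul_mem (inv_mem (S.K_le h1)) hg)
  exact ⟨_, mul_mem h1 (S.U_le_K hy), x, hx, e.trans (mul_assoc _ _ _).symm⟩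

theorem inf_H {R : Subgroup G} (hR : PiGrp {S.p} R) (h : S.U ≤ R) : R ⊓ S.H = S.U :=
  (S.syl_H he).eq_of_le (le_inf h S.U_le_H) inf_le_right (hR.inf_left _)

theorem exists_A : ∃ A ≤ S.W, Nat.card A = 2 * (S.q - 1) ∧ S.t ∈ A := by
  obtain ⟨r, k, h1, -, -, h2, -⟩ := S.cards he
  obtain ⟨g, hg, e⟩ := isCyclic_iff_exists_zpowers.1 S.cyc_W
  obtain ⟨m, hm⟩ : 2 ∣ S.d := Inv.orderOf_eq_two S.tt S.t_ne ▸ orderOf_dvd_card_of_mem S.t_Z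
  have m0 : m ≠ 0 := fun c => (card_ne_zero' S.Z) (hm.trans (by rw [c]))
  rw [e, Nat.card_zpowers, hm] at h2
  have h3 : Nat.card (zpowers (g ^ m)) = 2 * (S.q - 1) := by
    rw [Nat.card_zpowers, orderOf_pow_of_dvd m0 ⟨r * 2, by rw [h2]; ring⟩, h2, h1, ← mul_assoc,
      Nat.mul_div_cancel _ (Nat.pos_of_ne_zero m0), mul_comm]; rfl
  obtain ⟨i, hi, o⟩ := exists_orderOf_eq_prime Nat.prime_two (h3 ▸ dvd_mul_right _ _)
  have h4 := zpowers_le.2 (pow_mem hg m)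
  exact ⟨_, h4, h3, (S.inv_W (h4 hi) (Inv.mul_self_of_orderOf o)).resolve_left (Inv.ne_one_of_orderOf o) ▸ hi⟩

theorem cop_Z {z : G} (hz : z ∈ S.Z) {l : ℕ} (hl : l.Prime) (h1 : l ∣ orderOf z) (h2 : l ∣ 2 * (S.q - 1)) : l = 2 := by
  obtain ⟨r, k, h3, -, h4, -⟩ := S.cards he
  have h5 : l ∣ r + 2 := h1.trans ((orderOf_dvd_card_of_mem hz).trans ⟨k, h4⟩)
  rw [h3] at h2
  exact (Nat.prime_dvd_prime_iff_eq hl Nat.prime_two).1 ((hl.dvd_mul.1 h2).elim id fun h => (Nat.dvd_add_right h).1 h5)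

theorem cong {A R : Subgroup G} (hA : A ≤ S.W) (cA : Nat.card A = 2 * (S.q - 1)) (tA : S.t ∈ A) (hR : PiGrp {S.p} R)
    (h1 : S.U ≤ R) (h2 : R ≤ 𝐂(S.U)) (hn : A ≤ 𝐍(R)) : R = S.U ∨ S.q ^ 3 ∣ Nat.card R := by
  have h3 := S.sem (hA.trans S.W_le_H) hn fun h hh h0 y hy c => by
    by_cases hz : h ∈ S.Z
    · exact S.sem_two (fun l hl a => S.cop_Z he hz hl a (a.trans (cA ▸ orderOf_dvd_card_of_mem hh))) (hA hh) h0 (h2 hy) c
    have a1 : S.t * (y * S.t * y⁻¹) ∈ R := by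
      simpa [mul_assoc, S.t_inv] using mul_mem (conj_mem_of_mem_normalizer (hn tA) hy) (inv_mem hy)
    have a2 := (hR.piElt a1).eq_one ((S.cent_W_pi he (hA hh) hz).piElt
      (mul_mem (mem_cent1_iff.2 (S.mem_H.1 (S.W_le_H (hA hh))).symm) (mem_cent1_comm.1 c)))
    rw [← inv_eq_of_mul_eq_one_right a2, S.t_inv]
  rw [← inf_relIndex_left, S.inf_H he hR h1, cA] at h3
  obtain ⟨a, ha⟩ := (piNum_singleton_iff S.hp (relIndex_ne_zero' _ _)).1 (hR.relIndex S.U)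
  rw [ha, S.hq] at h3
  refine (pow_dich (lt_of_le_of_ne S.hp.two_le S.p_ne_two.symm) S.hf h3).imp (fun e => ?_) fun e => ?_
  · rw [e, pow_zero, relIndex_eq_one] at ha
    exact le_antisymm ha h1
  · rw [← card_mul_relIndex h1, ha, S.card_U, pow_succ', S.hq]
    exact Nat.mul_dvd_mul_left _ e

theorem exists_P : ∃ P, SylowIn S.p P S.K ∧ S.t ∈ 𝐍(P) ∧ S.U ≤ P ∧ (P = S.U ∨ S.q ^ 3 ∣ Nat.card P) := by
  obtain ⟨A, hA, cA, tA⟩ := S.exists_A he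
  have hc := copAct_p_right (zpowers_le.2 (S.K_norm (S.W_norm_U he S.t_W))) S.K_pi (piGrp_zpowers.2 (piElt_two_of_sq S.tt))
  obtain ⟨P, hP, nP⟩ := hc.exists_sylowIn S.p
  have h1 : S.U ≤ P := hP.normal_le ⟨S.U_le_K, S.K_le⟩ S.U_pi
  refine ⟨P, hP, nP (mem_zpowers _), h1, S.cong he hA cA tA hP.piGrp h1 (hP.le.trans inf_le_left) fun x hx => ?_⟩
  have xH := S.W_le_H (hA hx)
  obtain ⟨c, hc, e⟩ := hc.sylowIn_trans hP nP (hP.cj_of_mem_norm (S.K_norm (S.W_norm_U he (hA hx)))) (by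
    rw [← cj_normalizer, le_cj_iff, cj_zpowers, S.mem_H.1 (inv_mem xH), mul_inv_cancel_right]; exact nP)
  obtain ⟨z, hz, y, hy, rfl⟩ := S.mem_ZU.1 (S.H_cent_U ⟨S.H_eq ▸ cent_zpowers S.t ▸ hc.2, hc.1.1⟩)
  have h2 : z⁻¹ * x ∈ 𝐍(P) := mem_normalizer_iff_cj.2 (by rw [cj_mul, e, cj_mul, cj_eq_of_mem (h1 hy), cj_inv_cj])
  have h3 : z ∈ S.K := by simpa using mul_mem (mem_inf.1 hc).1 (inv_mem (S.U_le_K hy))
  have h4 := pow_mem h2 (orderOf z)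
  rw [(show Commute z⁻¹ x from S.Z_comm (inv_mem hz) xH).mul_pow, inv_pow, pow_orderOf_eq_one, inv_one, one_mul] at h4
  refine zpowers_le.2 h4 (mem_zpowers_pow_iff.2 (coprime_iff_forall_prime.2 fun l hl a b => ?_))
  obtain rfl := S.cop_Z he hz hl a (b.trans (cA ▸ orderOf_dvd_card_of_mem hx))
  exact Nat.not_even_iff_odd.2 (odd_of_mem S.K_odd h3) (even_iff_two_dvd.2 a)

theorem syl_K {P : Subgroup G} (h : SylowIn S.p P S.K) : SylowIn S.p P 𝐍(S.U) :=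
  h.of_not_dvd_relIndex S.K_le S.hp fun a => by
    have h1 := relIndex_sup_of_norm ((S.W_norm_U he).trans S.K_norm)
    rw [sup_eq_of_exists_mul S.K_le (S.W_norm_U he) fun _ => S.N_eq he] at h1
    exact (piGrp_compl_singleton S.hp).1 (S.W_pi he) ((h1 ▸ a).trans (relIndex_dvd_card _ _))

theorem dich' : SylowIn S.p S.U ⊤ ∨ S.q ^ 2 ∣ S.H.index := by
  obtain ⟨P, hP, -, -, rfl | h⟩ := S.exists_P he
  · exact Or.inl ((S.syl_K he hP).of_norm_le_top le_rfl)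
  obtain ⟨r, k, h1, -, -, -, h2⟩ := S.cards he
  have := h.trans (card_subgroup_dvd_card P)
  rw [← index_mul_card S.H, h2, ← h1, pow_succ', mul_left_comm, Nat.mul_dvd_mul_iff_left S.odd.pos] at this
  exact Or.inr (((S.cop_q he h1).pow_left 2).dvd_of_dvd_mul_right this)

theorem dich : ¬ S.p ∣ S.H.index ∨ S.q ^ 2 ∣ S.H.index := (S.dich' he).imp_left fun h a => h.not_dvd S.hp (by
  rw [relIndex_top_right, ← relIndex_mul_index S.U_le_H]; exact a.mul_left _)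

end Abs0
end CA.Br
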