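/-
Suzuki's characterization of `PSU₃(q)`: the doubly transitive action and the residual cases.
-/
import Cfsg.Agent.Lib.Br.ULoc1

set_option autoImplicit false
set_option linter.unusedSectionVars false

namespace CA.Br
open Cfsg Subgroup CA CA.Ch CA.Blk

namespace Abs0
variable {G : Type*} [Group G] [Finite G] (S : Abs0 G) (he : S.e = -1)
include he

theorem card_N : Nat.card 𝐍(S.U) = Nat.card S.W * (S.q * S.H.relIndex 𝐍(S.U)) := by
  rw [← card_inf_mul_relIndex S.H, S.HN he, card_sup_of_disjoint (Or.inr (S.W_norm_U he)) S.W_inf_U, S.card_U, mul_assoc]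

theorem idx_mul : 𝐍(S.U).index * S.H.relIndex 𝐍(S.U) = S.H.index * (S.q + 1) := by
  obtain ⟨r, k, h1, -, -, h2, h3⟩ := S.cards he
  have := (index_mul_card 𝐍(S.U)).trans (index_mul_card S.H).symm
  rw [S.card_N he, h3] at this
  refine Nat.eq_of_mul_eq_mul_left (Nat.mul_pos (card_pos' S.W) S.odd.pos) ?_
  rw [h2, h1] at *
  linear_combination this

theorem dc_idx : (cj S.u 𝐍(S.U)).relIndex 𝐍(S.U) = S.q * S.H.relIndex 𝐍(S.U) := by
  have := card_inf_mul_relIndex (cj S.u 𝐍(S.U)) 𝐍(S.U)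
  rw [inf_comm, S.two he] at this
  exact Nat.eq_of_mul_eq_mul_left (card_pos' _) (this.trans (S.card_N he))

theorem twoT [IsSimpleGroup G] (hI : (S.H.index : ℤ) = S.q ^ 2 * (S.q ^ 2 - S.q + 1)) : ∃ P, TwoT S P := by
  obtain ⟨P, hP, tP, hU, h0⟩ := S.exists_P he
  have q0 := S.odd.pos
  have h1 : S.q ^ 3 ∣ Nat.card P := h0.resolve_left fun e => ((S.syl_K he (e ▸ hP)).of_norm_le_top le_rfl).not_dvd S.hp (by
    rw [relIndex_top_right, ← relIndex_mul_index S.U_le_H]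
    exact (S.p_dvd.trans (Int.natCast_dvd_natCast.1 ⟨_, hI.trans (by rw [sq, mul_assoc])⟩)).mul_left _)
  have hN := hP.le.trans S.K_le
  have hC := hP.le.trans inf_le_left
  have cop : (Nat.card P).Coprime (Nat.card S.W) := hP.piGrp.coprime (S.W_pi he)
  have h2 : Nat.card P ∣ S.q * S.H.relIndex 𝐍(S.U) := cop.dvd_of_dvd_mul_left (S.card_N he ▸ card_dvd_of_le' hN)
  obtain ⟨m, hm⟩ := h1.trans h2
  have h3 := dc_le (S.u_not_N he)
  have h4 : 𝐍(S.U).index * m = S.q ^ 3 + 1 := by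
    have := S.idx_mul he
    refine Nat.eq_of_mul_eq_mul_left (pow_pos q0 3) ?_
    zify at this hm ⊢
    rw [hI] at this
    linear_combination S.q * this - 𝐍(S.U).index * hm
  rw [S.dc_idx he, hm] at h3
  obtain rfl : m = 1 := by
    by_contra c
    have m0 : m ≠ 0 := fun c => by rw [c] at h4; omega
    have m2 : 2 ≤ m := by omega
    nlinarith [pow_pos q0 3]
  rw [mul_one] at h4 hm
  have h5 : Nat.card P = S.q ^ 3 := Nat.dvd_antisymm (hm ▸ h2) h1
  have h6 := exists_mul_of_card hN (S.W_norm_U he) (by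
    rw [inf_eq_bot_of_card_coprime cop, card_bot, S.card_N he, hm, h5, one_mul, mul_comm])
  have hO := S.odd_of_p hP.piGrp
  have hH := S.inf_H he hP.piGrp hU
  have s1 : ∀ y ∈ P, S.t * (y * S.t * y⁻¹) ∈ P := fun y hy => by
    simpa [mul_assoc, S.t_inv] using mul_mem (conj_mem_of_mem_normalizer tP hy) (inv_mem hy)
  have s2 : ∀ y ∈ P, ∃ k : ℤ, ∃ c ∈ S.U, y = (S.t * (y * S.t * y⁻¹)) ^ k * c := fun y hy => by
    obtain ⟨k, c, hc, e⟩ := S.decomp hO (s1 y hy)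
    exact ⟨k, c, hH.le (mem_inf.2 ⟨inv_mul_eq_iff_eq_mul.2 e ▸ mul_mem (inv_mem (zpow_mem (s1 y hy) k)) hy, hc⟩), e⟩
  have h7 : S.W ≤ 𝐍(P) := fun x hx => mem_normalizer_of_cj_le (cj_le_iff'.2 fun y hy => by
    obtain ⟨k, c, hc, e⟩ := s2 y hy
    obtain ⟨y', hy', x', hx', e'⟩ := h6 _ (mul_mem (S.W_norm_U he hx) (hN hy))
    have a1 := S.mem_H.1 (S.W_le_H hx)
    have a2 := S.mem_H.1 (S.W_le_H hx')
    have : x * (S.t * (y * S.t * y⁻¹)) * x⁻¹ = S.t * (y' * S.t * y'⁻¹) := by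
      rw [show x * (S.t * (y * S.t * y⁻¹)) * x⁻¹ = x * S.t * x⁻¹ * (x * y * S.t * (x * y)⁻¹) by group, e', a1,
        mul_assoc y', a2]; group
    rw [e, ← conj_mul, ← conj_zpow, this]
    exact mul_mem (zpow_mem (s1 _ hy') k) (hU (conj_mem_of_mem_normalizer (S.W_norm_U he hx) hc)))
  have irr : ∀ A, S.U ≤ A → A ≤ P → S.W ≤ 𝐍(A) → A = S.U ∨ A = P := fun A a1 a2 a3 => by
    obtain ⟨D, hD, cD, tD⟩ := S.exists_A he
    exact (S.cong he hD cD tD (hP.piGrp.of_le a2) a1 (a2.trans hC) (hD.trans a3)).imp_right fun a =>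
      eq_of_le_of_card_le a2 (h5 ▸ Nat.le_of_dvd (card_pos' _) a)
  have bru : ∀ g, g ∈ 𝐍(S.U) ∨ ∃ y ∈ P, ∃ b ∈ 𝐍(S.U), g = y * S.u * b := fun g =>
    (dc_eq (S.u_not_N he) (by rw [S.dc_idx he, hm, h4]) g).imp_right fun ⟨y, hy, b, hb, e⟩ => by
      obtain ⟨y', hy', x, hx, rfl⟩ := h6 y hy
      exact ⟨y', hy', _, mul_mem (S.W_norm_U he (conj_inv_mem_of_mem_normalizer S.u_norm_W hx)) hb, by rw [e]; group⟩
  refine ⟨P, h5, hU, hC, (sup_eq_of_exists_mul hN (S.W_norm_U he) h6).symm, h7, hH, fun y hy => ?_,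
    fun h hh h1 y hy e => ?_, irr, h4, bru, S.two he⟩
  · obtain ⟨k, c, hc, e⟩ := s2 y hy
    have a1 := mem_cent_iff.1 (hC (zpow_mem (s1 y hy) k)) c hc
    have a2 := (Inv.conj_zpow_left S.tt (Inv.conj_mul_self S.tt y) k).trans (zpow_neg _ _)
    generalize (S.t * (y * S.t * y⁻¹)) ^ k = s at e a1 a2
    rw [e, ← conj_mul, a2, ← S.mem_H.1 (S.U_le_H hc), mul_inv_cancel_right, mul_assoc, ← mul_assoc c, a1, mul_assoc,
      inv_mul_cancel_left]
    exact mul_mem hc hc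
  have a1 := S.mem_H.1 (S.W_le_H hh)
  have a2 : S.t * (y * S.t * y⁻¹) ∈ 𝐂[h] := by
    have b1 := mem_cent_iff.1 (hC hy) _ e
    have b2 := S.mem_H.1 (S.U_le_H e)
    refine mul_mem (mem_cent1_iff.2 a1.symm) (mem_cent1_iff.2 (eq_mul_inv_iff_mul_eq.1 ?_))
    generalize hc : h * y * h⁻¹ * y⁻¹ = c at b1 b2
    calc _ = y * (c * S.t * c⁻¹) * y⁻¹ := by rw [b2]; group
      _ = c * y * S.t * (c * y)⁻¹ := by rw [b1]; group
      _ = h * y * (h⁻¹ * (S.t * h)) * y⁻¹ * h⁻¹ := by rw [← hc]; group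
      _ = _ := by rw [← a1]; group
  have a3 : S.t * (y * S.t * y⁻¹) ∈ S.U → y ∈ S.U := fun b => hH.le ⟨hy, S.mem_H.2 (mul_inv_eq_iff_eq_mul.1 (by
    have := eq_one_of_inv (S.U_odd b) (Inv.conj_mul_left S.tt (Inv.conj_mul_self S.tt y)) (S.mem_H.1 (S.U_le_H b))
    rw [← inv_eq_of_mul_eq_one_right this, S.t_inv]))⟩
  by_cases hz : h ∈ S.Z
  swap
  · exact a3 ((hP.piGrp.piElt (s1 y hy)).eq_one ((S.cent_W_pi he hh hz).piElt a2) ▸ one_mem _)
  have a4 : S.H ≤ 𝐂[h] := fun x hx => mem_cent1_iff.2 (S.Z_comm hz hx).symm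
  rcases irr (P ⊓ 𝐂[h]) (le_inf hU (S.U_le_H.trans a4)) inf_le_left (norms_inf h7 (norms_cent1 (S.W_le_H.trans a4))) with b | b
  · exact a3 (b.le ⟨s1 y hy, a2⟩)
  have a5 : 𝐍(S.U) ≤ 𝐂[h] := sup_eq_of_exists_mul hN (S.W_norm_U he) h6 ▸ sup_le (inf_eq_left.1 b) (S.W_le_H.trans a4)
  have a6 : h ∈ center G := mem_center_iff.2 fun g => mem_cent1_iff.1 (by
    rcases bru g with c | ⟨y, hy, b, hb, rfl⟩
    exacts [a5 c, mul_mem (mul_mem (a5 (hN hy)) (a4 S.u_H)) (a5 hb)])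
  rcases IsSimpleGroup.eq_bot_or_eq_top_of_normal (center G) inferInstance with c | c
  · exact absurd (mem_bot.1 (c ▸ a6)) h1
  · exact absurd (by rw [← S.ρ_t, mem_center_iff.1 (c ▸ mem_top S.t) S.ρ, mul_inv_cancel_right]) S.t_ne_u

theorem res (hd : S.d = 2) (hq : S.q.Prime) (h8 : S.q % 8 = 5) (hI : ¬ S.q ∣ S.H.index) :
    S.p = S.q ∧ SylowIn S.q S.U ⊤ ∧ S.K ⊓ S.H = S.U ∧ S.H.relIndex S.K = S.H.relIndex 𝐍(S.U) ∧
      ∃ A, SylowIn 2 A S.W ∧ ∀ R ≤ S.K, A ≤ 𝐍(R) → S.H.relIndex R % 8 = 1 := by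
  have h1 : S.p = S.q := (Nat.prime_dvd_prime_iff_eq S.hp hq).1 S.p_dvd
  obtain ⟨A, hA⟩ := exists_sylowIn 2 S.W
  refine ⟨h1, h1 ▸ (S.dich' he).resolve_right fun h => hI ((dvd_pow_self _ two_ne_zero).trans h),
    le_antisymm (fun x hx => ?_) (le_inf S.U_le_K S.U_le_H), ?_, A, hA, fun R hR hn => ?_⟩
  · obtain ⟨z, hz, y, hy, rfl⟩ := S.mem_ZU.1 (S.H_cent_U ⟨hx.2, hx.1.1⟩)
    have h2 : z ∈ S.K := by simpa using mul_mem (mem_inf.1 hx).1 (inv_mem (S.U_le_K hy))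
    rwa [orderOf_eq_one_iff.1 ((Nat.coprime_two_right.2 (odd_of_mem S.K_odd h2)).eq_one_of_dvd
      (hd ▸ orderOf_dvd_card_of_mem hz)), one_mul]
  · rw [S.H_eq, relIndex_cent1_ncard, relIndex_cent1_ncard]
    congr 1
    refine Set.ext fun i => ⟨fun ⟨g, hg, e⟩ => ⟨g, S.K_le hg, e⟩, fun ⟨g, hg, e⟩ => ?_⟩
    obtain ⟨c, hc, x, hx, rfl⟩ := S.N_eq he hg
    exact ⟨c, hc, by rw [e, mul_assoc c, S.mem_H.1 (S.W_le_H hx)]; group⟩
  · obtain ⟨r, k, a1, -, -, a2, -⟩ := S.cards he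
    have a3 : 8 ∣ Nat.card A := by
      rw [hA.card_eq]
      exact (piNum_singleton_pow Nat.prime_two 3).dvd_piPart (card_ne_zero' _) (by rw [a2, hd]; omega)
    exact (S.sem (hA.le.trans S.W_le_H) hn fun h hh h0 y hy c =>
      S.sem_two (hA.piGrp.piElt hh) (hA.le hh) h0 (hR hy).1 c).of_dvd a3

theorem notU (hd : S.d = 2) : ¬ ((S.q = 5 ∧ S.H.index = 357) ∨ (S.q = 13 ∧ S.H.index = 25245) ∨
    (S.q = 29 ∧ (S.H.index = 625485 ∨ S.H.index = 717213)) ∨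
    (S.q = 109 ∧ (S.H.index = 139213485 ∨ S.H.index = 143062605))) := fun h => by
  have hq : S.q.Prime := by rcases h with h | h | h | h <;> rw [h.1] <;> norm_num
  obtain ⟨h1, h2, h3, h4, A, hA, h5⟩ := S.res he hd hq (by omega) (by
    rcases h with ⟨a, b⟩ | ⟨a, b⟩ | ⟨a, b | b⟩ | ⟨a, b | b⟩ <;> rw [a, b] <;> decide)
  have hAK := hA.le.trans ((S.W_norm_U he).trans S.K_norm)
  have k1 := h4 ▸ h5 _ le_rfl hAK
  have k2 := S.idx_mul he
  have k3 := S.dc_idx he ▸ dc_le (S.u_not_N he)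
  have k4 := relIndex_top_right 𝐍(S.U) ▸ sylow_index_mod hq h2
  have k5 := card_inf_mul_relIndex S.H S.K
  have k6 := S.card_N he
  rw [inf_comm, h3, h4, S.card_U] at k5
  generalize S.H.relIndex 𝐍(S.U) = k at *
  have key : ∀ a < 40, ∀ b < 40, ∀ x ∈ [(5, 357), (13, 25245), (29, 625485), (29, 717213), (109, 139213485), (109, 143062605)],
      (320 * a + 8 * b + 1) ∣ x.2 * (x.1 + 1) ∧ x.2 * (x.1 + 1) / (320 * a + 8 * b + 1) % x.1 = 1 →
      (x.1 = 5 ∧ 320 * a + 8 * b + 1 = 17) ∨ (x.1 = 109 ∧ 320 * a + 8 * b + 1 = 105) := by decide +kernel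
  have k7 : k < 12800 := by
    by_contra c
    have := Nat.mul_le_mul k3 (not_lt.1 c)
    have := Nat.mul_le_mul_left 𝐍(S.U).index (not_lt.1 c)
    rcases h with ⟨a, b⟩ | ⟨a, b⟩ | ⟨a, b | b⟩ | ⟨a, b | b⟩ <;> rw [a] at k3 <;> rw [a, b] at k2 <;> omega
  have k8 := key (k / 320) (by omega) (k % 320 / 8) (by omega) (S.q, S.H.index) (by
    rcases h with ⟨a, b⟩ | ⟨a, b⟩ | ⟨a, b | b⟩ | ⟨a, b | b⟩ <;> simp [a, b])
  rw [show 320 * (k / 320) + 8 * (k % 320 / 8) + 1 = k by omega] at k8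
  rcases k8 ⟨⟨_, by rw [← k2, mul_comm]⟩, by rwa [← k2, Nat.mul_div_cancel _ (by omega)]⟩ with ⟨a, rfl⟩ | ⟨a, rfl⟩
  · have p17 : Nat.Prime 17 := by norm_num
    obtain ⟨R, hR⟩ := exists_sylowIn 17 S.K
    have b : S.H.index = 357 := by omega
    simp only at a
    rw [a] at k5 k2 h2
    have cR : Nat.card R = 17 := by
      rw [hR.card_eq, ← k5]
      exact piPart_eq_of_mul (piNum_singleton_pow p17 1) (b := 5) ((piNum_compl_singleton p17).2 (by decide)) (by decide) rfl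
    have b1 : 𝐍(S.U) ≤ 𝐍(R) := S.K_norm.trans (hR.norm_le_of_normal (relIndex_eq_one.1 (by
      have c1 := sylow_index_mod p17 hR
      have c2 := Nat.le_of_dvd (relIndex_pos' _ _) (relIndex_dvd_of_le_left S.K (le_normalizer (H := R)))
      have c3 := card_mul_relIndex hR.le
      rw [cR, ← k5] at c3
      omega)))
    have b2 := relIndex_mul_index b1
    have b3 := sylow_index_mod Nat.prime_five (h2.of_le (le_normalizer.trans b1) le_top)
    have cG : Nat.card G = 85680 := by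
      obtain ⟨r, k, a1, -, -, -, a2⟩ := S.cards he
      obtain rfl : r = 4 := by omega
      rw [← index_mul_card S.H, a2, hd, b]
    have b4 := relIndex_top_right 𝐍(R) ▸ sylow_index_mod p17 (sylowIn_mk p17 le_top (hR.isPGroup p17) (by
      have := card_mul_relIndex (le_top (a := R))
      rw [card_top, cG, cR] at this
      omega))
    have b5 : ∀ n < 127, n ∣ 126 ∧ n % 17 = 1 ∧ 126 / n % 5 = 1 → n = 1 := by decide +kernel
    have b6 : 𝐍(S.U).index = 126 := by omega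
    rw [b6] at b2
    have b7 := index_eq_one.1 (b5 _ (Nat.lt_succ_of_le (Nat.le_of_dvd (by norm_num) (Dvd.intro_left _ b2)))
      ⟨Dvd.intro_left _ b2, b4, by rwa [← b2, Nat.mul_div_cancel _ (by omega)]⟩)
    have b8 := le_of_cent1_noncyclic (J := ⊥) (abelian_of_le S.commT S.V_le_T) S.V_ncyc (b7 ▸ le_top)
      (by rw [cR, S.card_V]; decide) fun v hv v1 => (inf_eq_bot_of_card_coprime (by
        obtain ⟨g, rfl⟩ := isConj_iff.1 (S.inv_conj (S.mem_V'.1 hv).2 v1)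
        have := index_mul_card S.H
        rw [← cj_centralizer_singleton, card_cj, ← S.H_eq, cR, show Nat.card S.H = 240 by rw [b, cG] at this; omega]
        decide)).le
    rw [le_bot_iff.1 b8, card_bot] at cR
    omega
  · obtain ⟨R, hR, nR⟩ := (copAct_p_right hAK S.K_pi hA.piGrp).exists_sylowIn 3
    simp only at a
    have cR : Nat.card R = 3 := by
      rw [hR.card_eq, ← k5, a]
      exact piPart_eq_of_mul (piNum_singleton_pow Nat.prime_three 1) (b := 3815)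
        ((piNum_compl_singleton Nat.prime_three).2 (by decide)) (by decide) rfl
    have b1 := h5 R hR.le nR
    have b2 := card_inf_mul_relIndex S.H R
    rw [← inf_eq_right.2 hR.le, ← inf_assoc, inf_comm S.H, h3, inf_eq_bot_of_card_coprime (by
      rw [S.card_U, a, cR]; decide), inf_eq_right.2 hR.le, card_bot] at b2
    omega

end Abs0
end CA.Br
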