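/-
Suzuki's characterization of `PSU₃(q)`: the index of the involution centralizer.
-/
import Cfsg.Agent.Lib.Br.ULoc2
import Cfsg.Agent.Lib.Br.Fin
import Cfsg.Agent.Lib.Br.ArithU

set_option autoImplicit false
set_option linter.unusedSectionVars false

namespace CA.Br
open Cfsg Subgroup CA CA.Ch CA.Blk

theorem arithU5 {s y I : ℤ} (h : Eqs (-5) s y I) (h1 : ¬ ((5 : ℕ) : ℤ) ∣ I) : I = 357 := by
  have P : PQ 5 1 (-5) := ⟨Nat.prime_five, by decide, one_pos, Or.inr (by norm_num)⟩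
  obtain ⟨e, -, e0, a, b, c⟩ := P.one_e h h1
  have o := Int.odd_iff.1 h.odd
  have := abs_le.1 (Int.le_of_dvd (by norm_num) ((abs_dvd _ _).2 a))
  obtain ⟨l, u⟩ := this
  norm_num at l u
  interval_cases e <;> first | omega | simp at e0 b

theorem ar20749 {n k : ℕ} (k1 : k % 8 = 1) (k2 : n * k = 3845828172202897623750) (k3 : 20749 * k + 1 ≤ n)
    (k4 : n % 20749 = 1) : False := by
  have key : ∀ a < 52, ∀ b < 52, ¬ (165992 * (52 * a + b) + 139465) ∣ 3845828172202897623750 := by decide +kernel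
  have k7 : k < 448842368 := by
    by_contra c
    have := Nat.mul_le_mul_left n (not_lt.1 c)
    omega
  have k8 : k % 20749 = 14971 := by
    have : n * k % 20749 = 14971 := by rw [k2]
    rwa [Nat.mul_mod, k4, one_mul, Nat.mod_mod] at this
  refine key (k / 165992 / 52) (by omega) (k / 165992 % 52) (by omega) ?_
  rw [show 165992 * (52 * (k / 165992 / 52) + k / 165992 % 52) + 139465 = k by omega, ← k2]
  exact Dvd.intro_left _ rfl

namespace Abs0
variable {G : Type*} [Group G] [Finite G] (S : Abs0 G) (he : S.e = -1)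
include he

theorem res' (hq : S.q.Prime) (h4 : S.q % 4 = 1) (hI : ¬ S.q ∣ S.H.index) :
    SylowIn S.q S.U ⊤ ∧ Nat.card ↥(S.K ⊓ S.H) ∣ S.q * (S.q + 1) ∧ S.H.relIndex S.K = S.H.relIndex 𝐍(S.U) ∧
      ∃ A, SylowIn 2 A S.W ∧ ∀ R ≤ S.K, A ≤ 𝐍(R) → S.H.relIndex R % 8 = 1 := by
  have h1 : S.p = S.q := (Nat.prime_dvd_prime_iff_eq S.hp hq).1 S.p_dvd
  obtain ⟨A, hA⟩ := exists_sylowIn 2 S.W
  obtain ⟨r, k, a1, -, a0, a2, -⟩ := S.cards he
  refine ⟨h1 ▸ (S.dich' he).resolve_right fun h => hI ((dvd_pow_self _ two_ne_zero).trans h),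
    (card_dvd_of_le' (A := S.K ⊓ S.H) (B := S.Z ⊔ S.U) fun x hx => S.H_cent_U ⟨hx.2, hx.1.1⟩).trans ?_, ?_, A, hA, fun R hR hn => ?_⟩
  · rw [S.card_ZU]; exact mul_dvd_mul_left _ ⟨k, by rw [a1]; exact a0⟩
  · rw [S.H_eq, relIndex_cent1_ncard, relIndex_cent1_ncard]
    congr 1
    refine Set.ext fun i => ⟨fun ⟨g, hg, e⟩ => ⟨g, S.K_le hg, e⟩, fun ⟨g, hg, e⟩ => ?_⟩
    obtain ⟨c, hc, x, hx, rfl⟩ := S.N_eq he hg
    exact ⟨c, hc, by rw [e, mul_assoc c, S.mem_H.1 (S.W_le_H hx)]; group⟩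
  · have a3 : 8 ∣ Nat.card A := by
      rw [hA.card_eq]
      refine (piNum_singleton_pow Nat.prime_two 3).dvd_piPart (card_ne_zero' _) ?_
      rw [a2]
      exact mul_dvd_mul (show 4 ∣ r by omega) (show 2 ∣ S.d from
        (orderOf_eq_prime (by rw [sq, S.tt]) S.t_ne) ▸ orderOf_dvd_card_of_mem S.t_Z)
    exact (S.sem (hA.le.trans S.W_le_H) hn fun h hh h0 y hy c =>
      S.sem_two (hA.piGrp.piElt hh) (hA.le hh) h0 (hR hy).1 c).of_dvd a3

theorem notU' : ¬ ((S.q = 5 ∧ S.H.index = 357) ∨ (S.q = 13 ∧ S.H.index = 25245) ∨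
    (S.q = 29 ∧ (S.H.index = 625485 ∨ S.H.index = 717213)) ∨
    (S.q = 109 ∧ (S.H.index = 139213485 ∨ S.H.index = 143062605)) ∨
    (S.q = 20749 ∧ S.H.index = 185341116732669765)) := fun h => by
  have hq : S.q.Prime := by rcases h with h | h | h | h | h <;> rw [h.1] <;> norm_num
  obtain ⟨h2, h3, h4, A, hA, h5⟩ := S.res' he hq (by omega) (by
    rcases h with ⟨a, b⟩ | ⟨a, b⟩ | ⟨a, b | b⟩ | ⟨a, b | b⟩ | ⟨a, b⟩ <;> rw [a, b] <;> decide)
  have hAK := hA.le.trans ((S.W_norm_U he).trans S.K_norm)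
  have k1 := h4 ▸ h5 _ le_rfl hAK
  have k2 := S.idx_mul he
  have k3 := S.dc_idx he ▸ dc_le (S.u_not_N he)
  have k4 := relIndex_top_right 𝐍(S.U) ▸ sylow_index_mod hq h2
  have k5 := card_inf_mul_relIndex S.H S.K
  rw [inf_comm, h4] at k5
  generalize S.H.relIndex 𝐍(S.U) = k at *
  by_cases big : S.q = 20749
  · have b : S.H.index = 185341116732669765 := by omega
    rw [big] at k3 k4
    rw [big, b] at k2
    exact ar20749 k1 k2 k3 k4
  have key : ∀ a < 40, ∀ b < 40, ∀ x ∈ [(5, 357), (13, 25245), (29, 625485), (29, 717213), (109, 139213485), (109, 143062605)],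
      (320 * a + 8 * b + 1) ∣ x.2 * (x.1 + 1) ∧ x.2 * (x.1 + 1) / (320 * a + 8 * b + 1) % x.1 = 1 →
      (x.1 = 5 ∧ 320 * a + 8 * b + 1 = 17) ∨ (x.1 = 109 ∧ 320 * a + 8 * b + 1 = 105) := by decide +kernel
  have k7 : k < 12800 := by
    by_contra c
    have := Nat.mul_le_mul k3 (not_lt.1 c)
    have := Nat.mul_le_mul_left 𝐍(S.U).index (not_lt.1 c)
    rcases h with ⟨a, b⟩ | ⟨a, b⟩ | ⟨a, b | b⟩ | ⟨a, b | b⟩ | ⟨a, b⟩ <;> rw [a] at k3 <;> rw [a, b] at k2 <;> omega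
  have k8 := key (k / 320) (by omega) (k % 320 / 8) (by omega) (S.q, S.H.index) (by
    rcases h with ⟨a, b⟩ | ⟨a, b⟩ | ⟨a, b | b⟩ | ⟨a, b | b⟩ | ⟨a, b⟩
    all_goals first | exact absurd a big | simp [a, b])
  rw [show 320 * (k / 320) + 8 * (k % 320 / 8) + 1 = k by omega] at k8
  rcases k8 ⟨⟨_, by rw [← k2, mul_comm]⟩, by rwa [← k2, Nat.mul_div_cancel _ (by omega)]⟩ with ⟨a, rfl⟩ | ⟨a, rfl⟩
  · have p17 : Nat.Prime 17 := by norm_num
    obtain ⟨R, hR⟩ := exists_sylowIn 17 S.K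
    have b : S.H.index = 357 := by omega
    simp only at a
    rw [a] at k2 h2 h3
    have n17 : ∀ {c}, c ∣ 720 → ¬ 17 ∣ c := fun a b => absurd (b.trans a) (by decide)
    have cR : Nat.card R = 17 := by
      rw [hR.card_eq, ← k5]
      exact piPart_eq_of_mul (piNum_singleton_pow p17 1) ((piNum_compl_singleton p17).2 (n17 (h3.trans (by decide))))
        (Nat.mul_pos (card_pos' _) (by decide)).ne' (mul_comm _ _)
    have b1 : 𝐍(S.U) ≤ 𝐍(R) := S.K_norm.trans (hR.norm_le_of_normal (relIndex_eq_one.1 (by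
      have c1 := sylow_index_mod p17 hR
      have c2 := relIndex_dvd_of_le_left S.K (le_normalizer (H := R))
      have c3 := card_mul_relIndex hR.le
      rw [cR, ← k5, mul_comm, Nat.mul_left_inj (by decide)] at c3
      have : ∀ n < 31, n ∣ 30 → n % 17 = 1 → n = 1 := by decide
      exact this _ (Nat.lt_succ_of_le (Nat.le_of_dvd (by decide) ((c3 ▸ c2).trans h3))) ((c3 ▸ c2).trans h3) c1)))
    have b2 := relIndex_mul_index b1
    have b3 := sylow_index_mod Nat.prime_five (h2.of_le (le_normalizer.trans b1) le_top)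
    have cH : Nat.card S.H ∣ 720 := by
      obtain ⟨r, k, a1, -, a0, -, a2⟩ := S.cards he
      obtain rfl : r = 4 := by omega
      exact ⟨k, by rw [a2]; linear_combination 120 * a0⟩
    have b4 := relIndex_top_right 𝐍(R) ▸ sylow_index_mod p17 (sylowIn_mk p17 le_top (hR.isPGroup p17) (by
      have := card_mul_relIndex (le_top (a := R))
      rw [card_top, ← index_mul_card S.H, b, cR] at this
      have := n17 cH
      omega))
    have b5 : ∀ n < 127, n ∣ 126 ∧ n % 17 = 1 ∧ 126 / n % 5 = 1 → n = 1 := by decide +kernel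
    have b6 : 𝐍(S.U).index = 126 := by omega
    rw [b6] at b2
    have b7 := index_eq_one.1 (b5 _ (Nat.lt_succ_of_le (Nat.le_of_dvd (by norm_num) (Dvd.intro_left _ b2)))
      ⟨Dvd.intro_left _ b2, b4, by rwa [← b2, Nat.mul_div_cancel _ (by omega)]⟩)
    have b8 := le_of_cent1_noncyclic (J := ⊥) (abelian_of_le S.commT S.V_le_T) S.V_ncyc (b7 ▸ le_top)
      (by rw [cR, S.card_V]; decide) fun v hv v1 => (inf_eq_bot_of_card_coprime (by
        obtain ⟨g, rfl⟩ := isConj_iff.1 (S.inv_conj (S.mem_V'.1 hv).2 v1)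
        rw [← cj_centralizer_singleton, card_cj, ← S.H_eq, cR]
        exact (p17.coprime_iff_not_dvd.2 (n17 cH)))).le
    rw [le_bot_iff.1 b8, card_bot] at cR
    omega
  · obtain ⟨R, hR, nR⟩ := (copAct_p_right hAK S.K_pi hA.piGrp).exists_sylowIn 3
    simp only at a
    rw [a] at h3
    have n3 : ¬ 3 ∣ Nat.card ↥(S.K ⊓ S.H) := fun b => absurd (b.trans h3) (by decide)
    have cR : Nat.card R = 3 := by
      rw [hR.card_eq, ← k5]
      exact piPart_eq_of_mul (piNum_singleton_pow Nat.prime_three 1) (b := Nat.card ↥(S.K ⊓ S.H) * 35)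
        ((piNum_compl_singleton Nat.prime_three).2 (by omega)) (Nat.mul_pos (card_pos' _) (by decide)).ne' (by ring)
    have b1 := h5 R hR.le nR
    have b2 := card_inf_mul_relIndex S.H R
    rw [← inf_eq_right.2 hR.le, ← inf_assoc, inf_comm S.H, inf_eq_bot_of_card_coprime (by
      rw [cR]; exact (Nat.prime_three.coprime_iff_not_dvd.2 n3).symm), inf_eq_right.2 hR.le, card_bot] at b2
    omega

theorem index_U : (S.H.index : ℤ) = S.q ^ 2 * (S.q ^ 2 - S.q + 1) := by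
  have hQ : S.toAbs.Q = -S.q := by rw [Q, toAbs_toAbs0, he, neg_one_mul]
  have q3 := S.three_le
  have o := Nat.odd_iff.1 S.odd
  by_cases h4 : S.q % 4 = 3
  · exact (S.toAbs.index_one (by rw [hQ]; omega)).trans (by rw [hQ]; ring)
  obtain ⟨s, y, e1, e2, k1, k2, -⟩ := S.toAbs.eqs
  rw [hQ] at e1 e2 k1 k2
  have E : Eqs (-S.q) s y S.H.index := ⟨by exact_mod_cast S.index_odd.pos, by exact_mod_cast S.index_odd, e1, e2, k1, k2⟩
  have hq : (S.q : ℤ) = S.p ^ S.f := by exact_mod_cast S.hq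
  refine arithU3 S.hp S.p_ne_two S.hf hq E ?_
  refine mod_cast (S.dich he).resolve_left fun h1 => S.notU' he ?_
  have h1' : ¬ (S.p : ℤ) ∣ S.H.index := mod_cast h1
  by_cases h5 : S.q = 5
  · have p5 : S.p = 5 := (Nat.prime_dvd_prime_iff_eq S.hp Nat.prime_five).1 (h5 ▸ S.p_dvd)
    rw [h5] at E
    rw [p5] at h1'
    exact Or.inl ⟨h5, mod_cast arithU5 E h1'⟩
  have h3 : S.Q % 4 = 3 := by rw [show S.Q = -S.q from hQ]; omega
  have hT : S.Triv := by_contra fun c => h1 (S.toAbs.dvd_index h3 (by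
    have := S.card_Tm
    rw [he] at this
    have q7 : S.q ≠ 7 := by omega
    change 10 ≤ Nat.card S.Tm
    omega) c)
  obtain ⟨n, hn, hN⟩ := S.triv_n h3 (by omega) hT
  have := arithU1 S.hp S.p_ne_two S.hf hq E (by omega) h1' hn (by
    rw [show S.Q = -S.q from hQ, show (-(S.q : ℤ) - 1) / 2 = -((S.q + 1) / 2) by omega, Int.modEq_neg] at hN
    exact hN.symm.dvd)
  omega

end Abs0
end CA.Br
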