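/-
An exotic addition on a field of order `q²` whose circles are the classical ones is the addition.
-/
import Cfsg.Agent.Lib.Classical.UnitarySmall

set_option autoImplicit false
set_option linter.unusedSectionVars false

namespace CA.Br

variable {F : Type*} [Field F] [StarRing F] [Fintype F] {q : ℕ}

/-- an exotic addition on `F = F_{q²}` -/
structure Exo (op : F → F → F) (Γ : Set F) : Prop where
  comm : ∀ x y, op x y = op y x
  assoc : ∀ x y z, op (op x y) z = op x (op y z)
  zero : ∀ x, op x 0 = x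
  neg : ∀ x, op x (-x) = 0
  fixed : ∀ s, star s = s → s ∈ Γ
  dist : ∀ γ ∈ Γ, ∀ x y, op (γ * x) (γ * y) = γ * op x y
  irr : ∀ A : Set F, 0 ∈ A → (∀ x ∈ A, ∀ y ∈ A, op x y ∈ A) → (∀ γ ∈ Γ, ∀ x ∈ A, γ * x ∈ A) → A = {0} ∨ A = Set.univ
  circ : ∀ x, x ≠ 0 → ∃ β, ∀ c, (∃ y, y * star y = x * star x ∧ c = op x y) ↔ c * star c = c * star β + star c * β
  circ' : ∀ β, β ≠ 0 → ∃ x, x ≠ 0 ∧ ∀ c, (∃ y, y * star y = x * star x ∧ c = op x y) ↔ c * star c = c * star β + star c * β

/-- two circles through `0` have at most one more common point -/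
theorem circ_two {β β' c c' : F} (h1 : c * star c = c * star β + star c * β) (h2 : c * star c = c * star β' + star c * β')
    (h3 : c' * star c' = c' * star β + star c' * β) (h4 : c' * star c' = c' * star β' + star c' * β')
    (c0 : c ≠ 0) (c1 : c' ≠ 0) (hne : c ≠ c') : β = β' := by
  by_contra hb
  have d0 := sub_ne_zero.2 hb
  have s0 := star_ne_zero.2 c0
  have e : c' * star c = star c' * c := mul_left_cancel₀ d0 (by
    linear_combination c' * (h2 - h1) - c * (h4 - h3))
  obtain ⟨l, rfl⟩ : ∃ l, c' = l * c := ⟨c' / c, by field_simp⟩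
  rw [star_mul'] at e h3
  have hl : star l = l := mul_right_cancel₀ (mul_ne_zero c0 s0) (by linear_combination -e)
  rw [hl] at h3
  have : l = 1 := mul_left_cancel₀ (mul_ne_zero (left_ne_zero_of_mul c1) (mul_ne_zero c0 s0)) (by
    linear_combination h3 - l * h1)
  exact hne (by rw [this, one_mul])

namespace Exo

variable {op : F → F → F} {Γ : Set F} (h : Exo op Γ)

/-- `F` with the exotic addition -/
@[nolint unusedArguments] def Ex (_ : Exo op Γ) := F

noncomputable instance instGrp : AddCommGroup h.Ex where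
  add := op
  zero := (0 : F)
  neg x := -(show F from x)
  add_assoc := h.assoc
  zero_add x := (h.comm _ _).trans (h.zero x)
  add_zero := h.zero
  neg_add_cancel x := (h.comm _ _).trans (h.neg x)
  add_comm := h.comm
  nsmul := @nsmulRec h.Ex ⟨(0 : F)⟩ ⟨op⟩
  zsmul := @zsmulRec h.Ex ⟨(0 : F)⟩ ⟨op⟩ ⟨fun x => -(show F from x)⟩ (@nsmulRec h.Ex ⟨(0 : F)⟩ ⟨op⟩)

instance instFin : Fintype h.Ex := inferInstanceAs (Fintype F)

include h in
theorem cancel {x y z : F} (e : op x y = op x z) : y = z := add_left_cancel (G := h.Ex) (a := x) e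

/-- multiplication by an element of `Γ` -/
noncomputable def m (γ : Γ) : AddMonoid.End h.Ex :=
  AddMonoidHom.mk' (fun x : F => (γ : F) * x) fun x y => (h.dist γ γ.2 x y).symm

/-- the endomorphisms commuting with `Γ` -/
noncomputable def C : Subring (AddMonoid.End h.Ex) := Subring.centralizer (Set.range h.m)

/-- evaluation -/
noncomputable def ev (r : h.C) : F → F := fun x : h.Ex => r.1 x

theorem ev_zero (r : h.C) : h.ev r 0 = 0 := map_zero (M := h.Ex) r.1
theorem ev_op (r : h.C) (x y : F) : h.ev r (op x y) = op (h.ev r x) (h.ev r y) := map_add (M := h.Ex) r.1 x y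
theorem ev_Γ (r : h.C) {γ : F} (hγ : γ ∈ Γ) (x : F) : γ * h.ev r x = h.ev r (γ * x) :=
  DFunLike.congr_fun (r.2 (h.m ⟨γ, hγ⟩) ⟨_, rfl⟩) (x : h.Ex)
theorem ev_ext {r s : h.C} (e : ∀ x, h.ev r x = h.ev s x) : r = s := Subtype.ext (AddMonoidHom.ext e)

theorem inj (r : h.C) (h0 : r ≠ 0) (x : F) (hx : h.ev r x = 0) : x = 0 := by
  rcases h.irr {x | h.ev r x = 0} (h.ev_zero r) (fun x hx y hy => by
      rw [Set.mem_ofPred_eq] at *
      rw [ev_op, hx, hy, h.zero]) (fun γ hγ x hx => by
      rw [Set.mem_ofPred_eq] at *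
      rw [← h.ev_Γ r hγ, hx, mul_zero]) with e | e
  · exact e.le hx
  · exact absurd (h.ev_ext fun x => e.ge trivial) h0

instance instNontriv : Nontrivial h.C := ⟨⟨1, 0, fun e => one_ne_zero (α := F) (congrArg (h.ev · 1) e)⟩⟩

instance instNZD : NoZeroDivisors h.C := ⟨fun {a b} e => by
  by_contra hc
  push Not at hc
  exact one_ne_zero (h.inj b hc.2 1 (h.inj a hc.1 _ (congrArg (h.ev · 1) e)))⟩

instance instDom : IsDomain h.C := NoZeroDivisors.to_isDomain _

instance instFinC : Finite h.C :=
  have : Finite (AddMonoid.End h.Ex) := DFunLike.finite _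
  inferInstance

/-- multiplication by a fixed element -/
noncomputable def fx (s : Cl.fixedField F) : h.C := ⟨h.m ⟨s, h.fixed s s.2⟩, by
  rintro _ ⟨γ, rfl⟩
  exact AddMonoidHom.ext fun x : F => mul_left_comm (γ : F) s x⟩

theorem fx_pow (s : Cl.fixedField F) (n : ℕ) (x : F) : h.ev (h.fx s ^ n) x = (s : F) ^ n * x := by
  induction n with
  | zero => exact (by simp : x = (s : F) ^ 0 * x)
  | succ n ih =>
    rw [pow_succ', pow_succ', mul_assoc, ← ih]; rfl

theorem root_aux {C ι : Type*} [Ring C] [IsDomain C] [Finite C] [Finite ι] {p k n : ℕ} (hp : p.Prime) (q1 : 1 < p ^ k)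
    (h1 : ((p ^ n : ℕ) : C) = 0) (f : ι → C) (hf : Function.Injective f) (hc : Nat.card ι = p ^ k)
    (k1 : ∀ s, f s ^ p ^ k = f s) (s t : ι) : ∃ r, f r = f s + f t := by
  classical
  have := Fact.mk hp
  have h2 := CharP.char_is_prime C (ringChar C)
  have h3 := (Nat.prime_dvd_prime_iff_eq h2 hp).1 (h2.dvd_of_dvd_pow (ringChar.dvd h1))
  have : CharP C p := h3 ▸ ringChar.charP C
  let := (Finite.isDomain_to_isField C).toField
  have f0 := FiniteField.X_pow_card_sub_X_ne_zero C q1
  have k2 : ∀ r : C, r ^ p ^ k = r → r ∈ (Polynomial.X ^ p ^ k - Polynomial.X : Polynomial C).roots.toFinset :=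
    fun r e => by simp [f0, e]
  have := Fintype.ofFinite ι
  have k3 : Finset.univ.image f = (Polynomial.X ^ p ^ k - Polynomial.X : Polynomial C).roots.toFinset := by
    refine Finset.eq_of_subset_of_card_le (fun r hr => ?_) ?_
    · obtain ⟨s, -, rfl⟩ := Finset.mem_image.1 hr
      exact k2 _ (k1 s)
    · rw [Finset.card_image_of_injective _ hf, Finset.card_univ, ← Nat.card_eq_fintype_card, hc]
      exact (Multiset.toFinset_card_le _).trans ((Polynomial.card_roots' _).trans
        (FiniteField.X_pow_card_sub_X_natDegree_eq C q1).le)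
  obtain ⟨r, -, e⟩ := Finset.mem_image.1 (k3 ▸ k2 (f s + f t) (by rw [add_pow_char_pow, k1, k1]))
  exact ⟨r, e⟩

include h in
theorem lines (hF : Cl.IsFq2 F q) {s t : F} (hs : star s = s) (ht : star t = t) :
    ∃ r, star r = r ∧ ∀ x, op (s * x) (t * x) = r * x := by
  obtain ⟨p, hp, n, hpp, hn⟩ := FiniteField.card' F
  obtain ⟨k, -, rfl⟩ := (Nat.dvd_prime_pow hpp).1
    (show q ∣ p ^ (n : ℕ) by rw [← hn, hF.card]; exact dvd_pow_self _ two_ne_zero)
  obtain ⟨r, e⟩ := root_aux (n := n) hpp hF.two_le (h.ev_ext fun x => by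
      rw [← hn]; exact card_nsmul_eq_zero (G := h.Ex)) h.fx
    (fun a b e => Subtype.ext (mul_right_cancel₀ one_ne_zero (congrArg (h.ev · 1) e))) hF.card_fixedField
    (fun s => h.ev_ext fun x => by rw [fx_pow, ← hF.star_eq, show star (s : F) = s from s.2]; rfl) ⟨s, hs⟩ ⟨t, ht⟩
  exact ⟨r, r.2, fun x => (congrArg (h.ev · x) e).symm⟩

include h in
theorem orth (hF : Cl.IsFq2 F q) (h2 : (2 : F) ≠ 0) {c c' : F} (hc : c * star c' + star c * c' = 0) :
    op c c' = c + c' := by
  obtain ⟨κ, hκ, e⟩ := h.lines hF (star_one F) (star_one F)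
  simp only [one_mul] at e
  have nz : ∀ {x y}, op x y = 0 → y = -x := fun {x y} a => h.cancel (a.trans (h.neg x).symm)
  have κ0 : κ ≠ 0 := fun a => h2 (by have := nz (x := 1) (y := 1) (by rw [e, a, zero_mul]); linear_combination this)
  choose! π hπ using h.circ
  have tr : ∀ x, x ≠ 0 → κ * (x * star x) = x * star (π x) + star x * π x := fun x hx => by
    have := (hπ x hx (κ * x)).1 ⟨x, rfl, (e x).symm⟩
    rw [star_mul', hκ] at this
    exact mul_left_cancel₀ κ0 (by linear_combination this)
  have π0 : ∀ x, x ≠ 0 → π x ≠ 0 := fun x hx a => by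
    have := tr x hx
    rw [a, star_zero, mul_zero, mul_zero, add_zero] at this
    exact mul_ne_zero κ0 (mul_ne_zero hx (star_ne_zero.2 hx)) this
  have uniq : ∀ {β β' : F}, (∀ c, c * star c = c * star β + star c * β ↔ c * star c = c * star β' + star c * β') →
      β = β' := fun {β β'} a => by
    have a1 := (a (2 * β)).1 (by rw [star_mul', star_ofNat]; ring)
    have a2 := (a (2 * β')).2 (by rw [star_mul', star_ofNat]; ring)
    rw [star_mul', star_ofNat] at a1 a2
    have : (β - β') * star (β - β') = 0 := mul_left_cancel₀ (mul_ne_zero h2 h2) (by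
      rw [star_sub]; linear_combination a1 + a2)
    rwa [mul_eq_zero, star_eq_zero, or_self, sub_eq_zero] at this
  have πi : ∀ x x', x ≠ 0 → x' ≠ 0 → π x = π x' → x = x' := fun x x' hx hx' a => by
    have : Function.Surjective fun y : {y : F // y ≠ 0} => (⟨π y, π0 y y.2⟩ : {y : F // y ≠ 0}) := fun β => by
      obtain ⟨y, hy, b⟩ := h.circ' β β.2
      exact ⟨⟨y, hy⟩, Subtype.ext (uniq fun c => (hπ y hy c).symm.trans (b c))⟩
    exact congrArg Subtype.val (Finite.injective_iff_surjective.2 this (a₁ := ⟨x, hx⟩) (a₂ := ⟨x', hx'⟩) (Subtype.ext a))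
  have πe : ∀ x, x ≠ 0 → 2 * π x = κ * x := fun x hx => by
    obtain ⟨A, hA⟩ : ∃ A, π x = x * A := ⟨π x / x, by field_simp⟩
    have s0 := star_ne_zero.2 hx
    have A0 : A ≠ 0 := fun a => π0 x hx (by rw [hA, a, mul_zero])
    have A1 := star_ne_zero.2 A0
    have t1 : κ = A + star A := mul_right_cancel₀ (mul_ne_zero hx s0) (by
      have := tr x hx; rw [hA, star_mul'] at this; linear_combination this)
    suffices star A = A by rw [hA, t1, this]; ring
    by_contra hne
    obtain ⟨x', hx'⟩ : ∃ x', x' * star A = x * A := ⟨x * A / star A, by field_simp⟩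
    have hx'' : star x' * A = star x * star A := by simpa [star_mul', mul_comm] using congrArg star hx'
    have x0 : x' ≠ 0 := fun a => mul_ne_zero hx A0 (by rw [← hx', a, zero_mul])
    have n1 : x' * star x' = x * star x := mul_right_cancel₀ (mul_ne_zero A0 A1) (by
      linear_combination star x' * A * hx' + x * A * hx'')
    have xx : x ≠ x' := fun a => hne (mul_left_cancel₀ hx (by rw [← hx', a]))
    refine xx (πi x x' hx x0 (circ_two (c := κ * x') (c' := op x x') ?_ ((hπ x' x0 _).1 ⟨x', rfl, (e x').symm⟩)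
      ((hπ x hx _).1 ⟨x', n1, rfl⟩) ((hπ x' x0 _).1 ⟨x, n1.symm, h.comm _ _⟩) (mul_ne_zero κ0 x0) (fun a => κ0 ?_)
      fun a => xx (h.cancel (x := x') (by rw [e, a, h.comm]))))
    · rw [hA, star_mul', star_mul', hκ]
      linear_combination κ * κ * n1 + κ * x * star x * t1 - κ * star x * hx' - κ * x * hx''
    · rw [nz a] at hx'
      exact mul_left_cancel₀ hx (by rw [t1]; linear_combination -hx')
  have key : ∀ x y, y * star y = x * star x → 2 * op x y = κ * (x + y) := fun x y n1 => by
    by_cases hx : x = 0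
    · rw [hx, zero_mul, mul_eq_zero, star_eq_zero, or_self] at n1
      rw [hx, n1, h.zero]; simp
    have hy : y ≠ 0 := fun a => by rw [a, zero_mul] at n1; exact mul_ne_zero hx (star_ne_zero.2 hx) n1.symm
    by_cases a : x = y
    · rw [a, e]; ring
    by_cases b : y = -x
    · rw [b, h.neg]; simp
    by_contra hne
    obtain ⟨z, hz⟩ : ∃ z, 2 * z = κ * (x + y) := ⟨κ * (x + y) / 2, by field_simp⟩
    have hz' : 2 * star z = κ * (star x + star y) := by simpa [star_mul', hκ, mul_comm] using congrArg star hz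
    have p1 := πe x hx
    have p2 := πe y hy
    have p1' : 2 * star (π x) = κ * star x := by simpa [star_mul', hκ, mul_comm] using congrArg star p1
    have p2' : 2 * star (π y) = κ * star y := by simpa [star_mul', hκ, mul_comm] using congrArg star p2
    have h4 : (2 : F) * 2 ≠ 0 := mul_ne_zero h2 h2
    refine a (πi x y hx hy (circ_two (c := op x y) (c' := z) ((hπ x hx _).1 ⟨y, n1, rfl⟩)
      ((hπ y hy _).1 ⟨x, n1.symm, h.comm _ _⟩) (mul_left_cancel₀ h4 ?_) (mul_left_cancel₀ h4 ?_) (fun c => b (nz c))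
      (fun c => b ?_) fun c => hne (by rw [c, hz])))
    · linear_combination (2 * star z - 2 * star (π x)) * hz + (κ * (x + y) - 2 * π x) * hz' -
        κ * (x + y) * p1' - κ * (star x + star y) * p1 + κ * κ * n1
    · linear_combination (2 * star z - 2 * star (π y)) * hz + (κ * (x + y) - 2 * π y) * hz' -
        κ * (x + y) * p2' - κ * (star x + star y) * p2 - κ * κ * n1
    · rw [c, mul_zero, eq_comm, mul_eq_zero] at hz
      exact eq_neg_of_add_eq_zero_right (hz.resolve_left κ0)
  obtain ⟨x, hx⟩ : ∃ x, κ * x = c + c' := ⟨(c + c') / κ, by field_simp⟩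
  obtain ⟨y, hy⟩ : ∃ y, κ * y = c - c' := ⟨(c - c') / κ, by field_simp⟩
  have hx' : κ * star x = star c + star c' := by simpa [star_mul', hκ, mul_comm] using congrArg star hx
  have hy' : κ * star y = star c - star c' := by simpa [star_mul', hκ, mul_comm] using congrArg star hy
  have n1 : y * star y = x * star x := mul_left_cancel₀ (mul_ne_zero κ0 κ0) (by
    linear_combination κ * star y * hy + (c - c') * hy' - κ * star x * hx - (c + c') * hx' - 2 * hc)
  have e1 : c = op x y := mul_left_cancel₀ h2 (by rw [key x y n1]; linear_combination -hx - hy)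
  have e2 : c' = op x (-y) := mul_left_cancel₀ h2 (by
    rw [key x (-y) (by rw [star_neg, ← n1]; ring)]; linear_combination -hx + hy)
  rw [← hx, ← e, e1, e2, h.assoc, h.comm x (-y), ← h.assoc y, h.neg, h.comm 0, h.zero]

theorem eq_add (hF : Cl.IsFq2 F q) (hq : Odd q) {op : F → F → F} {Γ : Set F} (h : Exo op Γ) (x y : F) :
    op x y = x + y := by
  have h2 : (2 : F) ≠ 0 := fun e => by
    have := FiniteField.even_card_of_char_two (F := F) ((CharP.ringChar_of_prime_eq_zero Nat.prime_two) (by exact_mod_cast e))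
    rw [hF.card] at this
    have := hq.pow (n := 2)
    rw [Nat.odd_iff] at this
    omega
  obtain ⟨δ, δ0, hδ⟩ := Cl.exists_skew hF.exists_star_ne
  have o : ∀ {a b : F}, star a = a → star b = b → op a (b * δ) = a + b * δ := fun {a b} ha hb =>
    h.orth hF h2 (by rw [star_mul', ha, hb, hδ]; ring)
  have sw : ∀ a b c d, op (op a b) (op c d) = op (op a c) (op b d) := fun a b c d =>
    add_add_add_comm (G := h.Ex) a b c d
  have k : ∀ {a b : F}, star a = a → star b = b → ∀ z, op (a * z) (b * z) = (a + b) * z := fun {r m} hr hm z => by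
    obtain ⟨s, hs, e⟩ := h.lines hF hr hm
    have m1 : star (m * (δ * δ) * r) = m * (δ * δ) * r := by simp [star_mul', hm, hr, hδ, mul_comm]
    obtain ⟨t, ht, e'⟩ := h.lines hF (star_one F) m1
    have e1 := h.orth hF h2 (c := 1 + r * δ) (c' := m * (δ * δ) * r + m * δ) (by
      simp only [star_add, star_mul', star_one, hm, hr, hδ]; ring)
    have e2 := e' 1
    simp only [mul_one] at e2
    rw [← o (star_one F) hr, ← o m1 hm, sw, e2, e, o ht hs, o (star_one F) hr, o m1 hm] at e1
    have e3 := congrArg star e1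
    simp only [star_add, star_mul', star_one, hm, hr, hδ, hs, ht] at e3
    rw [e, show s = r + m from mul_right_cancel₀ (mul_ne_zero h2 δ0) (by linear_combination e1 - e3)]
  have dec : ∀ x : F, ∃ a b, star a = a ∧ star b = b ∧ x = a + b * δ := fun x =>
    ⟨(x + star x) / 2, (x - star x) / (2 * δ), by simp [add_comm], by
      rw [star_div₀, star_mul', hδ, star_sub, star_star, star_ofNat]; field_simp; ring, by field_simp; ring⟩
  obtain ⟨a, b, ha, hb, rfl⟩ := dec x
  obtain ⟨c, d, hc, hd, rfl⟩ := dec y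
  have e1 := k ha hc 1
  simp only [mul_one] at e1
  rw [← o ha hb, ← o hc hd, sw, e1, k hb hd, o (by rw [star_add, ha, hc]) (by rw [star_add, hb, hd]), o ha hb, o hc hd]
  ring

end Exo

end CA.Br
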