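/-
Recognition of the classical unital: the group `P` fixing `∞` acts by the classical formulas.
-/
import Cfsg.Agent.Lib.Br.UAdd
import Cfsg.Agent.Lib.G.Basic

set_option autoImplicit false
set_option linter.unusedSectionVars false

namespace CA.Br

open Subgroup CA

variable {F : Type*} [Field F] [StarRing F]

/-- the circle through `0` with centre `β` -/
def Cir (β c : F) : Prop := c * star c = c * star β + star c * β

/-- the affine points of the unital -/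
def Iso (κ η a : F) : Prop := η - star η = κ * (a * star a)

namespace Iso
variable {κ η a : F}
theorem real {s : F} (hs : star s = s) : Iso κ s 0 := by simp [Iso, hs]
theorem zero : Iso κ 0 0 := real (star_zero F)
theorem real' (h : Iso κ η 0) : star η = η := by
  simp only [Iso, zero_mul, mul_zero] at h; exact (sub_eq_zero.1 h).symm
theorem neg (h : Iso κ η a) : Iso κ η (-a) := by simpa [Iso] using h
theorem add (h : Iso κ η a) {s : F} (hs : star s = s) : Iso κ (η + s) a := by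
  unfold Iso at *; rw [star_add, hs]; linear_combination h
theorem sub {η' : F} (h : Iso κ η a) (h' : Iso κ η' a) : star (η' - η) = η' - η := by
  unfold Iso at *; rw [star_sub]; linear_combination h - h'
theorem inv (h : Iso κ η a) (h0 : η ≠ 0) : Iso κ (-η⁻¹) (a / η) := by
  unfold Iso at *
  have := star_ne_zero.2 h0
  rw [star_neg, star_inv₀, star_div₀]; field_simp; linear_combination h
theorem ne (h : Iso κ η a) (k0 : κ ≠ 0) (h0 : a ≠ 0) : star η ≠ η := fun e =>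
  mul_ne_zero k0 (mul_ne_zero h0 (star_ne_zero.2 h0)) (by rw [← h, e, sub_self])
theorem norm {a' : F} (h : Iso κ η a) (k0 : κ ≠ 0) : Iso κ η a' ↔ a' * star a' = a * star a :=
  ⟨fun h' => mul_left_cancel₀ k0 (h'.symm.trans h), fun e => by unfold Iso at *; rw [e, h]⟩
theorem cir (k0 : κ ≠ 0) (hκ : star κ = -κ) {s β : F} (hs : star s = s) :
    Iso κ (s + κ * star β * a) a ↔ Cir β a := by
  simp only [Iso, Cir, star_add, star_mul', star_star, hs, hκ]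
  exact ⟨fun h => mul_left_cancel₀ k0 (by linear_combination -h), fun h => by linear_combination -κ * h⟩
theorem ex (h2 : (2 : F) ≠ 0) (hκ : star κ = -κ) (a : F) : ∃ η, Iso κ η a :=
  ⟨κ * (a * star a) / 2, by
    simp only [Iso, star_div₀, star_mul', star_star, hκ, star_ofNat]; field_simp; ring⟩
end Iso

/-- A doubly transitive group on the points `∞`, `pt η a` with the known part of the classical structure. -/
structure Geo (G Ω F : Type*) [Group G] [MulAction G Ω] [Field F] [StarRing F] where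
  two : (2 : F) ≠ 0
  κ : F
  κ0 : κ ≠ 0
  hκ : star κ = -κ
  P : Subgroup G
  U : Subgroup G
  W : Subgroup G
  t : G
  n : G
  oo : Ω
  pt : F → F → Ω
  inj : ∀ {η a η' a' : F}, Iso κ η a → Iso κ η' a' → pt η a = pt η' a' → η = η' ∧ a = a'
  ne : ∀ {η a : F}, Iso κ η a → pt η a ≠ oo
  surj : ∀ {ω : Ω}, ω ≠ oo → ∃ η a, Iso κ η a ∧ ω = pt η a
  P_oo : ∀ {y : G}, y ∈ P → y • oo = oo
  P_norm : ∀ {g y : G}, g • oo = oo → y ∈ P → g * y * g⁻¹ ∈ P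
  P_trans : ∀ {ω : Ω}, ω ≠ oo → ∃ y ∈ P, y • pt 0 0 = ω
  P_free : ∀ {y : G}, y ∈ P → y • pt 0 0 = pt 0 0 → y = 1
  U_le : U ≤ P
  U_comm : ∀ {x y : G}, x ∈ U → y ∈ P → x * y = y * x
  U_act : ∀ {x : G}, x ∈ U → ∃ s, star s = s ∧ ∀ η a, Iso κ η a → x • pt η a = pt (η + s) a
  U_ex : ∀ {s : F}, star s = s → ∃ x ∈ U, ∀ η a, Iso κ η a → x • pt η a = pt (η + s) a
  W_oo : ∀ {h : G}, h ∈ W → h • oo = oo
  W_act : ∀ {h : G}, h ∈ W → ∃ l γ, ∀ η a, Iso κ η a → Iso κ (l * η) (γ * a) ∧ h • pt η a = pt (l * η) (γ * a)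
  W_ex : ∀ {s : F}, star s = s → s ≠ 0 → ∃ h ∈ W, ∀ η a, Iso κ η a → h • pt η a = pt (s * s * η) (s * a)
  irr : ∀ A, U ≤ A → A ≤ P → W ≤ 𝐍(A) → A = U ∨ A = P
  tt : t * t = 1
  t_oo : t • oo = oo
  t_act : ∀ η a, Iso κ η a → t • pt η a = pt η (-a)
  tinv : ∀ y ∈ P, t * y * t⁻¹ * y ∈ U
  n_oo : n • oo = pt 0 0
  n_0 : n • pt 0 0 = oo
  n_act : ∀ η a, Iso κ η a → η ≠ 0 → n • pt η a = pt (-η⁻¹) (a / η)
  uniq : ∀ {j j' : G} {ω ω' : Ω}, j * j = 1 → j ≠ 1 → j' * j' = 1 → j' ≠ 1 → ω ≠ ω' → j • ω = ω → j • ω' = ω' →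
    j' • ω = ω → j' • ω' = ω' → j = j'
  blk : ∀ {η a : F}, Iso κ η a → a ≠ 0 → ∃ j : G, j * j = 1 ∧ ∀ ω, j • ω = ω ↔ ∃ a', Iso κ η a' ∧ ω = pt η a'
  blk' : ∀ {j : G}, j * j = 1 → j • oo = pt 0 0 →
    ∃ η, star η ≠ η ∧ ∀ ω, j • ω = ω ↔ ∃ a', Iso κ η a' ∧ ω = pt η a'

theorem conj_fix {G Ω : Type*} [Group G] [MulAction G Ω] (k j : G) (ω : Ω) :
    (k * j * k⁻¹) • ω = ω ↔ j • k⁻¹ • ω = k⁻¹ • ω := by
  rw [mul_smul, mul_smul, smul_eq_iff_eq_inv_smul]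
theorem conj_fix' {G Ω : Type*} [Group G] [MulAction G Ω] (k j : G) (ω : Ω) :
    (k * j * k⁻¹) • k • ω = k • ω ↔ j • ω = ω := by
  rw [conj_fix, inv_smul_smul]
theorem conj_mul_self {G : Type*} [Group G] {j : G} (k : G) (h : j * j = 1) : k * j * k⁻¹ * (k * j * k⁻¹) = 1 := by
  rw [show k * j * k⁻¹ * (k * j * k⁻¹) = k * (j * j) * k⁻¹ by group, h, mul_one, mul_inv_cancel]

namespace Geo

variable {G Ω : Type*} [Group G] [MulAction G Ω] (S : Geo G Ω F)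

open Classical in
/-- the second coordinate -/
noncomputable def A (ω : Ω) : F := if h : ω = S.oo then 0 else (S.surj h).choose_spec.choose

theorem A_spec {ω : Ω} (h : ω ≠ S.oo) : ∃ η, Iso S.κ η (S.A ω) ∧ ω = S.pt η (S.A ω) := by
  rw [A, dif_neg h]; exact ⟨_, (S.surj h).choose_spec.choose_spec⟩
theorem A_pt {η a : F} (h : Iso S.κ η a) : S.A (S.pt η a) = a := by
  obtain ⟨η', h1, h2⟩ := S.A_spec (S.ne h)
  exact ((S.inj h h1 h2).2).symm
theorem O_ne : S.pt 0 0 ≠ S.oo := S.ne Iso.zero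
theorem A_O : S.A (S.pt 0 0) = 0 := S.A_pt Iso.zero
theorem fix_ne {g : G} (hg : g • S.oo = S.oo) {ω : Ω} (h : ω ≠ S.oo) : g • ω ≠ S.oo := fun e =>
  h (MulAction.injective g (e.trans hg.symm))
theorem P_ne {y : G} (hy : y ∈ S.P) {ω : Ω} (h : ω ≠ S.oo) : y • ω ≠ S.oo := S.fix_ne (S.P_oo hy) h
theorem A_U {x : G} (hx : x ∈ S.U) {ω : Ω} (h : ω ≠ S.oo) : S.A (x • ω) = S.A ω := by
  obtain ⟨η, a, h1, rfl⟩ := S.surj h
  obtain ⟨s, hs, e⟩ := S.U_act hx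
  rw [e _ _ h1, S.A_pt h1, S.A_pt (h1.add hs)]
theorem A_eq {ω ω' : Ω} (h : ω ≠ S.oo) (h' : ω' ≠ S.oo) (e : S.A ω = S.A ω') : ∃ x ∈ S.U, x • ω = ω' := by
  obtain ⟨η, a, h1, rfl⟩ := S.surj h
  obtain ⟨η', a', h1', rfl⟩ := S.surj h'
  rw [S.A_pt h1, S.A_pt h1'] at e
  subst e
  obtain ⟨x, hx, e⟩ := S.U_ex (h1.sub h1')
  exact ⟨x, hx, by rw [e _ _ h1, add_sub_cancel]⟩
theorem A_congr {y : G} (hy : y ∈ S.P) {ω ω' : Ω} (h : ω ≠ S.oo) (h' : ω' ≠ S.oo) :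
    S.A (y • ω) = S.A (y • ω') ↔ S.A ω = S.A ω' := by
  have k : ∀ y ∈ S.P, ∀ ω ω', ω ≠ S.oo → ω' ≠ S.oo → S.A ω = S.A ω' → S.A (y • ω) = S.A (y • ω') :=
    fun y hy ω ω' h h' e => by
      obtain ⟨x, hx, rfl⟩ := S.A_eq h h' e
      rw [← mul_smul, ← S.U_comm hx hy, mul_smul, S.A_U hx (S.P_ne hy h)]
  refine ⟨fun e => ?_, k y hy _ _ h h'⟩
  simpa using k y⁻¹ (inv_mem hy) _ _ (S.P_ne hy h) (S.P_ne hy h') e
theorem A_t {ω : Ω} (h : ω ≠ S.oo) : S.A (S.t • ω) = -S.A ω := by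
  obtain ⟨η, a, h1, rfl⟩ := S.surj h
  rw [S.t_act _ _ h1, S.A_pt h1, S.A_pt h1.neg]
theorem t_O : S.t • S.pt 0 0 = S.pt 0 0 := by rw [S.t_act _ _ Iso.zero, neg_zero]
theorem t_fix {ω : Ω} (h : ω ≠ S.oo) : S.t • ω = ω ↔ S.A ω = 0 := by
  obtain ⟨η, a, h1, rfl⟩ := S.surj h
  rw [S.t_act _ _ h1, S.A_pt h1]
  exact ⟨fun e => mul_left_cancel₀ S.two (by linear_combination -(S.inj h1.neg h1 e).2),
    fun e => by rw [e, neg_zero]⟩
theorem W_O {h : G} (hh : h ∈ S.W) : h • S.pt 0 0 = S.pt 0 0 := by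
  obtain ⟨l, γ, e⟩ := S.W_act hh
  simpa using (e 0 0 Iso.zero).2
theorem P_eq {y y' : G} (hy : y ∈ S.P) (hy' : y' ∈ S.P) (e : y • S.pt 0 0 = y' • S.pt 0 0) : y = y' :=
  (inv_mul_eq_one.1 (S.P_free (mul_mem (inv_mem hy') hy) (by rw [mul_smul, e, inv_smul_smul]))).symm

/-- the shift of the second coordinate -/
noncomputable def α (y : G) : F := S.A (y • S.pt 0 0)

theorem exists_α (a : F) : ∃ y ∈ S.P, S.α y = a := by
  obtain ⟨η, h⟩ := Iso.ex S.two S.hκ a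
  obtain ⟨y, hy, e⟩ := S.P_trans (S.ne h)
  exact ⟨y, hy, by rw [α, e, S.A_pt h]⟩
/-- a section of `α` -/
noncomputable def σ (a : F) : G := (S.exists_α a).choose
theorem σ_mem (a : F) : S.σ a ∈ S.P := (S.exists_α a).choose_spec.1
theorem α_σ (a : F) : S.α (S.σ a) = a := (S.exists_α a).choose_spec.2
/-- the group law of `P / U` -/
noncomputable def op (a b : F) : F := S.α (S.σ a * S.σ b)

theorem A_P {y : G} (hy : y ∈ S.P) {ω : Ω} (h : ω ≠ S.oo) : S.A (y • ω) = S.op (S.α y) (S.A ω) := by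
  obtain ⟨x, hx, e⟩ := S.A_eq (S.P_ne (S.σ_mem (S.α y)) S.O_ne) (S.P_ne hy S.O_ne) (S.α_σ _)
  have : x * S.σ (S.α y) = y := S.P_eq (mul_mem (S.U_le hx) (S.σ_mem _)) hy (by rw [mul_smul, e])
  rw [op, α, mul_smul]
  nth_rw 1 [← this]
  rw [mul_smul, S.A_U hx (S.P_ne (S.σ_mem _) h), S.A_congr (S.σ_mem _) h (S.P_ne (S.σ_mem _) S.O_ne)]
  exact (S.α_σ _).symm
theorem α_mul {y y' : G} (hy : y ∈ S.P) (hy' : y' ∈ S.P) : S.α (y * y') = S.op (S.α y) (S.α y') := by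
  rw [α, mul_smul, S.A_P hy (S.P_ne hy' S.O_ne)]; rfl
theorem α_one : S.α 1 = 0 := by rw [α, one_smul, A_O]
theorem α_U {x : G} (hx : x ∈ S.U) : S.α x = 0 := by rw [α, S.A_U hx S.O_ne, A_O]
theorem α_inv {y : G} (hy : y ∈ S.P) : S.α y⁻¹ = -S.α y := by
  have : y⁻¹ = (S.t * y * S.t⁻¹ * y)⁻¹ * (S.t * y * S.t⁻¹) := by
    have := S.U_comm (S.tinv y hy) hy
    rw [inv_eq_iff_mul_eq_one, ← mul_assoc, ← S.U_comm (inv_mem (S.tinv y hy)) hy]
    calc _ = y⁻¹ * (S.t * y * S.t⁻¹)⁻¹ * (y * (S.t * y * S.t⁻¹ * y)) * y⁻¹ := by group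
      _ = 1 := by rw [← this]; group
  have hO : S.t⁻¹ • S.pt 0 0 = S.pt 0 0 := inv_smul_eq_iff.2 S.t_O.symm
  rw [this, α, mul_smul, S.A_U (inv_mem (S.tinv y hy)) (S.P_ne (S.P_norm S.t_oo hy) S.O_ne), mul_smul, mul_smul, hO,
    S.A_t (S.P_ne hy S.O_ne)]; rfl

/-- the scalars by which `W` acts on the second coordinate -/
def Γ : Set F := {γ | γ = 0 ∨ ∃ h ∈ S.W, ∀ ω, ω ≠ S.oo → S.A (h • ω) = γ * S.A ω}

theorem α_conj {h : G} (hh : h ∈ S.W) {γ : F} (e : ∀ ω, ω ≠ S.oo → S.A (h • ω) = γ * S.A ω) {y : G} (hy : y ∈ S.P) :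
    S.α (h * y * h⁻¹) = γ * S.α y := by
  rw [α, mul_smul, mul_smul, S.W_O (inv_mem hh), e _ (S.P_ne hy S.O_ne)]; rfl
theorem W_Γ {h : G} (hh : h ∈ S.W) : ∃ γ, ∀ ω, ω ≠ S.oo → S.A (h • ω) = γ * S.A ω := by
  obtain ⟨l, γ, e⟩ := S.W_act hh
  refine ⟨γ, fun ω hω => ?_⟩
  obtain ⟨η, a, h1, rfl⟩ := S.surj hω
  rw [(e _ _ h1).2, S.A_pt h1, S.A_pt (e _ _ h1).1]
theorem real_Γ {s : F} (hs : star s = s) : s ∈ S.Γ := by
  by_cases s0 : s = 0
  · exact Or.inl s0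
  obtain ⟨h, hh, e⟩ := S.W_ex hs s0
  refine Or.inr ⟨h, hh, fun ω hω => ?_⟩
  obtain ⟨η, a, h1, rfl⟩ := S.surj hω
  rw [e _ _ h1, S.A_pt h1, S.A_pt]
  unfold Iso at *
  simp only [star_mul', hs]; linear_combination s * s * h1
theorem op_zero (a : F) : S.op a 0 = a := by
  have := S.A_P (S.σ_mem a) S.O_ne
  rw [A_O, α_σ] at this
  exact this.symm.trans (S.α_σ a)
theorem op_neg (a : F) : S.op a (-a) = 0 := by
  have := S.α_mul (S.σ_mem a) (inv_mem (S.σ_mem a))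
  rw [S.α_inv (S.σ_mem a), α_σ, mul_inv_cancel, α_one] at this
  exact this.symm
theorem op_dist {γ : F} (hγ : γ ∈ S.Γ) (a b : F) : S.op (γ * a) (γ * b) = γ * S.op a b := by
  rcases hγ with rfl | ⟨h, hh, e⟩
  · rw [zero_mul, zero_mul, zero_mul, op_zero]
  have := S.α_mul (S.P_norm (S.W_oo hh) (S.σ_mem a)) (S.P_norm (S.W_oo hh) (S.σ_mem b))
  rw [S.α_conj hh e (S.σ_mem a), S.α_conj hh e (S.σ_mem b), α_σ, α_σ, conj_mul,
    S.α_conj hh e (mul_mem (S.σ_mem a) (S.σ_mem b))] at this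
  exact this.symm

theorem fix_conj {y : G} (hy : y ∈ S.P) {ω : Ω} (h : ω ≠ S.oo) : (y * S.t * y⁻¹) • ω = ω ↔ S.A ω = S.α y := by
  rw [conj_fix, S.t_fix (S.P_ne (inv_mem hy) h), ← S.A_O, ← S.A_congr hy (S.P_ne (inv_mem hy) h) S.O_ne,
    smul_inv_smul]; rfl

/-- the blocks meeting the block of `t` -/
theorem blk2 {s β : F} (hs : star s = s) (b0 : β ≠ 0) :
    ∃ j : G, j * j = 1 ∧ ∀ ω, j • ω = ω ↔ ∃ a, Cir β a ∧ ω = S.pt (s + S.κ * star β * a) a := by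
  obtain ⟨x, hx, ex⟩ := S.U_ex hs
  set m := S.κ * star β with hm
  have m0 : m ≠ 0 := mul_ne_zero S.κ0 (star_ne_zero.2 b0)
  have hy := S.σ_mem (-m⁻¹)
  refine ⟨x * S.n * (S.σ (-m⁻¹) * S.t * (S.σ (-m⁻¹))⁻¹) * (x * S.n)⁻¹, conj_mul_self _ (conj_mul_self _ S.tt),
    fun ω => ?_⟩
  have koo : (x * S.n) • S.oo = S.pt (s + m * 0) 0 := by rw [mul_smul, S.n_oo, ex _ _ Iso.zero]; simp
  have kpt : ∀ η, Iso S.κ η (-m⁻¹) → (x * S.n) • S.pt η (-m⁻¹) = S.pt (s + m * (-m⁻¹ / η)) (-m⁻¹ / η) :=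
    fun η h => by
      have η0 : η ≠ 0 := fun e => h.ne S.κ0 (by simpa using m0) (by rw [e, star_zero])
      rw [mul_smul, S.n_act _ _ h η0, ex _ _ (h.inv η0)]
      congr 1; field_simp; ring
  refine ⟨fun e => ?_, ?_⟩
  · obtain ⟨ω, rfl⟩ := (MulAction.surjective (x * S.n)) ω
    rw [conj_fix'] at e
    by_cases h : ω = S.oo
    · exact ⟨0, by simp [Cir], h ▸ koo⟩
    rw [S.fix_conj hy h, α_σ] at e
    obtain ⟨η, h1, h2⟩ := S.A_spec h
    rw [e] at h1 h2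
    have η0 : η ≠ 0 := fun e => h1.ne S.κ0 (by simpa using m0) (by rw [e, star_zero])
    refine ⟨_, (Iso.cir S.κ0 S.hκ hs).1 ?_, h2 ▸ kpt η h1⟩
    have := (h1.inv η0).add hs
    rwa [show -η⁻¹ + s = s + m * (-m⁻¹ / η) by field_simp; ring] at this
  · rintro ⟨a, ha, rfl⟩
    by_cases a0 : a = 0
    · rw [a0, ← koo, conj_fix', conj_fix, S.P_oo (inv_mem hy), S.t_oo]
    have h1 := (((Iso.cir S.κ0 S.hκ (star_zero F)).2 ha).inv (by rw [zero_add]; exact mul_ne_zero m0 a0)).neg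
    rw [zero_add, ← hm, show -(a / (m * a)) = -m⁻¹ by field_simp] at h1
    have := kpt _ h1
    rw [show -m⁻¹ / -(m * a)⁻¹ = a by field_simp] at this
    rw [← this, conj_fix', S.fix_conj hy (S.ne h1), α_σ, S.A_pt h1]

theorem blk3 {j : G} (hj : j * j = 1) (j1 : j ≠ 1) {s θ c : F} (hs : star s = s) (h : Iso S.κ θ c) (c0 : c ≠ 0)
    (e1 : j • S.pt s 0 = S.pt s 0) (e2 : j • S.pt θ c = S.pt θ c) : ∃ β, θ = s + S.κ * star β * c ∧
      ∀ ω, j • ω = ω ↔ ∃ a, Cir β a ∧ ω = S.pt (s + S.κ * star β * a) a := by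
  have e : θ = s + S.κ * star (star ((θ - s) / (S.κ * c))) * c := by
    have := S.κ0
    rw [star_star]; field_simp; ring
  have b0 : star ((θ - s) / (S.κ * c)) ≠ 0 := fun b0 => h.ne S.κ0 c0 (by
    rw [b0, star_zero, mul_zero, zero_mul, add_zero] at e; rw [e, hs])
  obtain ⟨j', hj', f⟩ := S.blk2 hs b0
  have j1' : j' ≠ 1 := fun e => by
    obtain ⟨a, ha, e⟩ := (f S.oo).1 (by rw [e, one_smul])
    exact S.ne ((Iso.cir S.κ0 S.hκ hs).2 ha) e.symm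
  obtain rfl : j = j' := S.uniq hj j1 hj' j1' (fun e => c0 (S.inj (Iso.real hs) h e).2.symm) e1 e2
    ((f _).2 ⟨0, by simp [Cir], by simp⟩) ((f _).2 ⟨c, (Iso.cir S.κ0 S.hκ hs).1 (e ▸ h), by rw [← e]⟩)
  exact ⟨_, e, f⟩

theorem transl {y j : G} (hy : y ∈ S.P) {η s β : F} (hs : star s = s) (h : Iso S.κ η (S.α y))
    (f : ∀ ω, j • ω = ω ↔ ∃ a, Iso S.κ η a ∧ ω = S.pt η a)
    (f' : ∀ ω, (y * j * y⁻¹) • ω = ω ↔ ∃ a, Cir β a ∧ ω = S.pt (s + S.κ * star β * a) a) (c : F) :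
    (∃ a, a * star a = S.α y * star (S.α y) ∧ c = S.op (S.α y) a) ↔ Cir β c := by
  refine ⟨?_, fun hc => ?_⟩
  · rintro ⟨a, ha, rfl⟩
    have h1 := (h.norm S.κ0).2 ha
    obtain ⟨c, hc, e⟩ := (f' (y • S.pt η a)).1 ((conj_fix' _ _ _).2 ((f _).2 ⟨a, h1, rfl⟩))
    have := congrArg S.A e
    rw [S.A_P hy (S.ne h1), S.A_pt h1, S.A_pt ((Iso.cir S.κ0 S.hκ hs).2 hc)] at this
    rwa [this]
  · obtain ⟨a, ha, e⟩ := (f _).1 ((conj_fix _ _ _).1 ((f' _).2 ⟨c, hc, rfl⟩))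
    have := congrArg S.A (inv_smul_eq_iff.1 e)
    rw [S.A_P hy (S.ne ha), S.A_pt ha, S.A_pt ((Iso.cir S.κ0 S.hκ hs).2 hc)] at this
    exact ⟨a, (h.norm S.κ0).1 ha, this⟩

theorem exo [Finite G] : Exo S.op S.Γ where
  comm a b := by
    have h1 := S.α_inv (mul_mem (S.σ_mem a) (S.σ_mem b))
    rw [mul_inv_rev, S.α_mul (inv_mem (S.σ_mem b)) (inv_mem (S.σ_mem a)), S.α_inv (S.σ_mem _), S.α_inv (S.σ_mem _),
      α_σ, α_σ, ← neg_one_mul b, ← neg_one_mul a, S.op_dist (S.real_Γ (by simp))] at h1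
    exact neg_injective (h1.symm.trans (neg_one_mul _))
  assoc a b c := by
    have h1 := S.α_mul (mul_mem (S.σ_mem a) (S.σ_mem b)) (S.σ_mem c)
    have h2 := S.α_mul (S.σ_mem a) (mul_mem (S.σ_mem b) (S.σ_mem c))
    rw [α_σ] at h1 h2
    exact h1.symm.trans (mul_assoc (S.σ a) _ _ ▸ h2)
  zero := S.op_zero
  neg := S.op_neg
  fixed _ := S.real_Γ
  dist _ := S.op_dist
  irr A h0 hop hΓ := by
    let B : Subgroup G :=
      { carrier := {y | y ∈ S.P ∧ S.α y ∈ A}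
        mul_mem' := fun {a b} ha hb => ⟨mul_mem ha.1 hb.1, by rw [S.α_mul ha.1 hb.1]; exact hop _ ha.2 _ hb.2⟩
        one_mem' := ⟨one_mem _, by rw [S.α_one]; exact h0⟩
        inv_mem' := fun {a} ha => ⟨inv_mem ha.1, by
          rw [S.α_inv ha.1, ← neg_one_mul]; exact hΓ _ (S.real_Γ (by simp)) _ ha.2⟩ }
    rcases S.irr B (fun x hx => ⟨S.U_le hx, by rw [S.α_U hx]; exact h0⟩) (fun _ h => h.1) (fun h hh =>
      mem_normalizer_of_cj_le (cj_le_iff'.2 fun y hy => ⟨S.P_norm (S.W_oo hh) hy.1, by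
        obtain ⟨γ, e⟩ := S.W_Γ hh
        rw [S.α_conj hh e hy.1]
        exact hΓ _ (Or.inr ⟨h, hh, e⟩) _ hy.2⟩)) with e | e
    · refine Or.inl (Set.eq_singleton_iff_unique_mem.2 ⟨h0, fun a ha => ?_⟩)
      rw [← S.α_σ a]
      exact S.α_U (e ▸ (⟨S.σ_mem a, by rw [α_σ]; exact ha⟩ : S.σ a ∈ B))
    · exact Or.inr (Set.eq_univ_of_forall fun a => S.α_σ a ▸ (show S.σ a ∈ B from e ▸ S.σ_mem a).2)
  circ x x0 := by
    obtain ⟨η, h⟩ := Iso.ex S.two S.hκ x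
    obtain ⟨j, hj, f⟩ := S.blk h x0
    have hy := S.σ_mem x
    have a1 : S.A (S.σ x • S.pt η (-x)) = 0 := by rw [S.A_P hy (S.ne h.neg), α_σ, S.A_pt h.neg, op_neg]
    obtain ⟨s, hs, e1⟩ := S.A_spec (S.P_ne hy (S.ne h.neg))
    obtain ⟨θ, hθ, e2⟩ := S.A_spec (S.P_ne hy (S.ne h))
    rw [a1] at hs e1
    obtain ⟨β, -, f'⟩ := S.blk3 (conj_mul_self (S.σ x) hj) (fun e => by
        obtain ⟨a, ha, e⟩ := (f S.oo).1 (by rw [conj_eq_one_iff.1 e, one_smul])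
        exact S.ne ha e.symm) hs.real' hθ
      (fun e => by
        rw [← a1, S.A_congr hy (S.ne h) (S.ne h.neg), S.A_pt h, S.A_pt h.neg] at e
        exact x0 (mul_left_cancel₀ S.two (by linear_combination e)))
      (by rw [← e1, conj_fix']; exact (f _).2 ⟨_, h.neg, rfl⟩) (by rw [← e2, conj_fix']; exact (f _).2 ⟨_, h, rfl⟩)
    refine ⟨β, fun c => ?_⟩
    have := S.transl hy hs.real' (by rw [α_σ]; exact h) f f' c
    rwa [α_σ] at this
  circ' β b0 := by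
    obtain ⟨j, hj, f'⟩ := S.blk2 (star_zero F) b0
    obtain ⟨y, hy, e⟩ := S.P_trans (ω := j • S.oo) fun e => by
      obtain ⟨a, ha, e⟩ := (f' S.oo).1 e
      exact S.ne ((Iso.cir S.κ0 S.hκ (star_zero F)).2 ha) e.symm
    obtain ⟨η, hη, f⟩ := S.blk' (conj_mul_self y⁻¹ hj) (by
      rw [inv_inv, mul_smul, mul_smul, S.P_oo hy, ← e, inv_smul_smul])
    obtain ⟨a, ha, e⟩ := (f (y⁻¹ • S.pt 0 0)).1 ((conj_fix' _ _ _).2 ((f' _).2 ⟨0, by simp [Cir], by simp⟩))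
    have h1 : S.α y = -a := by rw [← S.A_pt ha, ← e, ← neg_eq_iff_eq_neg, ← S.α_inv hy]; rfl
    refine ⟨S.α y, fun e => hη (Iso.real' (κ := S.κ) (by rw [← e, h1]; exact ha.neg)), fun c =>
      S.transl hy (star_zero F) (h1 ▸ ha.neg) f (by simpa [mul_assoc] using f') c⟩

variable [Finite G] [Fintype F] {q : ℕ} (hF : Cl.IsFq2 F q) (hq : Odd q)
include hF hq

theorem A_add {y : G} (hy : y ∈ S.P) {ω : Ω} (h : ω ≠ S.oo) : S.A (y • ω) = S.A ω + S.α y := by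
  rw [S.A_P hy h, S.exo.eq_add hF hq, add_comm]

theorem act_circ {y : G} (hy : y ∈ S.P) {θ β : F} (h : Iso S.κ θ β) (e : y • S.pt 0 0 = S.pt θ β) {a0 : F}
    (h0 : star a0 * β - a0 * star β ≠ 0) {η a : F} (ha : a = a0 ∨ a = -β) (hη : Iso S.κ η a) :
    y • S.pt η a = S.pt (η + θ + S.κ * a * star β) (a + β) := by
  have hα : S.α y = β := by rw [α, e, S.A_pt h]
  have b0 : β ≠ 0 := fun e => h0 (by simp [e])
  have h0' : a0 * star β - star a0 * β ≠ 0 := fun e => h0 (by linear_combination -e)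
  obtain ⟨X, hX⟩ : ∃ X, X = a0 * β * (star a0 + star β) / (star a0 * β - a0 * star β) := ⟨_, rfl⟩
  have hX' : star X = star a0 * star β * (a0 + β) / (a0 * star β - star a0 * β) := by
    rw [hX]; simp only [star_div₀, star_mul', star_add, star_sub, star_star]
  have X0 : X ≠ 0 := by
    rw [hX]
    refine div_ne_zero (mul_ne_zero (mul_ne_zero (fun e => h0 (by simp [e])) b0) fun e => h0 ?_) h0
    have := congrArg star e
    simp only [star_add, star_star, star_zero] at this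
    linear_combination β * e - star β * this
  have d1 := (eq_div_iff h0).1 hX
  have d2 := (eq_div_iff h0').1 hX'
  have c1 : Cir X a0 := mul_left_cancel₀ h0 (by linear_combination a0 * d2 - star a0 * d1)
  have c2 : Cir X (-β) := mul_left_cancel₀ h0 (by rw [star_neg]; linear_combination star β * d1 - β * d2)
  have ca : Cir X a := by rcases ha with rfl | rfl <;> assumption
  obtain ⟨s, hs⟩ : ∃ s, s = η - (0 + S.κ * star X * a) := ⟨_, rfl⟩
  have sr : star s = s := hs ▸ ((Iso.cir S.κ0 S.hκ (star_zero F)).2 ca).sub hη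
  obtain ⟨j, hj, f⟩ := S.blk2 sr X0
  have i2 := (Iso.cir S.κ0 S.hκ sr).2 c2
  obtain ⟨s1, hs1, e1⟩ := S.A_spec (S.P_ne hy (S.ne i2))
  rw [S.A_add hF hq hy (S.ne i2), S.A_pt i2, hα, neg_add_cancel] at hs1 e1
  obtain ⟨x, hx, ex⟩ := S.U_ex sr
  have e2 : y • S.pt s 0 = S.pt (θ + s) β := by
    rw [← zero_add s, ← ex _ _ Iso.zero, ← mul_smul, ← S.U_comm hx hy, mul_smul, e, ex _ _ h, zero_add]
  obtain ⟨β', eθ, f'⟩ := S.blk3 (conj_mul_self y hj) (fun e => by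
      obtain ⟨a, ha, e⟩ := (f S.oo).1 (by rw [conj_eq_one_iff.1 e, one_smul])
      exact S.ne ((Iso.cir S.κ0 S.hκ sr).2 ha) e.symm) hs1.real' (h.add sr) b0
    (by rw [← e1, conj_fix']; exact (f _).2 ⟨_, c2, rfl⟩)
    (by rw [← e2, conj_fix']; exact (f _).2 ⟨0, by simp [Cir], by simp⟩)
  have key : ∀ a, Cir X a → Cir β' (a + β) ∧
      y • S.pt (s + S.κ * star X * a) a = S.pt (s1 + S.κ * star β' * (a + β)) (a + β) := fun a ha => by
    have ia := (Iso.cir S.κ0 S.hκ sr).2 ha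
    obtain ⟨c, hc, e⟩ := (f' _).1 ((conj_fix' _ _ _).2 ((f _).2 ⟨a, ha, rfl⟩))
    have := congrArg S.A e
    rw [S.A_add hF hq hy (S.ne ia), S.A_pt ia, hα, S.A_pt ((Iso.cir S.κ0 S.hκ hs1.real').2 hc)] at this
    rw [this]; exact ⟨hc, e⟩
  have k0 := (key 0 (by simp [Cir])).1
  have k1 := (key a0 c1).1
  have hβ : β' = X + β := by
    simp only [Cir, star_add, star_neg, zero_add] at k0 k1 c1 c2
    exact mul_left_cancel₀ h0 (by linear_combination β * c1 - β * k1 + (a0 + β) * k0 + a0 * c2)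
  have := (key a ca).2
  rw [show s + S.κ * star X * a = η by rw [hs]; ring] at this
  rw [this]
  congr 1
  rw [hβ, star_add] at eθ ⊢
  linear_combination -eθ + hs

/-- `P` acts by the classical formula -/
theorem P_act {y : G} (hy : y ∈ S.P) {θ β : F} (h : Iso S.κ θ β) (e : y • S.pt 0 0 = S.pt θ β) {η a : F}
    (hη : Iso S.κ η a) : y • S.pt η a = S.pt (η + θ + S.κ * a * star β) (a + β) := by
  have k0 := S.κ0
  have h2 := S.two
  by_cases b0 : β = 0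
  · subst b0
    obtain ⟨x, hx, ex⟩ := S.U_ex h.real'
    rw [S.P_eq hy (S.U_le hx) (by rw [e, ex _ _ Iso.zero, zero_add]), ex _ _ hη]; simp
  have sb : star β ≠ 0 := star_ne_zero.2 b0
  by_cases a0 : a = 0
  · subst a0
    obtain ⟨x, hx, ex⟩ := S.U_ex hη.real'
    rw [← zero_add η, ← ex _ _ Iso.zero, ← mul_smul, ← S.U_comm hx hy, mul_smul, e, ex _ _ h]; simp [add_comm]
  by_cases ab : a = -β
  · refine S.act_circ hF hq hy h e (a0 := S.κ * β) ?_ (Or.inr ab) hη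
    rw [star_mul', S.hκ, show -S.κ * star β * β - S.κ * β * star β = -(2 * S.κ * β * star β) by ring]
    simp [*]
  by_cases h0 : star a * β - a * star β ≠ 0
  · exact S.act_circ hF hq hy h e h0 (Or.inl rfl) hη
  rw [not_not] at h0
  have hy2 := S.σ_mem (S.κ * β)
  have hy1 := mul_mem hy (inv_mem hy2)
  obtain ⟨θ2, h2', e2⟩ := S.A_spec (S.P_ne hy2 S.O_ne)
  obtain ⟨θ1, h1', e1⟩ := S.A_spec (S.P_ne hy1 S.O_ne)
  have a2 : S.A (S.σ (S.κ * β) • S.pt 0 0) = S.κ * β := S.α_σ _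
  have a1 : S.A ((y * (S.σ (S.κ * β))⁻¹) • S.pt 0 0) = β - S.κ * β := by
    rw [mul_smul, S.A_add hF hq hy (S.P_ne (inv_mem hy2) S.O_ne)]
    have : S.α y = β := by rw [α, e, S.A_pt h]
    have h3 := S.α_inv hy2
    rw [α_σ, α] at h3
    rw [this, h3]; ring
  rw [a2] at h2' e2
  rw [a1] at h1' e1
  have iso : ∀ {θ β η a : F}, Iso S.κ θ β → Iso S.κ η a → Iso S.κ (η + θ + S.κ * a * star β) (a + β) :=
    fun h h' => by
      unfold Iso at *
      simp only [star_add, star_mul', star_star, S.hκ]; linear_combination h + h'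
  have f1 := S.act_circ hF hq hy1 h1' e1 (a0 := S.κ * β) (by
    simp only [star_mul', star_sub, S.hκ]
    rw [show -S.κ * star β * (β - S.κ * β) - S.κ * β * (star β - -S.κ * star β) = -(2 * S.κ * β * star β) by ring]
    simp [*]) (Or.inl rfl) h2'
  rw [← e2, ← mul_smul, inv_mul_cancel_right, e] at f1
  have f2 := S.act_circ hF hq hy2 h2' e2 (a0 := a) (by
    rw [star_mul', S.hκ, show star a * (S.κ * β) - a * (-S.κ * star β) = 2 * S.κ * a * star β by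
      linear_combination S.κ * h0]
    simp [*]) (Or.inl rfl) hη
  have f3 := S.act_circ hF hq hy1 h1' e1 (a0 := a + S.κ * β) (by
    simp only [star_mul', star_sub, star_add, S.hκ]
    rw [show (star a + -S.κ * star β) * (β - S.κ * β) - (a + S.κ * β) * (star β - -S.κ * star β) =
      -(2 * S.κ * (a + β) * star β) by linear_combination (1 - S.κ) * h0]
    simpa [k0, h2, sb, add_eq_zero_iff_eq_neg] using ab) (Or.inl rfl) (iso h2' hη)
  rw [← f2, ← mul_smul, inv_mul_cancel_right] at f3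
  rw [f3, (S.inj h (iso h1' h2') f1).1]
  congr 1
  · simp only [star_mul', star_sub, S.hκ]; ring
  · ring

end Geo

end CA.Br
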