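/-
Recognition of the classical unital: the group is `PSU₃(q)`.
-/
import Cfsg.Agent.Lib.Br.UGeo

set_option autoImplicit false
set_option linter.unusedSectionVars false

namespace CA.Br

open Subgroup CA CA.Unit

variable {F : Type*} [Field F] [StarRing F]

/-- a basis of the hermitian space adapted to the coordinates of the unital -/
structure Frame (κ : F) where
  e : Fin 3 → F
  f : Fin 3 → F
  w : Fin 3 → F
  p : Unit.Hyp (std F (Fin 3)) e f
  we : std F (Fin 3) w e = 0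
  wf : std F (Fin 3) w f = 0
  ww : std F (Fin 3) w w = κ * κ

theorem exists_frame (hK : Good F) {κ : F} (hκ : star κ = -κ) : Nonempty (Frame κ) := by
  obtain ⟨e, f, p⟩ := exists_hyp_std hK (n := 3) (by norm_num)
  obtain ⟨w, we, wf, ww⟩ := p.exists_nonisotropic hK.nontriv nd_std (by simp)
  obtain ⟨s, hs⟩ := exists_smul_norm_eq hK ww (t := κ * κ) (by rw [star_mul', hκ, neg_mul_neg])
  exact ⟨⟨e, f, s • w, p, by rw [h_smul_left, we, mul_zero], by rw [h_smul_left, wf, mul_zero], hs⟩⟩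

namespace Frame

variable {κ : F} (R : Frame κ)

local notation "𝔥" => std F (Fin 3)

/-- the vector with the given coordinates -/
def v (x y z : F) : Fin 3 → F := x • R.e + (y * κ) • R.f + z • R.w

theorem v_e (x y z : F) : 𝔥 (R.v x y z) R.e = y * κ := by
  simp only [v, h_add_left, h_smul_left, R.p.ee, R.p.fe, R.we]; ring
theorem v_f (x y z : F) : 𝔥 (R.v x y z) R.f = x := by
  simp only [v, h_add_left, h_smul_left, R.p.ef, R.p.ff, R.wf]; ring
theorem v_w (x y z : F) : 𝔥 (R.v x y z) R.w = z * (κ * κ) := by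
  simp only [v, h_add_left, h_smul_left, h_eq_zero_comm R.we, h_eq_zero_comm R.wf, R.ww]; ring
theorem v_v (hκ : star κ = -κ) (x y z x' y' z' : F) :
    𝔥 (R.v x y z) (R.v x' y' z') = κ * (y * star x' - x * star y' + κ * (z * star z')) := by
  nth_rw 2 [v]
  simp only [h_add_right, h_smul_right, v_e, v_f, v_w, star_mul', hκ]; ring
theorem smul_v (c x y z : F) : c • R.v x y z = R.v (c * x) (c * y) (c * z) := by
  simp only [v]; module
theorem e_eq : R.e = R.v 1 0 0 := by simp [v]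
theorem v_inj (k0 : κ ≠ 0) {x y z x' y' z' : F} (h : R.v x y z = R.v x' y' z') : x = x' ∧ y = y' ∧ z = z' :=
  ⟨by rw [← R.v_f x y z, h, v_f], mul_right_cancel₀ k0 (by rw [← R.v_e x y z, h, v_e]),
    mul_right_cancel₀ (mul_ne_zero k0 k0) (by rw [← R.v_w x y z, h, v_w])⟩
theorem v_surj (k0 : κ ≠ 0) (u : Fin 3 → F) : ∃ x y z, u = R.v x y z := by
  let φ : (Fin 3 → F) →ₗ[F] (Fin 3 → F) :=
    { toFun := fun x => R.v (x 0) (x 1) (x 2)
      map_add' := fun x y => by simp only [v, Pi.add_apply]; module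
      map_smul' := fun c x => by simp only [smul_v, Pi.smul_apply, smul_eq_mul, RingHom.id_apply] }
  obtain ⟨x, hx⟩ := LinearMap.injective_iff_surjective.1 (show Function.Injective φ from fun x y h => by
    obtain ⟨a, b, c⟩ := R.v_inj k0 h
    funext i; fin_cases i <;> assumption) u
  exact ⟨_, _, _, hx.symm⟩

theorem eich_e (hκ : star κ = -κ) {a b c : F} (h : Adm 𝔥 R.e (R.v a 0 b) c) (x y z : F) :
    (eich 𝔥 R.e (R.v a 0 b) c).1 (R.v x y z) =
      R.v (x + κ * (a - star a - c) * y + κ * z * star (κ * b)) y (z + κ * b * y) := by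
  rw [eich_apply h, v_e, R.v_v hκ]
  simp only [v, star_mul', hκ, star_zero]; module
theorem eich_f {c : F} (h : Adm 𝔥 R.f 0 (c * κ)) (x y z : F) :
    (eich 𝔥 R.f 0 (c * κ)).1 (R.v x y z) = R.v x (y - c * x) z := by
  rw [eich_apply h, v_f, h_zero_right]
  simp only [v]; module
theorem adm_e (hκ : star κ = -κ) {a b c : F} (h : c + star c = κ * (κ * (b * star b))) :
    Adm 𝔥 R.e (R.v a 0 b) c :=
  ⟨R.p.ee, h_eq_zero_comm (by rw [v_e, zero_mul]), by rw [R.v_v hκ, h]; simp⟩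

end Frame

namespace Geo

variable {G Ω : Type*} [Group G] [MulAction G Ω] (S : Geo G Ω F) (R : Frame S.κ)

local notation "𝔥" => std F (Fin 3)

open Classical in
/-- the isotropic vector of a point -/
noncomputable def vec (ω : Ω) : Fin 3 → F :=
  if h : ω = S.oo then R.v 1 0 0 else R.v (S.A_spec h).choose 1 (S.A ω)

theorem vec_oo : S.vec R S.oo = R.v 1 0 0 := dif_pos rfl
theorem vec_pt {η a : F} (h : Iso S.κ η a) : S.vec R (S.pt η a) = R.v η 1 a := by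
  rw [vec, dif_neg (S.ne h)]
  obtain ⟨h1, h2⟩ := (S.A_spec (S.ne h)).choose_spec
  rw [← (S.inj h h1 h2).1, S.A_pt h]
theorem cases (ω : Ω) : ω = S.oo ∨ ∃ η a, Iso S.κ η a ∧ ω = S.pt η a := (em _).imp_right S.surj
theorem vec_inj {ω ω' : Ω} {c c' : F} (c0 : c ≠ 0) (h : c • S.vec R ω = c' • S.vec R ω') : ω = ω' := by
  rcases S.cases ω with rfl | ⟨η, a, h1, rfl⟩ <;> rcases S.cases ω' with rfl | ⟨η', a', h1', rfl⟩ <;>
    simp only [vec_oo, S.vec_pt R, *, R.smul_v] at h <;> obtain ⟨e1, e2, e3⟩ := R.v_inj S.κ0 h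
  · rfl
  · exact absurd (by linear_combination e1 - η' * e2) c0
  · exact absurd (by linear_combination e2) c0
  · rw [mul_left_cancel₀ c0 (show c * η = c * η' by linear_combination e1 - η' * e2),
      mul_left_cancel₀ c0 (show c * a = c * a' by linear_combination e3 - a' * e2)]
theorem vec_surj {u : Fin 3 → F} (h : 𝔥 u u = 0) (u0 : u ≠ 0) : ∃ ω, ∃ c : F, c ≠ 0 ∧ u = c • S.vec R ω := by
  obtain ⟨x, y, z, rfl⟩ := R.v_surj S.κ0 u
  rw [R.v_v S.hκ, mul_eq_zero_iff_left S.κ0] at h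
  by_cases y0 : y = 0
  · subst y0
    have z0 : z = 0 := by simpa [S.κ0] using h
    subst z0
    exact ⟨S.oo, x, fun e => u0 (by simp [e, Frame.v]), by rw [vec_oo, R.smul_v]; simp⟩
  · have sy := star_ne_zero.2 y0
    refine ⟨S.pt (x / y) (z / y), y, y0, ?_⟩
    rw [S.vec_pt R (by unfold Iso; rw [star_div₀, star_div₀]; field_simp; linear_combination -h), R.smul_v]
    congr 1 <;> field_simp

/-- `g` acts on the points as the unitary transformation `m` -/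
def Rl (g : G) (m : Unit.U 𝔥) : Prop := ∀ ω, ∃ c : F, c ≠ 0 ∧ m.1 (S.vec R ω) = c • S.vec R (g • ω)

variable {S R}
theorem Rl.one : S.Rl R 1 1 := fun ω => ⟨1, one_ne_zero, by simp⟩
theorem Rl.mul {g g' : G} {m m' : Unit.U 𝔥} (h : S.Rl R g m) (h' : S.Rl R g' m') : S.Rl R (g * g') (m * m') :=
  fun ω => by
    obtain ⟨c', c0', e'⟩ := h' ω
    obtain ⟨c, c0, e⟩ := h (g' • ω)
    exact ⟨c' * c, mul_ne_zero c0' c0, by
      rw [mul_smul, mul_smul, ← e, ← map_smul, ← e']; rfl⟩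
theorem Rl.inv {g : G} {m : Unit.U 𝔥} (h : S.Rl R g m) : S.Rl R g⁻¹ m⁻¹ := fun ω => by
  obtain ⟨c, c0, e⟩ := h (g⁻¹ • ω)
  rw [smul_inv_smul] at e
  refine ⟨c⁻¹, inv_ne_zero c0, m.1.injective ?_⟩
  rw [map_smul, e, smul_smul, inv_mul_cancel₀ c0, one_smul]
  exact m.1.apply_symm_apply _
variable (S R)

include S in
theorem faithful [IsSimpleGroup G] {g : G} (h : ∀ ω : Ω, g • ω = ω) : g = 1 := by
  rcases (MulAction.toPermHom G Ω).normal_ker.eq_bot_or_eq_top with e | e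
  · exact mem_bot.1 (e ▸ (MonoidHom.mem_ker.2 (Equiv.ext h)))
  · have : MulAction.toPermHom G Ω S.n = 1 := MonoidHom.mem_ker.1 (e ▸ mem_top S.n)
    exact absurd (S.n_oo.symm.trans (Equiv.congr_fun this S.oo)) S.O_ne

theorem Rl.uniq [IsSimpleGroup G] {g g' : G} {m : Unit.U 𝔥} (h : S.Rl R g m) (h' : S.Rl R g' m) : g = g' := by
  refine (inv_mul_eq_one.1 (S.faithful fun ω => ?_)).symm
  obtain ⟨c, c0, e⟩ := h ω
  obtain ⟨c', c0', e'⟩ := h' ω
  rw [mul_smul, S.vec_inj R c0 (e.symm.trans e'), inv_smul_smul]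

theorem rl_n : ∃ m ∈ SU 𝔥, S.Rl R S.n m := by
  have k0 := S.κ0
  have a1 : Adm 𝔥 R.e (R.v 0 0 0) S.κ⁻¹ := R.adm_e S.hκ (by rw [star_inv₀, S.hκ]; simp [inv_neg])
  have a2 : Adm 𝔥 R.f 0 (-1 * S.κ) := Adm.zero R.p.ff (by simp [S.hκ])
  have key : ∀ x y z, (eich 𝔥 R.e (R.v 0 0 0) S.κ⁻¹ * eich 𝔥 R.f 0 (-1 * S.κ) * eich 𝔥 R.e (R.v 0 0 0) S.κ⁻¹).1
      (R.v x y z) = R.v (-y) x z := fun x y z => by
    change (eich 𝔥 R.e (R.v 0 0 0) S.κ⁻¹).1 ((eich 𝔥 R.f 0 (-1 * S.κ)).1 ((eich 𝔥 R.e (R.v 0 0 0) S.κ⁻¹).1 _)) = _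
    rw [R.eich_e S.hκ a1, R.eich_f a2, R.eich_e S.hκ a1]
    congr 1 <;> simp only [mul_zero, star_zero] <;> field_simp <;> ring
  refine ⟨_, E_le_SU (mul_mem (mul_mem (eich_mem_E R.e (R.v 0 0 0) S.κ⁻¹) (eich_mem_E R.f 0 (-1 * S.κ)))
    (eich_mem_E R.e (R.v 0 0 0) S.κ⁻¹)), fun ω => ?_⟩
  rcases S.cases ω with rfl | ⟨η, a, h, rfl⟩
  · exact ⟨1, one_ne_zero, by rw [vec_oo, key, S.n_oo, S.vec_pt R Iso.zero, neg_zero, one_smul]⟩
  rw [S.vec_pt R h, key]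
  by_cases η0 : η = 0
  · subst η0
    have a0 : a = 0 := by_contra fun a0 => h.ne k0 a0 (star_zero F)
    subst a0
    exact ⟨-1, by simp, by rw [S.n_0, vec_oo, R.smul_v]; simp⟩
  · refine ⟨η, η0, ?_⟩
    rw [S.n_act _ _ h η0, S.vec_pt R (h.inv η0), R.smul_v]
    congr 1 <;> field_simp

variable [Finite G] [Fintype F] {q : ℕ} (hF : Cl.IsFq2 F q) (hq : Odd q)
include hF hq

theorem rl_P {y : G} (hy : y ∈ S.P) {a b c : F} (h : Adm 𝔥 R.e (R.v a 0 b) c)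
    (hi : Iso S.κ (S.κ * (a - star a - c)) (S.κ * b))
    (e : y • S.pt 0 0 = S.pt (S.κ * (a - star a - c)) (S.κ * b)) : S.Rl R y (eich 𝔥 R.e (R.v a 0 b) c) := fun ω => by
  refine ⟨1, one_ne_zero, ?_⟩
  rcases S.cases ω with rfl | ⟨η, x, h1, rfl⟩
  · rw [S.P_oo hy, vec_oo, R.eich_e S.hκ h]; simp
  · rw [S.P_act hF hq hy hi e h1, S.vec_pt R h1, R.eich_e S.hκ h, S.vec_pt R, one_smul, mul_one, mul_one]
    unfold Iso at *
    simp only [star_add, star_mul', star_star, star_neg, S.hκ] at hi ⊢; linear_combination hi + h1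

theorem exists_rl [IsSimpleGroup G] (g : G) : ∃ m ∈ SU 𝔥, S.Rl R g m := by
  have k0 := S.κ0
  let N : Subgroup G :=
    { carrier := {g | ∃ m ∈ SU 𝔥, S.Rl R g m}
      mul_mem' := fun ⟨_, h1, h2⟩ ⟨_, h3, h4⟩ => ⟨_, mul_mem h1 h3, h2.mul h4⟩
      one_mem' := ⟨1, one_mem _, Rl.one⟩
      inv_mem' := fun ⟨_, h1, h2⟩ => ⟨_, inv_mem h1, h2.inv⟩ }
  have hP : S.P ≤ N := fun y hy => by
    obtain ⟨θ, β, h, e⟩ := S.surj (S.P_ne hy S.O_ne)
    have e1 : S.κ * (0 - star 0 - -θ / S.κ) = θ := by rw [star_zero]; field_simp; ring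
    have e2 : S.κ * (β / S.κ) = β := by field_simp
    exact ⟨_, E_le_SU (eich_mem_E _ _ _), S.rl_P R hF hq hy (a := 0) (b := β / S.κ) (c := -θ / S.κ)
      (R.adm_e S.hκ (by
        unfold Iso at h
        simp only [star_div₀, star_neg, S.hκ]; field_simp; linear_combination -h))
      (by rw [e1, e2]; exact h) (by rw [e1, e2]; exact e)⟩
  have hN : normalClosure (S.P : Set G) ≤ N := by
    refine (closure_le N).2 fun x hx => ?_
    obtain ⟨y, hy, c, rfl⟩ : ∃ y ∈ S.P, ∃ c : G, c * y * c⁻¹ = x := by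
      simpa [Group.mem_conjugatesOfSet_iff, isConj_iff] using hx
    obtain ⟨k, hk, e⟩ : ∃ k ∈ N, k • S.oo = c • S.oo := by
      by_cases h : c • S.oo = S.oo
      · exact ⟨1, one_mem _, by rw [h, one_smul]⟩
      · obtain ⟨z, hz, e⟩ := S.P_trans h
        exact ⟨z * S.n, mul_mem (hP hz) (S.rl_n R), by rw [mul_smul, S.n_oo, e]⟩
    rw [show c * y * c⁻¹ = k * (k⁻¹ * c * y * (k⁻¹ * c)⁻¹) * k⁻¹ by group]
    exact mul_mem (mul_mem hk (hP (S.P_norm (by rw [mul_smul, ← e, inv_smul_smul]) hy))) (inv_mem hk)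
  rcases (normalClosure_normal (s := (S.P : Set G))).eq_bot_or_eq_top with e | e
  · have := mem_bot.1 (e ▸ subset_normalClosure (S.σ_mem 1))
    exact absurd (S.α_one.symm.trans (this ▸ S.α_σ 1)) zero_ne_one
  · exact hN (e ▸ mem_top g)

theorem exists_rl' [IsSimpleGroup G] {m : Unit.U 𝔥} (hm : m ∈ SU 𝔥) : ∃ g, S.Rl R g m := by
  have k0 := S.κ0
  let M : Subgroup (Unit.U 𝔥) :=
    { carrier := {m | ∃ g, S.Rl R g m}
      mul_mem' := fun ⟨_, h2⟩ ⟨_, h4⟩ => ⟨_, h2.mul h4⟩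
      one_mem' := ⟨1, Rl.one⟩
      inv_mem' := fun ⟨_, h2⟩ => ⟨_, h2.inv⟩ }
  have he : ∀ w c, Adm 𝔥 R.e w c → eich 𝔥 R.e w c ∈ M := fun w c h => by
    obtain ⟨a, y, b, rfl⟩ := R.v_surj k0 w
    obtain rfl : y = 0 := by simpa [R.v_e, k0] using h.wu
    have hi : Iso S.κ (S.κ * (a - star a - c)) (S.κ * b) := by
      have := h.tr
      rw [R.v_v S.hκ] at this
      simp only [Iso, star_mul', star_sub, star_star, S.hκ, star_zero] at this ⊢
      linear_combination -S.κ * this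
    obtain ⟨y, hy, e⟩ := S.P_trans (S.ne hi)
    exact ⟨y, S.rl_P R hF hq hy h hi e⟩
  refine E_le (H := M) (fun u w c h => ?_) (R.p.SU_eq_E (good_of_isFq2 hF) nd_std (by simp) ▸ hm)
  by_cases u0 : u = 0
  · subst u0
    rw [show eich 𝔥 0 w c = 1 from U.ext fun x => by rw [eich_apply h, h_zero_right]; simp]
    exact one_mem _
  obtain ⟨ω, d, d0, rfl⟩ := S.vec_surj R h.uu u0
  obtain ⟨g, rfl⟩ : ∃ g : G, g • S.oo = ω := by
    by_cases h : ω = S.oo
    · exact ⟨1, by rw [h, one_smul]⟩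
    · obtain ⟨z, hz, e⟩ := S.P_trans h
      exact ⟨z * S.n, by rw [mul_smul, S.n_oo, e]⟩
  obtain ⟨k, -, hk⟩ := S.exists_rl R hF hq g
  obtain ⟨d', d0', e⟩ := hk.inv (g • S.oo)
  rw [inv_smul_smul, vec_oo, ← R.e_eq] at e
  have h' := h.map k⁻¹
  have e' := conj_eich k⁻¹ (d • S.vec R (g • S.oo)) w c
  rw [map_smul, e, smul_smul] at h' e'
  rw [eich_smul_left (mul_ne_zero d0 d0') h'] at e'
  rw [show eich 𝔥 (d • S.vec R (g • S.oo)) w c = k * (k⁻¹ * eich 𝔥 (d • S.vec R (g • S.oo)) w c * k⁻¹⁻¹) * k⁻¹ by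
    group, e']
  exact mul_mem (mul_mem ⟨g, hk⟩ (he _ _ (h'.of_smul (mul_ne_zero d0 d0')))) (inv_mem ⟨g, hk⟩)

omit R in
include S in
theorem psu3 [IsSimpleGroup G] : Nonempty (G ≃* Cfsg.PSU 3 F q) := by
  obtain ⟨R⟩ := exists_frame (good_of_isFq2 hF) S.hκ
  choose φ hφ using fun m : SU 𝔥 => S.exists_rl' R hF hq m.2
  let ψ : SU 𝔥 →* G := MonoidHom.mk' φ fun a b => Rl.uniq S R (hφ (a * b)) ((hφ a).mul (hφ b))
  refine ⟨(Cl.centerQuotOfKer ψ (fun g => ?_) ?_).symm.trans (Cl.centerQuotCongr (suEquiv hF 3)).symm⟩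
  · obtain ⟨m, hm, h⟩ := S.exists_rl R hF hq g
    exact ⟨⟨m, hm⟩, Rl.uniq S R (hφ ⟨m, hm⟩) h⟩
  · ext m
    rw [MonoidHom.mem_ker, R.p.mem_center_SU_iff hF.exists_star_ne nd_std]
    refine ⟨fun h => ?_, fun ⟨c, hc⟩ => Rl.uniq S R (hφ m) fun ω => ⟨c, fun c0 => ?_, by rw [hc, one_smul]⟩⟩
    · obtain ⟨c, -, hc⟩ := R.p.scalar_of_fix_points hF.exists_star_ne m.1 fun u hu => by
        by_cases u0 : u = 0
        · exact ⟨0, by simp [u0]⟩
        obtain ⟨ω, d, -, rfl⟩ := S.vec_surj R hu u0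
        obtain ⟨c, -, e⟩ := hφ m ω
        rw [show φ m = 1 from h, one_smul] at e
        exact ⟨c, by rw [map_smul, e, smul_comm]⟩
      exact ⟨c, hc⟩
    · exact U.map_ne_zero m.1 R.p.ne_zero (by rw [hc, c0, zero_smul])

end Geo

end CA.Br
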