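/-
The doubly transitive action on the cosets of `N(U)`: fixed points.
-/
import Cfsg.Agent.Lib.Br.UDefs
import Cfsg.Agent.Lib.Br.UGeo

set_option autoImplicit false
set_option linter.unusedSectionVars false

namespace CA.Br

open Subgroup CA

variable {G : Type*} [Group G] [Finite G]

namespace Abs0

variable (S : Abs0 G)

/-- the points -/
abbrev Pts : Type _ := G ⧸ 𝐍(S.U)
/-- the point fixed by `N(U)` -/
def oo : S.Pts := ((1 : G) : G ⧸ 𝐍(S.U))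
/-- the second point fixed by `W` -/
def O : S.Pts := S.u • S.oo
/-- a point fixed by `u` -/
def P0 : S.Pts := S.ρ • S.oo

theorem smul_oo {g : G} : g • S.oo = S.oo ↔ g ∈ 𝐍(S.U) := by
  rw [oo, MulAction.Quotient.smul_mk, eq_comm, QuotientGroup.eq]; simp
theorem oo_trans (ω : S.Pts) : ∃ g : G, g • S.oo = ω := by
  induction ω using QuotientGroup.induction_on with
  | H g => exact ⟨g, by rw [oo, MulAction.Quotient.smul_mk]; simp⟩
theorem u_O : S.u • S.O = S.oo := by rw [O, ← mul_smul, S.uu, one_smul]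
theorem U_oo {x : G} (hx : x ∈ S.U) : x • S.oo = S.oo := S.smul_oo.2 (le_normalizer hx)

end Abs0

namespace TwoT

variable {S : Abs0 G} {P : Subgroup G} (h : TwoT S P)
include h

theorem P_oo {y : G} (hy : y ∈ P) : y • S.oo = S.oo := S.smul_oo.2 (h.norm ▸ mem_sup_left hy)
theorem mem_W {g : G} : g ∈ S.W ↔ g • S.oo = S.oo ∧ g • S.O = S.O := by
  rw [← h.two, mem_inf, mem_cj, ← S.smul_oo, ← S.smul_oo, Abs0.O, mul_smul, mul_smul, inv_smul_eq_iff]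
theorem t_oo : S.t • S.oo = S.oo := (h.mem_W.1 S.t_W).1
theorem t_O : S.t • S.O = S.O := (h.mem_W.1 S.t_W).2
theorem O_ne : S.O ≠ S.oo := fun e => S.u_not_W (h.mem_W.2 ⟨e, S.u_O.trans e.symm⟩)
theorem P_ne {y : G} (hy : y ∈ P) : y • S.O ≠ S.oo := fun e =>
  h.O_ne (MulAction.injective y (e.trans (h.P_oo hy).symm))
theorem P_trans {ω : S.Pts} (hω : ω ≠ S.oo) : ∃ y ∈ P, y • S.O = ω := by
  obtain ⟨g, rfl⟩ := S.oo_trans ω
  rcases h.bruhat g with e | ⟨y, hy, b, hb, rfl⟩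
  · exact absurd (S.smul_oo.2 e) hω
  · exact ⟨y, hy, by rw [mul_smul, mul_smul, S.smul_oo.2 hb]; rfl⟩
theorem P_free {y : G} (hy : y ∈ P) (e : y • S.O = S.O) : y = 1 :=
  have hW := h.mem_W.2 ⟨h.P_oo hy, e⟩
  mem_bot.1 (S.W_inf_U ▸ mem_inf.2 ⟨hW, h.inf_H ▸ mem_inf.2 ⟨hy, S.W_le_H hW⟩⟩)
theorem P_norm {g y : G} (hg : g • S.oo = S.oo) (hy : y ∈ P) : g * y * g⁻¹ ∈ P :=
  conj_mem_of_mem_normalizer (sup_le le_normalizer h.W_norm (h.norm ▸ S.smul_oo.1 hg)) hy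
theorem two_trans {ω ω' : S.Pts} (ne : ω ≠ ω') : ∃ g : G, g • S.oo = ω ∧ g • S.O = ω' := by
  obtain ⟨g, rfl⟩ := S.oo_trans ω
  obtain ⟨y, hy, e⟩ := h.P_trans (ω := g⁻¹ • ω') fun e => ne (inv_smul_eq_iff.1 e).symm
  exact ⟨g * y, by rw [mul_smul, h.P_oo hy], by rw [mul_smul, e, smul_inv_smul]⟩
theorem uniq {j j' : G} {ω ω' : S.Pts} (hj : j * j = 1) (j1 : j ≠ 1) (hj' : j' * j' = 1) (j1' : j' ≠ 1)
    (ne : ω ≠ ω') (e1 : j • ω = ω) (e2 : j • ω' = ω') (e1' : j' • ω = ω) (e2' : j' • ω' = ω') : j = j' := by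
  obtain ⟨g, rfl, rfl⟩ := h.two_trans ne
  have k : ∀ j : G, j * j = 1 → j ≠ 1 → j • g • S.oo = g • S.oo → j • g • S.O = g • S.O →
      g⁻¹ * j * g⁻¹⁻¹ = S.t := fun j hj j1 e1 e2 =>
    (S.inv_W (h.mem_W.2 ⟨(conj_fix _ _ _).2 (by rwa [inv_inv]), (conj_fix _ _ _).2 (by rwa [inv_inv])⟩)
      (conj_mul_self _ hj)).resolve_left fun e => j1 (conj_eq_one_iff.1 e)
  simpa using (k j hj j1 e1 e2).trans (k j' hj' j1' e1' e2').symm
theorem t_UO {y : G} (hy : y ∈ S.U) : S.t • y • S.O = y • S.O := by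
  rw [← mul_smul, ← S.mem_H.1 (S.U_le_H hy), mul_smul, h.t_O]
theorem fix_W {x : G} (hx : x ∈ S.W) (x1 : x ≠ 1) {ω : S.Pts} (e : x • ω = ω) : S.t • ω = ω := by
  by_cases hω : ω = S.oo
  · rw [hω, h.t_oo]
  obtain ⟨y, hy, rfl⟩ := h.P_trans hω
  have hy' := h.P_norm (h.mem_W.1 hx).1 hy
  have := h.P_free (mul_mem (inv_mem hy) hy') (by
    rw [mul_smul, mul_smul, mul_smul, (h.mem_W.1 (inv_mem hx)).2, e, inv_smul_smul])
  exact h.t_UO (h.free x hx x1 y hy (by rw [← inv_mul_eq_one.1 this, mul_inv_cancel]; exact one_mem _))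
theorem swap {j : G} (hj : j * j = 1) (e : j • S.oo = S.O) : ∃ k ∈ S.H, j = k * S.u * k⁻¹ := by
  have e' : j • S.O = S.oo := by rw [← e, ← mul_smul, hj, one_smul]
  have h1 : j * S.t * j⁻¹ = S.t := h.uniq (conj_mul_self _ S.tt) (fun e => S.t_ne (conj_eq_one_iff.1 e)) S.tt S.t_ne
    h.O_ne (by rw [← e, conj_fix', h.t_oo]) (by rw [← e', conj_fix', h.t_O]) h.t_O h.t_oo
  refine (S.inv_H (S.mem_H.2 (mul_inv_eq_iff_eq_mul.1 h1)) hj fun e1 => h.O_ne (by rw [← e, e1, one_smul])).resolve_left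
    fun e1 => h.O_ne (by rw [← e, e1, h.t_oo])
theorem u_P0 : S.u • S.P0 = S.P0 := by rw [← S.ρ_t, Abs0.P0, conj_fix', h.t_oo]
theorem t_P0 : S.t • S.P0 ≠ S.P0 := fun e => by
  rw [← S.ρ_tu, Abs0.P0, conj_fix', mul_smul] at e
  exact h.O_ne (h.t_O.symm.trans e)
theorem stab_P0 {x : G} (hx : x ∈ S.H) (e : x • S.P0 = S.P0) : S.ρ⁻¹ * x * S.ρ ∈ S.Z := by
  have h1 : (S.ρ⁻¹ * x * S.ρ) • S.oo = S.oo := by rw [mul_smul, mul_smul, inv_smul_eq_iff]; exact e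
  have h2 : S.ρ⁻¹ * x * S.ρ * (S.t * S.u) = S.t * S.u * (S.ρ⁻¹ * x * S.ρ) := by
    rw [show S.t * S.u = S.ρ⁻¹ * S.t * S.ρ by nth_rw 2 [← S.ρ_tu]; group]
    calc _ = S.ρ⁻¹ * (x * S.t) * S.ρ := by group
      _ = _ := by rw [S.mem_H.1 hx]; group
  have h3 : (S.t * S.u) • S.oo = S.O := by rw [mul_smul]; exact h.t_O
  have hW := h.mem_W.2 ⟨h1, by rw [← h3, ← mul_smul, h2, mul_smul, h1]⟩
  have ht := S.mem_H.1 (S.W_le_H hW)
  refine S.T_inf_W ▸ mem_inf.2 ⟨S.mem_T.2 ⟨ht, mul_left_cancel (a := S.t) ?_⟩, hW⟩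
  rw [← mul_assoc, ← ht, mul_assoc, h2, mul_assoc S.t]
theorem stab_T {x : G} (hx : x ∈ S.H) (e : x • S.P0 = S.P0) : x ∈ S.T := by
  simpa [mul_assoc] using S.ρ_T (S.Z_le_T (h.stab_P0 hx e))
theorem Tm_free {x : G} (hx : x ∈ S.Tm) (e : x • S.P0 = S.P0) : x = 1 := by
  by_contra x1
  have h1 : x • S.w • S.P0 = S.w • S.P0 := by
    have := (conj_fix' S.w x S.P0).2 e
    rw [(S.mem_Tm.1 hx).2, inv_smul_eq_iff] at this
    exact this.symm
  have := h.fix_W (S.Z_le_W (h.stab_P0 (S.T_le_H (S.Tm_le_T hx)) e)) (fun e => x1 (by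
    simpa using conj_eq_one_iff.1 (show S.ρ⁻¹ * x * S.ρ⁻¹⁻¹ = 1 by rwa [inv_inv]))) (ω := S.ρ⁻¹ • S.w • S.P0)
    (by rw [mul_smul, smul_inv_smul, mul_smul, h1])
  rw [← conj_fix, S.ρ_t, ← S.w_tu, conj_fix', mul_smul, h.u_P0] at this
  exact h.t_P0 this
theorem t_LP0 {x : G} (hx : x ∈ S.H) : S.t • x • S.P0 ≠ x • S.P0 := fun e => h.t_P0 (by
  rw [← mul_smul, ← S.mem_H.1 hx, mul_smul] at e
  exact MulAction.injective x e)

theorem tri {L : Subgroup G} (hL : L ≤ S.H) (hT : L ⊓ S.T ≤ S.Tm) (hc : Nat.card L = S.q * (S.q ^ 2 - 1))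
    (ω : S.Pts) : ω = S.oo ∨ (∃ y ∈ S.U, ω = y • S.O) ∨ ∃ x ∈ L, ω = x • S.P0 := by
  let f : Option S.U ⊕ L → S.Pts := Sum.elim (fun o => o.elim S.oo fun y => y.1 • S.O) fun x => x.1 • S.P0
  have ft : ∀ o, S.t • f (.inl o) = f (.inl o) := fun o => by
    cases o with
    | none => exact h.t_oo
    | some y => exact h.t_UO y.2
  have inj : Function.Injective f := by
    rintro (a | a) (b | b) e
    · rcases a with _ | a <;> rcases b with _ | b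
      · rfl
      · exact absurd e.symm (h.P_ne (h.U_le b.2))
      · exact absurd e (h.P_ne (h.U_le a.2))
      · have := h.P_free (h.U_le (mul_mem (inv_mem b.2) a.2)) (by
          rw [mul_smul, inv_smul_eq_iff]; exact e)
        rw [Subtype.ext (inv_mul_eq_one.1 this)]
    · exact absurd (e ▸ ft a : S.t • f (.inr b) = f (.inr b)) (h.t_LP0 (hL b.2))
    · exact absurd (e ▸ ft b : S.t • f (.inr a) = f (.inr a)) (h.t_LP0 (hL a.2))
    · have h1 := mul_mem (inv_mem b.2) a.2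
      have h2 : (b.1⁻¹ * a.1) • S.P0 = S.P0 := by rw [mul_smul, inv_smul_eq_iff]; exact e
      rw [Subtype.ext (inv_mul_eq_one.1 (h.Tm_free (hT ⟨h1, h.stab_T (hL h1) h2⟩) h2))]
  obtain ⟨x, rfl⟩ := (inj.bijective_of_nat_card_le (by
    rw [Nat.card_sum, Finite.card_option, hc, S.card_U, ← index_eq_card, h.index]
    obtain ⟨k, hk⟩ : ∃ k, S.q ^ 2 = k + 1 := ⟨S.q ^ 2 - 1, by have := pow_pos S.odd.pos 2; omega⟩
    rw [pow_succ' _ 2, hk, Nat.add_sub_cancel]; exact le_of_eq (by ring))).2 ω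
  rcases x with (_ | y) | x
  exacts [Or.inl rfl, Or.inr (Or.inl ⟨y, y.2, rfl⟩), Or.inr (Or.inr ⟨x, x.2, rfl⟩)]

end TwoT

end CA.Br
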