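/-
Suzuki's characterization of `PSU₃(q)`: coordinates, and the recognition theorem `HypU.psu3`.
-/
import Cfsg.Agent.Lib.Br.URec1
import Cfsg.Agent.Lib.Br.UGeo2
import Cfsg.Agent.Lib.Br.U2

set_option autoImplicit false
set_option linter.unusedSectionVars false

namespace CA.Br

open Subgroup CA

variable {F : Type*} [Field F] [StarRing F]

/-- the image of the vector `(-δ, 1)` -/
def ev (δ : F) (g : U2 F) (i : Fin 2) : F := -δ * g.1 i 0 + g.1 i 1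

theorem ev_mul (δ : F) (k g : U2 F) (i : Fin 2) : ev δ (k * g) i = k.1 i 0 * ev δ g 0 + k.1 i 1 * ev δ g 1 := by
  simp only [ev, u_mul]; ring
theorem sl_real {g : U2 F} (h : dt g.1 = 1) (i j : Fin 2) : star (g.1 i j) = g.1 i j := by
  simpa [h] using u_st g i j
theorem u_dt_mul (g h : U2 F) : dt (g * h).1 = dt g.1 * dt h.1 := dt_mul _ _

section
variable {δ : F} (h0 : δ ≠ 0) (hδ : star δ = -δ) (h2 : (2 : F) ≠ 0)
include h0 hδ h2

theorem ev_ne (g : U2 F) : ev δ g 1 ≠ 0 := fun e => by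
  have e' := congrArg (fun x => star x * dt g.1) e
  simp only [ev, star_add, star_mul', star_neg, hδ, star_zero, add_mul, mul_assoc, u_st] at e e'
  have h1 : g.1 1 0 = 0 := mul_left_cancel₀ (mul_ne_zero h2 h0) (by linear_combination e' - e)
  exact dt_ne g.1 (by rw [dt, h1, show g.1 1 1 = 0 by linear_combination e + δ * h1]; simp)

theorem ev_inj {g g' : U2 F} (h : dt g.1 = 1) (h' : dt g'.1 = 1) (e0 : ev δ g 0 = ev δ g' 0)
    (e1 : ev δ g 1 = ev δ g' 1) : g = g' := by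
  have k : ∀ i, ev δ g i = ev δ g' i → g.1 i 0 = g'.1 i 0 ∧ g.1 i 1 = g'.1 i 1 := fun i e => by
    have e' := congrArg star e
    simp only [ev, star_add, star_mul', star_neg, hδ, sl_real h, sl_real h'] at e e'
    exact ⟨mul_left_cancel₀ (mul_ne_zero h2 h0) (by linear_combination e' - e),
      mul_left_cancel₀ h2 (by linear_combination e' + e)⟩
  exact u_ext (k 0 e0).1 (k 0 e0).2 (k 1 e1).1 (k 1 e1).2

theorem exists_ev {η a : F} (h : Iso (-2 * δ) η a) (a0 : a ≠ 0) :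
    ∃ g : U2 F, dt g.1 = 1 ∧ a * ev δ g 0 = η ∧ a * ev δ g 1 = 1 := by
  have sa := star_ne_zero.2 a0
  have dec : ∀ z : F, ∃ x y : F, star x = x ∧ star y = y ∧ -δ * x + y = z := fun z =>
    ⟨(star z - z) / (2 * δ), (z + star z) / 2, by
      simp only [star_div₀, star_sub, star_star, star_mul', star_ofNat, hδ]; field_simp; ring, by
      simp only [star_div₀, star_add, star_star, star_ofNat, add_comm], by field_simp; ring⟩
  obtain ⟨x, y, hx, hy, e⟩ := dec (η / a)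
  obtain ⟨x', y', hx', hy', e'⟩ := dec a⁻¹
  have e0 : a * (-δ * x + y) = η := by rw [e]; field_simp
  have e1 : a * (-δ * x' + y') = 1 := by rw [e']; field_simp
  have hd : x * y' - y * x' = 1 := by
    have f0 := congrArg star e0
    have f1 := congrArg star e1
    simp only [star_mul', star_add, star_neg, hδ, hx, hy, hx', hy', star_one] at f0 f1
    unfold Iso at h
    refine mul_left_cancel₀ (mul_ne_zero (mul_ne_zero h2 h0) (mul_ne_zero a0 sa)) ?_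
    linear_combination -h - (star a * (δ * x' + y')) * e0 - η * f1 + (a * (-δ * x' + y')) * f0 + star η * e1
  exact ⟨⟨m2 x y x' y' (by rw [hd]; exact one_ne_zero), mem_U2'.2 (by
    simp only [dt, m2_00, m2_01, m2_10, m2_11, hd, hx, hy, hx', hy', mul_one, and_self])⟩, hd, e0, e1⟩

omit h0 h2 in
theorem ev_iso {g : U2 F} (h : dt g.1 = 1) {η a : F} (e0 : a * ev δ g 0 = η) (e1 : a * ev δ g 1 = 1) :
    Iso (-2 * δ) η a := by
  have e1' := congrArg star e1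
  subst e0
  simp only [Iso, ev, star_add, star_mul', star_neg, hδ, sl_real h, star_one, dt] at *
  linear_combination -(a * (-δ * g.1 0 0 + g.1 0 1)) * e1' + (star a * (δ * g.1 0 0 + g.1 0 1)) * e1 -
    2 * δ * a * star a * h
end

/-- the Weyl element -/
noncomputable def nU : U2 F := ⟨m2 0 (-1) 1 0 (by simp), mem_U2'.2 (by simp [dt])⟩

namespace HypU

variable [Fintype F] {q : ℕ} {G : Type*} [Group G] [Finite G] (S : HypU G F q)

open Classical in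
/-- the affine points -/
noncomputable def pt (η a : F) : S.toAbs0.Pts :=
  if h : a = 0 ∧ star η = η then S.π (xR η h.2) • S.toAbs0.O
  else if h : Iso (-2 * S.δ) η a ∧ a ≠ 0 then S.π (exists_ev S.δ0 S.hδ S.two_ne h.1 h.2).choose • S.toAbs0.P0
  else S.toAbs0.oo

theorem pt_U {s : F} (hs : star s = s) : S.pt s 0 = S.π (xR s hs) • S.toAbs0.O := dif_pos ⟨rfl, hs⟩
theorem pt_L {g : U2 F} (h : dt g.1 = 1) {η a : F} (e0 : a * ev S.δ g 0 = η) (e1 : a * ev S.δ g 1 = 1) :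
    S.pt η a = S.π g • S.toAbs0.P0 := by
  have a0 : a ≠ 0 := left_ne_zero_of_mul_eq_one e1
  have hi := ev_iso S.hδ h e0 e1
  rw [pt, dif_neg fun h => a0 h.1, dif_pos ⟨hi, a0⟩]
  obtain ⟨k1, k2, k3⟩ := (exists_ev S.δ0 S.hδ S.two_ne hi a0).choose_spec
  rw [ev_inj S.δ0 S.hδ S.two_ne k1 h (mul_left_cancel₀ a0 (k2.trans e0.symm)) (mul_left_cancel₀ a0 (k3.trans e1.symm))]
theorem pt_O : S.pt 0 0 = S.toAbs0.O := by
  rw [S.pt_U (star_zero F), show xR (0 : F) (star_zero F) = 1 from map_one xE, map_one, one_smul]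
theorem B_oo {g : U2 F} (h : g.1 1 0 = 0) : S.π g • S.toAbs0.oo = S.toAbs0.oo :=
  S.toAbs0.smul_oo.2 (S.a_B_norm (S.a_B.2 h))
theorem H_oo {g : U2 F} (h : g.1 1 0 ≠ 0) :
    star (g.1 0 0 / g.1 1 0) = g.1 0 0 / g.1 1 0 ∧ S.π g • S.toAbs0.oo = S.pt (g.1 0 0 / g.1 1 0) 0 := by
  have hs : star (g.1 0 0 / g.1 1 0) = g.1 0 0 / g.1 1 0 := by
    rw [star_div₀, ← mul_div_mul_right _ _ (dt_ne g.1), u_st, u_st]
  refine ⟨hs, ?_⟩
  have : g = xR _ hs * S.u0 * (S.u0 * xR (-(g.1 0 0 / g.1 1 0)) (by rw [star_neg, hs]) * g) := by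
    have := S.δ0
    refine u_ext ?_ ?_ ?_ ?_ <;> simp only [u_mul, u0, uU_00, uU_01, uU_10, uU_11, xR_00, xR_01, xR_10, xR_11] <;>
      field_simp <;> ring
  rw [S.pt_U hs]
  nth_rw 1 [this]
  rw [map_mul, map_mul, mul_smul, mul_smul, S.B_oo]
  · rfl
  · simp only [u_mul, u0, uU_10, uU_11, xR_00, xR_01, xR_10, xR_11]; field_simp; ring

/-- the scalar by which `k` acts on the third coordinate -/
def Zeta (k : U2 F) (ζ : F) : Prop := ∀ g : U2 F, dt g.1 = 1 → ∃ g' : U2 F, dt g'.1 = 1 ∧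
  S.π k • S.π g • S.toAbs0.P0 = S.π g' • S.toAbs0.P0 ∧ ∀ i, ζ * ev S.δ g' i = ev S.δ (k * g) i

theorem zeta_one {k : U2 F} (h : dt k.1 = 1) : S.Zeta k 1 := fun g hg =>
  ⟨k * g, by rw [u_dt_mul, h, hg, one_mul], by rw [map_mul, mul_smul], fun _ => one_mul _⟩

theorem act {k : U2 F} {ζ : F} (ζ0 : ζ ≠ 0) (hk : S.Zeta k ζ) {η a : F} (h : Iso (-2 * S.δ) η a)
    (c0 : k.1 1 0 * η + k.1 1 1 ≠ 0) :
    Iso (-2 * S.δ) ((k.1 0 0 * η + k.1 0 1) / (k.1 1 0 * η + k.1 1 1)) (ζ * a / (k.1 1 0 * η + k.1 1 1)) ∧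
      S.π k • S.pt η a =
        S.pt ((k.1 0 0 * η + k.1 0 1) / (k.1 1 0 * η + k.1 1 1)) (ζ * a / (k.1 1 0 * η + k.1 1 1)) := by
  by_cases a0 : a = 0
  · subst a0
    have d0 := S.δ0
    have e0 : (k * xR η h.real' * S.u0).1 0 0 = (k.1 0 0 * η + k.1 0 1) * S.δ⁻¹ := by
      simp only [u_mul, u0, uU_00, uU_10, xR_00, xR_01, xR_10, xR_11]; ring
    have e1 : (k * xR η h.real' * S.u0).1 1 0 = (k.1 1 0 * η + k.1 1 1) * S.δ⁻¹ := by
      simp only [u_mul, u0, uU_00, uU_10, xR_00, xR_01, xR_10, xR_11]; ring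
    obtain ⟨h1, h2⟩ := S.H_oo (g := k * xR η h.real' * S.u0) (e1 ▸ mul_ne_zero c0 (inv_ne_zero d0))
    rw [e0, e1, mul_div_mul_right _ _ (inv_ne_zero d0)] at h1 h2
    rw [mul_zero, zero_div, ← h2, S.pt_U h.real', map_mul, map_mul, mul_smul, mul_smul]
    exact ⟨Iso.real h1, rfl⟩
  · obtain ⟨g, hg, e0, e1⟩ := exists_ev S.δ0 S.hδ S.two_ne h a0
    obtain ⟨g', hg', e, f⟩ := hk g hg
    have k0 : ζ * a / (k.1 1 0 * η + k.1 1 1) * ev S.δ g' 0 = (k.1 0 0 * η + k.1 0 1) / (k.1 1 0 * η + k.1 1 1) := by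
      have := f 0
      rw [ev_mul] at this
      rw [div_mul_eq_mul_div]; congr 1
      linear_combination a * this + k.1 0 0 * e0 + k.1 0 1 * e1
    have k1 : ζ * a / (k.1 1 0 * η + k.1 1 1) * ev S.δ g' 1 = 1 := by
      have := f 1
      rw [ev_mul] at this
      rw [div_mul_eq_mul_div, div_eq_one_iff_eq c0]
      linear_combination a * this + k.1 1 0 * e0 + k.1 1 1 * e1
    exact ⟨ev_iso S.hδ hg' k0 k1, by rw [S.pt_L hg e0 e1, e, S.pt_L hg' k0 k1]⟩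

theorem iso_P0 : Iso (-2 * S.δ) (-S.δ) 1 := by simp only [Iso, star_neg, S.hδ, star_one]; ring
theorem pt_P0 : S.pt (-S.δ) 1 = S.toAbs0.P0 := by
  rw [S.pt_L (g := 1) dt_one (by simp [ev]) (by simp [ev]), map_one, one_smul]

variable {S} {P : Subgroup G} (h : TwoT S.toAbs0 P)
include h

theorem tri (ω : S.toAbs0.Pts) : ω = S.toAbs0.oo ∨ (∃ s, star s = s ∧ ω = S.pt s 0) ∨
    ∃ g : U2 F, dt g.1 = 1 ∧ ω = S.π g • S.toAbs0.P0 := by
  rcases h.tri (L := S.L) S.L_le_H (fun x hx => by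
      obtain ⟨g, hg, rfl⟩ := S.mem_L'.1 hx.1
      exact ⟨g, ⟨(mem_cu S.δ0 S.hδ).2 (S.a_T.1 hx.2), uD_one.2 hg⟩, rfl⟩) S.card_L ω with e | ⟨y, hy, e⟩ | ⟨x, hx, e⟩
  · exact Or.inl e
  · obtain ⟨a, rfl⟩ := S.mem_U'.1 hy
    exact Or.inr (Or.inl ⟨a.toAdd, a.toAdd.2, e.trans (S.pt_U a.toAdd.2).symm⟩)
  · obtain ⟨g, hg, rfl⟩ := S.mem_L'.1 hx
    exact Or.inr (Or.inr ⟨g, hg, e⟩)

theorem pt_surj {ω : S.toAbs0.Pts} (hω : ω ≠ S.toAbs0.oo) : ∃ η a, Iso (-2 * S.δ) η a ∧ ω = S.pt η a := by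
  rcases tri h ω with e | ⟨s, hs, e⟩ | ⟨g, hg, e⟩
  · exact absurd e hω
  · exact ⟨s, 0, Iso.real hs, e⟩
  · have e1 := inv_mul_cancel₀ (ev_ne S.δ0 S.hδ S.two_ne g)
    exact ⟨_, _, ev_iso S.hδ hg rfl e1, e.trans (S.pt_L hg rfl e1).symm⟩

theorem t_pt {η a : F} (hi : Iso (-2 * S.δ) η a) : S.toAbs0.t • S.pt η a = S.pt η a ↔ a = 0 := by
  refine ⟨fun e => by_contra fun a0 => ?_, ?_⟩
  · obtain ⟨g, hg, e0, e1⟩ := exists_ev S.δ0 S.hδ S.two_ne hi a0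
    rw [S.pt_L hg e0 e1] at e
    exact h.t_LP0 (x := S.π g) ⟨g, rfl⟩ e
  · rintro rfl
    rw [S.pt_U hi.real']
    exact h.t_UO (S.mem_U'.2 ⟨_, rfl⟩)

theorem pt_ne {η a : F} (hi : Iso (-2 * S.δ) η a) : S.pt η a ≠ S.toAbs0.oo := fun e => by
  obtain rfl : a = 0 := (t_pt h hi).1 (by rw [e, h.t_oo])
  rw [S.pt_U hi.real'] at e
  exact h.P_ne (h.U_le (S.mem_U'.2 ⟨_, rfl⟩)) e

theorem pt_inj {η a η' a' : F} (hi : Iso (-2 * S.δ) η a) (hi' : Iso (-2 * S.δ) η' a') (e : S.pt η a = S.pt η' a') :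
    η = η' ∧ a = a' := by
  have k : a = 0 ↔ a' = 0 := by rw [← t_pt h hi, ← t_pt h hi', e]
  by_cases a0 : a = 0
  · obtain rfl := k.1 a0
    subst a0
    rw [S.pt_U hi.real', S.pt_U hi'.real'] at e
    have m : ∀ s hs, S.π (xR s hs) ∈ S.toAbs0.U := fun s hs => S.mem_U'.2 ⟨_, rfl⟩
    have := inv_mul_eq_one.1 (h.P_free (h.U_le (mul_mem (inv_mem (m _ hi'.real')) (m _ hi.real')))
      (by rw [mul_smul, e, inv_smul_smul]))
    exact ⟨congrArg (fun x => (x.toAdd : F)) (S.xE_inj' this.symm), rfl⟩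
  · obtain ⟨g, hg, e0, e1⟩ := exists_ev S.δ0 S.hδ S.two_ne hi a0
    obtain ⟨g', hg', e0', e1'⟩ := exists_ev S.δ0 S.hδ S.two_ne hi' (mt k.2 a0)
    rw [S.pt_L hg e0 e1, S.pt_L hg' e0' e1'] at e
    have hd : dt (g'⁻¹ * g).1 = 1 := uD_one.1 (by rw [map_mul, map_inv, uD_one.2 hg, uD_one.2 hg']; simp)
    have f : S.π (g'⁻¹ * g) • S.toAbs0.P0 = S.toAbs0.P0 := by rw [map_mul, map_inv, mul_smul, e, inv_smul_smul]
    obtain rfl : g' = g := inv_mul_eq_one.1 (S.sl_inj hd (h.Tm_free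
      ⟨_, ⟨(mem_cu S.δ0 S.hδ).2 (S.a_T.1 (h.stab_T ⟨_, rfl⟩ f)), uD_one.2 hd⟩, rfl⟩ f))
    obtain rfl : a = a' := mul_right_cancel₀ (right_ne_zero_of_mul_eq_one e1) (e1.trans e1'.symm)
    exact ⟨e0.symm.trans e0', rfl⟩

theorem exists_zeta (k : U2 F) : ∃ ζ, ζ ≠ 0 ∧ S.Zeta k ζ := by
  have hk := h.t_LP0 (x := S.π k) ⟨k, rfl⟩
  rcases tri h (S.π k • S.toAbs0.P0) with e | ⟨s, hs, e⟩ | ⟨k', hk', e⟩
  · exact absurd (by rw [e, h.t_oo]) hk
  · exact absurd (by rw [e, (t_pt h (Iso.real hs)).2 rfl]) hk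
  obtain ⟨D, rfl⟩ : ∃ D, k = k' * D := ⟨k'⁻¹ * k, by simp⟩
  have f : S.π D • S.toAbs0.P0 = S.toAbs0.P0 := by
    rw [map_mul, mul_smul] at e; exact MulAction.injective _ e
  obtain ⟨d1, d2⟩ := S.a_T.1 (h.stab_T ⟨_, rfl⟩ f)
  refine ⟨_, ev_ne S.δ0 S.hδ S.two_ne D, fun g hg => ⟨k' * D * g * D⁻¹, uD_one.1 ?_, ?_, fun i => ?_⟩⟩
  · simp only [map_mul, map_inv, uD_one.2 hg, uD_one.2 hk']; simp
  · rw [map_mul _ _ D⁻¹, map_mul _ _ g, mul_smul, mul_smul, map_inv, inv_smul_eq_iff.2 f.symm]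
  · nth_rw 2 [← inv_mul_cancel_right (k' * D * g) D]
    rw [ev_mul _ _ D]
    simp only [ev, d1, d2]; ring

theorem u_fix (ω : S.toAbs0.Pts) :
    S.toAbs0.u • ω = ω ↔ ∃ a, Iso (-2 * S.δ) (-S.δ) a ∧ ω = S.pt (-S.δ) a := by
  have d0 := S.δ0
  obtain ⟨ζ, ζ0, hζ⟩ := exists_zeta h S.u0
  have act : ∀ {η a : F}, Iso (-2 * S.δ) η a → η ≠ 0 → Iso (-2 * S.δ) (S.δ * S.δ / η) (ζ * S.δ * a / η) ∧
      S.toAbs0.u • S.pt η a = S.pt (S.δ * S.δ / η) (ζ * S.δ * a / η) := fun {η a} hi η0 => by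
    have := S.act ζ0 hζ hi (by simp [u0, d0, η0])
    simp only [u0, uU_00, uU_01, uU_10, uU_11, zero_mul, zero_add, add_zero] at this
    rwa [show S.δ / (S.δ⁻¹ * η) = S.δ * S.δ / η by field_simp,
      show ζ * a / (S.δ⁻¹ * η) = ζ * S.δ * a / η by field_simp] at this
  obtain rfl : ζ = -1 := by
    obtain ⟨h1, h2⟩ := act S.iso_P0 (neg_ne_zero.2 d0)
    rw [S.pt_P0, h.u_P0, ← S.pt_P0] at h2
    have := (pt_inj h S.iso_P0 h1 h2).2
    field_simp at this; linear_combination this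
  refine ⟨fun e => ?_, ?_⟩
  · obtain ⟨η, a, hi, rfl⟩ := pt_surj h (ω := ω) fun e' => h.O_ne (by rw [e'] at e; exact e)
    have η0 : η ≠ 0 := fun η0 => by
      subst η0
      obtain rfl : a = 0 := by_contra fun a0 => hi.ne (by simp [d0, S.two_ne]) a0 (star_zero F)
      rw [S.pt_O, Abs0.u_O] at e
      exact h.O_ne e.symm
    obtain ⟨h1, h2⟩ := act hi η0
    obtain ⟨e1, e2⟩ := pt_inj h hi h1 (e.symm.trans h2)
    rw [eq_div_iff η0] at e1 e2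
    have a0 : a ≠ 0 := fun a0 => by
      subst a0
      have := hi.real'
      rcases mul_self_eq_mul_self_iff.1 e1 with rfl | rfl
      · exact d0 (u_skew S.two_ne (this.symm.trans S.hδ))
      · rw [star_neg, S.hδ, neg_neg] at this; exact d0 (u_skew S.two_ne this)
    obtain rfl : η = -S.δ := mul_left_cancel₀ a0 (by linear_combination e2)
    exact ⟨a, hi, rfl⟩
  · rintro ⟨a, hi, rfl⟩
    rw [(act hi (neg_ne_zero.2 d0)).2]
    congr 1 <;> field_simp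

theorem blk0 (k : U2 F) : star (ev S.δ k 0 / ev S.δ k 1) ≠ ev S.δ k 0 / ev S.δ k 1 ∧ ∀ ω : S.toAbs0.Pts,
    (S.π k * S.toAbs0.u * (S.π k)⁻¹) • ω = ω ↔
      ∃ a, Iso (-2 * S.δ) (ev S.δ k 0 / ev S.δ k 1) a ∧ ω = S.pt (ev S.δ k 0 / ev S.δ k 1) a := by
  have c0 := ev_ne S.δ0 S.hδ S.two_ne k
  have k0 : -2 * S.δ ≠ 0 := by simp [S.δ0, S.two_ne]
  obtain ⟨ζ, ζ0, hζ⟩ := exists_zeta h k
  have act : ∀ {a : F}, Iso (-2 * S.δ) (-S.δ) a → Iso (-2 * S.δ) (ev S.δ k 0 / ev S.δ k 1) (ζ * a / ev S.δ k 1) ∧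
      S.π k • S.pt (-S.δ) a = S.pt (ev S.δ k 0 / ev S.δ k 1) (ζ * a / ev S.δ k 1) := fun {a} hi => by
    have := S.act ζ0 hζ hi (by rw [mul_comm]; exact c0)
    simpa only [ev, mul_comm (-S.δ)] using this
  refine ⟨(act S.iso_P0).1.ne k0 (by simp [ζ0, c0]), fun ω => ?_⟩
  rw [conj_fix, u_fix h]
  refine ⟨fun ⟨a, hi, e⟩ => ⟨_, (act hi).1, by rw [← (act hi).2, ← e, smul_inv_smul]⟩, ?_⟩
  rintro ⟨a, hi, rfl⟩
  have h1 : Iso (-2 * S.δ) (-S.δ) (a * ev S.δ k 1 / ζ) := (S.iso_P0.norm k0).2 (by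
    have := ((act S.iso_P0).1.norm k0).1 hi
    have s1 := star_ne_zero.2 c0
    have s2 := star_ne_zero.2 ζ0
    simp only [star_div₀, star_mul', star_one] at this ⊢
    field_simp at this ⊢; linear_combination this)
  refine ⟨_, h1, ?_⟩
  rw [inv_smul_eq_iff, (act h1).2]
  congr 1; field_simp

/-- the coordinates -/
noncomputable def geo : Geo G S.toAbs0.Pts F where
  two := S.two_ne
  κ := -2 * S.δ
  κ0 := by simp [S.δ0, S.two_ne]
  hκ := by simp [S.hδ]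
  P := P
  U := S.toAbs0.U
  W := S.toAbs0.W
  t := S.toAbs0.t
  n := S.π nU
  oo := S.toAbs0.oo
  pt := S.pt
  inj := pt_inj h
  ne := pt_ne h
  surj := pt_surj h
  P_oo := h.P_oo
  P_norm := h.P_norm
  P_trans := by rw [S.pt_O]; exact h.P_trans
  P_free := by rw [S.pt_O]; exact h.P_free
  U_le := h.U_le
  U_comm hx hy := h.cent hy _ hx
  U_act hx := by
    obtain ⟨s, rfl⟩ := S.mem_U'.1 hx
    exact ⟨s.toAdd, s.toAdd.2, fun η a hi => by
      simpa using (S.act one_ne_zero (S.zeta_one (k := xE s) (by simp [dt])) hi (by simp)).2⟩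
  U_ex {s} hs := ⟨S.π (xR s hs), S.mem_U'.2 ⟨_, rfl⟩, fun η a hi => by
    simpa using (S.act one_ne_zero (S.zeta_one (k := xR s hs) (by simp [dt])) hi (by simp)).2⟩
  W_oo hh := (h.mem_W.1 hh).1
  W_act hh := by
    obtain ⟨c, rfl⟩ := S.mem_W'.1 hh
    obtain ⟨ζ, ζ0, hζ⟩ := exists_zeta h (wE c)
    refine ⟨c * star (c : F), ζ * star (c : F), fun η a hi => ?_⟩
    simpa [mul_right_comm] using S.act ζ0 hζ hi (by simp)
  W_ex {s} hs s0 := ⟨_, S.mem_W'.2 ⟨Units.mk0 s s0, rfl⟩, fun η a hi => by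
    have := (S.act one_ne_zero (S.zeta_one (k := wE (Units.mk0 s s0)) (by simp [dt, hs, s0])) hi (by simp [s0])).2
    simpa [hs, mul_right_comm, mul_comm a] using this⟩
  irr := h.irr
  tt := S.tt
  t_oo := h.t_oo
  t_act η a hi := by
    change S.π tU • _ = _
    simpa [div_neg] using (S.act one_ne_zero (S.zeta_one (k := tU) (by simp [dt])) hi (by simp)).2
  tinv := h.tinv
  n_oo := by simpa [nU] using (S.H_oo (g := nU) (by simp [nU])).2
  n_0 := by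
    rw [S.pt_O, Abs0.O, ← mul_smul]
    exact (congrArg (· • _) (map_mul S.π nU S.u0).symm).trans (S.B_oo (by rw [u_mul]; simp [nU, u0]))
  n_act η a hi η0 := by
    simpa [nU, neg_div] using (S.act one_ne_zero (S.zeta_one (k := nU) (by simp [dt, nU])) hi (by simp [nU, η0])).2
  uniq := h.uniq
  blk {η a} hi a0 := by
    obtain ⟨g, -, e0, e1⟩ := exists_ev S.δ0 S.hδ S.two_ne hi a0
    have := (blk0 h g).2
    rw [show ev S.δ g 0 / ev S.δ g 1 = η by rw [← mul_div_mul_left _ _ a0, e0, e1, div_one]] at this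
    exact ⟨_, conj_mul_self _ S.uu, this⟩
  blk' hj e := by
    obtain ⟨_, ⟨k, rfl⟩, rfl⟩ := h.swap hj (e.trans S.pt_O)
    exact ⟨_, blk0 h k⟩

end HypU

theorem HypU.psu3 {F : Type*} [Field F] [StarRing F] [Fintype F] {q : ℕ} {G : Type*} [Group G] [Finite G]
    [IsSimpleGroup G] (S : HypU G F q) {P : Subgroup G} (h : TwoT S.toAbs0 P) : Nonempty (G ≃* Cfsg.PSU 3 F q) :=
  (HypU.geo h).psu3 S.hF S.odd

end CA.Br
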